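import Mathlib
import Cfsg.Agent.Lib.PGroups.Parts
import Cfsg.Agent.Lib.PGroups.CoverCount
import Cfsg.Agent.Lib.Struct.Basic
import Cfsg.Agent.Lib.Basic.Core
import Cfsg.Agent.Lib.Basic.Nilpotent

/-! Groups with class sizes `1, m, m n`: basic facts on centralizers. -/

set_option autoImplicit false

namespace Cfsg.Agent.Lib.Struct.ClassSize

open Subgroup Cfsg.Agent.Lib.PGroups
open scoped commutatorElement

variable {G : Type*} [Group G]

/-- Centralizer of an element. -/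
abbrev ce (x : G) : Subgroup G := centralizer ({x} : Set G)

/-- Class size of an element. -/
noncomputable abbrev ci (x : G) : ℕ := (ce x).index

/-- `p`-elements. -/
abbrev PE (p : ℕ) (x : G) : Prop := ∃ k : ℕ, orderOf x = p ^ k

theorem mem_ce {x g : G} : g ∈ ce x ↔ g * x = x * g := mem_centralizer_singleton_iff

theorem mem_ce_comm {x g : G} : g ∈ ce x ↔ x ∈ ce g := by
  rw [mem_ce, mem_ce]; exact eq_comm

theorem self_mem_ce (x : G) : x ∈ ce x := mem_ce.mpr rfl

theorem ci_eq_one_iff {x : G} : ci x = 1 ↔ x ∈ center G := by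
  rw [ci, Subgroup.index_eq_one, Subgroup.mem_center_iff]
  constructor
  · intro h g
    have : g ∈ ce x := by rw [h]; trivial
    exact mem_ce.mp this
  · intro h
    rw [eq_top_iff]
    intro g _
    exact mem_ce.mpr (h g)

theorem mem_center_comm {z : G} (hz : z ∈ center G) (g : G) : g * z = z * g :=
  Subgroup.mem_center_iff.mp hz g

theorem mem_ce_conj {g x y : G} : y ∈ ce (g * x * g⁻¹) ↔ g⁻¹ * y * g ∈ ce x := by
  rw [mem_ce, mem_ce]
  constructor
  · intro h
    have : g⁻¹ * y * g * x = g⁻¹ * (y * (g * x * g⁻¹)) * g := by group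
    rw [this, h]; group
  · intro h
    have h2 : y * (g * x * g⁻¹) = g * ((g⁻¹ * y * g) * x) * g⁻¹ := by group
    rw [h2, h]; group

theorem PE.of_mem {p : ℕ} [Fact p.Prime] {S : Subgroup G} (hS : IsPGroup p S) {x : G}
    (hx : x ∈ S) : PE p x := exists_orderOf_of_mem_isPGroup hS hx

theorem PE.coprime {p q : ℕ} (hp : p.Prime) (hq : q.Prime) (hne : p ≠ q) {x y : G}
    (hx : PE p x) (hy : PE q y) : (orderOf x).Coprime (orderOf y) := by
  obtain ⟨a, ha⟩ := hx
  obtain ⟨b, hb⟩ := hy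
  rw [ha, hb]
  exact Nat.Coprime.pow _ _ ((Nat.coprime_primes hp hq).mpr hne)

theorem PE.coprime' {p : ℕ} (hp : p.Prime) {x : G} (hx : PE p x) {u : ℕ} (hu : ¬ p ∣ u) :
    (orderOf x).Coprime u := by
  obtain ⟨a, ha⟩ := hx
  rw [ha]
  exact Nat.Coprime.pow_left _ ((Nat.Prime.coprime_iff_not_dvd hp).mpr hu)

theorem PE.pow {p : ℕ} (hp : p.Prime) {x : G} (hx : PE p x) (k : ℕ) : PE p (x ^ k) := by
  obtain ⟨a, ha⟩ := hx
  have h1 : orderOf (x ^ k) ∣ p ^ a := ha ▸ orderOf_pow_dvd k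
  obtain ⟨j, _, hj⟩ := (Nat.dvd_prime_pow hp).mp h1
  exact ⟨j, hj⟩

theorem PE.conj {p : ℕ} {x : G} (hx : PE p x) (g : G) : PE p (g * x * g⁻¹) := by
  obtain ⟨a, ha⟩ := hx
  exact ⟨a, by rw [orderOf_conj_eq, ha]⟩

theorem PE.pow_pow_eq_one {p : ℕ} {x : G} (hx : PE p x) : ∃ k : ℕ, x ^ p ^ k = 1 := by
  obtain ⟨a, ha⟩ := hx
  exact ⟨a, by rw [← ha, pow_orderOf_eq_one]⟩

theorem PE.one (p : ℕ) : PE p (1 : G) := ⟨0, by simp⟩

theorem eq_one_of_PE_of_coprime {p : ℕ} (hp : p.Prime) {x : G} (hx : PE p x) {u : ℕ}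
    (hu : ¬ p ∣ u) (h : x ^ u = 1) : x = 1 := by
  have h1 : orderOf x ∣ u := orderOf_dvd_of_pow_eq_one h
  have h2 := PE.coprime' hp hx hu
  have h3 : orderOf x = 1 := Nat.eq_one_of_dvd_coprimes h2 dvd_rfl h1
  exact orderOf_eq_one_iff.mp h3

variable [Finite G]

theorem le_of_index_eq {A B : Subgroup G} (h : A ≤ B) (hi : A.index = B.index) : B ≤ A := by
  have h1 := Subgroup.relIndex_mul_index h
  have h2 : B.index ≠ 0 := Subgroup.index_ne_zero_of_finite
  rw [hi] at h1
  have h3 : A.relIndex B = 1 := by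
    apply Nat.eq_of_mul_eq_mul_right (Nat.pos_of_ne_zero h2)
    rw [h1, one_mul]
  exact Subgroup.relIndex_eq_one.mp h3

theorem ci_conj (g x : G) : ci (g * x * g⁻¹) = ci x := by
  have h1 := Cfsg.Agent.Lib.Struct.card_isConj_eq_index (g * x * g⁻¹)
  have h2 := Cfsg.Agent.Lib.Struct.card_isConj_eq_index x
  rw [ci, ci, ← h1, ← h2]
  apply Nat.card_congr
  refine Equiv.subtypeEquivRight ?_
  intro y
  have h3 : IsConj x (g * x * g⁻¹) := isConj_iff.mpr ⟨g, rfl⟩
  constructor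
  · exact fun h => h3.trans h
  · exact fun h => h3.symm.trans h

theorem ci_conj_inv (g x : G) : ci (g⁻¹ * x * g) = ci x := by
  have := ci_conj g⁻¹ x
  simpa using this

/-- Jordan's lemma, elementwise. -/
theorem exists_not_mem_conj (H : Subgroup G) (hH : H ≠ ⊤) : ∃ g : G, ∀ h : G, h⁻¹ * g * h ∉ H := by
  by_contra hcon
  push Not at hcon
  have h1 := ncard_conjUnion_lt H hH
  have h2 : conjUnion H = Set.univ := by
    ext x
    simp only [Set.mem_univ, iff_true]
    exact hcon x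
  rw [h2, Set.ncard_univ] at h1
  exact lt_irrefl _ h1

/-- Elementwise form of conjugacy of Sylow subgroups. -/
theorem exists_conj_sylow {q : ℕ} [hq : Fact q.Prime] (Q S : Sylow q G) :
    ∃ k : G, ∀ x : G, x ∈ (S : Subgroup G) ↔ k⁻¹ * x * k ∈ (Q : Subgroup G) := by
  obtain ⟨k, rfl⟩ := MulAction.exists_smul_eq G Q S
  refine ⟨k, fun x => ?_⟩
  rw [Sylow.coe_subgroup_smul, Cfsg.Agent.Lib.Struct.mem_conj_smul]

/-- A `q`-subgroup of full size inside any subgroup. -/
theorem exists_pSub (H : Subgroup G) (q : ℕ) [hq : Fact q.Prime] :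
    ∃ S : Subgroup G, S ≤ H ∧ IsPGroup q S ∧ Nat.card S = q ^ (Nat.card H).factorization q := by
  let P₀ : Sylow q H := default
  refine ⟨(P₀ : Subgroup H).map H.subtype, Subgroup.map_subtype_le _, P₀.isPGroup'.map _, ?_⟩
  rw [Subgroup.card_map_of_injective H.subtype_injective]
  exact P₀.card_eq_multiplicity

theorem fact_card_add_index (H : Subgroup G) (q : ℕ) :
    (Nat.card H).factorization q + H.index.factorization q = (Nat.card G).factorization q := by
  have h1 := Subgroup.card_mul_index H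
  have h2 : Nat.card H ≠ 0 := Nat.card_pos.ne'
  have h3 : H.index ≠ 0 := Subgroup.index_ne_zero_of_finite
  rw [← h1, Nat.factorization_mul h2 h3]
  rfl

theorem card_pSub_dvd {q : ℕ} [hq : Fact q.Prime] {S H : Subgroup G} (hS : IsPGroup q S)
    (hSH : S ≤ H) : Nat.card S ∣ q ^ (Nat.card H).factorization q := by
  obtain ⟨k, hk⟩ := (IsPGroup.iff_card).mp hS
  have h1 : Nat.card S ∣ Nat.card H := Subgroup.card_dvd_of_le hSH
  rw [hk] at h1 ⊢
  have h2 : k ≤ (Nat.card H).factorization q :=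
    (Nat.Prime.pow_dvd_iff_le_factorization hq.out Nat.card_pos.ne').mp h1
  exact pow_dvd_pow q h2

theorem card_pSub_le {q : ℕ} [hq : Fact q.Prime] {S H : Subgroup G} (hS : IsPGroup q S)
    (hSH : S ≤ H) : Nat.card S ≤ q ^ (Nat.card H).factorization q :=
  Nat.le_of_dvd (pow_pos hq.out.pos _) (card_pSub_dvd hS hSH)

/-- A subgroup of index prime to `q` contains a Sylow `q`-subgroup. -/
theorem exists_sylow_le_of_not_dvd {q : ℕ} [hq : Fact q.Prime] (H : Subgroup G)
    (h : ¬ q ∣ H.index) : ∃ P : Sylow q G, (P : Subgroup G) ≤ H := by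
  obtain ⟨S, hSH, hS, hc⟩ := exists_pSub H q
  obtain ⟨P, hP⟩ := hS.exists_le_sylow
  have h1 := fact_card_add_index H q
  rw [Nat.factorization_eq_zero_of_not_dvd h, add_zero] at h1
  have h2 : Nat.card (P : Subgroup G) = Nat.card S := by
    rw [hc, h1]; exact P.card_eq_multiplicity
  have h3 : S = P := Subgroup.eq_of_le_of_card_ge hP h2.le
  exact ⟨P, h3 ▸ hSH⟩

/-- A central `q`-element of its own centralizer's Sylow subgroup lies in the Sylow subgroup. -/
theorem mem_sylow_of_le_ce {q : ℕ} [hq : Fact q.Prime] {v : G} (hv : PE q v) (S : Sylow q G)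
    (hS : (S : Subgroup G) ≤ ce v) : v ∈ (S : Subgroup G) := by
  have h1 : IsPGroup q (zpowers v) := isPGroup_zpowers_iff.mpr hv
  have h2 := h1.inf_normalizer_sylow S
  have h3 : v ∈ (zpowers v) ⊓ normalizer (S : Set G) := by
    refine ⟨mem_zpowers v, ?_⟩
    exact mem_normalizer_of_forall_commute (fun z hz => (mem_ce.mp (hS hz)).symm)
  rw [h2] at h3
  exact h3.2

/-- The hypothesis on class sizes. -/
structure CS (G : Type*) [Group G] (m n : ℕ) : Prop where
  hm : 1 < m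
  hn : 1 < n
  cop : m.Coprime n
  cases : ∀ x : G, ci x = 1 ∨ ci x = m ∨ ci x = m * n
  exm : ∃ x : G, ci x = m
  exmn : ∃ x : G, ci x = m * n

section CS

variable {m n : ℕ} (hc : CS G m n)
include hc

theorem CS.m_dvd_ne : ¬ m * n ∣ m := by
  intro h
  have h1 : m * n ≤ m := Nat.le_of_dvd (by have := hc.hm; omega) h
  have h2 := hc.hn
  have h3 := hc.hm
  nlinarith

theorem CS.mn_ne_one : m * n ≠ 1 := by
  have h2 := hc.hn
  have h3 := hc.hm
  nlinarith

theorem CS.ci_of_dvd_m {x : G} (h : ci x ∣ m) : ci x = 1 ∨ ci x = m := by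
  rcases hc.cases x with h1 | h1 | h1
  · exact Or.inl h1
  · exact Or.inr h1
  · exact absurd (h1 ▸ h) hc.m_dvd_ne

theorem CS.ci_eq_m_of_dvd {x : G} (h : ci x ∣ m) (hx : x ∉ center G) : ci x = m := by
  rcases hc.ci_of_dvd_m h with h1 | h1
  · exact absurd (ci_eq_one_iff.mp h1) hx
  · exact h1

theorem CS.ci_noncentral {x : G} (hx : x ∉ center G) : ci x = m ∨ ci x = m * n := by
  rcases hc.cases x with h1 | h1 | h1
  · exact absurd (ci_eq_one_iff.mp h1) hx
  · exact Or.inl h1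
  · exact Or.inr h1

/-- L1. -/
theorem CS.L1 {g c : G} (hg : ci g = m * n) (hcg : c ∈ ce g)
    (hcop : (orderOf g).Coprime (orderOf c)) : ce g ≤ ce c := by
  have hcm : Commute g c := (mem_ce.mp hcg).symm
  have h1 : ce (g * c) = ce g ⊓ ce c := centralizer_mul_of_coprime hcm hcop
  have h2 : ce (g * c) ≤ ce g := h1 ▸ inf_le_left
  have h3 : ci g ∣ ci (g * c) := Subgroup.index_dvd_of_le h2
  rw [hg] at h3
  have h4 : ci (g * c) = m * n := by
    rcases hc.cases (g * c) with h5 | h5 | h5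
    · rw [h5] at h3
      exact absurd (Nat.dvd_one.mp h3) hc.mn_ne_one
    · rw [h5] at h3
      exact absurd h3 hc.m_dvd_ne
    · exact h5
  have h5 : ce g ≤ ce (g * c) := le_of_index_eq h2 (h4.trans hg.symm)
  rw [h1] at h5
  exact h5.trans inf_le_right

/-- L2. -/
theorem CS.L2 {x y : G} (hx : ci x = m) (hy : y ∈ ce x)
    (hcop : (orderOf x).Coprime (orderOf y)) : ce x ≤ ce y ∨ (ce x ⊓ ce y).index = m * n := by
  have hcm : Commute x y := (mem_ce.mp hy).symm
  have h1 : ce (x * y) = ce x ⊓ ce y := centralizer_mul_of_coprime hcm hcop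
  have h2 : ce (x * y) ≤ ce x := h1 ▸ inf_le_left
  have h3 : ci x ∣ ci (x * y) := Subgroup.index_dvd_of_le h2
  rw [hx] at h3
  rcases hc.cases (x * y) with h5 | h5 | h5
  · rw [h5] at h3
    have := Nat.dvd_one.mp h3
    have := hc.hm
    omega
  · left
    have h6 : ce x ≤ ce (x * y) := le_of_index_eq h2 (h5.trans hx.symm)
    rw [h1] at h6
    exact h6.trans inf_le_right
  · right
    rw [← h1]
    exact h5

theorem CS.not_dvd_n {r : ℕ} (hr : r.Prime) (hrm : r ∣ m) : ¬ r ∣ n := by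
  intro h
  have h1 : r ∣ Nat.gcd m n := Nat.dvd_gcd hrm h
  rw [hc.cop.gcd_eq_one] at h1
  exact hr.one_lt.ne' (Nat.dvd_one.mp h1)

theorem CS.not_dvd_m {q : ℕ} (hq : q.Prime) (hqn : q ∣ n) : ¬ q ∣ m := by
  intro h
  have h1 : q ∣ Nat.gcd m n := Nat.dvd_gcd h hqn
  rw [hc.cop.gcd_eq_one] at h1
  exact hq.one_lt.ne' (Nat.dvd_one.mp h1)

/-- For `r ∣ m`, the centralizer of a noncentral element has `r`-part `|G|_r / m_r`. -/
theorem CS.fact_ce {r : ℕ} (hr : r.Prime) (hrm : r ∣ m) {x : G} (hx : x ∉ center G) :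
    (Nat.card (ce x)).factorization r + m.factorization r = (Nat.card G).factorization r := by
  have h1 := fact_card_add_index (ce x) r
  have hm0 : m ≠ 0 := by have := hc.hm; omega
  have hn0 : n ≠ 0 := by have := hc.hn; omega
  have h2 : (ce x).index.factorization r = m.factorization r := by
    rcases hc.ci_noncentral hx with h3 | h3
    · rw [← ci, h3]
    · rw [← ci, h3, Nat.factorization_mul hm0 hn0]
      simp [Nat.factorization_eq_zero_of_not_dvd (hc.not_dvd_n hr hrm)]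
  rw [← h2]
  exact h1

/-- Size lemma: an `r`-subgroup of size `|G|_r / m_r` is not central. -/
theorem CS.exists_noncentral_of_card {r : ℕ} [hr : Fact r.Prime] (hrm : r ∣ m) (S : Subgroup G)
    (hS : IsPGroup r S)
    (hcard : (Nat.card G).factorization r ≤ (Nat.card S).factorization r + m.factorization r) :
    ∃ v ∈ S, v ∉ center G := by
  by_contra hcon
  push Not at hcon
  obtain ⟨R, hR⟩ := hS.exists_le_sylow
  -- a noncentral element of `R`
  have hf : ∃ f ∈ (R : Subgroup G), f ∉ center G := by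
    by_contra hno
    push Not at hno
    obtain ⟨x, hx⟩ := hc.exm
    have h1 : (R : Subgroup G) ≤ ce x := fun z hz =>
      mem_ce.mpr (mem_center_comm (hno z hz) x).symm
    exact Cfsg.Agent.Lib.Struct.not_dvd_index_of_sylow_le R h1 (by rw [← ci, hx]; exact hrm)
  obtain ⟨f, hfR, hfZ⟩ := hf
  have h1 := hc.fact_ce hr.out hrm hfZ
  have hle : S ≤ (R : Subgroup G) ⊓ ce f := fun z hz =>
    ⟨hR hz, mem_ce.mpr (mem_center_comm (hcon z hz) f).symm⟩
  have hfmem : f ∈ (R : Subgroup G) ⊓ ce f := ⟨hfR, self_mem_ce f⟩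
  have hfS : f ∉ S := fun h => hfZ (hcon f h)
  have hpg : IsPGroup r ((R : Subgroup G) ⊓ ce f : Subgroup G) :=
    R.isPGroup'.to_le inf_le_left
  have h2 := card_pSub_dvd hpg (inf_le_right : (R : Subgroup G) ⊓ ce f ≤ ce f)
  obtain ⟨a, ha⟩ := (IsPGroup.iff_card).mp hS
  have hv : (Nat.card S).factorization r = a := by
    rw [ha, hr.out.factorization_pow]; simp
  have h3 : Nat.card ((R : Subgroup G) ⊓ ce f : Subgroup G) ≤ Nat.card S := by
    refine (Nat.le_of_dvd (pow_pos hr.out.pos _) h2).trans ?_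
    rw [ha]
    apply Nat.pow_le_pow_right hr.out.pos
    omega
  have h4 : S = (R : Subgroup G) ⊓ ce f := Subgroup.eq_of_le_of_card_ge hle h3
  exact hfS (h4 ▸ hfmem)

/-- Noncentral `r`-elements in any subgroup of index `m` or `m n`. -/
theorem CS.exists_noncentral_pe {r : ℕ} [hr : Fact r.Prime] (hrm : r ∣ m) (H : Subgroup G)
    (hH : H.index = m ∨ H.index = m * n) :
    ∃ S : Subgroup G, S ≤ H ∧ IsPGroup r S ∧ (∃ v ∈ S, v ∉ center G) ∧
      Nat.card S = r ^ (Nat.card H).factorization r := by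
  obtain ⟨S, hSH, hS, hcard⟩ := exists_pSub H r
  refine ⟨S, hSH, hS, ?_, hcard⟩
  apply hc.exists_noncentral_of_card hrm S hS
  have h1 := fact_card_add_index H r
  have hm0 : m ≠ 0 := by have := hc.hm; omega
  have hn0 : n ≠ 0 := by have := hc.hn; omega
  have h2 : H.index.factorization r = m.factorization r := by
    rcases hH with h3 | h3
    · rw [h3]
    · rw [h3, Nat.factorization_mul hm0 hn0]
      simp [Nat.factorization_eq_zero_of_not_dvd (hc.not_dvd_n hr.out hrm)]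
  have h3 : (Nat.card S).factorization r = (Nat.card H).factorization r := by
    rw [hcard, hr.out.factorization_pow]; simp
  omega

/-- A Sylow `q`-subgroup for `q ∣ n` is not central. -/
theorem CS.exists_noncentral_sylow_n {q : ℕ} [hq : Fact q.Prime] (hqn : q ∣ n) (Q : Sylow q G) :
    ∃ v ∈ (Q : Subgroup G), v ∉ center G := by
  by_contra hno
  push Not at hno
  obtain ⟨x, hx⟩ := hc.exmn
  have h1 : (Q : Subgroup G) ≤ ce x := fun z hz =>
    mem_ce.mpr (mem_center_comm (hno z hz) x).symm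
  exact Cfsg.Agent.Lib.Struct.not_dvd_index_of_sylow_le Q h1
    (by rw [← ci, hx]; exact Dvd.dvd.mul_left hqn m)

/-- If `r ∣ m` and a Sylow `r`-subgroup centralizes `z` then `z` is central. -/
theorem CS.central_of_sylow_le {r : ℕ} [hr : Fact r.Prime] (hrm : r ∣ m) (R : Sylow r G) {z : G}
    (hz : (R : Subgroup G) ≤ ce z) : z ∈ center G := by
  rw [← ci_eq_one_iff]
  have h1 := Cfsg.Agent.Lib.Struct.not_dvd_index_of_sylow_le R hz
  rcases hc.cases z with h | h | h
  · exact h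
  · rw [← ci, h] at h1; exact absurd hrm h1
  · rw [← ci, h] at h1; exact absurd (Dvd.dvd.mul_right hrm n) h1

/-- If `q ∣ n` and a Sylow `q`-subgroup centralizes `z` then `ci z ∣ m`. -/
theorem CS.ci_of_sylow_le {q : ℕ} [hq : Fact q.Prime] (hqn : q ∣ n) (Q : Sylow q G) {z : G}
    (hz : (Q : Subgroup G) ≤ ce z) : ci z = 1 ∨ ci z = m := by
  have h1 := Cfsg.Agent.Lib.Struct.not_dvd_index_of_sylow_le Q hz
  rcases hc.cases z with h | h | h
  · exact Or.inl h
  · exact Or.inr h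
  · rw [← ci, h] at h1; exact absurd (Dvd.dvd.mul_left hqn m) h1

/-- A primary element with class size `m`. -/
theorem CS.exists_primary : ∃ p : ℕ, p.Prime ∧ ∃ x : G, PE p x ∧ ci x = m := by
  have key : ∀ N : ℕ, ∀ g : G, orderOf g = N → ci g = m → ∃ p : ℕ, p.Prime ∧ ∃ x : G, PE p x ∧ ci x = m := by
    intro N
    induction N using Nat.strong_induction_on with
    | _ N ih =>
      intro g hgN hg
      have hg1 : g ≠ 1 := by
        rintro rfl
        have : ci (1 : G) = 1 := ci_eq_one_iff.mpr (one_mem _)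
        have := hc.hm
        omega
      have hord : orderOf g ≠ 1 := by
        rw [Ne, orderOf_eq_one_iff]; exact hg1
      obtain ⟨p, hp, hpd⟩ := Nat.exists_prime_and_dvd hord
      haveI : Fact p.Prime := ⟨hp⟩
      obtain ⟨a, b, hab, hcm, ⟨k, hk⟩, hb, ha', hb'⟩ := exists_pPart p g
      by_cases hb1 : b = 1
      · -- `g` is a `p`-element
        refine ⟨p, hp, g, ⟨k, ?_⟩, hg⟩
        rw [hab, hb1, mul_one, hk]
      · have hcop : (orderOf a).Coprime (orderOf b) := by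
          rw [hk]
          exact Nat.Coprime.pow_left _ ((Nat.Prime.coprime_iff_not_dvd hp).mpr hb)
        have hgab : orderOf g = orderOf a * orderOf b := by
          rw [hab]; exact hcm.orderOf_mul_eq_mul_orderOf_of_coprime hcop
        have ha1 : orderOf a ≠ 1 := by
          intro h1
          rw [hgab, h1, one_mul] at hgN
          rw [hgab, h1, one_mul] at hpd
          exact hb hpd
        have hb2 : orderOf b ≠ 1 := by
          rw [Ne, orderOf_eq_one_iff]; exact hb1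
        have hposa : 0 < orderOf a := orderOf_pos a
        have hposb : 0 < orderOf b := orderOf_pos b
        have hlta : orderOf a < N := by
          rw [← hgN, hgab]
          have : 2 ≤ orderOf b := by omega
          nlinarith
        have hltb : orderOf b < N := by
          rw [← hgN, hgab]
          have : 2 ≤ orderOf a := by omega
          nlinarith
        have hCa : ce g ≤ ce a := by
          intro y hy
          have h1 : zpowers g ≤ ce y := by
            rw [zpowers_le]; exact mem_ce_comm.mp hy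
          exact mem_ce_comm.mp (h1 ha')
        have hCb : ce g ≤ ce b := by
          intro y hy
          have h1 : zpowers g ≤ ce y := by
            rw [zpowers_le]; exact mem_ce_comm.mp hy
          exact mem_ce_comm.mp (h1 hb')
        have hda : ci a ∣ m := hg ▸ Subgroup.index_dvd_of_le hCa
        have hdb : ci b ∣ m := hg ▸ Subgroup.index_dvd_of_le hCb
        by_cases hZa : a ∈ center G
        · by_cases hZb : b ∈ center G
          · have : g ∈ center G := hab ▸ mul_mem hZa hZb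
            have h2 := ci_eq_one_iff.mpr this
            have := hc.hm
            omega
          · exact ih _ hltb b rfl (hc.ci_eq_m_of_dvd hdb hZb)
        · exact ih _ hlta a rfl (hc.ci_eq_m_of_dvd hda hZa)
  obtain ⟨x, hx⟩ := hc.exm
  exact key _ x rfl hx

end CS

/-! ### Elements central modulo the centre of a `p`-group. -/

/-- In a `p`-group `R`, a normal subgroup not central in `R` contains an element central modulo
`Z(R)`, whose `r`th power is central. -/
theorem exists_central_mod {r : ℕ} [hr : Fact r.Prime] (R N : Subgroup G) (hR : IsPGroup r R)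
    (hNR : N ≤ R) (hN : ∀ g ∈ R, ∀ a ∈ N, g * a * g⁻¹ ∈ N)
    (hne : ∃ a ∈ N, ∃ g ∈ R, g * a ≠ a * g) :
    ∃ a ∈ N, (∃ g ∈ R, g * a ≠ a * g) ∧
      (∀ g ∈ R, ∀ h ∈ R, (g * a * g⁻¹ * a⁻¹) * h = h * (g * a * g⁻¹ * a⁻¹)) ∧
      (∀ h ∈ R, a ^ r * h = h * a ^ r) := by
  classical
  let Zc : Subgroup R := center R
  let π : R →* R ⧸ Zc := QuotientGroup.mk' Zc
  let N' : Subgroup R := N.subgroupOf R
  haveI hNn : N'.Normal := by
    constructor
    intro a ha g
    rw [mem_subgroupOf] at ha ⊢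
    simpa using hN g g.2 a ha
  let Nb : Subgroup (R ⧸ Zc) := N'.map π
  haveI hNbn : Nb.Normal := hNn.map π (QuotientGroup.mk'_surjective Zc)
  have hRq : IsPGroup r (R ⧸ Zc) := hR.to_quotient Zc
  haveI : Group.IsNilpotent (R ⧸ Zc) := hRq.isNilpotent
  have hNb : Nb ≠ ⊥ := by
    obtain ⟨a, ha, g, hg, hga⟩ := hne
    intro hbot
    have h1 : π ⟨a, hNR ha⟩ ∈ Nb := ⟨⟨a, hNR ha⟩, by rw [SetLike.mem_coe, mem_subgroupOf]; exact ha, rfl⟩
    rw [hbot, mem_bot] at h1
    have h2 : (⟨a, hNR ha⟩ : R) ∈ Zc := (QuotientGroup.eq_one_iff _).mp h1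
    have h3 := Subgroup.mem_center_iff.mp h2 ⟨g, hg⟩
    exact hga (congrArg Subtype.val h3)
  have hinf := Cfsg.Agent.Lib.Basic.normal_inf_center_ne_bot Nb hNb
  -- an element of order `r`
  have hpg : IsPGroup r (Nb ⊓ center (R ⧸ Zc) : Subgroup (R ⧸ Zc)) := hRq.to_subgroup _
  haveI hnt : Nontrivial (Nb ⊓ center (R ⧸ Zc) : Subgroup (R ⧸ Zc)) :=
    (Subgroup.nontrivial_iff_ne_bot _).mpr hinf
  have hdvd : r ∣ Nat.card (Nb ⊓ center (R ⧸ Zc) : Subgroup (R ⧸ Zc)) := by
    obtain ⟨k, hk⟩ := (IsPGroup.iff_card).mp hpg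
    have h1 : Nat.card (Nb ⊓ center (R ⧸ Zc) : Subgroup (R ⧸ Zc)) ≠ 1 :=
      Finite.one_lt_card.ne'
    rw [hk] at h1 ⊢
    have h2 : k ≠ 0 := by
      rintro rfl
      simp at h1
    exact dvd_pow_self r h2
  obtain ⟨b, hb⟩ := exists_prime_orderOf_dvd_card' r hdvd
  have hb1 : ((b : R ⧸ Zc)) ≠ 1 := by
    intro h
    have : b = 1 := Subtype.ext h
    rw [this, orderOf_one] at hb
    exact hr.out.one_lt.ne hb
  have hbr : (b : R ⧸ Zc) ^ r = 1 := by
    have h1 : b ^ r = 1 := by rw [← hb]; exact pow_orderOf_eq_one b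
    exact congrArg Subtype.val h1
  obtain ⟨a', ha', hab⟩ : (b : R ⧸ Zc) ∈ Nb := b.2.1
  have ha'N : (a' : G) ∈ N := mem_subgroupOf.mp ha'
  have hbc : (b : R ⧸ Zc) ∈ center (R ⧸ Zc) := b.2.2
  refine ⟨a', ha'N, ?_, ?_, ?_⟩
  · -- noncentral
    by_contra hall
    push Not at hall
    apply hb1
    rw [← hab]
    apply (QuotientGroup.eq_one_iff _).mpr
    rw [Subgroup.mem_center_iff]
    intro g
    exact Subtype.ext (hall g g.2)
  · intro g hg h hh
    have h1 : π (⟨g, hg⟩ * a' * (⟨g, hg⟩ : R)⁻¹ * a'⁻¹) = 1 := by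
      rw [map_mul, map_mul, map_mul, map_inv, map_inv]
      have h2 := Subgroup.mem_center_iff.mp hbc (π ⟨g, hg⟩)
      have h2' : π ⟨g, hg⟩ * π a' = π a' * π ⟨g, hg⟩ := by rw [hab]; exact h2
      rw [h2']
      group
    have h3 : (⟨g, hg⟩ * a' * (⟨g, hg⟩ : R)⁻¹ * a'⁻¹) ∈ Zc := (QuotientGroup.eq_one_iff _).mp h1
    have h4 := Subgroup.mem_center_iff.mp h3 ⟨h, hh⟩
    have h5 := congrArg Subtype.val h4
    simpa using h5.symm
  · intro h hh
    have h1 : π (a' ^ r) = 1 := by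
      rw [map_pow, hab, hbr]
    have h3 : a' ^ r ∈ Zc := (QuotientGroup.eq_one_iff _).mp h1
    have h4 := Subgroup.mem_center_iff.mp h3 ⟨h, hh⟩
    have h5 := congrArg Subtype.val h4
    simpa using h5.symm

/-- The commutator with an element central modulo `Z(R)` is a homomorphism. -/
theorem comm_hom {R : Subgroup G} {a : G}
    (hcent : ∀ g ∈ R, ∀ h ∈ R, (g * a * g⁻¹ * a⁻¹) * h = h * (g * a * g⁻¹ * a⁻¹)) (ha : a ∈ R) :
    (∀ g ∈ R, ∀ g' ∈ R, ⁅g, g'⁆ ∈ ce a) := by
  -- `c g := g a g⁻¹ a⁻¹`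
  have hc_mem : ∀ g ∈ R, g * a * g⁻¹ * a⁻¹ ∈ R := fun g hg =>
    mul_mem (mul_mem (mul_mem hg ha) (inv_mem hg)) (inv_mem ha)
  let ψ : R →* R := MonoidHom.mk' (fun g => ⟨g * a * (g : G)⁻¹ * a⁻¹, hc_mem g g.2⟩) (by
    intro g g'
    apply Subtype.ext
    simp only [Subgroup.coe_mul]
    have h1 := hcent g' g'.2 g g.2
    have h2 : (g : G) * g' * a * ((g : G) * g')⁻¹ * a⁻¹ =
        g * (g' * a * (g' : G)⁻¹ * a⁻¹) * a * (g : G)⁻¹ * a⁻¹ := by group
    have h3 := hcent g g.2 _ (hc_mem g' g'.2)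
    rw [h2, ← h1, h3]
    group)
  intro g hg g' hg'
  have hψ : ∀ u v : R, ψ u * ψ v = ψ v * ψ u := by
    intro u v
    apply Subtype.ext
    exact hcent u u.2 _ (hc_mem v v.2)
  have h1 : ψ ⁅(⟨g, hg⟩ : R), (⟨g', hg'⟩ : R)⁆ = 1 := by
    rw [map_commutatorElement, commutatorElement_eq_one_iff_mul_comm]
    exact hψ _ _
  have h2 : ((ψ ⁅(⟨g, hg⟩ : R), (⟨g', hg'⟩ : R)⁆ : R) : G) = 1 := by rw [h1]; rfl
  have h3 : ((ψ ⁅(⟨g, hg⟩ : R), (⟨g', hg'⟩ : R)⁆ : R) : G) =
      ⁅g, g'⁆ * a * (⁅g, g'⁆)⁻¹ * a⁻¹ := rfl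
  rw [h3] at h2
  rw [mem_ce]
  have h4 : ⁅g, g'⁆ * a = (⁅g, g'⁆ * a * (⁅g, g'⁆)⁻¹ * a⁻¹) * (a * ⁅g, g'⁆) := by group
  rw [h4, h2, one_mul]

/-- Powers: if `a ^ k` is central in `R`, then `g ^ k` centralizes `a` for all `g ∈ R`. -/
theorem comm_pow {R : Subgroup G} {a : G} {k : ℕ}
    (hcent : ∀ g ∈ R, ∀ h ∈ R, (g * a * g⁻¹ * a⁻¹) * h = h * (g * a * g⁻¹ * a⁻¹)) (ha : a ∈ R)
    (hk : ∀ h ∈ R, a ^ k * h = h * a ^ k) : ∀ g ∈ R, g ^ k ∈ ce a := by
  intro g hg
  set c := g * a * g⁻¹ * a⁻¹ with hcdef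
  have hcR : c ∈ R := mul_mem (mul_mem (mul_mem hg ha) (inv_mem hg)) (inv_mem ha)
  have h1 : g * a * g⁻¹ = c * a := by rw [hcdef]; group
  have hcg : c * g = g * c := hcent g hg g hg
  have hca : c * a = a * c := hcent g hg a ha
  -- `g ^ i a g ^ -i = c ^ i a`
  have h2 : ∀ i : ℕ, g ^ i * a * (g ^ i)⁻¹ = c ^ i * a := by
    intro i
    induction i with
    | zero => simp
    | succ i ih =>
      have h3 : g ^ (i + 1) * a * (g ^ (i + 1))⁻¹ = g * (g ^ i * a * (g ^ i)⁻¹) * g⁻¹ := by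
        rw [pow_succ']; group
      rw [h3, ih]
      have h4 : g * c ^ i = c ^ i * g := ((show Commute g c from hcg.symm).pow_right i).eq
      calc g * (c ^ i * a) * g⁻¹ = (g * c ^ i) * a * g⁻¹ := by group
        _ = c ^ i * (g * a * g⁻¹) := by rw [h4]; group
        _ = c ^ (i + 1) * a := by rw [h1, pow_succ]; group
  -- `g a ^ k g⁻¹ = c ^ k a ^ k`
  have h3 : g * a ^ k * g⁻¹ = c ^ k * a ^ k := by
    have h4 : g * a ^ k * g⁻¹ = (g * a * g⁻¹) ^ k := by
      rw [conj_pow]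
    rw [h4, h1]
    exact (show Commute c a from hca).mul_pow k
  have h4 : c ^ k = 1 := by
    have h5 : g * a ^ k * g⁻¹ = a ^ k := by
      rw [← hk g hg]; group
    rw [h5] at h3
    exact (mul_eq_right.mp h3.symm)
  have h5 := h2 k
  rw [h4, one_mul] at h5
  rw [mem_ce]
  calc g ^ k * a = (g ^ k * a * (g ^ k)⁻¹) * g ^ k := by group
    _ = a * g ^ k := by rw [h5]

end Cfsg.Agent.Lib.Struct.ClassSize
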