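import Mathlib
import Cfsg.Agent.Lib.Struct.ClassA

/-! Groups with class sizes `1, m, m n`: Theorem A and the dichotomy. -/

set_option autoImplicit false

namespace Cfsg.Agent.Lib.Struct.ClassSize

open Subgroup Cfsg.Agent.Lib.PGroups
open scoped commutatorElement

variable {G : Type*} [Group G] [Finite G]

theorem card_lt_of_mem {A B : Subgroup G} (h : A ≤ B) {x : G} (hx : x ∈ B) (hx' : x ∉ A) :
    Nat.card A < Nat.card B := by
  apply lt_of_le_of_ne (Subgroup.card_le_of_le h)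
  intro he
  have := Subgroup.eq_of_le_of_card_ge h he.ge
  exact hx' (this ▸ hx)

theorem conj_mem_ce {k g v : G} (h : g ∈ ce v) : k⁻¹ * g * k ∈ ce (k⁻¹ * v * k) := by
  rw [mem_ce] at h ⊢
  calc k⁻¹ * g * k * (k⁻¹ * v * k) = k⁻¹ * (g * v) * k := by group
    _ = k⁻¹ * (v * g) * k := by rw [h]
    _ = k⁻¹ * v * k * (k⁻¹ * g * k) := by group

/-- Any centralizer's Sylow subgroup sits inside a given Sylow subgroup after conjugation. -/
theorem exists_conj_sylow_inf {q : ℕ} [hq : Fact q.Prime] (Q : Sylow q G) (g : G) :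
    ∃ k : G, q ^ (Nat.card (ce g)).factorization q ≤
      Nat.card ((Q : Subgroup G) ⊓ ce (k⁻¹ * g * k) : Subgroup G) := by
  obtain ⟨S, hSH, hS, hc⟩ := exists_pSub (ce g) q
  obtain ⟨P, hP⟩ := hS.exists_le_sylow
  obtain ⟨k, hk⟩ := exists_conj_sylow Q P
  refine ⟨k, ?_⟩
  rw [← hc]
  have hmem : ∀ s : S, k⁻¹ * (s : G) * k ∈ (Q : Subgroup G) ⊓ ce (k⁻¹ * g * k) := fun s =>
    ⟨(hk _).mp (hP s.2), conj_mem_ce (hSH s.2)⟩
  refine Nat.card_le_card_of_injective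
    (fun s : S => (⟨k⁻¹ * (s : G) * k, hmem s⟩ : ↥((Q : Subgroup G) ⊓ ce (k⁻¹ * g * k)))) ?_
  intro s s' h
  have h1 := congrArg Subtype.val h
  simp only [mul_left_inj, mul_right_inj] at h1
  exact Subtype.ext h1

section CS

variable {m n : ℕ} (hc : CS G m n)
include hc

theorem CS.ci_dvd_mn (g : G) : ci g ∣ m * n := by
  rcases hc.cases g with h | h | h
  · rw [h]; exact one_dvd _
  · rw [h]; exact Dvd.intro _ rfl
  · rw [h]

theorem CS.fact_le (q : ℕ) (g : G) {H : Subgroup G} (hH : H.index = m * n) :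
    (Nat.card H).factorization q ≤ (Nat.card (ce g)).factorization q := by
  have h1 := fact_card_add_index H q
  have h2 := fact_card_add_index (ce g) q
  have hmn : m * n ≠ 0 := by
    have := hc.hm; have := hc.hn; positivity
  have h3 : (ce g).index.factorization q ≤ H.index.factorization q := by
    rw [hH]
    exact (Nat.factorization_le_iff_dvd Subgroup.index_ne_zero_of_finite hmn).mpr (hc.ci_dvd_mn g) q
  omega

/-- Theorem A. -/
theorem CS.TA {t q : ℕ} [ht : Fact t.Prime] [hq : Fact q.Prime] (hqn : q ∣ n) (hqt : q ≠ t)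
    {x : G} (hx : PE t x) (hci : ci x = m) {y : G} (hyT : y ∈ ce x) (hy : ¬ t ∣ orderOf y) :
    ce x ≤ ce y := by
  by_contra hnot
  have hcopxy : (orderOf x).Coprime (orderOf y) := PE.coprime' ht.out hx hy
  have hind : (ce x ⊓ ce y).index = m * n := (hc.L2 hci hyT hcopxy).resolve_left hnot
  have hqm := hc.not_dvd_m hq.out hqn
  have hqmn : q ∣ m * n := Dvd.dvd.mul_left hqn m
  have hTi : (ce x).index = m := hci
  obtain ⟨Q, hQT⟩ := exists_sylow_le_of_not_dvd (ce x) (by rw [hTi]; exact hqm)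
  have hcopv : ∀ v ∈ (Q : Subgroup G), (orderOf x).Coprime (orderOf v) := fun v hv =>
    PE.coprime ht.out hq.out hqt.symm hx (PE.of_mem Q.isPGroup' hv)
  have hZQ : ∀ v ∈ (Q : Subgroup G), (∀ w ∈ (Q : Subgroup G), w * v = v * w) → ce x ≤ ce v := by
    intro v hv hcomm
    rcases hc.L2 hci (hQT hv) (hcopv v hv) with h | h
    · exact h
    · exfalso
      have hle : (Q : Subgroup G) ≤ ce x ⊓ ce v := le_inf hQT (fun w hw => mem_ce.mpr (hcomm w hw))
      exact Cfsg.Agent.Lib.Struct.not_dvd_index_of_sylow_le Q hle (h ▸ hqmn)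
  let D : Subgroup G := (Q : Subgroup G) ⊓ centralizer (ce x : Set G)
  have h3 : ∃ v₀ ∈ (Q : Subgroup G), ¬ ce x ≤ ce v₀ := by
    by_contra hall
    push Not at hall
    have hle : (Q : Subgroup G) ≤ ce x ⊓ ce y :=
      le_inf hQT (fun v hv => mem_ce_comm.mp (hall v hv hyT))
    exact Cfsg.Agent.Lib.Struct.not_dvd_index_of_sylow_le Q hle (hind ▸ hqmn)
  obtain ⟨v₀, hv₀, hv₀T⟩ := h3
  have hind0 : (ce x ⊓ ce v₀).index = m * n :=
    (hc.L2 hci (hQT hv₀) (hcopv v₀ hv₀)).resolve_left hv₀T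
  have hDlt : Nat.card D < q ^ (Nat.card (ce x ⊓ ce v₀ : Subgroup G)).factorization q := by
    have h1 : D ≤ (Q : Subgroup G) ⊓ ce v₀ := by
      intro w hw
      refine ⟨hw.1, ?_⟩
      have h2 := mem_centralizer_iff.mp hw.2 v₀ (hQT hv₀)
      exact mem_ce.mpr h2.symm
    have h2 : v₀ ∈ (Q : Subgroup G) ⊓ ce v₀ := ⟨hv₀, self_mem_ce v₀⟩
    have h3 : v₀ ∉ D := by
      intro hv
      apply hv₀T
      intro z hz
      exact mem_ce.mpr (mem_centralizer_iff.mp hv.2 z hz)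
    have h4 := card_lt_of_mem h1 h2 h3
    have h5 : IsPGroup q ((Q : Subgroup G) ⊓ ce v₀ : Subgroup G) := Q.isPGroup'.to_le inf_le_left
    have h6 : (Q : Subgroup G) ⊓ ce v₀ ≤ ce x ⊓ ce v₀ := inf_le_inf_right _ hQT
    exact lt_of_lt_of_le h4 (card_pSub_le h5 h6)
  have hcover : ∀ g : G, ∃ h : G, h⁻¹ * g * h ∈ ce x := by
    intro g
    obtain ⟨k, hk⟩ := exists_conj_sylow_inf Q g
    have hex : ∃ v ∈ (Q : Subgroup G) ⊓ ce (k⁻¹ * g * k), v ∉ D := by
      by_contra hall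
      push Not at hall
      have h1 := Subgroup.card_le_of_le (show (Q : Subgroup G) ⊓ ce (k⁻¹ * g * k) ≤ D from hall)
      have h2 := hc.fact_le q g hind0
      have h3 : q ^ (Nat.card (ce x ⊓ ce v₀ : Subgroup G)).factorization q ≤
          q ^ (Nat.card (ce g)).factorization q := Nat.pow_le_pow_right hq.out.pos h2
      omega
    obtain ⟨v, hvD, hvnD⟩ := hex
    have hvQ : v ∈ (Q : Subgroup G) := hvD.1
    have hvg : k⁻¹ * g * k ∈ ce v := mem_ce_comm.mp hvD.2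
    have hvPE : PE q v := PE.of_mem Q.isPGroup' hvQ
    have hvZ : v ∉ center G := fun hz => hvnD ⟨hvQ, mem_centralizer_iff.mpr (fun h _ => (mem_center_comm hz h))⟩
    rcases hc.ci_noncentral hvZ with h1 | h1
    · obtain ⟨S, hS⟩ := exists_sylow_le_of_not_dvd (ce v) (by rw [← ci, h1]; exact hqm)
      have hvS := mem_sylow_of_le_ce hvPE S hS
      obtain ⟨k₁, hk₁⟩ := exists_conj_sylow Q S
      have hv₁Q : k₁⁻¹ * v * k₁ ∈ (Q : Subgroup G) := (hk₁ v).mp hvS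
      have hv₁c : ∀ w ∈ (Q : Subgroup G), w * (k₁⁻¹ * v * k₁) = (k₁⁻¹ * v * k₁) * w := by
        intro w hw
        have hw' : k₁ * w * k₁⁻¹ ∈ (S : Subgroup G) := by
          rw [hk₁]
          have : k₁⁻¹ * (k₁ * w * k₁⁻¹) * k₁ = w := by group
          rw [this]; exact hw
        have h2 := mem_ce.mp (hS hw')
        calc w * (k₁⁻¹ * v * k₁) = k₁⁻¹ * ((k₁ * w * k₁⁻¹) * v) * k₁ := by group
          _ = k₁⁻¹ * (v * (k₁ * w * k₁⁻¹)) * k₁ := by rw [h2]
          _ = (k₁⁻¹ * v * k₁) * w := by group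
      have hTle := hZQ _ hv₁Q hv₁c
      have hci1 : ci (k₁⁻¹ * v * k₁) = m := by rw [ci_conj_inv]; exact h1
      have hle2 : ce (k₁⁻¹ * v * k₁) ≤ ce x :=
        le_of_index_eq hTle (hTi.trans hci1.symm)
      refine ⟨k * k₁, ?_⟩
      have h3 := hle2 (conj_mem_ce (k := k₁) hvg)
      have h4 : (k * k₁)⁻¹ * g * (k * k₁) = k₁⁻¹ * (k⁻¹ * g * k) * k₁ := by group
      rw [h4]
      exact h3
    · have hxv : x ∈ ce v := mem_ce_comm.mp (hQT hvQ)
      have h2 := hc.L1 h1 hxv (hcopv v hvQ).symm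
      exact ⟨k, h2 hvg⟩
  have hTne : ce x ≠ ⊤ := by
    intro h
    have h1 : (ce x).index = 1 := by rw [h]; exact Subgroup.index_top
    have := hc.hm
    omega
  obtain ⟨g, hg⟩ := exists_not_mem_conj (ce x) hTne
  obtain ⟨h, hh⟩ := hcover g
  exact hg h hh

theorem CS.exists_prime_n : ∃ q : ℕ, q.Prime ∧ q ∣ n :=
  Nat.exists_prime_and_dvd (by have := hc.hn; omega)

theorem CS.exists_prime_m : ∃ r : ℕ, r.Prime ∧ r ∣ m :=
  Nat.exists_prime_and_dvd (by have := hc.hm; omega)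

/-- An element of a `ce x` with `r`-element `x`, `r ∣ m`, `ci x = m`: the good case. -/
theorem CS.good_abelian {r : ℕ} [hr : Fact r.Prime] (hrm : r ∣ m) {x : G} (hx : PE r x)
    (hci : ci x = m) : (∀ a ∈ ce x, ∀ b ∈ ce x, a * b = b * a) := by
  obtain ⟨q, hq', hqn⟩ := hc.exists_prime_n
  haveI : Fact q.Prime := ⟨hq'⟩
  have hrn := hc.not_dvd_n hr.out hrm
  have hqr : q ≠ r := fun h => hrn (h ▸ hqn)
  have hqm := hc.not_dvd_m hq' hqn
  have hTi : (ce x).index = m := hci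
  obtain ⟨Q, hQT⟩ := exists_sylow_le_of_not_dvd (ce x) (by rw [hTi]; exact hqm)
  have hqmn : q ∣ m * n := Dvd.dvd.mul_left hqn m
  have hQord : ∀ w ∈ (Q : Subgroup G), ¬ r ∣ orderOf w := by
    intro w hw hd
    obtain ⟨k, hk⟩ := PE.of_mem Q.isPGroup' hw
    rw [hk] at hd
    exact hqr ((Nat.prime_dvd_prime_iff_eq hr.out hq').mp (hr.out.dvd_of_dvd_pow hd)).symm
  have hQc : ∀ w ∈ (Q : Subgroup G), ce x ≤ ce w := fun w hw =>
    hc.TA hqn hqr hx hci (hQT hw) (hQord w hw)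
  obtain ⟨z, hzQ, hzZ⟩ := hc.exists_noncentral_sylow_n hqn Q
  have hzci : ci z = m := hc.ci_eq_m_of_dvd (hci ▸ Subgroup.index_dvd_of_le (hQc z hzQ)) hzZ
  have hzT : ce z = ce x := le_antisymm
    (le_of_index_eq (hQc z hzQ) (hTi.trans hzci.symm)) (hQc z hzQ)
  have hcentral : ∀ a ∈ ce x, ce x ≤ ce a := by
    intro a ha
    obtain ⟨a₁, a₂, hgg, hcm, ⟨k, hk⟩, hb, ha', hb'⟩ := exists_pPart r a
    have ha₁T : a₁ ∈ ce x := (zpowers_le.mpr ha) ha'
    have ha₂T : a₂ ∈ ce x := (zpowers_le.mpr ha) hb'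
    have h2 : ce x ≤ ce a₂ := hc.TA hqn hqr hx hci ha₂T hb
    have h1 : ce x ≤ ce a₁ := by
      have hcop : (orderOf z).Coprime (orderOf a₁) :=
        PE.coprime hq' hr.out hqr (PE.of_mem Q.isPGroup' hzQ) ⟨k, hk⟩
      have hmem : a₁ ∈ ce z := by rw [hzT]; exact ha₁T
      rcases hc.L2 hzci hmem hcop with h | h
      · rwa [hzT] at h
      · exfalso
        have hle : (Q : Subgroup G) ≤ ce z ⊓ ce a₁ := by
          refine le_inf (by rw [hzT]; exact hQT) ?_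
          intro w hw
          exact mem_ce_comm.mp (hQc w hw ha₁T)
        exact Cfsg.Agent.Lib.Struct.not_dvd_index_of_sylow_le Q hle (h ▸ hqmn)
    intro b hb2
    rw [hgg, mem_ce]
    have h3 := mem_ce.mp (h1 hb2)
    have h4 := mem_ce.mp (h2 hb2)
    rw [← mul_assoc, h3, mul_assoc, h4, mul_assoc]
  intro a ha b hb
  exact (mem_ce.mp (hcentral a ha hb)).symm

end CS

/-- The good subgroup. -/
structure GoodT (m : ℕ) (T : Subgroup G) : Prop where
  idx : T.index = m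
  comm : ∀ a ∈ T, ∀ b ∈ T, a * b = b * a
  ce_eq : ∀ t ∈ T, t ∉ center G → ce t = T
  center_le : center G ≤ T

section CS

variable {m n : ℕ} (hc : CS G m n)
include hc

theorem CS.goodT_of {r : ℕ} [hr : Fact r.Prime] (hrm : r ∣ m) {x : G} (hx : PE r x)
    (hci : ci x = m) : GoodT m (ce x) := by
  have hab := hc.good_abelian hrm hx hci
  refine ⟨hci, hab, ?_, ?_⟩
  · intro t ht htZ
    have h1 : ce x ≤ ce t := fun b hb => mem_ce.mpr (hab b hb t ht)
    have h2 : ci t = m := hc.ci_eq_m_of_dvd (hci ▸ Subgroup.index_dvd_of_le h1) htZ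
    exact le_antisymm (le_of_index_eq h1 (hci.trans h2.symm)) h1
  · intro z hz
    exact mem_ce.mpr (mem_center_comm hz x).symm

/-- The main dichotomy. -/
theorem CS.dichotomy : (∃ T : Subgroup G, GoodT m T) ∨
    (∃ t : ℕ, t.Prime ∧ (∀ q : ℕ, q.Prime → q ∣ n → q = t) ∧ ¬ t ∣ m ∧
      (∃ x : G, PE t x ∧ ci x = m) ∧
      (∀ r : ℕ, r.Prime → r ∣ m → ∀ f : G, PE r f → ci f ≠ m)) := by
  obtain ⟨p, hp, x, hx, hci⟩ := hc.exists_primary
  haveI : Fact p.Prime := ⟨hp⟩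
  by_cases hpm : p ∣ m
  · exact Or.inl ⟨_, hc.goodT_of hpm hx hci⟩
  by_cases hq : ∃ q : ℕ, q.Prime ∧ q ∣ n ∧ q ≠ p
  · obtain ⟨q, hq', hqn, hqp⟩ := hq
    haveI : Fact q.Prime := ⟨hq'⟩
    obtain ⟨r, hr', hrm⟩ := hc.exists_prime_m
    haveI : Fact r.Prime := ⟨hr'⟩
    have hrp : r ≠ p := fun h => hpm (h ▸ hrm)
    obtain ⟨S, hSH, hS, ⟨a, haS, haZ⟩, _⟩ := hc.exists_noncentral_pe hrm (ce x) (Or.inl hci)
    have haPE : PE r a := PE.of_mem hS haS
    have hord : ¬ p ∣ orderOf a := by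
      intro hd
      obtain ⟨k, hk⟩ := haPE
      rw [hk] at hd
      exact hrp ((Nat.prime_dvd_prime_iff_eq hp hr').mp (hp.dvd_of_dvd_pow hd)).symm
    have h1 : ce x ≤ ce a := hc.TA hqn hqp hx hci (hSH haS) hord
    have h2 : ci a = m := hc.ci_eq_m_of_dvd (hci ▸ Subgroup.index_dvd_of_le h1) haZ
    exact Or.inl ⟨_, hc.goodT_of hrm haPE h2⟩
  · push Not at hq
    by_cases hr : ∃ r : ℕ, r.Prime ∧ r ∣ m ∧ ∃ f : G, PE r f ∧ ci f = m
    · obtain ⟨r, hr', hrm, f, hf, hfc⟩ := hr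
      haveI : Fact r.Prime := ⟨hr'⟩
      exact Or.inl ⟨_, hc.goodT_of hrm hf hfc⟩
    · push Not at hr
      exact Or.inr ⟨p, hp, hq, hpm, ⟨x, hx, hci⟩, hr⟩

end CS

end Cfsg.Agent.Lib.Struct.ClassSize
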