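import Mathlib
import Cfsg.Agent.Lib.Struct.ClassB

/-! Groups with class sizes `1, m, m n`: the good subgroup is normal. -/

set_option autoImplicit false

namespace Cfsg.Agent.Lib.Struct.ClassSize

open Subgroup Cfsg.Agent.Lib.PGroups
open scoped commutatorElement

variable {G : Type*} [Group G] [Finite G]

theorem card_lt_of_inj {α β : Type*} [Finite α] [Finite β] (f : α → β)
    (h : Function.Injective f) {b : β} (hb : b ∉ Set.range f) : Nat.card α < Nat.card β := by
  classical
  haveI := Fintype.ofFinite α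
  haveI := Fintype.ofFinite β
  rw [Nat.card_eq_fintype_card, Nat.card_eq_fintype_card]
  exact Fintype.card_lt_of_injective_of_notMem f h hb

omit [Finite G] in
theorem conj_not_center {t : G} (ht : t ∉ center G) (g : G) : g * t * g⁻¹ ∉ center G := by
  intro h
  apply ht
  have h1 := (inferInstance : (center G).Normal).conj_mem _ h g⁻¹
  have h2 : g⁻¹ * (g * t * g⁻¹) * g⁻¹⁻¹ = t := by group
  rwa [h2] at h1

omit [Finite G] in
theorem conj_center {t : G} (ht : t ∈ center G) (g : G) : g * t * g⁻¹ = t := by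
  rw [mem_center_comm ht g]; group

section Good

variable {m n : ℕ} {T : Subgroup G}

theorem GoodT.mem_normalizer (hT : GoodT m T) {t g : G} (ht : t ∈ T) (htZ : t ∉ center G)
    (hg : g * t * g⁻¹ ∈ T) : g ∈ normalizer (T : Set G) := by
  have h1 := hT.ce_eq t ht htZ
  have h2 := hT.ce_eq _ hg (conj_not_center htZ g)
  have h3 : g⁻¹ ∈ normalizer (T : Set G) := by
    rw [mem_normalizer_iff]
    intro y
    rw [inv_inv]
    constructor
    · intro hy
      have hy' : y ∈ ce (g * t * g⁻¹) := h2.ge hy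
      rw [mem_ce_conj] at hy'
      exact h1.le hy'
    · intro hy
      have hy' : g⁻¹ * y * g ∈ ce t := h1.ge hy
      exact h2.le (mem_ce_conj.mpr hy')
  simpa using inv_mem h3

variable (hc : CS G m n) (hT : GoodT m T)
include hc hT

/-- Elements with class size `m` lie in a conjugate of `T`. -/
theorem GoodT.conj_mem_of_ci (g : G) (hg : ci g = m) : ∃ k : G, k⁻¹ * g * k ∈ T := by
  obtain ⟨q, hq', hqn⟩ := hc.exists_prime_n
  haveI : Fact q.Prime := ⟨hq'⟩
  have hqm := hc.not_dvd_m hq' hqn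
  obtain ⟨Q, hQT⟩ := exists_sylow_le_of_not_dvd T (by rw [hT.idx]; exact hqm)
  obtain ⟨Q₁, hQ₁⟩ := exists_sylow_le_of_not_dvd (ce g) (by rw [← ci, hg]; exact hqm)
  obtain ⟨k, hk⟩ := exists_conj_sylow Q Q₁
  obtain ⟨v, hv, hvZ⟩ := hc.exists_noncentral_sylow_n hqn Q₁
  have h1 : k⁻¹ * v * k ∈ T := hQT ((hk v).mp hv)
  have h2 : k⁻¹ * v * k ∉ center G := by
    have := conj_not_center hvZ k⁻¹
    simpa using this
  have h3 := hT.ce_eq _ h1 h2
  refine ⟨k, h3.le (conj_mem_ce (mem_ce_comm.mp (hQ₁ hv)))⟩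

/-- The key comparison of `r`-parts. -/
theorem GoodT.key {r : ℕ} [hr : Fact r.Prime] {e : ℕ}
    (he : r ^ e ∣ (normalizer (T : Set G)).index) (hr1 : r ∣ (normalizer (T : Set G)).index) :
    r ^ e ∣ T.relIndex (normalizer (T : Set G)) := by
  set L : Subgroup G := normalizer (T : Set G) with hL
  have hTL : T ≤ L := le_normalizer
  have hLm : L.index ∣ m := hT.idx ▸ Subgroup.index_dvd_of_le hTL
  have hrm : r ∣ m := hr1.trans hLm
  obtain ⟨S, hSH, hS, hcardS⟩ := exists_pSub T r
  obtain ⟨R, hSR⟩ := hS.exists_le_sylow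
  have hvT := fact_card_add_index T r
  rw [hT.idx] at hvT
  have hvS : (Nat.card S).factorization r = (Nat.card T).factorization r := by
    rw [hcardS, hr.out.factorization_pow]; simp
  obtain ⟨a₀, ha₀S, ha₀Z⟩ := hc.exists_noncentral_of_card hrm S hS (by omega)
  have ha₀T : a₀ ∈ T := hSH ha₀S
  have ha₀R : a₀ ∈ (R : Subgroup G) := hSR ha₀S
  have hR₀card : Nat.card ((R : Subgroup G) ⊓ T : Subgroup G) =
      r ^ (Nat.card T).factorization r := by
    apply le_antisymm
    · exact card_pSub_le (R.isPGroup'.to_le inf_le_left) inf_le_right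
    · rw [← hcardS]
      exact Subgroup.card_le_of_le (le_inf hSR hSH)
  have hg₁ : ∃ g ∈ (R : Subgroup G), g * a₀ ≠ a₀ * g := by
    by_contra hall
    push Not at hall
    exact ha₀Z (hc.central_of_sylow_le hrm R (fun g hg => mem_ce.mpr (hall g hg)))
  obtain ⟨g₁, hg₁, hg₁a⟩ := hg₁
  obtain ⟨f, hfR, ⟨g₀, hg₀, hg₀f⟩, hcent, -⟩ := exists_central_mod (R : Subgroup G) R R.isPGroup'
    le_rfl (fun g hg a ha => mul_mem (mul_mem hg ha) (inv_mem hg)) ⟨a₀, ha₀R, g₁, hg₁, hg₁a⟩
  have hfZ : f ∉ center G := fun h => hg₀f (mem_center_comm h g₀)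
  have hcomm := comm_hom hcent hfR
  have hUcard : Nat.card ((R : Subgroup G) ⊓ ce f : Subgroup G) ≤
      r ^ (Nat.card T).factorization r := by
    have h1 := card_pSub_le (R.isPGroup'.to_le (inf_le_left : (R : Subgroup G) ⊓ ce f ≤ R))
      (inf_le_right : (R : Subgroup G) ⊓ ce f ≤ ce f)
    have h2 := hc.fact_ce hr.out hrm hfZ
    have h3 : (Nat.card (ce f)).factorization r = (Nat.card T).factorization r := by omega
    rwa [h3] at h1
  -- first inequality
  have hE1 : L.relIndex R * Nat.card ((R : Subgroup G) ⊓ center G : Subgroup G) ≤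
      Nat.card ((R : Subgroup G) ⊓ ce f : Subgroup G) := by
    have hmem : ∀ p : (↥(R : Subgroup G) ⧸ L.subgroupOf (R : Subgroup G)) ×
        ↥((R : Subgroup G) ⊓ center G),
        a₀⁻¹ * ((p.1.out : ↥(R : Subgroup G)) : G) * a₀ *
          ((p.1.out : ↥(R : Subgroup G)) : G)⁻¹ * (p.2 : G) ∈ (R : Subgroup G) ⊓ ce f := by
      intro p
      have hg : ((p.1.out : ↥(R : Subgroup G)) : G) ∈ (R : Subgroup G) :=
        (p.1.out : ↥(R : Subgroup G)).2
      have hz := p.2.2
      refine Subgroup.mem_inf.mpr ⟨mul_mem (mul_mem (mul_mem (mul_mem (inv_mem ha₀R) hg) ha₀R) (inv_mem hg)) hz.1, ?_⟩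
      refine mul_mem ?_ (mem_ce.mpr (mem_center_comm hz.2 f).symm)
      have h1 := hcomm _ (inv_mem ha₀R) _ hg
      rw [commutatorElement_def, inv_inv] at h1
      exact h1
    let Ψ : (↥(R : Subgroup G) ⧸ L.subgroupOf (R : Subgroup G)) ×
        ↥((R : Subgroup G) ⊓ center G) → ↥((R : Subgroup G) ⊓ ce f) := fun p => ⟨_, hmem p⟩
    have hinj : Function.Injective Ψ := by
      rintro ⟨c, ζ⟩ ⟨c', ζ'⟩ h
      have h1 : a₀⁻¹ * ((c.out : ↥(R : Subgroup G)) : G) * a₀ *
          ((c.out : ↥(R : Subgroup G)) : G)⁻¹ * (ζ : G) =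
          a₀⁻¹ * ((c'.out : ↥(R : Subgroup G)) : G) * a₀ *
          ((c'.out : ↥(R : Subgroup G)) : G)⁻¹ * (ζ' : G) := congrArg Subtype.val h
      have hcc : c = c' := by
        rw [← QuotientGroup.out_eq' c, ← QuotientGroup.out_eq' c']
        symm
        apply QuotientGroup.eq.mpr
        rw [mem_subgroupOf]
        generalize (c.out : ↥(R : Subgroup G)) = g at h1
        generalize (c'.out : ↥(R : Subgroup G)) = g' at h1
        have hz1 : (ζ : G) ∈ center G := ζ.2.2
        have hz2 : (ζ' : G) ∈ center G := ζ'.2.2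
        generalize (ζ : G) = z at h1 hz1
        generalize (ζ' : G) = z' at h1 hz2
        generalize hgg : (g : G) = g₂ at h1
        generalize hgg' : (g' : G) = g₂' at h1
        have hη : z' * z⁻¹ ∈ center G := mul_mem hz2 (inv_mem hz1)
        have h2 : g₂ * a₀ * g₂⁻¹ = g₂' * a₀ * g₂'⁻¹ * (z' * z⁻¹) := by
          have h3 : g₂ * a₀ * g₂⁻¹ * z = g₂' * a₀ * g₂'⁻¹ * z' := by
            apply mul_left_cancel (a := a₀⁻¹)
            simpa [mul_assoc] using h1
          calc g₂ * a₀ * g₂⁻¹ = (g₂ * a₀ * g₂⁻¹ * z) * z⁻¹ := by group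
            _ = g₂' * a₀ * g₂'⁻¹ * (z' * z⁻¹) := by rw [h3]; group
        have h4 : (g₂'⁻¹ * g₂) * a₀ * (g₂'⁻¹ * g₂)⁻¹ = a₀ * (z' * z⁻¹) := by
          have h5 : (g₂'⁻¹ * g₂) * a₀ * (g₂'⁻¹ * g₂)⁻¹ = g₂'⁻¹ * (g₂ * a₀ * g₂⁻¹) * g₂' := by group
          rw [h5, h2]
          have h6 := conj_center hη g₂'⁻¹
          rw [inv_inv] at h6
          calc g₂'⁻¹ * (g₂' * a₀ * g₂'⁻¹ * (z' * z⁻¹)) * g₂'
              = a₀ * (g₂'⁻¹ * (z' * z⁻¹) * g₂') := by group
            _ = a₀ * (z' * z⁻¹) := by rw [h6]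
        have h7 : (g₂'⁻¹ * g₂) * a₀ * (g₂'⁻¹ * g₂)⁻¹ ∈ T := by
          rw [h4]; exact mul_mem ha₀T (hT.center_le hη)
        have h8 := hT.mem_normalizer ha₀T ha₀Z h7
        subst hgg hgg'
        simpa using h8
      subst hcc
      refine Prod.ext rfl (Subtype.ext ?_)
      exact mul_left_cancel h1
    have h2 := Nat.card_le_card_of_injective Ψ hinj
    rw [Nat.card_prod] at h2
    exact h2
  -- lower bound on `|R : R ∩ L|`
  have hlow : ∀ e' : ℕ, r ^ e' ∣ L.index → r ^ e' ≤ L.relIndex R := by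
    intro e' he'
    have h1 := Cfsg.Agent.Lib.Struct.card_inf_mul_relIndex L (R : Subgroup G)
    have h2 := R.card_eq_multiplicity
    have h3 : Nat.card (L ⊓ (R : Subgroup G) : Subgroup G) ≤ r ^ (Nat.card L).factorization r :=
      card_pSub_le (R.isPGroup'.to_le inf_le_right) inf_le_left
    have h4 := fact_card_add_index L r
    have h5 : e' ≤ L.index.factorization r :=
      (Nat.Prime.pow_dvd_iff_le_factorization hr.out Subgroup.index_ne_zero_of_finite).mp he'
    have h6 : r ^ (Nat.card L).factorization r * r ^ e' ≤ r ^ (Nat.card G).factorization r := by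
      rw [← pow_add]
      exact Nat.pow_le_pow_right hr.out.pos (by omega)
    have h7 : r ^ (Nat.card L).factorization r * r ^ e' ≤
        r ^ (Nat.card L).factorization r * L.relIndex R := by
      refine h6.trans ?_
      rw [← h2, ← h1]
      exact Nat.mul_le_mul_right _ h3
    exact Nat.le_of_mul_le_mul_left h7 (pow_pos hr.out.pos _)
  -- second part
  have hne : L.subgroupOf (R : Subgroup G) ≠ ⊤ := by
    intro h
    have h1 := hlow 1 (by simpa using hr1)
    have h2 : L.relIndex R = 1 := by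
      rw [Subgroup.relIndex, h]; exact Subgroup.index_top
    rw [h2, pow_one] at h1
    exact absurd hr.out.one_lt (by omega)
  haveI hnil : Group.IsNilpotent ↥(R : Subgroup G) := R.isPGroup'.isNilpotent
  have hncond := normalizerCondition_of_isNilpotent (G := ↥(R : Subgroup G))
  obtain ⟨w, hwN, hwK⟩ := (SetLike.lt_iff_le_and_exists.mp (hncond _ (lt_top_iff_ne_top.mpr hne))).2
  have hwK' : (w : G) ∉ L := fun h => hwK (mem_subgroupOf.mpr h)
  let A : Subgroup G := ((R : Subgroup G) ⊓ T).map (MulAut.conj (w : G)).toMonoidHom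
  have hcardA : Nat.card A = r ^ (Nat.card T).factorization r := by
    rw [← hR₀card]
    exact Subgroup.card_map_of_injective (MulAut.conj (w : G)).injective
  have hAL : A ≤ L := by
    rintro _ ⟨a, ha, rfl⟩
    have h1 : (⟨a, ha.1⟩ : ↥(R : Subgroup G)) ∈ L.subgroupOf (R : Subgroup G) :=
      mem_subgroupOf.mpr (hTL ha.2)
    have h2 := (mem_normalizer_iff.mp hwN ⟨a, ha.1⟩).mp h1
    have h3 : ((w * ⟨a, ha.1⟩ * w⁻¹ : ↥(R : Subgroup G)) : G) ∈ L := mem_subgroupOf.mp h2
    simpa [MulAut.conj_apply] using h3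
  have hAT : T ⊓ A ≤ (R : Subgroup G) ⊓ center G := by
    rintro _ ⟨hbT, a, ha, rfl⟩
    have h1 : (MulAut.conj (w : G)).toMonoidHom a = (w : G) * a * (w : G)⁻¹ := by
      simp [MulAut.conj_apply]
    rw [h1] at hbT ⊢
    have hwR : (w : G) ∈ (R : Subgroup G) := w.2
    refine Subgroup.mem_inf.mpr ⟨mul_mem (mul_mem hwR ha.1) (inv_mem hwR), ?_⟩
    by_contra hb
    have haZ : a ∉ center G := fun hz => hb (by rw [conj_center hz]; exact hz)
    exact hwK' (hT.mem_normalizer ha.2 haZ hbT)
  have hX := Cfsg.Agent.Lib.Struct.card_inf_mul_relIndex T A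
  have hXk : T.relIndex A ∣ T.relIndex L := by
    haveI : (T.subgroupOf L).Normal := Subgroup.normal_in_normalizer
    have h1 := Subgroup.relIndex_dvd_index_of_normal (T.subgroupOf L) (A.subgroupOf L)
    rwa [Subgroup.relIndex_subgroupOf hAL] at h1
  have hXpow : ∃ x : ℕ, T.relIndex A = r ^ x := by
    have h1 : T.relIndex A ∣ r ^ (Nat.card T).factorization r := by
      rw [← hcardA, ← hX]; exact Dvd.intro_left _ rfl
    obtain ⟨x, _, hx⟩ := (Nat.dvd_prime_pow hr.out).mp h1
    exact ⟨x, hx⟩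
  obtain ⟨x, hx⟩ := hXpow
  have hle : L.relIndex R ≤ T.relIndex A := by
    have hzpos : 0 < Nat.card ((R : Subgroup G) ⊓ center G : Subgroup G) := Nat.card_pos
    have h1 : L.relIndex R * Nat.card ((R : Subgroup G) ⊓ center G : Subgroup G) ≤
        T.relIndex A * Nat.card ((R : Subgroup G) ⊓ center G : Subgroup G) := by
      calc L.relIndex R * Nat.card ((R : Subgroup G) ⊓ center G : Subgroup G)
          ≤ r ^ (Nat.card T).factorization r := hE1.trans hUcard
        _ = Nat.card (T ⊓ A : Subgroup G) * T.relIndex A := by rw [hX, hcardA]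
        _ ≤ Nat.card ((R : Subgroup G) ⊓ center G : Subgroup G) * T.relIndex A :=
            Nat.mul_le_mul_right _ (Subgroup.card_le_of_le hAT)
        _ = T.relIndex A * Nat.card ((R : Subgroup G) ⊓ center G : Subgroup G) := mul_comm _ _
    exact Nat.le_of_mul_le_mul_right h1 hzpos
  have hfinal : r ^ e ≤ r ^ x := by
    rw [← hx]; exact (hlow e he).trans hle
  have hex : e ≤ x := (Nat.pow_le_pow_iff_right hr.out.one_lt).mp hfinal
  have h9 : r ^ e ∣ T.relIndex A := by
    rw [hx]; exact pow_dvd_pow r hex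
  exact h9.trans hXk

/-- The good subgroup is normal. -/
theorem GoodT.normal : T.Normal := by
  classical
  set L : Subgroup G := normalizer (T : Set G) with hL
  have hTL : T ≤ L := le_normalizer
  have hLtop : L = ⊤ := by
    by_contra hne
    have hℓ : L.index ≠ 1 := fun h => hne (Subgroup.index_eq_one.mp h)
    have hdvd : L.index ∣ T.relIndex L := by
      rw [Nat.dvd_iff_prime_pow_dvd_dvd]
      intro p e hp hd
      by_cases he : e = 0
      · rw [he, pow_zero]; exact one_dvd _
      · haveI : Fact p.Prime := ⟨hp⟩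
        exact hT.key hc hd ((dvd_pow_self p he).trans hd)
    have hkpos : 0 < T.relIndex L := by
      have h1 := Subgroup.relIndex_mul_index hTL
      rw [hT.idx] at h1
      have h2 := hc.hm
      refine Nat.pos_of_ne_zero (fun h0 => ?_)
      rw [h0, zero_mul] at h1
      omega
    have hlek : L.index ≤ T.relIndex L := Nat.le_of_dvd hkpos hdvd
    obtain ⟨q, hq', hqn⟩ := hc.exists_prime_n
    haveI : Fact q.Prime := ⟨hq'⟩
    have hqm := hc.not_dvd_m hq' hqn
    obtain ⟨Q, hQT⟩ := exists_sylow_le_of_not_dvd T (by rw [hT.idx]; exact hqm)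
    have hkm : T.relIndex L ∣ m := by
      have h1 := Subgroup.relIndex_mul_index hTL
      rw [hT.idx] at h1
      exact Dvd.intro _ h1
    have hqk : ¬ q ∣ T.relIndex L := fun h => hqm (h.trans hkm)
    haveI hT'n : (T.subgroupOf L).Normal := Subgroup.normal_in_normalizer
    -- `L`-elements with `q`-power order lie in `T`
    have hQmem : ∀ y ∈ T, PE q y → y ∈ (Q : Subgroup G) := by
      intro y hy hyq
      exact mem_sylow_of_le_ce hyq Q (fun w hw => mem_ce.mpr (hT.comm w (hQT hw) y hy))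
    have hpowL : ∀ g ∈ L, g ^ T.relIndex L ∈ T := by
      intro g hg
      have h1 := Subgroup.pow_index_mem (T.subgroupOf L) (⟨g, hg⟩ : L)
      have h2 : ((⟨g, hg⟩ : L) ^ (T.subgroupOf L).index : L).1 ∈ T := mem_subgroupOf.mp h1
      simpa [Subgroup.relIndex] using h2
    obtain ⟨v₀, hv₀Q, hv₀Z⟩ := hc.exists_noncentral_sylow_n hqn Q
    have hv₀T : v₀ ∈ T := hQT hv₀Q
    have hv₀PE : PE q v₀ := PE.of_mem Q.isPGroup' hv₀Q
    -- (I)
    have hI : T.relIndex L * Nat.card ((Q : Subgroup G) ⊓ center G : Subgroup G) <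
        Nat.card (Q : Subgroup G) := by
      have hmem : ∀ p : (↥L ⧸ T.subgroupOf L) × ↥((Q : Subgroup G) ⊓ center G),
          ((p.1.out : ↥L) : G) * v₀ * ((p.1.out : ↥L) : G)⁻¹ * (p.2 : G) ∈ (Q : Subgroup G) := by
        intro p
        refine mul_mem (hQmem _ ?_ (hv₀PE.conj _)) p.2.2.1
        exact (mem_normalizer_iff.mp (p.1.out : ↥L).2 v₀).mp hv₀T
      let Ψ : (↥L ⧸ T.subgroupOf L) × ↥((Q : Subgroup G) ⊓ center G) → ↥(Q : Subgroup G) :=
        fun p => ⟨_, hmem p⟩
      have hinj : Function.Injective Ψ := by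
        rintro ⟨c, ζ⟩ ⟨c', ζ'⟩ h
        have h1 : ((c.out : ↥L) : G) * v₀ * ((c.out : ↥L) : G)⁻¹ * (ζ : G) =
            ((c'.out : ↥L) : G) * v₀ * ((c'.out : ↥L) : G)⁻¹ * (ζ' : G) := congrArg Subtype.val h
        have hcc : c = c' := by
          rw [← QuotientGroup.out_eq' c, ← QuotientGroup.out_eq' c']
          symm
          apply QuotientGroup.eq.mpr
          rw [mem_subgroupOf]
          have hgL := (c.out : ↥L).2
          have hgL' := (c'.out : ↥L).2
          generalize (c.out : ↥L) = g at h1 hgL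
          generalize (c'.out : ↥L) = g' at h1 hgL'
          have hz1 : (ζ : G) ∈ (Q : Subgroup G) ⊓ center G := ζ.2
          have hz2 : (ζ' : G) ∈ (Q : Subgroup G) ⊓ center G := ζ'.2
          generalize (ζ : G) = z at h1 hz1
          generalize (ζ' : G) = z' at h1 hz2
          generalize hgg : (g : G) = g₂ at h1 hgL
          generalize hgg' : (g' : G) = g₂' at h1 hgL'
          have hη : z' * z⁻¹ ∈ (Q : Subgroup G) ⊓ center G := mul_mem hz2 (inv_mem hz1)
          have h2 : g₂ * v₀ * g₂⁻¹ = g₂' * v₀ * g₂'⁻¹ * (z' * z⁻¹) := by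
            calc g₂ * v₀ * g₂⁻¹ = (g₂ * v₀ * g₂⁻¹ * z) * z⁻¹ := by group
              _ = g₂' * v₀ * g₂'⁻¹ * (z' * z⁻¹) := by rw [h1]; group
          have h4 : (g₂'⁻¹ * g₂) * v₀ * (g₂'⁻¹ * g₂)⁻¹ = v₀ * (z' * z⁻¹) := by
            have h5 : (g₂'⁻¹ * g₂) * v₀ * (g₂'⁻¹ * g₂)⁻¹ = g₂'⁻¹ * (g₂ * v₀ * g₂⁻¹) * g₂' := by group
            rw [h5, h2]
            have h6 := conj_center hη.2 g₂'⁻¹
            rw [inv_inv] at h6
            calc g₂'⁻¹ * (g₂' * v₀ * g₂'⁻¹ * (z' * z⁻¹)) * g₂'
                = v₀ * (g₂'⁻¹ * (z' * z⁻¹) * g₂') := by group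
              _ = v₀ * (z' * z⁻¹) := by rw [h6]
          generalize hh : g₂'⁻¹ * g₂ = w at h4
          generalize hηη : z' * z⁻¹ = η at h4 hη
          have hwL : w ∈ L := by rw [← hh]; exact mul_mem (inv_mem hgL') hgL
          have hpow : ∀ i : ℕ, w ^ i * v₀ * (w ^ i)⁻¹ = v₀ * η ^ i := by
            intro i
            induction i with
            | zero => simp
            | succ i ih =>
              have h3 : w ^ (i + 1) * v₀ * (w ^ (i + 1))⁻¹ = w * (w ^ i * v₀ * (w ^ i)⁻¹) * w⁻¹ := by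
                rw [pow_succ']; group
              rw [h3, ih]
              have h6 := conj_center (pow_mem hη.2 i) w
              calc w * (v₀ * η ^ i) * w⁻¹ = (w * v₀ * w⁻¹) * (w * η ^ i * w⁻¹) := by group
                _ = v₀ * η ^ (i + 1) := by rw [h4, h6, pow_succ']; group
          have hwk := hpowL w hwL
          have hη1 : η ^ T.relIndex L = 1 := by
            have h3 := hpow (T.relIndex L)
            have h5 : w ^ T.relIndex L * v₀ = v₀ * w ^ T.relIndex L := hT.comm _ hwk _ hv₀T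
            have h6 : w ^ T.relIndex L * v₀ * (w ^ T.relIndex L)⁻¹ = v₀ := by
              rw [h5]; group
            rw [h6] at h3
            exact (mul_eq_left.mp h3.symm)
          have hηone : η = 1 := eq_one_of_PE_of_coprime hq' (PE.of_mem Q.isPGroup' hη.1) hqk hη1
          rw [hηone, mul_one] at h4
          have hwce : w ∈ ce v₀ := by
            rw [mem_ce]
            calc w * v₀ = (w * v₀ * w⁻¹) * w := by group
              _ = v₀ * w := by rw [h4]
          have hwT : w ∈ T := (hT.ce_eq v₀ hv₀T hv₀Z).le hwce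
          subst hgg hgg'
          simpa [hh] using hwT
        subst hcc
        refine Prod.ext rfl (Subtype.ext ?_)
        exact mul_left_cancel h1
      have hnot : (1 : ↥(Q : Subgroup G)) ∉ Set.range Ψ := by
        rintro ⟨⟨c, ζ⟩, h⟩
        have h1 : ((c.out : ↥L) : G) * v₀ * ((c.out : ↥L) : G)⁻¹ * (ζ : G) = 1 :=
          congrArg Subtype.val h
        have h2 : ((c.out : ↥L) : G) * v₀ * ((c.out : ↥L) : G)⁻¹ = (ζ : G)⁻¹ :=
          eq_inv_of_mul_eq_one_left h1
        apply conj_not_center hv₀Z ((c.out : ↥L) : G)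
        rw [h2]
        exact inv_mem ζ.2.2
      have h2 := card_lt_of_inj Ψ hinj hnot
      rw [Nat.card_prod] at h2
      exact h2
    -- (II)
    have hII : Nat.card (Q : Subgroup G) ≤
        L.index * Nat.card ((Q : Subgroup G) ⊓ center G : Subgroup G) := by
      have hex : ∃ g : G, g ∉ L := by
        by_contra hall
        push Not at hall
        exact hne (eq_top_iff.mpr (fun g _ => hall g))
      obtain ⟨g, hg⟩ := hex
      have h1 := Subgroup.card_mul_index (MulAction.stabilizer (↥(Q : Subgroup G)) ((g : G) : G ⧸ L))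
      rw [MulAction.index_stabilizer] at h1
      have h2 : (MulAction.orbit (↥(Q : Subgroup G)) ((g : G) : G ⧸ L)).ncard ≤ L.index := by
        rw [← Nat.card_coe_set_eq]
        exact Nat.card_le_card_of_injective _ Subtype.val_injective
      have hstab : ∀ s : MulAction.stabilizer (↥(Q : Subgroup G)) ((g : G) : G ⧸ L),
          ((s : ↥(Q : Subgroup G)) : G) ∈ (Q : Subgroup G) ⊓ center G := by
        intro s
        have hsQ := (s : ↥(Q : Subgroup G)).2
        refine ⟨hsQ, ?_⟩
        have hs := MulAction.mem_stabilizer_iff.mp s.2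
        have hs2 : (((((s : ↥(Q : Subgroup G)) : G) * g : G)) : G ⧸ L) = (g : G ⧸ L) := hs
        have hs3 := QuotientGroup.eq.mp hs2
        generalize ((s : ↥(Q : Subgroup G)) : G) = s₁ at hs3 hsQ
        have hu : g⁻¹ * s₁ * g ∈ L := by
          have h3 := inv_mem hs3
          have h4 : ((s₁ * g)⁻¹ * g)⁻¹ = g⁻¹ * s₁ * g := by group
          rwa [h4] at h3
        have huPE : PE q (g⁻¹ * s₁ * g) := by
          have := (PE.of_mem Q.isPGroup' hsQ).conj g⁻¹
          simpa using this
        have huT : g⁻¹ * s₁ * g ∈ T :=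
          Cfsg.Agent.Lib.Struct.mem_of_pow_mem_of_coprime T (PE.coprime' hq' huPE hqk) (hpowL _ hu)
        by_contra hsZ
        have huZ : g⁻¹ * s₁ * g ∉ center G := by
          have := conj_not_center hsZ g⁻¹
          simpa using this
        have h5 : g * (g⁻¹ * s₁ * g) * g⁻¹ ∈ T := by
          have h6 : g * (g⁻¹ * s₁ * g) * g⁻¹ = s₁ := by group
          rw [h6]; exact hQT hsQ
        exact hg (hT.mem_normalizer huT huZ h5)
      have h3 : Nat.card (MulAction.stabilizer (↥(Q : Subgroup G)) ((g : G) : G ⧸ L)) ≤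
          Nat.card ((Q : Subgroup G) ⊓ center G : Subgroup G) := by
        refine Nat.card_le_card_of_injective (fun s => (⟨_, hstab s⟩ : ↥((Q : Subgroup G) ⊓ center G))) ?_
        intro s s' h
        have h4 := congrArg (fun x : ↥((Q : Subgroup G) ⊓ center G) => (x : G)) h
        exact Subtype.ext (Subtype.ext h4)
      rw [← h1, mul_comm]
      exact Nat.mul_le_mul h2 h3
    have hfin : L.index * Nat.card ((Q : Subgroup G) ⊓ center G : Subgroup G) ≤
        T.relIndex L * Nat.card ((Q : Subgroup G) ⊓ center G : Subgroup G) :=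
      Nat.mul_le_mul_right _ hlek
    omega
  exact normalizer_eq_top_iff.mp hLtop

end Good

end Cfsg.Agent.Lib.Struct.ClassSize
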