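import Mathlib
import Cfsg.Agent.Lib.Struct.ClassC

/-! Groups with class sizes `1, m, m n`: the norm trick and the prime `m`. -/

set_option autoImplicit false

namespace Cfsg.Agent.Lib.Struct.ClassSize

open Subgroup Cfsg.Agent.Lib.PGroups
open scoped commutatorElement

theorem norm_fixed {Y : Type*} [CommGroup Y] (e : Monoid.End Y) {r : ℕ} (he : e ^ r = 1) (y : Y) :
    e (∏ l ∈ Finset.range r, (e ^ l) y) = ∏ l ∈ Finset.range r, (e ^ l) y := by
  rw [map_prod]
  have h1 : ∀ l : ℕ, e ((e ^ l) y) = (e ^ (l + 1)) y := by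
    intro l; rw [pow_succ']; rfl
  simp_rw [h1]
  have h2 := Finset.prod_range_succ (fun l => (e ^ l) y) r
  have h3 := Finset.prod_range_succ' (fun l => (e ^ l) y) r
  rw [h2] at h3
  simp only [he, pow_zero] at h3
  exact (mul_right_cancel h3).symm

theorem norm_trick₀ {Y : Type*} [CommGroup Y] (σ τ : Monoid.End Y) (hc : Commute σ τ) {r : ℕ}
    (hr : 0 < r) (hσ : σ ^ r = 1) (hτ : τ ^ r = 1) (B : Subgroup Y) (hB : ∀ z ∈ B, σ z = z)
    (h1 : ∀ j < r, ∀ y : Y, (σ * τ ^ j) y = y → y ∈ B)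
    (h2 : ∀ l : ℕ, 0 < l → l < r → ∀ y : Y, (τ ^ l) y = y → y ∈ B) (y : Y) : y ^ r ∈ B := by
  have he : ∀ j : ℕ, (σ * τ ^ j) ^ r = 1 := by
    intro j
    rw [(hc.pow_right j).mul_pow, hσ, one_mul, ← pow_mul, mul_comm, pow_mul, hτ, one_pow]
  have hN : ∀ j ∈ Finset.range r, (∏ l ∈ Finset.range r, ((σ * τ ^ j) ^ l) y) ∈ B := by
    intro j hj
    exact h1 j (Finset.mem_range.mp hj) _ (norm_fixed _ (he j) y)
  have hP := Subgroup.prod_mem B hN
  have key : ∏ j ∈ Finset.range r, ∏ l ∈ Finset.range r, ((σ * τ ^ j) ^ l) y =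
      ∏ l ∈ Finset.range r, (σ ^ l) (∏ j ∈ Finset.range r, ((τ ^ l) ^ j) y) := by
    rw [Finset.prod_comm]
    apply Finset.prod_congr rfl
    intro l _
    rw [map_prod]
    apply Finset.prod_congr rfl
    intro j _
    have h3 : (σ * τ ^ j) ^ l = σ ^ l * (τ ^ l) ^ j := by
      rw [(hc.pow_right j).mul_pow, ← pow_mul, ← pow_mul, mul_comm]
    rw [h3]
    rfl
  rw [key] at hP
  obtain ⟨r', rfl⟩ : ∃ r', r = r' + 1 := ⟨r - 1, by omega⟩
  rw [Finset.prod_range_succ'] at hP
  have h4 : (∏ l ∈ Finset.range r', (σ ^ (l + 1)) (∏ j ∈ Finset.range (r' + 1), ((τ ^ (l + 1)) ^ j) y)) ∈ B := by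
    apply Subgroup.prod_mem
    intro l hl
    have hl' : l + 1 < r' + 1 := by
      have := Finset.mem_range.mp hl
      omega
    have h5 : (∏ j ∈ Finset.range (r' + 1), ((τ ^ (l + 1)) ^ j) y) ∈ B := by
      apply h2 (l + 1) (by omega) hl'
      apply norm_fixed
      rw [← pow_mul, mul_comm, pow_mul, hτ, one_pow]
    have h6 : ∀ i : ℕ, ∀ z ∈ B, (σ ^ i) z = z := by
      intro i
      induction i with
      | zero => intro z _; rfl
      | succ i ih =>
        intro z hz
        rw [pow_succ]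
        change (σ ^ i) (σ z) = z
        rw [hB z hz, ih z hz]
    rw [h6 _ _ h5]
    exact h5
  have h5 := (Subgroup.mul_mem_cancel_left B h4).mp hP
  have h6 : (σ ^ 0) (∏ j ∈ Finset.range (r' + 1), ((τ ^ 0) ^ j) y) = y ^ (r' + 1) := by
    simp
  rwa [h6] at h5

/-- The norm trick, for a commutative group given by a hypothesis. -/
theorem norm_trick {Y : Type*} [Group Y] (hY : ∀ x y : Y, x * y = y * x) (σ τ : Monoid.End Y)
    (hc : Commute σ τ) {r : ℕ}
    (hr : 0 < r) (hσ : σ ^ r = 1) (hτ : τ ^ r = 1) (B : Subgroup Y) (hB : ∀ z ∈ B, σ z = z)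
    (h1 : ∀ j < r, ∀ y : Y, (σ * τ ^ j) y = y → y ∈ B)
    (h2 : ∀ l : ℕ, 0 < l → l < r → ∀ y : Y, (τ ^ l) y = y → y ∈ B) (y : Y) : y ^ r ∈ B := by
  letI : CommGroup Y := { (inferInstance : Group Y) with mul_comm := hY }
  exact norm_trick₀ σ τ hc hr hσ hτ B hB h1 h2 y

variable {G : Type*} [Group G]

/-- Conjugation as an endomorphism of a subgroup normalized by `g`. -/
def cEnd (Y : Subgroup G) (g : G) (hg : ∀ y ∈ Y, g * y * g⁻¹ ∈ Y) : Monoid.End Y :=
  MonoidHom.mk' (fun y => ⟨g * (y : G) * g⁻¹, hg y y.2⟩) (by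
    intro a b
    apply Subtype.ext
    simp only [Subgroup.coe_mul]
    group)

theorem cEnd_apply (Y : Subgroup G) (g : G) (hg : ∀ y ∈ Y, g * y * g⁻¹ ∈ Y) (y : Y) :
    ((cEnd Y g hg y : Y) : G) = g * y * g⁻¹ := rfl

theorem cEnd_pow_apply (Y : Subgroup G) (g : G) (hg : ∀ y ∈ Y, g * y * g⁻¹ ∈ Y) (l : ℕ) (y : Y) :
    ((((cEnd Y g hg) ^ l) y : Y) : G) = g ^ l * y * (g ^ l)⁻¹ := by
  induction l generalizing y with
  | zero => simp
  | succ l ih =>
    rw [pow_succ]
    change ((((cEnd Y g hg) ^ l) (cEnd Y g hg y) : Y) : G) = _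
    rw [ih, cEnd_apply, pow_succ]
    group

variable [Finite G]

/-- The rank-one lemma. -/
theorem rank_one {r : ℕ} [hr : Fact r.Prime] (R Y : Subgroup G) {a : G} (haR : a ∈ R)
    (hcent : ∀ g ∈ R, ∀ h ∈ R, (g * a * g⁻¹ * a⁻¹) * h = h * (g * a * g⁻¹ * a⁻¹))
    (hpow : ∀ h ∈ R, a ^ r * h = h * a ^ r)
    (hnc : ∃ g ∈ R, g * a ≠ a * g)
    (hYc : ∀ y ∈ Y, ∀ y' ∈ Y, y * y' = y' * y)
    (hYord : ∀ y ∈ Y, ¬ r ∣ orderOf y)
    (hYn : ∀ g ∈ R, ∀ y ∈ Y, g * y * g⁻¹ ∈ Y)
    (hU : ∀ u ∈ R, u ∈ ce a → ∀ y ∈ Y, u * y = y * u)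
    (hfix : ∀ g ∈ R, g ∉ ce a → ∀ y ∈ Y, g * y = y * g → y ∈ center G)
    (hne : ∃ y ∈ Y, y ∉ center G) : (ce a).relIndex R = r := by
  classical
  have hcomm := comm_hom hcent haR
  have hpowU := comm_pow hcent haR hpow
  let U' : Subgroup R := (ce a).subgroupOf R
  haveI hU'n : U'.Normal := by
    constructor
    intro u hu g
    have hu' : (u : G) ∈ ce a := mem_subgroupOf.mp hu
    refine mem_subgroupOf.mpr ?_
    have h1 := hcomm g g.2 u u.2
    have h2 : ((g * u * g⁻¹ : R) : G) = ⁅(g : G), (u : G)⁆ * u := by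
      simp only [Subgroup.coe_mul, Subgroup.coe_inv, commutatorElement_def]
      group
    rw [h2]
    exact mul_mem h1 hu'
  have hPb : ∀ x y : R ⧸ U', x * y = y * x := by
    intro x y
    induction x using QuotientGroup.induction_on with
    | H g =>
      induction y using QuotientGroup.induction_on with
      | H g' =>
        rw [← QuotientGroup.mk_mul, ← QuotientGroup.mk_mul]
        apply QuotientGroup.eq.mpr
        refine mem_subgroupOf.mpr ?_
        have h4 : (((g * g')⁻¹ * (g' * g) : R) : G) = ⁅(g' : G)⁻¹, (g : G)⁻¹⁆ := by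
          simp only [Subgroup.coe_mul, Subgroup.coe_inv, commutatorElement_def]
          group
        rw [h4]
        exact hcomm _ (inv_mem g'.2) _ (inv_mem g.2)
  have hExp : ∀ x : R ⧸ U', x ^ r = 1 := by
    intro x
    induction x using QuotientGroup.induction_on with
    | H g =>
      rw [← QuotientGroup.mk_pow]
      apply (QuotientGroup.eq_one_iff _).mpr
      refine mem_subgroupOf.mpr ?_
      simpa using hpowU g g.2
  obtain ⟨g₀, hg₀R, hg₀a⟩ := hnc
  have hg₀ce : g₀ ∉ ce a := fun h => hg₀a (mem_ce.mp h)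
  have hone : ∀ g : R, ((g : R ⧸ U') = 1) ↔ (g : G) ∈ ce a := by
    intro g
    rw [QuotientGroup.eq_one_iff]
    exact mem_subgroupOf
  let ab : R ⧸ U' := ((⟨g₀, hg₀R⟩ : R) : R ⧸ U')
  have hab1 : ab ≠ 1 := by
    intro h
    exact hg₀ce ((hone _).mp h)
  haveI hrf : Fact r.Prime := hr
  have hord : ∀ x : R ⧸ U', x ≠ 1 → orderOf x = r := fun x hx => orderOf_eq_prime (hExp x) hx
  have htop : zpowers ab = ⊤ := by
    by_contra hntop
    obtain ⟨bb, hbb⟩ : ∃ bb : R ⧸ U', bb ∉ zpowers ab := by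
      by_contra hall
      push Not at hall
      exact hntop (eq_top_iff.mpr (fun x _ => hall x))
    have hbb1 : bb ≠ 1 := fun h => hbb (h ▸ one_mem _)
    obtain ⟨b, rfl⟩ := QuotientGroup.mk_surjective bb
    -- endomorphisms
    have hY' : ∀ x y : Y, x * y = y * x := fun x y =>
      Subtype.ext (hYc x x.2 y y.2)
    have hbR : (b : G) ∈ R := b.2
    let σ := cEnd Y g₀ (hYn g₀ hg₀R)
    let τ := cEnd Y b (hYn b hbR)
    have hUact : ∀ u ∈ R, u ∈ ce a → ∀ y ∈ Y, u * y * u⁻¹ = y := by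
      intro u huR hua y hy
      rw [hU u huR hua y hy]; group
    have hcommστ : Commute σ τ := by
      apply MonoidHom.ext
      intro y
      apply Subtype.ext
      change g₀ * ((b : G) * (y : G) * (b : G)⁻¹) * g₀⁻¹ = (b : G) * (g₀ * (y : G) * g₀⁻¹) * (b : G)⁻¹
      have hy2 := hYn b hbR _ (hYn g₀ hg₀R _ y.2)
      have h3 := hUact _ (show ⁅g₀, (b : G)⁆ ∈ R by
        rw [commutatorElement_def]
        exact mul_mem (mul_mem (mul_mem hg₀R hbR) (inv_mem hg₀R)) (inv_mem hbR)) (hcomm g₀ hg₀R b hbR) _ hy2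
      rw [← h3]
      simp only [commutatorElement_def]
      group
    have hpowact : ∀ (g : G) (hg : g ∈ R), (cEnd Y g (hYn g hg)) ^ r = 1 := by
      intro g hg
      apply MonoidHom.ext
      intro y
      apply Subtype.ext
      refine (cEnd_pow_apply Y g (hYn g hg) r y).trans ?_
      exact hUact _ (pow_mem hg r) (hpowU g hg) _ y.2
    let B : Subgroup Y := (center G).subgroupOf Y
    have hbpow : ∀ (l : ℕ) (y : Y), ((τ ^ l) y : G) = (b : G) ^ l * y * ((b : G) ^ l)⁻¹ := fun l y =>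
      cEnd_pow_apply Y b (hYn b hbR) l y
    have hfixg : ∀ g : R, ((g : R ⧸ U') ≠ 1) → ∀ y : Y, (g : G) * y * (g : G)⁻¹ = y → y ∈ B := by
      intro g hg y hy
      refine mem_subgroupOf.mpr ?_
      apply hfix g g.2 (fun h => hg ((hone g).mpr h)) y y.2
      calc (g : G) * y = ((g : G) * y * (g : G)⁻¹) * g := by group
        _ = y * g := by rw [hy]
    have hbne : ∀ l : ℕ, 0 < l → l < r → (((b : R ⧸ U')) ^ l) ≠ 1 := by
      intro l hl0 hlr hl
      have h3 := orderOf_dvd_of_pow_eq_one hl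
      rw [hord _ hbb1] at h3
      exact absurd (Nat.le_of_dvd hl0 h3) (by omega)
    have hz := norm_trick hY' σ τ hcommστ hr.out.pos (hpowact g₀ hg₀R) (hpowact b hbR) B
      (by
        intro z hz
        apply Subtype.ext
        change g₀ * (z : G) * g₀⁻¹ = z
        exact conj_center (mem_subgroupOf.mp hz) g₀)
      (by
        intro j hj y hy
        have h3 : ((b ^ j : R) : G) = (b : G) ^ j := by simp
        apply hfixg (⟨g₀, hg₀R⟩ * b ^ j)
        · rw [QuotientGroup.mk_mul, QuotientGroup.mk_pow]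
          intro h4
          -- `ab * bb ^ j = 1`
          have h5 : ((b : R ⧸ U')) ^ j ∈ zpowers ab := by
            have h6 : ((b : R ⧸ U')) ^ j = ab⁻¹ := eq_inv_of_mul_eq_one_right h4
            rw [h6]; exact inv_mem (mem_zpowers ab)
          by_cases hj0 : j = 0
          · rw [hj0, pow_zero, mul_one] at h4
            exact hab1 h4
          · have h6 : (orderOf ((b : R ⧸ U'))).Coprime j := by
              rw [hord _ hbb1]
              exact (Nat.Prime.coprime_iff_not_dvd hr.out).mpr (fun h => absurd (Nat.le_of_dvd (by omega) h) (by omega))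
            have h7 := Cfsg.Agent.Lib.Struct.mem_zpowers_pow_of_coprime h6
            exact hbb ((zpowers_le.mpr h5) h7)
        · have h4 := congrArg (fun w : Y => (w : G)) hy
          have h5 : ((σ * τ ^ j) y : G) = g₀ * (((τ ^ j) y : Y) : G) * g₀⁻¹ := rfl
          rw [h5, hbpow] at h4
          rw [Subgroup.coe_mul, h3]
          have h6 : ((⟨g₀, hg₀R⟩ : R) : G) = g₀ := rfl
          rw [h6]
          calc g₀ * (b : G) ^ j * y * (g₀ * (b : G) ^ j)⁻¹
              = g₀ * ((b : G) ^ j * y * ((b : G) ^ j)⁻¹) * g₀⁻¹ := by group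
            _ = y := h4)
      (by
        intro l hl0 hlr y hy
        apply hfixg (b ^ l)
        · rw [QuotientGroup.mk_pow]
          exact hbne l hl0 hlr
        · have h4 := congrArg (fun w : Y => (w : G)) hy
          rw [hbpow] at h4
          simpa using h4)
    obtain ⟨y₀, hy₀, hy₀Z⟩ := hne
    have h5 := hz ⟨y₀, hy₀⟩
    have h6 : y₀ ^ r ∈ center G := by
      have := mem_subgroupOf.mp h5
      simpa using this
    apply hy₀Z
    refine Cfsg.Agent.Lib.Struct.mem_of_pow_mem_of_coprime (center G) ?_ h6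
    exact ((Nat.Prime.coprime_iff_not_dvd hr.out).mpr (hYord y₀ hy₀)).symm
  have h1 : Nat.card (zpowers ab) = orderOf ab := Nat.card_zpowers ab
  rw [htop, Subgroup.card_top, hord ab hab1] at h1
  exact h1

end Cfsg.Agent.Lib.Struct.ClassSize
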