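import Mathlib
import Cfsg.Agent.Lib.Struct.ClassD

/-! Groups with class sizes `1, m, m n`: when the good subgroup is normal, `m` is prime. -/

set_option autoImplicit false

namespace Cfsg.Agent.Lib.Struct.ClassSize

open Subgroup Cfsg.Agent.Lib.PGroups
open scoped commutatorElement

variable {G : Type*} [Group G]

/-- Elements of an abelian subgroup killed by `u`. -/
def torsionSub (T : Subgroup G) (hcomm : ∀ a ∈ T, ∀ b ∈ T, a * b = b * a) (u : ℕ) : Subgroup G where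
  carrier := {t | t ∈ T ∧ t ^ u = 1}
  mul_mem' := by
    rintro a b ⟨ha, ha'⟩ ⟨hb, hb'⟩
    refine ⟨mul_mem ha hb, ?_⟩
    rw [(show Commute a b from hcomm a ha b hb).mul_pow, ha', hb', one_mul]
  one_mem' := ⟨one_mem _, one_pow _⟩
  inv_mem' := by
    rintro a ⟨ha, ha'⟩
    exact ⟨inv_mem ha, by rw [inv_pow, ha', inv_one]⟩

theorem mem_torsionSub {T : Subgroup G} {hcomm : ∀ a ∈ T, ∀ b ∈ T, a * b = b * a} {u : ℕ} {t : G} :
    t ∈ torsionSub T hcomm u ↔ t ∈ T ∧ t ^ u = 1 := Iff.rfl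

theorem torsionSub_le {T : Subgroup G} {hcomm : ∀ a ∈ T, ∀ b ∈ T, a * b = b * a} {u : ℕ} :
    torsionSub T hcomm u ≤ T := fun _ h => h.1

instance torsionSub_normal {T : Subgroup G} [hT : T.Normal]
    {hcomm : ∀ a ∈ T, ∀ b ∈ T, a * b = b * a} {u : ℕ} : (torsionSub T hcomm u).Normal := by
  constructor
  rintro t ⟨ht, ht'⟩ g
  exact ⟨hT.conj_mem t ht g, by rw [conj_pow, ht', mul_one, mul_inv_cancel]⟩

theorem conj_pow_central {w v η : G} (hη : η ∈ center G) (h : w * v * w⁻¹ = v * η) (i : ℕ) :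
    w ^ i * v * (w ^ i)⁻¹ = v * η ^ i := by
  induction i with
  | zero => simp
  | succ i ih =>
    have h3 : w ^ (i + 1) * v * (w ^ (i + 1))⁻¹ = w * (w ^ i * v * (w ^ i)⁻¹) * w⁻¹ := by
      rw [pow_succ']; group
    rw [h3, ih]
    have h6 := conj_center (pow_mem hη i) w
    calc w * (v * η ^ i) * w⁻¹ = (w * v * w⁻¹) * (w * η ^ i * w⁻¹) := by group
      _ = v * η ^ (i + 1) := by rw [h, h6, pow_succ']; group

variable [Finite G]

theorem card_inf_normal {T : Subgroup G} [hTn : T.Normal] {r : ℕ} [hr : Fact r.Prime]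
    (R : Sylow r G) :
    Nat.card ((R : Subgroup G) ⊓ T : Subgroup G) = r ^ (Nat.card T).factorization r := by
  apply le_antisymm
  · exact card_pSub_le (R.isPGroup'.to_le inf_le_left) inf_le_right
  · obtain ⟨S, hSH, hS, hc⟩ := exists_pSub T r
    obtain ⟨P, hP⟩ := hS.exists_le_sylow
    obtain ⟨k, hk⟩ := exists_conj_sylow R P
    rw [← hc]
    have hmem : ∀ s : S, k⁻¹ * (s : G) * k ∈ (R : Subgroup G) ⊓ T := fun s =>
      ⟨(hk _).mp (hP s.2), by
        have := hTn.conj_mem _ (hSH s.2) k⁻¹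
        simpa using this⟩
    refine Nat.card_le_card_of_injective
      (fun s : S => (⟨k⁻¹ * (s : G) * k, hmem s⟩ : ↥((R : Subgroup G) ⊓ T))) ?_
    intro s s' h
    have h1 := congrArg Subtype.val h
    simp only [mul_left_inj, mul_right_inj] at h1
    exact Subtype.ext h1

section Good

variable {m n : ℕ} {T : Subgroup G}

variable (hc : CS G m n) (hT : GoodT m T) [hTn : T.Normal]
include hc hT

theorem GoodT.ci_not_mem {g : G} (hg : g ∉ T) : ci g = m * n := by
  have hgZ : g ∉ center G := fun h => hg (hT.center_le h)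
  rcases hc.ci_noncentral hgZ with h | h
  · obtain ⟨k, hk⟩ := hT.conj_mem_of_ci hc g h
    exfalso
    apply hg
    have := hTn.conj_mem _ hk k
    have h2 : k * (k⁻¹ * g * k) * k⁻¹ = g := by group
    rwa [h2] at this
  · exact h

theorem GoodT.mem_iff {x : G} : x ∈ T ↔ ci x = 1 ∨ ci x = m := by
  constructor
  · intro hx
    have h1 : T ≤ ce x := fun b hb => mem_ce.mpr (hT.comm b hb x hx)
    exact hc.ci_of_dvd_m (hT.idx ▸ Subgroup.index_dvd_of_le h1)
  · rintro (h | h)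
    · exact hT.center_le (ci_eq_one_iff.mp h)
    · by_contra hx
      have := hT.ci_not_mem hc hx
      rw [h] at this
      have h2 := hc.hm
      have h3 := hc.hn
      nlinarith

theorem GoodT.exists_a {r : ℕ} [hr : Fact r.Prime] (hrm : r ∣ m) (R : Sylow r G) :
    ∃ a ∈ (R : Subgroup G) ⊓ T, (∃ g ∈ (R : Subgroup G), g * a ≠ a * g) ∧
      (∀ g ∈ (R : Subgroup G), ∀ h ∈ (R : Subgroup G),
        (g * a * g⁻¹ * a⁻¹) * h = h * (g * a * g⁻¹ * a⁻¹)) ∧
      (∀ h ∈ (R : Subgroup G), a ^ r * h = h * a ^ r) := by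
  have hvT := fact_card_add_index T r
  rw [hT.idx] at hvT
  have hv : (Nat.card ((R : Subgroup G) ⊓ T : Subgroup G)).factorization r =
      (Nat.card T).factorization r := by
    rw [card_inf_normal R, hr.out.factorization_pow]; simp
  obtain ⟨a₀, ha₀, ha₀Z⟩ := hc.exists_noncentral_of_card hrm ((R : Subgroup G) ⊓ T)
    (R.isPGroup'.to_le inf_le_left) (by omega)
  have hne : ∃ a ∈ (R : Subgroup G) ⊓ T, ∃ g ∈ (R : Subgroup G), g * a ≠ a * g := by
    refine ⟨a₀, ha₀, ?_⟩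
    by_contra hall
    push Not at hall
    exact ha₀Z (hc.central_of_sylow_le hrm R (fun g hg => mem_ce.mpr (hall g hg)))
  exact exists_central_mod (R : Subgroup G) ((R : Subgroup G) ⊓ T) R.isPGroup' inf_le_left
    (fun g hg a ha => Subgroup.mem_inf.mpr ⟨mul_mem (mul_mem hg ha.1) (inv_mem hg), hTn.conj_mem a ha.2 g⟩) hne

/-- Any Sylow subgroup meets `T` in index `r`. -/
theorem GoodT.relIndex_sylow {r : ℕ} [hr : Fact r.Prime] (hrm : r ∣ m) (R : Sylow r G) :
    T.relIndex (R : Subgroup G) = r := by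
  obtain ⟨a, haN, hnc, hcent, hpow⟩ := hT.exists_a hc hrm R
  have haR : a ∈ (R : Subgroup G) := haN.1
  have haT : a ∈ T := haN.2
  have haZ : a ∉ center G := by
    obtain ⟨g, _, hg⟩ := hnc
    exact fun h => hg (mem_center_comm h g)
  have hce : ce a = T := hT.ce_eq a haT haZ
  have hu : ¬ r ∣ ordCompl[r] (Nat.card T) := Nat.not_dvd_ordCompl hr.out Nat.card_pos.ne'
  have key := rank_one (r := r) (R : Subgroup G) (torsionSub T hT.comm (ordCompl[r] (Nat.card T)))
    haR hcent hpow hnc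
    (fun y hy y' hy' => hT.comm y hy.1 y' hy'.1)
    (fun y hy hd => hu (hd.trans (orderOf_dvd_of_pow_eq_one hy.2)))
    (fun g _ y hy => (torsionSub_normal (T := T)).conj_mem y hy g)
    (fun u' _ hu' y hy => hT.comm u' (hce ▸ hu') y hy.1)
    (by
      intro g _ hg y hy hgy
      by_contra hyZ
      apply hg
      rw [hce, ← hT.ce_eq y hy.1 hyZ]
      exact mem_ce.mpr hgy)
    (by
      obtain ⟨q, hq', hqn⟩ := hc.exists_prime_n
      haveI : Fact q.Prime := ⟨hq'⟩
      have hqm := hc.not_dvd_m hq' hqn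
      have hqr : q ≠ r := fun h => hqm (h ▸ hrm)
      obtain ⟨Q, hQT⟩ := exists_sylow_le_of_not_dvd T (by rw [hT.idx]; exact hqm)
      obtain ⟨v, hv, hvZ⟩ := hc.exists_noncentral_sylow_n hqn Q
      refine ⟨v, ⟨hQT hv, ?_⟩, hvZ⟩
      rw [← orderOf_dvd_iff_pow_eq_one]
      have h1 : orderOf v ∣ Nat.card T := Subgroup.orderOf_dvd_natCard T (hQT hv)
      rw [← Nat.ordProj_mul_ordCompl_eq_self (Nat.card T) r] at h1
      have h2 : (orderOf v).Coprime (r ^ (Nat.card T).factorization r) :=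
        Nat.Coprime.pow_right _ (PE.coprime' hq' (PE.of_mem Q.isPGroup' hv) (fun h =>
          hqr ((Nat.prime_dvd_prime_iff_eq hq' hr.out).mp h)))
      exact h2.dvd_of_dvd_mul_left h1)
  rwa [hce] at key

/-- `r` divides `m` exactly once. -/
theorem GoodT.fact_m {r : ℕ} [hr : Fact r.Prime] (hrm : r ∣ m) : m.factorization r = 1 := by
  let R : Sylow r G := default
  have h1 := hT.relIndex_sylow hc hrm R
  have h2 := Cfsg.Agent.Lib.Struct.card_inf_mul_relIndex T (R : Subgroup G)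
  rw [h1, inf_comm, card_inf_normal R, R.card_eq_multiplicity, ← pow_succ] at h2
  have h3 := Nat.pow_right_injective hr.out.two_le h2
  have h4 := fact_card_add_index T r
  rw [hT.idx] at h4
  omega

/-- At most one prime divides `m`. -/
theorem GoodT.prime_unique {r s : ℕ} (hr : r.Prime) (hs : s.Prime) (hrm : r ∣ m) (hsm : s ∣ m) :
    r = s := by
  by_contra hne
  haveI : Fact r.Prime := ⟨hr⟩
  haveI : Fact s.Prime := ⟨hs⟩
  let R : Sylow r G := default
  obtain ⟨a, haN, ⟨y, hyR, hya⟩, hcent, -⟩ := hT.exists_a hc hrm R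
  have haR : a ∈ (R : Subgroup G) := haN.1
  have haT : a ∈ T := haN.2
  have haZ : a ∉ center G := fun h => hya (mem_center_comm h y)
  have hce : ce a = T := hT.ce_eq a haT haZ
  have hyT : y ∉ T := fun h => hya (hT.comm y h a haT)
  have hycn := hT.ci_not_mem hc hyT
  have hcZ : y * a * y⁻¹ * a⁻¹ ∈ center G :=
    hc.central_of_sylow_le hrm R (fun g hg => mem_ce.mpr (hcent y hyR g hg).symm)
  obtain ⟨S, hSH, hS, ⟨b, hbS, hbZ⟩, _⟩ := hc.exists_noncentral_pe hsm (ce y) (Or.inr hycn)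
  have hbPE : PE s b := PE.of_mem hS hbS
  have hby : b ∈ ce y := hSH hbS
  have hbT : b ∉ T := by
    intro hbT
    apply hyT
    rw [← hT.ce_eq b hbT hbZ]
    exact mem_ce_comm.mp hby
  generalize hc' : y * a * y⁻¹ * a⁻¹ = c at hcZ
  have hya2 : y * a * y⁻¹ = c * a := by rw [← hc']; group
  have hbyc : b * y = y * b := mem_ce.mp hby
  have ha'T : b * a * b⁻¹ ∈ T := hTn.conj_mem a haT b
  have hdT : b * a * b⁻¹ * a⁻¹ ∈ T := mul_mem ha'T (inv_mem haT)
  have hya3 : y * (b * a * b⁻¹) * y⁻¹ = c * (b * a * b⁻¹) := by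
    have h1 : y * (b * a * b⁻¹) * y⁻¹ = b * (y * a * y⁻¹) * b⁻¹ := by
      calc y * (b * a * b⁻¹) * y⁻¹ = (y * b) * a * (y * b)⁻¹ := by group
        _ = (b * y) * a * (b * y)⁻¹ := by rw [hbyc]
        _ = b * (y * a * y⁻¹) * b⁻¹ := by group
    rw [h1, hya2]
    have h2 := conj_center hcZ b
    calc b * (c * a) * b⁻¹ = (b * c * b⁻¹) * (b * a * b⁻¹) := by group
      _ = c * (b * a * b⁻¹) := by rw [h2]
  have hyd : y ∈ ce (b * a * b⁻¹ * a⁻¹) := by
    rw [mem_ce]
    have h1 : y * (b * a * b⁻¹ * a⁻¹) * y⁻¹ = b * a * b⁻¹ * a⁻¹ := by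
      have h2 : y * (b * a * b⁻¹ * a⁻¹) * y⁻¹ = (y * (b * a * b⁻¹) * y⁻¹) * (y * a * y⁻¹)⁻¹ := by group
      rw [h2, hya2, hya3]
      have h3 := mem_center_comm hcZ (b * a * b⁻¹ * a⁻¹)
      calc c * (b * a * b⁻¹) * (c * a)⁻¹ = c * (b * a * b⁻¹ * a⁻¹) * c⁻¹ := by group
        _ = (b * a * b⁻¹ * a⁻¹) * c * c⁻¹ := by rw [← h3]
        _ = b * a * b⁻¹ * a⁻¹ := by group
    calc y * (b * a * b⁻¹ * a⁻¹) = (y * (b * a * b⁻¹ * a⁻¹) * y⁻¹) * y := by group
      _ = (b * a * b⁻¹ * a⁻¹) * y := by rw [h1]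
  have hdZ : b * a * b⁻¹ * a⁻¹ ∈ center G := by
    by_contra hd
    apply hyT
    rw [← hT.ce_eq _ hdT hd]
    exact hyd
  -- `d` is an `r`-element
  obtain ⟨k, hk⟩ := PE.of_mem R.isPGroup' haR
  have hdPE : PE r (b * a * b⁻¹ * a⁻¹) := by
    have h1 : (b * a * b⁻¹ * a⁻¹) ^ r ^ k = 1 := by
      have hcm : Commute (b * a * b⁻¹) a⁻¹ := hT.comm _ ha'T _ (inv_mem haT)
      rw [hcm.mul_pow, conj_pow, inv_pow, ← hk, pow_orderOf_eq_one]
      simp
    obtain ⟨j, _, hj⟩ := (Nat.dvd_prime_pow hr).mp (orderOf_dvd_of_pow_eq_one h1)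
    exact ⟨j, hj⟩
  generalize hdd : b * a * b⁻¹ * a⁻¹ = d at hdZ hdPE hdT hyd
  have hba : b * a * b⁻¹ = a * d := by
    rw [mem_center_comm hdZ a, ← hdd]; group
  have hiter := conj_pow_central hdZ hba
  obtain ⟨l, hl⟩ := hbPE
  have h5 := hiter (s ^ l)
  rw [← hl, pow_orderOf_eq_one] at h5
  simp only [one_mul, inv_one, mul_one] at h5
  have h6 : d ^ orderOf b = 1 := (mul_eq_left.mp h5.symm)
  have hrs : ¬ r ∣ orderOf b := by
    rw [hl]
    intro hd
    exact hne ((Nat.prime_dvd_prime_iff_eq hr hs).mp (hr.dvd_of_dvd_pow hd))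
  have hd1 : d = 1 := eq_one_of_PE_of_coprime hr hdPE hrs h6
  rw [hd1, mul_one] at hba
  apply hbT
  rw [← hce, mem_ce]
  calc b * a = (b * a * b⁻¹) * b := by group
    _ = a * b := by rw [hba]

/-- `m` is prime. -/
theorem GoodT.m_prime : m.Prime := by
  obtain ⟨r, hr, hrm⟩ := hc.exists_prime_m
  haveI : Fact r.Prime := ⟨hr⟩
  have hm0 : m ≠ 0 := by have := hc.hm; omega
  have h1 : m = r ^ m.primeFactorsList.length :=
    Nat.eq_prime_pow_of_unique_prime_dvd hm0
      (fun {d} hd hdm => hT.prime_unique hc hd hr hdm hrm)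
  have h2 := hT.fact_m hc hrm
  rw [h1, hr.factorization_pow] at h2
  simp only [Finsupp.smul_apply, Finsupp.single_eq_same, smul_eq_mul, mul_one] at h2
  rw [h2, pow_one] at h1
  rwa [h1]

end Good

end Cfsg.Agent.Lib.Struct.ClassSize
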