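import Mathlib
import Cfsg.Agent.Lib.Struct.ClassE

/-! Groups with class sizes `1, m, m n`: the final structure when the good subgroup is normal. -/

set_option autoImplicit false

namespace Cfsg.Agent.Lib.Struct.ClassSize

open Subgroup Cfsg.Agent.Lib.PGroups
open scoped commutatorElement Pointwise

variable {G : Type*} [Group G]

theorem sup_zpowers_eq_top [Finite G] {T : Subgroup G} {p : ℕ} (hp : p.Prime) (hidx : T.index = p)
    {y : G} (hy : y ∉ T) : T ⊔ zpowers y = ⊤ := by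
  have hTH : T ≤ T ⊔ zpowers y := le_sup_left
  have h1 := Subgroup.relIndex_mul_index hTH
  rw [hidx] at h1
  have h2 : (T ⊔ zpowers y).index ∣ p := Dvd.intro_left _ h1
  rcases (Nat.dvd_prime hp).mp h2 with h3 | h3
  · exact Subgroup.index_eq_one.mp h3
  · exfalso
    rw [h3] at h1
    have h4 : T.relIndex (T ⊔ zpowers y) = 1 :=
      Nat.eq_of_mul_eq_mul_right hp.pos (by rw [h1, one_mul])
    have h5 : T ⊔ zpowers y ≤ T := Subgroup.relIndex_eq_one.mp h4
    exact hy (h5 (mem_sup_right (mem_zpowers y)))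

theorem pow_mul_inj {p a b x y : ℕ} (hp : p.Prime) (hx : ¬ p ∣ x) (hy : ¬ p ∣ y)
    (h : p ^ a * x = p ^ b * y) : a = b ∧ x = y := by
  have hx0 : x ≠ 0 := fun h0 => hx (h0 ▸ dvd_zero p)
  have hy0 : y ≠ 0 := fun h0 => hy (h0 ▸ dvd_zero p)
  have h1 := congrArg (fun k => k.factorization p) h
  rw [Nat.factorization_mul (pow_ne_zero _ hp.ne_zero) hx0,
    Nat.factorization_mul (pow_ne_zero _ hp.ne_zero) hy0] at h1
  simp [hp.factorization_pow, Nat.factorization_eq_zero_of_not_dvd hx,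
    Nat.factorization_eq_zero_of_not_dvd hy] at h1
  subst h1
  exact ⟨rfl, Nat.eq_of_mul_eq_mul_left (pow_pos hp.pos _) h⟩

theorem commute_of_decomp {Q : Type*} [Group Q] {A Y z z' : Q} (hAY : Commute A Y)
    (hz : ∀ w, Commute z w) (hz' : ∀ w, Commute z' w) (i j i' j' : ℤ) :
    Commute (z * A ^ i * Y ^ j) (z' * A ^ i' * Y ^ j') := by
  have hA : Commute (z * A ^ i * Y ^ j) A :=
    ((hz A).mul_left ((Commute.refl A).zpow_left i)).mul_left (hAY.symm.zpow_left j)
  have hY : Commute (z * A ^ i * Y ^ j) Y :=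
    ((hz Y).mul_left (hAY.zpow_left i)).mul_left ((Commute.refl Y).zpow_left j)
  exact (((hz' _).symm).mul_right (hA.zpow_right i')).mul_right (hY.zpow_right j')

variable [Finite G]

theorem card_modEq_conj {p : ℕ} [hp : Fact p.Prime] (P Y : Subgroup G) (hP : IsPGroup p P)
    (hY : ∀ g ∈ P, ∀ v ∈ Y, g * v * g⁻¹ ∈ Y) :
    Nat.card Y ≡ Nat.card {v : Y // ∀ g ∈ P, g * (v : G) * g⁻¹ = v} [MOD p] := by
  letI : MulAction P Y :=
    { smul := fun g v => ⟨(g : G) * v * (g : G)⁻¹, hY g g.2 v v.2⟩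
      one_smul := by
        intro v
        apply Subtype.ext
        change ((1 : P) : G) * v * ((1 : P) : G)⁻¹ = v
        simp
      mul_smul := by
        intro g h v
        apply Subtype.ext
        change ((g * h : P) : G) * v * ((g * h : P) : G)⁻¹ = (g : G) * ((h : G) * v * (h : G)⁻¹) * (g : G)⁻¹
        simp only [Subgroup.coe_mul]
        group }
  have h1 := hP.card_modEq_card_fixedPoints Y
  have h2 : Nat.card (MulAction.fixedPoints P Y) =
      Nat.card {v : Y // ∀ g ∈ P, g * (v : G) * g⁻¹ = v} := by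
    apply Nat.card_congr
    refine Equiv.subtypeEquivRight ?_
    intro v
    rw [MulAction.mem_fixedPoints]
    constructor
    · intro h g hg
      have := h ⟨g, hg⟩
      exact congrArg Subtype.val this
    · intro h g
      apply Subtype.ext
      exact h g g.2
  rw [← h2]
  exact h1

section Good

variable {m n : ℕ} {T : Subgroup G}

variable (hc : CS G m n) (hT : GoodT m T) [hTn : T.Normal]
include hc hT

theorem GoodT.N_inf_center [hm : Fact m.Prime]
    (hnodf : ∀ A B : Subgroup G, A.Normal → B.Normal → A ⊓ B = ⊥ → A ⊔ B = ⊤ →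
      IsMulCommutative A → A = ⊥) :
    torsionSub T hT.comm (ordCompl[m] (Nat.card T)) ⊓ center G = ⊥ := by
  have hu : ¬ m ∣ ordCompl[m] (Nat.card T) := Nat.not_dvd_ordCompl hm.out Nat.card_pos.ne'
  set u := ordCompl[m] (Nat.card T) with hudef
  have hcardT : m ^ (Nat.card T).factorization m * u = Nat.card T :=
    Nat.ordProj_mul_ordCompl_eq_self _ _
  set N := torsionSub T hT.comm u with hN
  have hNT : N ≤ T := torsionSub_le
  haveI hNn : N.Normal := torsionSub_normal
  have hNord : ∀ v ∈ N, ¬ m ∣ orderOf v := fun v hv hd =>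
    hu (hd.trans (orderOf_dvd_of_pow_eq_one hv.2))
  let R : Sylow m G := default
  obtain ⟨a, haN, ⟨y, hyR, hya⟩, -, -⟩ := hT.exists_a hc dvd_rfl R
  have haT : a ∈ T := haN.2
  have hyT : y ∉ T := fun h => hya (hT.comm y h a haT)
  have htop := sup_zpowers_eq_top hm.out hT.idx hyT
  have hyN : ∀ v ∈ N, y * v * y⁻¹ ∈ N := fun v hv => hNn.conj_mem v hv y
  -- the map `δ`
  have hdel_mul : ∀ v ∈ N, ∀ v' ∈ N, (v * v')⁻¹ * (y * (v * v') * y⁻¹) =
      (v⁻¹ * (y * v * y⁻¹)) * (v'⁻¹ * (y * v' * y⁻¹)) := by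
    intro v hv v' hv'
    have h1 : (y * v * y⁻¹) * v'⁻¹ = v'⁻¹ * (y * v * y⁻¹) :=
      hT.comm _ (hNT (hyN v hv)) _ (inv_mem (hNT hv'))
    have h2 : v⁻¹ * v'⁻¹ = v'⁻¹ * v⁻¹ := hT.comm _ (inv_mem (hNT hv)) _ (inv_mem (hNT hv'))
    calc (v * v')⁻¹ * (y * (v * v') * y⁻¹) = v'⁻¹ * v⁻¹ * ((y * v * y⁻¹) * (y * v' * y⁻¹)) := by group
      _ = v⁻¹ * v'⁻¹ * ((y * v * y⁻¹) * (y * v' * y⁻¹)) := by rw [h2]
      _ = v⁻¹ * (v'⁻¹ * (y * v * y⁻¹)) * (y * v' * y⁻¹) := by group
      _ = v⁻¹ * ((y * v * y⁻¹) * v'⁻¹) * (y * v' * y⁻¹) := by rw [h1]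
      _ = (v⁻¹ * (y * v * y⁻¹)) * (v'⁻¹ * (y * v' * y⁻¹)) := by group
  have hdel_inv : ∀ v ∈ N, (v⁻¹)⁻¹ * (y * v⁻¹ * y⁻¹) = (v⁻¹ * (y * v * y⁻¹))⁻¹ := by
    intro v hv
    have h1 := hdel_mul v hv v⁻¹ (inv_mem hv)
    rw [mul_inv_cancel] at h1
    simp only [inv_one, mul_one, one_mul, mul_inv_cancel] at h1
    exact eq_inv_of_mul_eq_one_right h1.symm
  let A' : Subgroup G :=
    { carrier := {w | ∃ v ∈ N, w = v⁻¹ * (y * v * y⁻¹)}
      mul_mem' := by
        rintro _ _ ⟨v, hv, rfl⟩ ⟨v', hv', rfl⟩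
        exact ⟨v * v', mul_mem hv hv', (hdel_mul v hv v' hv').symm⟩
      one_mem' := ⟨1, one_mem _, by simp⟩
      inv_mem' := by
        rintro _ ⟨v, hv, rfl⟩
        exact ⟨v⁻¹, inv_mem hv, (hdel_inv v hv).symm⟩ }
  have hA'N : A' ≤ N := by
    rintro _ ⟨v, hv, rfl⟩
    exact mul_mem (inv_mem hv) (hyN v hv)
  have hker : ∀ v ∈ N, v⁻¹ * (y * v * y⁻¹) = 1 → v ∈ center G := by
    intro v hv h1
    by_contra hvZ
    apply hyT
    rw [← hT.ce_eq v (hNT hv) hvZ, mem_ce]
    have h2 : y * v * y⁻¹ = v := by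
      have := congrArg (fun z => v * z) h1
      simpa [mul_assoc] using this
    calc y * v = (y * v * y⁻¹) * y := by group
      _ = v * y := by rw [h2]
  have hAA' : ∀ w ∈ N ⊓ center G, w ∈ A' → w = 1 := by
    rintro w ⟨hwN, hwZ⟩ ⟨v, hv, rfl⟩
    set w' := v⁻¹ * (y * v * y⁻¹) with hw'
    have h1 : y * v * y⁻¹ = v * w' := by rw [hw']; group
    have h2 := conj_pow_central hwZ h1 m
    have h3 : y ^ m ∈ T := by
      have := Subgroup.pow_index_mem T y
      rwa [hT.idx] at this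
    have h4 : y ^ m * v = v * y ^ m := hT.comm _ h3 _ (hNT hv)
    have h5 : y ^ m * v * (y ^ m)⁻¹ = v := by rw [h4]; group
    rw [h5] at h2
    have h6 : w' ^ m = 1 := (mul_eq_left.mp h2.symm)
    rcases (Nat.dvd_prime hm.out).mp (orderOf_dvd_of_pow_eq_one h6) with h7 | h7
    · exact orderOf_eq_one_iff.mp h7
    · exact absurd (h7 ▸ dvd_rfl) (hNord _ hwN)
  have hNsup : ∀ v ∈ N, ∃ α ∈ N ⊓ center G, ∃ β ∈ A', v = α * β := by
    intro v hv
    let f : A' → A' := fun β => ⟨(β : G)⁻¹ * (y * β * y⁻¹), ⟨β, hA'N β.2, rfl⟩⟩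
    have hinj : Function.Injective f := by
      intro β β' h
      have h1 : (β : G)⁻¹ * (y * β * y⁻¹) = (β' : G)⁻¹ * (y * β' * y⁻¹) := congrArg Subtype.val h
      have hβ := hA'N β.2
      have hβ' := hA'N β'.2
      have h2 := hdel_mul _ hβ _ (inv_mem hβ')
      rw [hdel_inv _ hβ', ← h1, mul_inv_cancel] at h2
      have h3 := hker _ (mul_mem hβ (inv_mem hβ')) h2
      have h4 := hAA' _ (Subgroup.mem_inf.mpr ⟨mul_mem hβ (inv_mem hβ'), h3⟩) (mul_mem β.2 (inv_mem β'.2))
      exact Subtype.ext (mul_inv_eq_one.mp h4)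
    obtain ⟨β, hβ⟩ := (Finite.injective_iff_surjective.mp hinj) ⟨_, ⟨v, hv, rfl⟩⟩
    have h1 : (β : G)⁻¹ * (y * β * y⁻¹) = v⁻¹ * (y * v * y⁻¹) := congrArg Subtype.val hβ
    have hβN := hA'N β.2
    refine ⟨v * (β : G)⁻¹, Subgroup.mem_inf.mpr ⟨mul_mem hv (inv_mem hβN), ?_⟩, β, β.2, by group⟩
    apply hker _ (mul_mem hv (inv_mem hβN))
    rw [hdel_mul _ hv _ (inv_mem hβN), hdel_inv _ hβN, h1]
    group
  haveI hA'n : A'.Normal := by
    rw [← normalizer_eq_top_iff, eq_top_iff, ← htop, sup_le_iff]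
    constructor
    · intro t ht
      exact mem_normalizer_of_forall_commute (fun z hz => hT.comm t ht z (hNT (hA'N hz)))
    · rw [zpowers_le]
      apply mem_normalizer_of_conj_le'
      rintro _ ⟨v, hv, rfl⟩
      exact ⟨y * v * y⁻¹, hyN v hv, by group⟩
  -- the subgroup `W`
  have hW : torsionSub T hT.comm (m ^ (Nat.card T).factorization m) ≤ (R : Subgroup G) := by
    apply Cfsg.Agent.Lib.Basic.normal_pGroup_le_sylow torsionSub_normal
    intro w
    refine ⟨(Nat.card T).factorization m, Subtype.ext ?_⟩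
    exact w.2.2
  have hdecomp : ∀ t ∈ T, ∃ w ∈ torsionSub T hT.comm (m ^ (Nat.card T).factorization m),
      ∃ v ∈ N, t = w * v := by
    intro t ht
    obtain ⟨a₁, b₁, hgg, -, ⟨k, hk⟩, hb, ha', hb'⟩ := exists_pPart m t
    have ha₁T : a₁ ∈ T := (zpowers_le.mpr ht) ha'
    have hb₁T : b₁ ∈ T := (zpowers_le.mpr ht) hb'
    refine ⟨a₁, ⟨ha₁T, ?_⟩, b₁, ⟨hb₁T, ?_⟩, hgg⟩
    · rw [← orderOf_dvd_iff_pow_eq_one]
      have h1 : orderOf a₁ ∣ Nat.card T := Subgroup.orderOf_dvd_natCard T ha₁T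
      rw [← hcardT, hk] at h1
      rw [hk]
      exact (Nat.Coprime.pow_left k ((Nat.Prime.coprime_iff_not_dvd hm.out).mpr hu)).dvd_of_dvd_mul_right h1
    · rw [← orderOf_dvd_iff_pow_eq_one]
      have h1 : orderOf b₁ ∣ Nat.card T := Subgroup.orderOf_dvd_natCard T hb₁T
      rw [← hcardT] at h1
      have h2 : (orderOf b₁).Coprime (m ^ (Nat.card T).factorization m) :=
        Nat.Coprime.pow_right _ ((Nat.Prime.coprime_iff_not_dvd hm.out).mpr hb).symm
      exact h2.dvd_of_dvd_mul_left h1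
  have hBtop : (N ⊓ center G) ⊔ (A' ⊔ (R : Subgroup G)) = ⊤ := by
    rw [eq_top_iff, ← htop, sup_le_iff]
    constructor
    · intro t ht
      obtain ⟨w, hw, v, hv, rfl⟩ := hdecomp t ht
      obtain ⟨α, hα, β, hβ, rfl⟩ := hNsup v hv
      have h1 : w ∈ (N ⊓ center G) ⊔ (A' ⊔ (R : Subgroup G)) :=
        mem_sup_right (mem_sup_right (hW hw))
      have h2 : α ∈ (N ⊓ center G) ⊔ (A' ⊔ (R : Subgroup G)) := mem_sup_left hα
      have h3 : β ∈ (N ⊓ center G) ⊔ (A' ⊔ (R : Subgroup G)) := mem_sup_right (mem_sup_left hβ)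
      exact mul_mem h1 (mul_mem h2 h3)
    · rw [zpowers_le]
      exact mem_sup_right (mem_sup_right hyR)
  have hBn : (A' ⊔ (R : Subgroup G)).Normal := by
    rw [← normalizer_eq_top_iff, eq_top_iff, ← hBtop, sup_le_iff]
    constructor
    · intro α hα
      exact mem_normalizer_of_forall_commute (fun z _ => (mem_center_comm hα.2 z).symm)
    · exact le_normalizer
  have hinf : (N ⊓ center G) ⊓ (A' ⊔ (R : Subgroup G)) = ⊥ := by
    rw [eq_bot_iff]
    rintro α ⟨hαA, hαB⟩
    have h1 : α ∈ ((A' ⊔ (R : Subgroup G) : Subgroup G) : Set G) := hαB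
    rw [Subgroup.normal_mul, Set.mem_mul] at h1
    obtain ⟨β, hβ, ρ, hρ, rfl⟩ := h1
    have hβ' : β ∈ A' := hβ
    have hρ' : ρ ∈ (R : Subgroup G) := hρ
    have hρN : ρ ∈ N := by
      have h2 := mul_mem (inv_mem (hA'N hβ')) hαA.1
      simpa using h2
    have hρ1 : ρ = 1 := eq_one_of_PE_of_coprime hm.out (PE.of_mem R.isPGroup' hρ') hu hρN.2
    rw [hρ1, mul_one] at hαA ⊢
    exact hAA' β hαA hβ'
  have hcommA : IsMulCommutative ↥(N ⊓ center G) :=
    ⟨⟨fun a b => Subtype.ext (mem_center_comm b.2.2 (a : G))⟩⟩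
  exact hnodf _ _ inferInstance hBn hinf hBtop hcommA

/-- The commutator of a Sylow subgroup. -/
theorem GoodT.commutator_card [hm : Fact m.Prime] (hZp : IsPGroup m (center G))
    (hcZ : Nat.card (center G) * m = m ^ (Nat.card T).factorization m) (P : Sylow m G) :
    Nat.card (commutator (P : Subgroup G)) = m := by
  obtain ⟨a, haN, ⟨y, hyP, hya⟩, hcent, hpow⟩ := hT.exists_a hc dvd_rfl P
  have haP : a ∈ (P : Subgroup G) := haN.1
  have haT : a ∈ T := haN.2
  have haZ : a ∉ center G := fun h => hya (mem_center_comm h y)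
  have hyT : y ∉ T := fun h => hya (hT.comm y h a haT)
  have htop := sup_zpowers_eq_top hm.out hT.idx hyT
  have hcZ' : y * a * y⁻¹ * a⁻¹ ∈ center G :=
    hc.central_of_sylow_le dvd_rfl P (fun g hg => mem_ce.mpr (hcent y hyP g hg).symm)
  generalize hc' : y * a * y⁻¹ * a⁻¹ = c at hcZ'
  have hya2 : y * a * y⁻¹ = c * a := by rw [← hc']; group
  have hc1 : c ≠ 1 := by
    intro h
    rw [h, one_mul] at hya2
    apply hya
    calc y * a = (y * a * y⁻¹) * y := by group
      _ = a * y := by rw [hya2]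
  have hcm : c ^ m = 1 := by
    have h1 : y * a ^ m * y⁻¹ = (y * a * y⁻¹) ^ m := by rw [conj_pow]
    rw [hya2, (show Commute c a from mem_center_comm hcZ' a |>.symm).mul_pow] at h1
    have h2 : y * a ^ m * y⁻¹ = a ^ m := by rw [← hpow y hyP]; group
    rw [h2] at h1
    exact (mul_eq_right.mp h1.symm)
  have hord : orderOf c = m := orderOf_eq_prime hcm hc1
  have hW₀Z : zpowers c ≤ center G := zpowers_le.mpr hcZ'
  haveI hW₀ : (zpowers c).Normal := by
    constructor
    intro w hw g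
    rw [conj_center (hW₀Z hw) g]
    exact hw
  let π : G →* G ⧸ zpowers c := QuotientGroup.mk' (zpowers c)
  have hπ : Commute (π a) (π y) := by
    have h1 : π (y * a * y⁻¹ * a⁻¹) = 1 := by
      rw [hc']
      exact (QuotientGroup.eq_one_iff _).mpr (mem_zpowers c)
    rw [map_mul, map_mul, map_mul, map_inv, map_inv] at h1
    have h2 : π y * π a = π a * π y := by
      have h3 : π y * π a * (π y)⁻¹ = π a := by
        have := congrArg (fun z => z * π a) h1
        simpa using this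
      calc π y * π a = (π y * π a * (π y)⁻¹) * π y := by group
        _ = π a * π y := by rw [h3]
    exact h2.symm
  have hzcomm : ∀ z ∈ center G, ∀ w : G ⧸ zpowers c, Commute (π z) w := by
    intro z hz w
    obtain ⟨w, rfl⟩ := QuotientGroup.mk'_surjective (zpowers c) w
    have h1 : z * w = w * z := (mem_center_comm hz w).symm
    change π z * π w = π w * π z
    rw [← map_mul, ← map_mul, h1]
  have hZP : center G ≤ (P : Subgroup G) :=
    Cfsg.Agent.Lib.Basic.normal_pGroup_le_sylow inferInstance hZp P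
  have hP₀card := card_inf_normal (T := T) P
  have hZP₀ : center G ≤ (P : Subgroup G) ⊓ T := le_inf hZP hT.center_le
  have hrel : (center G).relIndex ((P : Subgroup G) ⊓ T) = m := by
    have h1 := Cfsg.Agent.Lib.Struct.card_inf_mul_relIndex (center G) ((P : Subgroup G) ⊓ T)
    rw [inf_eq_left.mpr hZP₀, hP₀card, ← hcZ] at h1
    exact Nat.eq_of_mul_eq_mul_left Nat.card_pos h1
  have hH : (P : Subgroup G) ⊓ T ≤ center G ⊔ zpowers a := by
    have hle : center G ⊔ zpowers a ≤ (P : Subgroup G) ⊓ T :=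
      sup_le hZP₀ (zpowers_le.mpr haN)
    have h1 := Subgroup.relIndex_mul_relIndex (center G) (center G ⊔ zpowers a)
      ((P : Subgroup G) ⊓ T) le_sup_left hle
    rw [hrel] at h1
    have h2 : (center G).relIndex (center G ⊔ zpowers a) ≠ 1 := by
      intro h3
      have h4 := Subgroup.relIndex_eq_one.mp h3
      exact haZ (h4 (mem_sup_right (mem_zpowers a)))
    have h3 : (center G ⊔ zpowers a).relIndex ((P : Subgroup G) ⊓ T) = 1 := by
      have h4 : (center G).relIndex (center G ⊔ zpowers a) ∣ m := Dvd.intro _ h1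
      rcases (Nat.dvd_prime hm.out).mp h4 with h5 | h5
      · exact absurd h5 h2
      · rw [h5] at h1
        exact Nat.eq_of_mul_eq_mul_left hm.out.pos (by rw [h1, mul_one])
    exact Subgroup.relIndex_eq_one.mp h3
  have hdec : ∀ x ∈ (P : Subgroup G), ∃ ζ ∈ center G, ∃ i j : ℤ, x = ζ * a ^ i * y ^ j := by
    intro x hx
    have h1 : x ∈ ((T ⊔ zpowers y : Subgroup G) : Set G) := by rw [htop]; trivial
    rw [Subgroup.normal_mul, Set.mem_mul] at h1
    obtain ⟨t, ht, yj, hyj, rfl⟩ := h1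
    obtain ⟨j, rfl⟩ := Subgroup.mem_zpowers_iff.mp hyj
    have ht' : t ∈ T := ht
    have htP : t ∈ (P : Subgroup G) := by
      have h2 := mul_mem hx (inv_mem (zpow_mem hyP j))
      simpa using h2
    have h3 : t ∈ ((center G ⊔ zpowers a : Subgroup G) : Set G) := hH ⟨htP, ht'⟩
    rw [Subgroup.normal_mul, Set.mem_mul] at h3
    obtain ⟨ζ, hζ, ai, hai, rfl⟩ := h3
    obtain ⟨i, rfl⟩ := Subgroup.mem_zpowers_iff.mp hai
    exact ⟨ζ, hζ, i, j, rfl⟩
  have hle : ⁅(P : Subgroup G), (P : Subgroup G)⁆ ≤ zpowers c := by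
    rw [Subgroup.commutator_le]
    intro x hx x' hx'
    obtain ⟨ζ, hζ, i, j, rfl⟩ := hdec x hx
    obtain ⟨ζ', hζ', i', j', rfl⟩ := hdec x' hx'
    apply (QuotientGroup.eq_one_iff _).mp
    change π _ = 1
    rw [map_commutatorElement, commutatorElement_eq_one_iff_mul_comm]
    simp only [map_mul, map_zpow]
    exact commute_of_decomp hπ (hzcomm ζ hζ) (hzcomm ζ' hζ') i j i' j'
  have hge : zpowers c ≤ ⁅(P : Subgroup G), (P : Subgroup G)⁆ := by
    rw [zpowers_le]
    have h1 := Subgroup.commutator_mem_commutator hyP haP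
    have h2 : ⁅y, a⁆ = c := by rw [commutatorElement_def]; exact hc'
    rwa [h2] at h1
  have heq : (commutator (P : Subgroup G)).map (P : Subgroup G).subtype = zpowers c := by
    rw [Subgroup.map_subtype_commutator]
    exact le_antisymm hle hge
  have h1 : Nat.card ((commutator (P : Subgroup G)).map (P : Subgroup G).subtype) =
      Nat.card (commutator (P : Subgroup G)) :=
    Subgroup.card_map_of_injective (P : Subgroup G).subtype_injective
  rw [← h1, heq, Nat.card_zpowers, hord]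

/-- The final structure. -/
theorem GoodT.final
    (hnodf : ∀ A B : Subgroup G, A.Normal → B.Normal → A ⊓ B = ⊥ → A ⊔ B = ⊤ →
      IsMulCommutative A → A = ⊥) :
    m.Prime ∧ m ∣ n - 1 ∧
    (∃ M : Subgroup G, M.Normal ∧
      (M : Set G) = {x : G | (centralizer ({x} : Set G)).index = 1 ∨
        (centralizer ({x} : Set G)).index = m} ∧ M.index = m ∧ IsMulCommutative M) ∧
    (∃ N : Subgroup G, N.Normal ∧ (Nat.card N).Coprime m ∧ ∃ a : ℕ, N.index = m ^ a) ∧
    ∀ P : Sylow m G, Nat.card (commutator (P : Subgroup G)) = m := by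
  have hmp := hT.m_prime hc
  haveI hm : Fact m.Prime := ⟨hmp⟩
  have hbot := hT.N_inf_center hc hnodf
  have hu : ¬ m ∣ ordCompl[m] (Nat.card T) := Nat.not_dvd_ordCompl hmp Nat.card_pos.ne'
  have hcardT : m ^ (Nat.card T).factorization m * ordCompl[m] (Nat.card T) = Nat.card T :=
    Nat.ordProj_mul_ordCompl_eq_self _ _
  set u := ordCompl[m] (Nat.card T) with hudef
  set v := (Nat.card T).factorization m with hvdef
  set N := torsionSub T hT.comm u with hN
  have hNT : N ≤ T := torsionSub_le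
  haveI hNn : N.Normal := torsionSub_normal
  have hpowT : ∀ t ∈ T, t ^ Nat.card T = 1 := fun t ht =>
    orderOf_dvd_iff_pow_eq_one.mp (Subgroup.orderOf_dvd_natCard T ht)
  have hZ : ∀ z ∈ center G, z ^ m ^ v = 1 := by
    intro z hz
    have h1 : z ^ m ^ v ∈ N ⊓ center G := by
      refine ⟨⟨pow_mem (hT.center_le hz) _, ?_⟩, pow_mem hz _⟩
      rw [← pow_mul, hcardT]
      exact hpowT z (hT.center_le hz)
    rw [hbot] at h1
    exact h1
  have hZp : IsPGroup m (center G) := fun z =>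
    ⟨v, Subtype.ext (hZ z z.2)⟩
  obtain ⟨c, hcZ⟩ := (IsPGroup.iff_card).mp hZp
  let R : Sylow m G := default
  obtain ⟨a, haN, ⟨y, hyR, hya⟩, -, -⟩ := hT.exists_a hc dvd_rfl R
  have haT : a ∈ T := haN.2
  have hyT : y ∉ T := fun h => hya (hT.comm y h a haT)
  have htop := sup_zpowers_eq_top hmp hT.idx hyT
  have hyci := hT.ci_not_mem hc hyT
  -- `|T| = |Z| m n`
  have hcTZ : Nat.card (center G) * (m * n) = Nat.card T := by
    have h1 := Cfsg.Agent.Lib.Struct.relIndex_eq_relIndex_sup T (ce y)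
    have h2 : T ⊔ ce y = ⊤ := by
      rw [eq_top_iff, ← htop]
      exact sup_le_sup_left (zpowers_le.mpr (self_mem_ce y)) T
    rw [h2, Subgroup.relIndex_top_right] at h1
    have h3 := Cfsg.Agent.Lib.Struct.card_inf_mul_relIndex (ce y) T
    have h4 : ce y ⊓ T = center G := by
      apply le_antisymm
      · rintro t ⟨ht1, ht2⟩
        by_contra htZ
        apply hyT
        rw [← hT.ce_eq t ht2 htZ]
        exact mem_ce_comm.mp ht1
      · intro z hz
        exact ⟨mem_ce.mpr (mem_center_comm hz y).symm, hT.center_le hz⟩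
    rw [h4, h1] at h3
    have h5 : (ce y).index = m * n := hyci
    rw [h5] at h3
    exact h3
  have hnu : c + 1 = v ∧ n = u := by
    apply pow_mul_inj hmp (hc.not_dvd_n hmp dvd_rfl) hu
    rw [hcardT, ← hcTZ, hcZ, pow_succ]
    ring
  -- `|T : N|` is a power of `m`
  have hrel : ∃ i : ℕ, N.relIndex T = m ^ i := by
    let ψ : T →* T := MonoidHom.mk' (fun t => t ^ u) (by
      intro a b
      have : Commute a b := Subtype.ext (hT.comm a a.2 b b.2)
      exact this.mul_pow u)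
    have hker : ψ.ker = N.subgroupOf T := by
      ext t
      rw [MonoidHom.mem_ker, mem_subgroupOf]
      constructor
      · intro h
        refine ⟨t.2, ?_⟩
        have := congrArg Subtype.val h
        simpa [ψ] using this
      · intro h
        apply Subtype.ext
        simpa [ψ] using h.2
    have hpg : IsPGroup m ψ.range := by
      rintro ⟨_, t, rfl⟩
      refine ⟨v, Subtype.ext (Subtype.ext ?_)⟩
      change ((t : G) ^ u) ^ m ^ v = 1
      rw [← pow_mul, mul_comm, hcardT]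
      exact hpowT t t.2
    obtain ⟨i, hi⟩ := (IsPGroup.iff_card).mp hpg
    refine ⟨i, ?_⟩
    rw [Subgroup.relIndex, ← hker, Subgroup.index_ker, hi]
  obtain ⟨i, hi⟩ := hrel
  have hcardN : ¬ m ∣ Nat.card N := by
    intro hd
    obtain ⟨w, hw⟩ := exists_prime_orderOf_dvd_card' m hd
    have h1 : orderOf (w : G) = m := by rw [Subgroup.orderOf_coe]; exact hw
    exact hu (h1 ▸ orderOf_dvd_of_pow_eq_one w.2.2)
  have hNu : Nat.card N = u := by
    have h1 := Cfsg.Agent.Lib.Struct.card_inf_mul_relIndex N T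
    rw [inf_eq_left.mpr hNT, hi, ← hcardT] at h1
    have h2 := pow_mul_inj hmp hcardN hu (a := i) (b := v) (by rw [mul_comm]; exact h1)
    exact h2.2
  refine ⟨hmp, ?_, ⟨T, hTn, ?_, hT.idx, ?_⟩, ⟨N, hNn, ?_, i + 1, ?_⟩, ?_⟩
  · -- `m ∣ n - 1`
    have h1 := card_modEq_conj (R : Subgroup G) N R.isPGroup' (fun g _ w hw => hNn.conj_mem w hw g)
    have h2 : Nat.card {w : N // ∀ g ∈ (R : Subgroup G), g * (w : G) * g⁻¹ = w} = 1 := by
      rw [Nat.card_eq_one_iff_unique]
      refine ⟨⟨?_⟩, ⟨⟨1, by simp⟩⟩⟩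
      rintro ⟨w, hw⟩ ⟨w', hw'⟩
      have key : ∀ w : N, (∀ g ∈ (R : Subgroup G), g * (w : G) * g⁻¹ = w) → w = 1 := by
        intro w hw
        have h3 : (w : G) ∈ center G := by
          by_contra hwZ
          apply hyT
          rw [← hT.ce_eq _ (hNT w.2) hwZ, mem_ce]
          calc y * (w : G) = (y * w * y⁻¹) * y := by group
            _ = w * y := by rw [hw y hyR]
        have h4 : (w : G) ∈ N ⊓ center G := ⟨w.2, h3⟩
        rw [hbot] at h4
        exact Subtype.ext h4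
      exact Subtype.ext ((key w hw).trans (key w' hw').symm)
    rw [h2, hNu, ← hnu.2] at h1
    exact (Nat.modEq_iff_dvd' (by have := hc.hn; omega)).mp h1.symm
  · ext x
    exact hT.mem_iff hc
  · exact ⟨⟨fun a b => Subtype.ext (hT.comm a a.2 b b.2)⟩⟩
  · exact (Nat.Prime.coprime_iff_not_dvd hmp).mpr hcardN |>.symm
  · have h1 := Subgroup.relIndex_mul_index hNT
    rw [hT.idx, hi] at h1
    rw [← h1, pow_succ]
  · intro P
    apply hT.commutator_card hc hZp
    rw [hcZ, ← pow_succ, hnu.1]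

end Good

end Cfsg.Agent.Lib.Struct.ClassSize
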