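import Mathlib
import Cfsg.Agent.Lib.Struct.ClassF

/-! Groups with class sizes `1, m, m n`: the exceptional case, part one. -/

set_option autoImplicit false

namespace Cfsg.Agent.Lib.Struct.ClassSize

open Subgroup Cfsg.Agent.Lib.PGroups
open scoped commutatorElement

variable {G : Type*} [Group G]

theorem dvd_of_primes {m i : ℕ} (hm : m ≠ 0) (hfac : ∀ r : ℕ, r.Prime → r ∣ m → m.factorization r ≤ 1)
    (h : ∀ r : ℕ, r.Prime → r ∣ m → r ∣ i) : m ∣ i := by
  by_cases hi : i = 0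
  · rw [hi]; exact dvd_zero _
  rw [← Nat.factorization_prime_le_iff_dvd hm hi]
  intro p hp
  by_cases hpm : p ∣ m
  · refine (hfac p hp hpm).trans ?_
    exact (hp.dvd_iff_one_le_factorization hi).mp (h p hp hpm)
  · rw [Nat.factorization_eq_zero_of_not_dvd hpm]; exact Nat.zero_le _

/-- The centre of a subgroup, as a subgroup of `G`. -/
def centerOf (E : Subgroup G) : Subgroup G := E ⊓ centralizer (E : Set G)

theorem centerOf_comm (E : Subgroup G) : ∀ a ∈ centerOf E, ∀ b ∈ centerOf E, a * b = b * a := by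
  rintro a ⟨ha, -⟩ b ⟨-, hb⟩
  exact mem_centralizer_iff.mp hb a ha

/-- The elements of the centre of `E` of `t`-power order. -/
noncomputable def YY (E : Subgroup G) (t : ℕ) : Subgroup G :=
  torsionSub (centerOf E) (centerOf_comm E) (t ^ (Nat.card G).factorization t)

theorem mem_YY {E : Subgroup G} {t : ℕ} {y : G} : y ∈ YY E t ↔
    y ∈ E ∧ (∀ e ∈ E, e * y = y * e) ∧ y ^ t ^ (Nat.card G).factorization t = 1 := by
  constructor
  · rintro ⟨⟨h1, h2⟩, h3⟩
    exact ⟨h1, fun e he => mem_centralizer_iff.mp h2 e he, h3⟩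
  · rintro ⟨h1, h2, h3⟩
    exact ⟨⟨h1, mem_centralizer_iff.mpr h2⟩, h3⟩

theorem YY_le (E : Subgroup G) (t : ℕ) : YY E t ≤ E := fun _ h => (mem_YY.mp h).1

theorem YY_isPGroup (E : Subgroup G) (t : ℕ) : IsPGroup t (YY E t) := by
  intro y
  refine ⟨(Nat.card G).factorization t, Subtype.ext ?_⟩
  exact (mem_YY.mp y.2).2.2

theorem YY_comm (E : Subgroup G) (t : ℕ) : ∀ a ∈ YY E t, ∀ b ∈ YY E t, a * b = b * a := by
  intro a ha b hb
  exact (mem_YY.mp hb).2.1 a (mem_YY.mp ha).1 |>.symm ▸ rfl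

theorem YY_conj {E : Subgroup G} {t : ℕ} {g y : G} (hg : ∀ e ∈ E, g * e * g⁻¹ ∈ E)
    (hg' : ∀ e ∈ E, g⁻¹ * e * g ∈ E) (hy : y ∈ YY E t) : g * y * g⁻¹ ∈ YY E t := by
  obtain ⟨h1, h2, h3⟩ := mem_YY.mp hy
  refine mem_YY.mpr ⟨hg y h1, ?_, ?_⟩
  · intro e he
    have h4 := h2 _ (hg' e he)
    calc e * (g * y * g⁻¹) = g * ((g⁻¹ * e * g) * y) * g⁻¹ := by group
      _ = g * (y * (g⁻¹ * e * g)) * g⁻¹ := by rw [h4]
      _ = g * y * g⁻¹ * e := by group
  · rw [conj_pow, h3, mul_one, mul_inv_cancel]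

variable [Finite G]

theorem pow_fact_eq_one {t : ℕ} (ht : t.Prime) {c : G} (hc : PE t c) :
    c ^ t ^ (Nat.card G).factorization t = 1 := by
  obtain ⟨k, hk⟩ := hc
  rw [← orderOf_dvd_iff_pow_eq_one, hk]
  have h1 : t ^ k ∣ Nat.card G := hk ▸ orderOf_dvd_natCard c
  exact pow_dvd_pow t ((Nat.Prime.pow_dvd_iff_le_factorization ht Nat.card_pos.ne').mp h1)

theorem mem_YY_of {E : Subgroup G} {t : ℕ} (ht : t.Prime) {c : G} (hc : PE t c) (hcE : c ∈ E)
    (hE : E ≤ ce c) : c ∈ YY E t :=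
  mem_YY.mpr ⟨hcE, fun _ he => mem_ce.mp (hE he), pow_fact_eq_one ht hc⟩

theorem PE_of_mem_YY {E : Subgroup G} {t : ℕ} [Fact t.Prime] {y : G} (hy : y ∈ YY E t) : PE t y :=
  PE.of_mem (YY_isPGroup E t) hy

/-- Conjugating a `t`-element with class size prime to `t` into the centre of a given Sylow. -/
theorem exists_conj_central {t : ℕ} [ht : Fact t.Prime] {x : G} (hx : PE t x) (h : ¬ t ∣ ci x)
    (Q : Sylow t G) : ∃ k : G, k⁻¹ * x * k ∈ (Q : Subgroup G) ∧
      ∀ w ∈ (Q : Subgroup G), w * (k⁻¹ * x * k) = (k⁻¹ * x * k) * w := by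
  obtain ⟨S, hS⟩ := exists_sylow_le_of_not_dvd (ce x) h
  have hxS := mem_sylow_of_le_ce hx S hS
  obtain ⟨k, hk⟩ := exists_conj_sylow Q S
  refine ⟨k, (hk x).mp hxS, ?_⟩
  intro w hw
  have hw' : k * w * k⁻¹ ∈ (S : Subgroup G) := by
    rw [hk]
    have : k⁻¹ * (k * w * k⁻¹) * k = w := by group
    rw [this]; exact hw
  have h2 := mem_ce.mp (hS hw')
  calc w * (k⁻¹ * x * k) = k⁻¹ * ((k * w * k⁻¹) * x) * k := by group
    _ = k⁻¹ * (x * (k * w * k⁻¹)) * k := by rw [h2]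
    _ = (k⁻¹ * x * k) * w := by group

/-- A subgroup normalized by a Sylow subgroup meets it in a Sylow subgroup. -/
theorem card_inf_of_normalizes {r : ℕ} [hr : Fact r.Prime] (R : Sylow r G) (E : Subgroup G)
    (hE : ∀ g ∈ (R : Subgroup G), ∀ e ∈ E, g * e * g⁻¹ ∈ E) :
    Nat.card ((R : Subgroup G) ⊓ E : Subgroup G) = r ^ (Nat.card E).factorization r := by
  have hRN : (R : Subgroup G) ≤ normalizer (E : Set G) := fun g hg =>
    mem_normalizer_of_conj_le' E g (fun w hw => hE g hg w hw)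
  have hEN : E ≤ normalizer (E : Set G) := le_normalizer
  haveI hn : (E.subgroupOf (normalizer (E : Set G))).Normal := Subgroup.normal_in_normalizer
  have h1 := Cfsg.Agent.Lib.Struct.relIndex_eq_relIndex_sup (E.subgroupOf (normalizer (E : Set G)))
    ((R : Subgroup G).subgroupOf (normalizer (E : Set G)))
  rw [Subgroup.relIndex_subgroupOf hEN] at h1
  have h2 : ((R : Subgroup G).subgroupOf (normalizer (E : Set G))).relIndex
      (E.subgroupOf (normalizer (E : Set G)) ⊔ (R : Subgroup G).subgroupOf (normalizer (E : Set G))) ∣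
      ((R : Subgroup G).subgroupOf (normalizer (E : Set G))).index :=
    Subgroup.relIndex_dvd_index_of_le le_sup_right
  have h3 : ((R : Subgroup G).subgroupOf (normalizer (E : Set G))).index ∣ (R : Subgroup G).index :=
    Subgroup.relIndex_dvd_index_of_le hRN
  have h4 : ¬ r ∣ (R : Subgroup G).relIndex E := by
    rw [h1]
    intro hd
    exact R.not_dvd_index (hd.trans (h2.trans h3))
  have h5 := Cfsg.Agent.Lib.Struct.card_inf_mul_relIndex (R : Subgroup G) E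
  obtain ⟨k, hk⟩ := (IsPGroup.iff_card).mp
    (R.isPGroup'.to_le (inf_le_left : (R : Subgroup G) ⊓ E ≤ R))
  rw [hk] at h5 ⊢
  have h6 : (Nat.card E).factorization r = k := by
    rw [← h5, Nat.factorization_mul (pow_ne_zero _ hr.out.ne_zero)
      (fun h0 => h4 (by rw [h0]; exact dvd_zero r))]
    simp [hr.out.factorization_pow, Nat.factorization_eq_zero_of_not_dvd h4]
  rw [h6]

section EX

variable {m n t : ℕ} [ht : Fact t.Prime] (hc : CS G m n)
  (hall : ∀ q : ℕ, q.Prime → q ∣ n → q = t) (htm : ¬ t ∣ m)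
  (hx : ∃ x : G, PE t x ∧ ci x = m)
  (hr : ∀ r : ℕ, r.Prime → r ∣ m → ∀ f : G, PE r f → ci f ≠ m)

include hc hall in
theorem ex_t_dvd_n : t ∣ n := by
  obtain ⟨q, hq, hqn⟩ := hc.exists_prime_n
  rwa [hall q hq hqn] at hqn

include hc hall in
theorem ex_n_eq : n = t ^ n.primeFactorsList.length :=
  Nat.eq_prime_pow_of_unique_prime_dvd (by have := hc.hn; omega)
    (fun {d} hd hdn => hall d hd hdn)

include hc htm in
/-- The `t`-part of a centralizer of class size `m n`. -/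
theorem ex_fact {H : Subgroup G} (hH : H.index = m * n) :
    (Nat.card H).factorization t + n.factorization t = (Nat.card G).factorization t := by
  have h1 := fact_card_add_index H t
  have hm0 : m ≠ 0 := by have := hc.hm; omega
  have hn0 : n ≠ 0 := by have := hc.hn; omega
  rw [hH, Nat.factorization_mul hm0 hn0] at h1
  simpa [Nat.factorization_eq_zero_of_not_dvd htm] using h1

include hc hr in
theorem ex_ci_r {r : ℕ} (hr' : r.Prime) (hrm : r ∣ m) {f : G} (hf : PE r f) (hfZ : f ∉ center G) :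
    ci f = m * n :=
  (hc.ci_noncentral hfZ).resolve_left (hr r hr' hrm f hf)

include hc hall htm hx hr in
/-- The numerical consequence of the existence of `x`. -/
theorem ex_num : (Nat.card (center G)).factorization t + n.factorization t <
    (Nat.card G).factorization t := by
  obtain ⟨x, hxt, hxm⟩ := hx
  obtain ⟨r, hr', hrm⟩ := hc.exists_prime_m
  haveI : Fact r.Prime := ⟨hr'⟩
  have hrt : r ≠ t := fun h => htm (h ▸ hrm)
  obtain ⟨S, hSH, hS, ⟨f, hfS, hfZ⟩, _⟩ := hc.exists_noncentral_pe hrm (ce x) (Or.inl hxm)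
  have hfPE : PE r f := PE.of_mem hS hfS
  have hfT : f ∈ ce x := hSH hfS
  have hfci := ex_ci_r hc hr hr' hrm hfPE hfZ
  have hxf : x ∈ ce f := mem_ce_comm.mp hfT
  have hfx : ce f ≤ ce x := hc.L1 hfci hxf (PE.coprime hr' ht.out hrt hfPE hxt)
  have hxY : x ∈ YY (ce f) t := mem_YY_of ht.out hxt hxf hfx
  obtain ⟨Zt, hZt, hZtp, hZc⟩ := exists_pSub (center G) t
  have hZtY : Zt ≤ YY (ce f) t := by
    intro z hz
    have hzZ := hZt hz
    refine mem_YY_of ht.out (PE.of_mem hZtp hz) (mem_ce.mpr (mem_center_comm hzZ f).symm) ?_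
    intro g _
    exact mem_ce.mpr (mem_center_comm hzZ g)
  have hxZ : x ∉ center G := by
    intro h
    have h1 := ci_eq_one_iff.mpr h
    have := hc.hm
    omega
  have h1 : Nat.card Zt < Nat.card (YY (ce f) t) :=
    card_lt_of_mem hZtY hxY (fun h => hxZ (hZt h))
  have h2 := card_pSub_le (YY_isPGroup (ce f) t) (YY_le (ce f) t)
  have h3 : t ^ (Nat.card (center G)).factorization t < t ^ (Nat.card (ce f)).factorization t := by
    rw [← hZc]; omega
  have h4 := (Nat.pow_lt_pow_iff_right ht.out.one_lt).mp h3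
  have h5 := ex_fact hc htm (H := ce f) hfci
  omega

include hc hall htm hx hr in
/-- No `t`-element has class size `m n`. -/
theorem ex_no_mn {c₁ : G} (hc₁ : PE t c₁) : ci c₁ ≠ m * n := by
  intro hci
  have hnum := ex_num hc hall htm hx hr
  obtain ⟨r, hr', hrm⟩ := hc.exists_prime_m
  haveI : Fact r.Prime := ⟨hr'⟩
  have hrt : r ≠ t := fun h => htm (h ▸ hrm)
  obtain ⟨S', hS'H, hS', ⟨f, hfS, hfZ⟩, _⟩ := hc.exists_noncentral_pe hrm (ce c₁) (Or.inr hci)
  have hfPE : PE r f := PE.of_mem hS' hfS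
  have hfci := ex_ci_r hc hr hr' hrm hfPE hfZ
  have hc₁f : c₁ ∈ ce f := mem_ce_comm.mp (hS'H hfS)
  have hle : ce f ≤ ce c₁ := hc.L1 hfci hc₁f (PE.coprime hr' ht.out hrt hfPE hc₁)
  have hc₁Y : c₁ ∈ YY (ce f) t := mem_YY_of ht.out hc₁ hc₁f hle
  obtain ⟨Q, hQ⟩ := (YY_isPGroup (ce f) t).exists_le_sylow
  have hc₁Q : c₁ ∈ (Q : Subgroup G) := hQ hc₁Y
  have hV : ∀ v ∈ (Q : Subgroup G), (∀ w ∈ (Q : Subgroup G), w * v = v * w) → ce f ≤ ce v := by
    intro v hv hcv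
    have h1 : v ∈ ce c₁ := mem_ce.mpr (hcv c₁ hc₁Q).symm
    have h2 : v ∈ ce f := (le_of_index_eq hle (hfci.trans hci.symm)) h1
    exact hc.L1 hfci h2 (PE.coprime hr' ht.out hrt hfPE (PE.of_mem Q.isPGroup' hv))
  obtain ⟨x₀, hx₀t, hx₀m⟩ := hx
  have hx₀i : ¬ t ∣ ci x₀ := by rw [hx₀m]; exact htm
  obtain ⟨k₀, hk₀Q, hk₀c⟩ := exists_conj_central hx₀t hx₀i Q
  generalize hx' : k₀⁻¹ * x₀ * k₀ = x' at hk₀Q hk₀c
  have hx'm : ci x' = m := by rw [← hx', ci_conj_inv]; exact hx₀m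
  have hx'PE : PE t x' := PE.of_mem Q.isPGroup' hk₀Q
  -- `T = ce x'`
  have hnpow := ex_n_eq hc hall
  have hTV : ∀ v ∈ (Q : Subgroup G), (∀ w ∈ (Q : Subgroup G), w * v = v * w) → ce x' ≤ ce v := by
    intro v hv hcv
    have hHT : ce f ⊔ (Q : Subgroup G) ≤ ce x' :=
      sup_le (hV x' hk₀Q hk₀c) (fun w hw => mem_ce.mpr (hk₀c w hw))
    have hHv : ce f ⊔ (Q : Subgroup G) ≤ ce v :=
      sup_le (hV v hv hcv) (fun w hw => mem_ce.mpr (hcv w hw))
    have h1 : (ce f ⊔ (Q : Subgroup G)).index ∣ m * n :=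
      hfci ▸ Subgroup.index_dvd_of_le le_sup_left
    have h2 : ¬ t ∣ (ce f ⊔ (Q : Subgroup G)).index :=
      Cfsg.Agent.Lib.Struct.not_dvd_index_of_sylow_le Q le_sup_right
    have h3 : (ce f ⊔ (Q : Subgroup G)).index.Coprime n := by
      rw [hnpow]
      exact Nat.Coprime.pow_right _ ((Nat.Prime.coprime_iff_not_dvd ht.out).mpr h2).symm
    have h4 : (ce f ⊔ (Q : Subgroup G)).index ∣ m := h3.dvd_of_dvd_mul_right h1
    have h5 : m ∣ (ce f ⊔ (Q : Subgroup G)).index := hx'm ▸ Subgroup.index_dvd_of_le hHT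
    have h6 : (ce f ⊔ (Q : Subgroup G)).index = (ce x').index :=
      (Nat.dvd_antisymm h4 h5).trans hx'm.symm
    exact (le_of_index_eq hHT h6).trans hHv
  have hcover : ∀ g : G, ∃ h : G, h⁻¹ * g * h ∈ ce x' := by
    intro g
    obtain ⟨k, hk⟩ := exists_conj_sylow_inf Q g
    have hex : ∃ v ∈ (Q : Subgroup G) ⊓ ce (k⁻¹ * g * k), v ∉ center G := by
      by_contra hall'
      push Not at hall'
      have h1 := card_pSub_le (Q.isPGroup'.to_le
        (inf_le_left : (Q : Subgroup G) ⊓ ce (k⁻¹ * g * k) ≤ Q))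
        (show (Q : Subgroup G) ⊓ ce (k⁻¹ * g * k) ≤ center G from hall')
      have h2 := hc.fact_le t g (H := ce c₁) hci
      have h3 := ex_fact hc htm (H := ce c₁) hci
      have h4 : t ^ (Nat.card (ce g)).factorization t ≤ t ^ (Nat.card (center G)).factorization t :=
        hk.trans h1
      have h5 := (Nat.pow_le_pow_iff_right ht.out.one_lt).mp h4
      omega
    obtain ⟨v, hvD, hvZ⟩ := hex
    have hvQ : v ∈ (Q : Subgroup G) := hvD.1
    have hvg : k⁻¹ * g * k ∈ ce v := mem_ce_comm.mp hvD.2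
    have hvPE : PE t v := PE.of_mem Q.isPGroup' hvQ
    rcases hc.ci_noncentral hvZ with h1 | h1
    · obtain ⟨k₁, hk₁Q, hk₁c⟩ := exists_conj_central hvPE (by rw [h1]; exact htm) Q
      have h2 := hTV _ hk₁Q hk₁c
      have hci1 : ci (k₁⁻¹ * v * k₁) = m := by rw [ci_conj_inv]; exact h1
      have h3 : ce (k₁⁻¹ * v * k₁) ≤ ce x' := le_of_index_eq h2 (hx'm.trans hci1.symm)
      refine ⟨k * k₁, ?_⟩
      have h4 := h3 (conj_mem_ce (k := k₁) hvg)
      have h5 : (k * k₁)⁻¹ * g * (k * k₁) = k₁⁻¹ * (k⁻¹ * g * k) * k₁ := by group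
      rw [h5]
      exact h4
    · obtain ⟨g₁, g₂, hgg, -, hg₁, hg₂, hg₁z, hg₂z⟩ := exists_pPart t (k⁻¹ * g * k)
      have hzv : zpowers (k⁻¹ * g * k) ≤ ce v := zpowers_le.mpr hvg
      have hg₁v : g₁ ∈ ce v := hzv hg₁z
      have hg₂v : g₂ ∈ ce v := hzv hg₂z
      have hcomm : ∀ a ∈ ({v, g₁} : Set G), ∀ b ∈ ({v, g₁} : Set G), a * b = b * a := by
        rintro a (rfl | rfl) b (rfl | rfl)
        · rfl
        · exact (mem_ce.mp hg₁v).symm
        · exact mem_ce.mp hg₁v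
        · rfl
      have hp : ∀ a ∈ ({v, g₁} : Set G), ∃ j : ℕ, a ^ t ^ j = 1 := by
        rintro a (rfl | rfl)
        · exact hvPE.pow_pow_eq_one
        · exact PE.pow_pow_eq_one hg₁
      obtain ⟨Q'', hQ''⟩ := (isPGroup_closure_of_commute hcomm hp).exists_le_sylow
      obtain ⟨k₂, hk₂⟩ := exists_conj_sylow Q Q''
      have hzQ : k₂ * x' * k₂⁻¹ ∈ (Q'' : Subgroup G) := by
        rw [hk₂]
        have : k₂⁻¹ * (k₂ * x' * k₂⁻¹) * k₂ = x' := by group
        rw [this]; exact hk₀Q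
      have hzc : ∀ w ∈ (Q'' : Subgroup G), w * (k₂ * x' * k₂⁻¹) = (k₂ * x' * k₂⁻¹) * w := by
        intro w hw
        have h2 := hk₀c _ ((hk₂ w).mp hw)
        calc w * (k₂ * x' * k₂⁻¹) = k₂ * ((k₂⁻¹ * w * k₂) * x') * k₂⁻¹ := by group
          _ = k₂ * (x' * (k₂⁻¹ * w * k₂)) * k₂⁻¹ := by rw [h2]
          _ = (k₂ * x' * k₂⁻¹) * w := by group
      have hvQ'' : v ∈ (Q'' : Subgroup G) := hQ'' (subset_closure (Or.inl rfl))
      have hg₁Q'' : g₁ ∈ (Q'' : Subgroup G) := hQ'' (subset_closure (Or.inr rfl))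
      have hzv' : k₂ * x' * k₂⁻¹ ∈ ce v := mem_ce.mpr (hzc v hvQ'').symm
      have hg₂c : (orderOf v).Coprime (orderOf g₂) := PE.coprime' ht.out hvPE hg₂
      have hzg₂ : k₂ * x' * k₂⁻¹ ∈ ce g₂ := (hc.L1 h1 hg₂v hg₂c) hzv'
      have hmem : k⁻¹ * g * k ∈ ce (k₂ * x' * k₂⁻¹) := by
        rw [hgg]
        exact mul_mem (mem_ce.mpr (hzc g₁ hg₁Q'')) (mem_ce_comm.mp hzg₂)
      rw [mem_ce_conj] at hmem
      refine ⟨k * k₂, ?_⟩
      have h5 : (k * k₂)⁻¹ * g * (k * k₂) = k₂⁻¹ * (k⁻¹ * g * k) * k₂ := by group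
      rw [h5]
      exact hmem
  have hTne : ce x' ≠ ⊤ := by
    intro h
    have h1 : (ce x').index = 1 := by rw [h]; exact Subgroup.index_top
    have h2 : ci x' = 1 := h1
    have := hc.hm
    omega
  obtain ⟨g, hg⟩ := exists_not_mem_conj (ce x') hTne
  obtain ⟨h, hh⟩ := hcover g
  exact hg h hh

end EX

end Cfsg.Agent.Lib.Struct.ClassSize
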