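import Mathlib
import Cfsg.Agent.Lib.Struct.ClassG

/-! Groups with class sizes `1, m, m n`: the exceptional case, part two. -/

set_option autoImplicit false

namespace Cfsg.Agent.Lib.Struct.ClassSize

open Subgroup Cfsg.Agent.Lib.PGroups
open scoped commutatorElement

variable {G : Type*} [Group G]

theorem normalizes_of_central {R : Subgroup G} {f : G}
    (hcZ : ∀ g ∈ R, g * f * g⁻¹ * f⁻¹ ∈ center G) : ∀ g ∈ R, ∀ e ∈ ce f, g * e * g⁻¹ ∈ ce f := by
  intro g hg e he
  have hc := hcZ g hg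
  generalize hc' : g * f * g⁻¹ * f⁻¹ = c at hc
  have h1 : g * f * g⁻¹ = c * f := by rw [← hc']; group
  rw [mem_ce]
  have h2 : f = c⁻¹ * (g * f * g⁻¹) := by rw [h1]; group
  have hef : e * f = f * e := mem_ce.mp he
  have h3 : (g * e * g⁻¹) * (g * f * g⁻¹) = (g * f * g⁻¹) * (g * e * g⁻¹) := by
    calc (g * e * g⁻¹) * (g * f * g⁻¹) = g * (e * f) * g⁻¹ := by group
      _ = g * (f * e) * g⁻¹ := by rw [hef]
      _ = (g * f * g⁻¹) * (g * e * g⁻¹) := by group
  have hcz : ∀ y : G, y * c⁻¹ = c⁻¹ * y := fun y => mem_center_comm (inv_mem hc) y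
  calc (g * e * g⁻¹) * f = (g * e * g⁻¹) * (c⁻¹ * (g * f * g⁻¹)) := by rw [← h2]
    _ = c⁻¹ * ((g * e * g⁻¹) * (g * f * g⁻¹)) := by rw [← mul_assoc, hcz, mul_assoc]
    _ = c⁻¹ * ((g * f * g⁻¹) * (g * e * g⁻¹)) := by rw [h3]
    _ = (c⁻¹ * (g * f * g⁻¹)) * (g * e * g⁻¹) := (mul_assoc _ _ _).symm
    _ = f * (g * e * g⁻¹) := by rw [← h2]

variable [Finite G]

section EX

variable {m n t : ℕ} [ht : Fact t.Prime] (hc : CS G m n)
  (hall : ∀ q : ℕ, q.Prime → q ∣ n → q = t) (htm : ¬ t ∣ m)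
  (hx : ∃ x : G, PE t x ∧ ci x = m)
  (hr : ∀ r : ℕ, r.Prime → r ∣ m → ∀ f : G, PE r f → ci f ≠ m)

include hc hall htm hx hr

theorem ex_YY_noncentral {r : ℕ} (hr' : r.Prime) (hrm : r ∣ m) {f : G} (hf : PE r f)
    (hfci : ci f = m * n) : ∃ y ∈ YY (ce f) t, y ∉ center G := by
  have hrt : r ≠ t := fun h => htm (h ▸ hrm)
  have hnum := ex_num hc hall htm hx hr
  obtain ⟨S, hSH, hS, hScard⟩ := exists_pSub (ce f) t
  have hSY : S ≤ YY (ce f) t := by
    intro s hs
    have hsPE := PE.of_mem hS hs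
    exact mem_YY_of ht.out hsPE (hSH hs) (hc.L1 hfci (hSH hs) (PE.coprime hr' ht.out hrt hf hsPE))
  have hex : ∃ s ∈ S, s ∉ center G := by
    by_contra hall'
    push Not at hall'
    have h1 := card_pSub_le hS (show S ≤ center G from hall')
    rw [hScard] at h1
    have h2 := (Nat.pow_le_pow_iff_right ht.out.one_lt).mp h1
    have h3 := ex_fact hc htm (H := ce f) hfci
    omega
  obtain ⟨s, hs, hsZ⟩ := hex
  exact ⟨s, hSY hs, hsZ⟩

/-- The prime `r` divides `m` exactly once. -/
theorem ex_fact_m {r : ℕ} (hr' : r.Prime) (hrm : r ∣ m) : m.factorization r = 1 := by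
  haveI : Fact r.Prime := ⟨hr'⟩
  have hrt : r ≠ t := fun h => htm (h ▸ hrm)
  let R : Sylow r G := default
  have hex : ∃ a ∈ (R : Subgroup G), ∃ g ∈ (R : Subgroup G), g * a ≠ a * g := by
    obtain ⟨x, hx'⟩ := hc.exm
    by_contra hall'
    push Not at hall'
    have h1 : (R : Subgroup G) ≤ ce x := fun a ha => by
      have h2 : a ∈ center G :=
        hc.central_of_sylow_le hrm R (fun g hg => mem_ce.mpr (hall' a ha g hg))
      exact mem_ce.mpr (mem_center_comm h2 x).symm
    exact Cfsg.Agent.Lib.Struct.not_dvd_index_of_sylow_le R h1 (by rw [← ci, hx']; exact hrm)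
  obtain ⟨f, hfR, hnc, hcent, hpow⟩ := exists_central_mod (R : Subgroup G) R R.isPGroup' le_rfl
    (fun g hg a ha => mul_mem (mul_mem hg ha) (inv_mem hg)) hex
  have hfZ : f ∉ center G := by
    obtain ⟨g, _, hg⟩ := hnc
    exact fun h => hg (mem_center_comm h g)
  have hfPE : PE r f := PE.of_mem R.isPGroup' hfR
  have hfci := ex_ci_r hc hr hr' hrm hfPE hfZ
  have hcZ : ∀ g ∈ (R : Subgroup G), g * f * g⁻¹ * f⁻¹ ∈ center G := fun g hg =>
    hc.central_of_sylow_le hrm R (fun h hh => mem_ce.mpr (hcent g hg h hh).symm)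
  have hEn := normalizes_of_central hcZ
  have hcardU := card_inf_of_normalizes R (ce f) hEn
  have key := rank_one (r := r) (R : Subgroup G) (YY (ce f) t) hfR hcent hpow hnc (YY_comm _ _)
    (by
      intro y hy hd
      obtain ⟨k, hk⟩ := PE_of_mem_YY hy
      rw [hk] at hd
      exact hrt ((Nat.prime_dvd_prime_iff_eq hr' ht.out).mp (hr'.dvd_of_dvd_pow hd)))
    (by
      intro g hg y hy
      apply YY_conj (hEn g hg) _ hy
      have := hEn g⁻¹ (inv_mem hg)
      simpa using this)
    (by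
      intro u _ hu y hy
      exact (mem_YY.mp hy).2.1 u hu)
    (by
      intro g hg hgf y hy hgy
      by_contra hyZ
      have hyPE := PE_of_mem_YY hy
      have hyci : ci y = m := (hc.ci_noncentral hyZ).resolve_right (ex_no_mn hc hall htm hx hr hyPE)
      have hle : (R : Subgroup G) ⊓ ce f ≤ (R : Subgroup G) ⊓ ce y :=
        inf_le_inf_left _ (fun u hu => mem_ce.mpr ((mem_YY.mp hy).2.1 u hu))
      have h1 : Nat.card ((R : Subgroup G) ⊓ ce f : Subgroup G) <
          Nat.card ((R : Subgroup G) ⊓ ce y : Subgroup G) :=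
        card_lt_of_mem hle ⟨hg, mem_ce.mpr hgy⟩ (fun h => hgf h.2)
      have h2 := card_pSub_le (R.isPGroup'.to_le (inf_le_left : (R : Subgroup G) ⊓ ce y ≤ R))
        (inf_le_right : (R : Subgroup G) ⊓ ce y ≤ ce y)
      have h3 := hc.fact_ce hr' hrm hfZ
      have h4 := hc.fact_ce hr' hrm hyZ
      have h5 : (Nat.card (ce y)).factorization r = (Nat.card (ce f)).factorization r := by omega
      rw [h5, ← hcardU] at h2
      omega)
    (ex_YY_noncentral hc hall htm hx hr hr' hrm hfPE hfci)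
  have h1 := Cfsg.Agent.Lib.Struct.card_inf_mul_relIndex (ce f) (R : Subgroup G)
  rw [key, inf_comm, hcardU, R.card_eq_multiplicity, ← pow_succ] at h1
  have h2 := Nat.pow_right_injective hr'.two_le h1
  have h3 := hc.fact_ce hr' hrm hfZ
  omega

/-- Every `t`-element lies in every Sylow `t`-subgroup. -/
theorem ex_mem_sylow {x : G} (hxt : PE t x) (Q : Sylow t G) : x ∈ (Q : Subgroup G) := by
  by_cases hxZ : x ∈ center G
  · exact mem_sylow_of_le_ce hxt Q (fun w _ => mem_ce.mpr (mem_center_comm hxZ w))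
  have hxm : ci x = m := (hc.ci_noncentral hxZ).resolve_right (ex_no_mn hc hall htm hx hr hxt)
  obtain ⟨r, hr', hrm⟩ := hc.exists_prime_m
  haveI : Fact r.Prime := ⟨hr'⟩
  have hrt : r ≠ t := fun h => htm (h ▸ hrm)
  have hm1 := ex_fact_m hc hall htm hx hr hr' hrm
  obtain ⟨S, hSH, hS, ⟨a₀, ha₀S, ha₀Z⟩, hScard⟩ := hc.exists_noncentral_pe hrm (ce x) (Or.inl hxm)
  obtain ⟨R, hSR⟩ := hS.exists_le_sylow
  have hR₀card : Nat.card ((R : Subgroup G) ⊓ ce x : Subgroup G) =
      r ^ (Nat.card (ce x)).factorization r := by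
    apply le_antisymm
    · exact card_pSub_le (R.isPGroup'.to_le inf_le_left) inf_le_right
    · rw [← hScard]
      exact Subgroup.card_le_of_le (le_inf hSR hSH)
  have hvT := hc.fact_ce hr' hrm hxZ
  rw [hm1] at hvT
  have hcardR : Nat.card (R : Subgroup G) = r ^ ((Nat.card (ce x)).factorization r + 1) := by
    rw [R.card_eq_multiplicity, hvT]
  have hrel : (ce x).relIndex (R : Subgroup G) = r := by
    have h1 := Cfsg.Agent.Lib.Struct.card_inf_mul_relIndex (ce x) (R : Subgroup G)
    rw [inf_comm, hR₀card, hcardR, pow_succ] at h1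
    exact Nat.eq_of_mul_eq_mul_left (pow_pos hr'.pos _) h1
  haveI hnormal : ((ce x).subgroupOf (R : Subgroup G)).Normal := by
    apply Subgroup.normal_of_index_eq_minFac_card
    rw [hcardR, Nat.Prime.pow_minFac hr' (by omega)]
    exact hrel
  have hNorm : ∀ g ∈ (R : Subgroup G), ∀ a ∈ (R : Subgroup G) ⊓ ce x,
      g * a * g⁻¹ ∈ (R : Subgroup G) ⊓ ce x := by
    intro g hg a ha
    have h1 := hnormal.conj_mem ⟨a, ha.1⟩ (mem_subgroupOf.mpr ha.2) ⟨g, hg⟩
    exact Subgroup.mem_inf.mpr ⟨mul_mem (mul_mem hg ha.1) (inv_mem hg), mem_subgroupOf.mp h1⟩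
  have hg₁ : ∃ g ∈ (R : Subgroup G), g * a₀ ≠ a₀ * g := by
    by_contra hall'
    push Not at hall'
    exact ha₀Z (hc.central_of_sylow_le hrm R (fun g hg => mem_ce.mpr (hall' g hg)))
  obtain ⟨g₁, hg₁, hg₁a⟩ := hg₁
  obtain ⟨f, hfN, hnc, hcent, hpow⟩ := exists_central_mod (R : Subgroup G) ((R : Subgroup G) ⊓ ce x)
    R.isPGroup' inf_le_left hNorm ⟨a₀, ⟨hSR ha₀S, hSH ha₀S⟩, g₁, hg₁, hg₁a⟩
  have hfR : f ∈ (R : Subgroup G) := hfN.1
  have hfT : f ∈ ce x := hfN.2
  have hfZ : f ∉ center G := by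
    obtain ⟨g, _, hg⟩ := hnc
    exact fun h => hg (mem_center_comm h g)
  have hfPE : PE r f := PE.of_mem R.isPGroup' hfR
  have hfci := ex_ci_r hc hr hr' hrm hfPE hfZ
  have hxf : x ∈ ce f := mem_ce_comm.mp hfT
  have hfx : ce f ≤ ce x := hc.L1 hfci hxf (PE.coprime hr' ht.out hrt hfPE hxt)
  have hcZ : ∀ g ∈ (R : Subgroup G), g * f * g⁻¹ * f⁻¹ ∈ center G := fun g hg =>
    hc.central_of_sylow_le hrm R (fun h hh => mem_ce.mpr (hcent g hg h hh).symm)
  have hEn := normalizes_of_central hcZ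
  have hRN : (R : Subgroup G) ≤ normalizer (ce f : Set G) := fun g hg =>
    mem_normalizer_of_conj_le' (ce f) g (fun w hw => hEn g hg w hw)
  have hxY : x ∈ YY (ce f) t := mem_YY_of ht.out hxt hxf hfx
  have hvN : ∀ s : ℕ, s.Prime → s ∣ m → (Nat.card G).factorization s ≤
      (Nat.card (normalizer (ce f : Set G))).factorization s := by
    intro s hs hsm
    haveI : Fact s.Prime := ⟨hs⟩
    by_cases hsr : s = r
    · subst hsr
      have h1 := Subgroup.card_dvd_of_le hRN
      rw [R.card_eq_multiplicity] at h1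
      exact (Nat.Prime.pow_dvd_iff_le_factorization hs Nat.card_pos.ne').mp h1
    · obtain ⟨S₁, hS₁H, hS₁, ⟨e₀, he₀S, he₀Z⟩, hS₁card⟩ :=
        hc.exists_noncentral_pe hsm (ce f) (Or.inr hfci)
      obtain ⟨P, hS₁P⟩ := hS₁.exists_le_sylow
      have hm1' := ex_fact_m hc hall htm hx hr hs hsm
      have hvE := hc.fact_ce hs hsm hfZ
      rw [hm1'] at hvE
      have hcardP : Nat.card (P : Subgroup G) = s ^ ((Nat.card (ce f)).factorization s + 1) := by
        rw [P.card_eq_multiplicity, hvE]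
      have hrel₁ : S₁.relIndex (P : Subgroup G) = s := by
        have h1 := Cfsg.Agent.Lib.Struct.card_inf_mul_relIndex S₁ (P : Subgroup G)
        rw [inf_eq_left.mpr hS₁P, hS₁card, hcardP, pow_succ] at h1
        exact Nat.eq_of_mul_eq_mul_left (pow_pos hs.pos _) h1
      haveI hn₁ : (S₁.subgroupOf (P : Subgroup G)).Normal := by
        apply Subgroup.normal_of_index_eq_minFac_card
        rw [hcardP, Nat.Prime.pow_minFac hs (by omega)]
        exact hrel₁
      have hce : ∀ e ∈ S₁, e ∉ center G → ce e = ce f := by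
        intro e he heZ
        have hePE := PE.of_mem hS₁ he
        have heci := ex_ci_r hc hr hs hsm hePE heZ
        have h1 : ce f ≤ ce e := hc.L1 hfci (hS₁H he) (PE.coprime hr' hs (Ne.symm hsr) hfPE hePE)
        exact le_antisymm (le_of_index_eq h1 (hfci.trans heci.symm)) h1
      have hPN : (P : Subgroup G) ≤ normalizer (ce f : Set G) := by
        intro g hg
        have hconj : g * e₀ * g⁻¹ ∈ S₁ :=
          mem_subgroupOf.mp (hn₁.conj_mem ⟨e₀, hS₁P he₀S⟩ (mem_subgroupOf.mpr he₀S) ⟨g, hg⟩)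
        have h1 := hce _ hconj (conj_not_center he₀Z g)
        have h2 := hce e₀ he₀S he₀Z
        have h3 : g⁻¹ ∈ normalizer (ce f : Set G) := by
          rw [mem_normalizer_iff]
          intro y
          rw [inv_inv]
          constructor
          · intro hy
            have hy' : y ∈ ce (g * e₀ * g⁻¹) := h1.ge hy
            rw [mem_ce_conj] at hy'
            exact h2.le hy'
          · intro hy
            have hy' : g⁻¹ * y * g ∈ ce e₀ := h2.ge hy
            exact h1.le (mem_ce_conj.mpr hy')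
        simpa using inv_mem h3
      have h1 := Subgroup.card_dvd_of_le hPN
      rw [P.card_eq_multiplicity] at h1
      exact (Nat.Prime.pow_dvd_iff_le_factorization hs Nat.card_pos.ne').mp h1
  have hdvd : ∀ s : ℕ, s.Prime → s ∣ m → s ∣ (ce x).relIndex (normalizer (ce f : Set G)) := by
    intro s hs hsm
    have h1 := Cfsg.Agent.Lib.Struct.card_inf_mul_relIndex (ce x) (normalizer (ce f : Set G))
    have hne0 : (ce x).relIndex (normalizer (ce f : Set G)) ≠ 0 := by
      intro h0
      rw [h0, mul_zero] at h1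
      exact (Nat.card_pos (α := normalizer (ce f : Set G))).ne' h1.symm
    rw [hs.dvd_iff_one_le_factorization hne0]
    have h2 := congrArg (fun k => k.factorization s) h1
    rw [Nat.factorization_mul Nat.card_pos.ne' hne0] at h2
    have h3 : ((Nat.card ((ce x) ⊓ normalizer (ce f : Set G) : Subgroup G)).factorization +
        ((ce x).relIndex (normalizer (ce f : Set G))).factorization) s =
        (Nat.card ((ce x) ⊓ normalizer (ce f : Set G) : Subgroup G)).factorization s +
        ((ce x).relIndex (normalizer (ce f : Set G))).factorization s := rfl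
    rw [h3] at h2
    have h4 : (Nat.card ((ce x) ⊓ normalizer (ce f : Set G) : Subgroup G)).factorization s ≤
        (Nat.card (ce x)).factorization s :=
      (Nat.factorization_le_iff_dvd Nat.card_pos.ne' Nat.card_pos.ne').mpr
        (Subgroup.card_dvd_of_le inf_le_left) s
    have h5 := hvN s hs hsm
    have h6 := hc.fact_ce hs hsm hxZ
    have h7 := ex_fact_m hc hall htm hx hr hs hsm
    omega
  have hm0 : m ≠ 0 := by have := hc.hm; omega
  have hmdvd : m ∣ (ce x).relIndex (normalizer (ce f : Set G)) :=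
    dvd_of_primes hm0 (fun r hr1 hd => (ex_fact_m hc hall htm hx hr hr1 hd).le) hdvd
  have hrelpos : 0 < (ce x).relIndex (normalizer (ce f : Set G)) := by
    have h1 := Cfsg.Agent.Lib.Struct.card_inf_mul_relIndex (ce x) (normalizer (ce f : Set G))
    refine Nat.pos_of_ne_zero (fun h0 => ?_)
    rw [h0, mul_zero] at h1
    exact (Nat.card_pos (α := normalizer (ce f : Set G))).ne' h1.symm
  have hsurj : ∀ g : G, ∃ d ∈ normalizer (ce f : Set G), ∃ τ ∈ ce x, g = d * τ := by
    intro g
    let φ : ↥(normalizer (ce f : Set G)) ⧸ (ce x).subgroupOf (normalizer (ce f : Set G)) → G ⧸ ce x :=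
      fun q => ((q.out : ↥(normalizer (ce f : Set G))) : G)
    have hinj : Function.Injective φ := by
      intro q q' h
      have h1 := QuotientGroup.eq.mp h
      rw [← QuotientGroup.out_eq' q, ← QuotientGroup.out_eq' q']
      apply QuotientGroup.eq.mpr
      rw [mem_subgroupOf]
      simpa using h1
    have hcard : Nat.card (G ⧸ ce x) ≤
        Nat.card (↥(normalizer (ce f : Set G)) ⧸ (ce x).subgroupOf (normalizer (ce f : Set G))) := by
      have h1 := Nat.le_of_dvd hrelpos hmdvd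
      rw [← hxm] at h1
      exact h1
    obtain ⟨q, hq⟩ := (hinj.bijective_of_nat_card_le hcard).2 (g : G ⧸ ce x)
    have h1 := QuotientGroup.eq.mp hq
    refine ⟨_, (q.out : ↥(normalizer (ce f : Set G))).2, _, h1, by group⟩
  have hconj : ∀ g : G, g * x * g⁻¹ ∈ YY (ce f) t := by
    intro g
    obtain ⟨d, hd, τ, hτ, rfl⟩ := hsurj g
    have h1 : τ * x * τ⁻¹ = x := by
      rw [mem_ce.mp hτ]; group
    have h2 : (d * τ) * x * (d * τ)⁻¹ = d * (τ * x * τ⁻¹) * d⁻¹ := by group
    rw [h2, h1]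
    refine YY_conj (fun e he => (mem_normalizer_iff.mp hd e).mp he) (fun e he => ?_) hxY
    have h3 := (mem_normalizer_iff.mp (inv_mem hd) e).mp he
    simpa using h3
  have hO : Subgroup.normalClosure ({x} : Set G) ≤ YY (ce f) t := by
    rw [Subgroup.normalClosure, closure_le]
    intro y hy
    obtain ⟨a, ha, hay⟩ := Group.mem_conjugatesOfSet_iff.mp hy
    obtain ⟨c, rfl⟩ := isConj_iff.mp hay
    rw [Set.mem_singleton_iff] at ha
    rw [ha]
    exact hconj c
  have hOp : IsPGroup t (Subgroup.normalClosure ({x} : Set G)) := (YY_isPGroup _ _).to_le hO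
  exact Cfsg.Agent.Lib.Basic.normal_pGroup_le_sylow (Subgroup.normalClosure_normal) hOp Q
    (Subgroup.subset_normalClosure rfl)

end EX

end Cfsg.Agent.Lib.Struct.ClassSize
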