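import Mathlib
import Cfsg.Agent.Lib.Struct.ClassH

/-! Groups with class sizes `1, m, m n`: the exceptional case, part three. -/

set_option autoImplicit false

namespace Cfsg.Agent.Lib.Struct.ClassSize

open Subgroup Cfsg.Agent.Lib.PGroups
open scoped commutatorElement

variable {G : Type*} [Group G] [Finite G]

/-- Double counting commuting pairs. -/
theorem double_count (Q : Subgroup G) [Fintype G] [Fintype Q] :
    ∑ v : Q, Nat.card (ce (v : G)) = ∑ g : G, Nat.card ((Q ⊓ ce g : Subgroup G)) := by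
  rw [← Nat.card_sigma, ← Nat.card_sigma]
  apply Nat.card_congr
  exact
    { toFun := fun p => ⟨p.2.1, ⟨p.1.1, p.1.2, mem_ce_comm.mp p.2.2⟩⟩
      invFun := fun p => ⟨⟨p.2.1, p.2.2.1⟩, ⟨p.1, mem_ce_comm.mp p.2.2.2⟩⟩
      left_inv := by rintro ⟨⟨v, hv⟩, ⟨g, hg⟩⟩; rfl
      right_inv := by rintro ⟨g, ⟨v, hv⟩⟩; rfl }

theorem sum_two_vals {α : Type*} [Fintype α] (P : α → Prop) (φ : α → ℕ) (c₁ c₂ : ℕ)
    (h1 : ∀ a, P a → φ a = c₁) (h2 : ∀ a, ¬ P a → φ a = c₂) :
    ∃ N₂ : ℕ, Nat.card {a // P a} + N₂ = Nat.card α ∧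
      ∑ a, φ a = Nat.card {a // P a} * c₁ + N₂ * c₂ := by
  classical
  refine ⟨Nat.card {a // ¬ P a}, ?_, ?_⟩
  · rw [← Nat.card_sum]
    exact Nat.card_congr (Equiv.sumCompl P)
  · have h3 : ∀ a, φ a = if P a then c₁ else c₂ := fun a => by
      split_ifs with h
      · exact h1 a h
      · exact h2 a h
    simp_rw [h3]
    rw [Finset.sum_ite]
    simp only [Finset.sum_const, smul_eq_mul, Nat.card_eq_fintype_card, Fintype.card_subtype]

section EX

variable {m n t : ℕ} [ht : Fact t.Prime] (hc : CS G m n)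
  (hall : ∀ q : ℕ, q.Prime → q ∣ n → q = t) (htm : ¬ t ∣ m)
  (hx : ∃ x : G, PE t x ∧ ci x = m)
  (hr : ∀ r : ℕ, r.Prime → r ∣ m → ∀ f : G, PE r f → ci f ≠ m)

include hc hall htm hx hr

/-- The exceptional case does not happen. -/
theorem ex_false : False := by
  classical
  haveI := Fintype.ofFinite G
  have hmem : ∀ {y : G}, PE t y → ∀ Q : Sylow t G, y ∈ (Q : Subgroup G) :=
    fun h Q => ex_mem_sylow hc hall htm hx hr h Q
  let Q : Sylow t G := default
  haveI := Fintype.ofFinite ↥(Q : Subgroup G)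
  have hnum := ex_num hc hall htm hx hr
  have hno := fun {c : G} (h : PE t c) => ex_no_mn hc hall htm hx hr h
  have hfm := fun {r : ℕ} (h : r.Prime) (h' : r ∣ m) => ex_fact_m hc hall htm hx hr h h'
  obtain ⟨x, hxt, hxm⟩ := hx
  have hxZ : x ∉ center G := by
    intro h
    have h1 := ci_eq_one_iff.mpr h
    have := hc.hm
    omega
  have hxQ := hmem hxt Q
  have htn := ex_t_dvd_n hc hall
  have hnoci : ∀ v ∈ (Q : Subgroup G), ¬ t ∣ ci v := by
    intro v hv
    have hvPE : PE t v := PE.of_mem Q.isPGroup' hv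
    rcases hc.cases v with h | h | h
    · rw [h]
      intro hd
      exact ht.out.one_lt.ne' (Nat.dvd_one.mp hd)
    · rw [h]; exact htm
    · exact absurd h (hno hvPE)
  have hQn : (Q : Subgroup G).Normal :=
    ⟨fun a ha g => hmem ((PE.of_mem Q.isPGroup' ha).conj g) Q⟩
  have hQab : ∀ v ∈ (Q : Subgroup G), ∀ w ∈ (Q : Subgroup G), w * v = v * w := by
    intro v hv w hw
    obtain ⟨S, hS⟩ := exists_sylow_le_of_not_dvd (ce v) (hnoci v hv)
    exact mem_ce.mp (hS (hmem (PE.of_mem Q.isPGroup' hw) S))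
  let K : Subgroup G := centralizer ((Q : Subgroup G) : Set G)
  have hmemK : ∀ g : G, g ∈ K ↔ (Q : Subgroup G) ≤ ce g := by
    intro g
    constructor
    · intro h w hw
      exact mem_ce.mpr (mem_centralizer_iff.mp h w hw)
    · intro h
      exact mem_centralizer_iff.mpr (fun w hw => mem_ce.mp (h hw))
  have hQK : (Q : Subgroup G) ≤ K := fun v hv =>
    mem_centralizer_iff.mpr (fun w hw => hQab v hv w hw)
  have hKT : K ≤ ce x := fun g hg => mem_ce.mpr (mem_centralizer_iff.mp hg x hxQ).symm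
  obtain ⟨r, hr', hrm⟩ := hc.exists_prime_m
  haveI : Fact r.Prime := ⟨hr'⟩
  obtain ⟨S, hSH, hS, ⟨f, hfS, hfZ⟩, _⟩ := hc.exists_noncentral_pe hrm (ce x) (Or.inl hxm)
  have hfci := ex_ci_r hc hr hr' hrm (PE.of_mem hS hfS) hfZ
  have hfK : f ∉ K := by
    intro h
    have h1 := Cfsg.Agent.Lib.Struct.not_dvd_index_of_sylow_le Q ((hmemK f).mp h)
    apply h1
    change t ∣ ci f
    rw [hfci]
    exact Dvd.dvd.mul_left htn m
  have hk : K.relIndex (ce x) * m = K.index := by
    have h1 := Subgroup.relIndex_mul_index hKT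
    rwa [show (ce x).index = m from hxm] at h1
  have hk1 : K.relIndex (ce x) ≠ 1 := fun h => hfK ((Subgroup.relIndex_eq_one.mp h) (hSH hfS))
  have hk0 : K.relIndex (ce x) ≠ 0 := by
    intro h
    rw [h, zero_mul] at hk
    exact Subgroup.index_ne_zero_of_finite hk.symm
  have hk2 : 2 ≤ K.relIndex (ce x) := by omega
  have htkm : ¬ t ∣ K.relIndex (ce x) * m := by
    rw [hk]
    exact Cfsg.Agent.Lib.Struct.not_dvd_index_of_sylow_le Q hQK
  generalize hkdef : K.relIndex (ce x) = k at hk hk1 hk0 hk2 htkm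
  have hcardG : Nat.card K * (k * m) = Nat.card G := by
    rw [hk]; exact Subgroup.card_mul_index K
  have hnpow := ex_n_eq hc hall
  generalize hL : n.primeFactorsList.length = L at hnpow
  have ha : n.factorization t = L := by
    conv_lhs => rw [hnpow]
    rw [ht.out.factorization_pow]
    simp
  rw [ha] at hnum
  have hcardQ : Nat.card (Q : Subgroup G) = n * t ^ ((Nat.card G).factorization t - L) := by
    rw [Q.card_eq_multiplicity]
    conv_rhs => rw [hnpow]
    rw [← pow_add]
    congr 1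
    omega
  generalize hf' : t ^ ((Nat.card G).factorization t - L) = f' at hcardQ
  have hf'pos : 0 < f' := by rw [← hf']; exact pow_pos ht.out.pos _
  have hval1 : ∀ v : (Q : Subgroup G), (v : G) ∈ center G →
      Nat.card (ce (v : G)) = Nat.card G := by
    intro v hv
    have h1 := Subgroup.card_mul_index (ce (v : G))
    rwa [show (ce (v : G)).index = 1 from ci_eq_one_iff.mpr hv, mul_one] at h1
  have hval2 : ∀ v : (Q : Subgroup G), ¬ (v : G) ∈ center G →
      Nat.card (ce (v : G)) = Nat.card K * k := by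
    intro v hv
    have hvm : ci (v : G) = m :=
      (hc.ci_noncentral hv).resolve_right (hno (PE.of_mem Q.isPGroup' v.2))
    have h1 := Subgroup.card_mul_index (ce (v : G))
    rw [show (ce (v : G)).index = m from hvm, ← hcardG, ← mul_assoc] at h1
    exact Nat.eq_of_mul_eq_mul_right (by have := hc.hm; omega) h1
  have hval3 : ∀ g : G, g ∈ K → Nat.card ((Q : Subgroup G) ⊓ ce g : Subgroup G) =
      Nat.card (Q : Subgroup G) := by
    intro g hg
    rw [inf_eq_left.mpr ((hmemK g).mp hg)]
  have hval4 : ∀ g : G, ¬ g ∈ K → Nat.card ((Q : Subgroup G) ⊓ ce g : Subgroup G) = f' := by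
    intro g hg
    have h1 : t ∣ ci g := by
      by_contra hnd
      obtain ⟨S', hS'⟩ := exists_sylow_le_of_not_dvd (ce g) hnd
      apply hg
      rw [hmemK]
      intro w hw
      exact hS' (hmem (PE.of_mem Q.isPGroup' hw) S')
    have hgci : ci g = m * n := by
      rcases hc.cases g with h | h | h
      · rw [h] at h1
        exact absurd (Nat.dvd_one.mp h1) ht.out.one_lt.ne'
      · rw [h] at h1
        exact absurd h1 htm
      · exact h
    have hv := ex_fact hc htm (H := ce g) hgci
    rw [ha] at hv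
    have h3 : f' = t ^ (Nat.card (ce g)).factorization t := by
      rw [← hf']
      congr 1
      omega
    rw [h3]
    apply le_antisymm
    · exact card_pSub_le (Q.isPGroup'.to_le inf_le_left) inf_le_right
    · obtain ⟨S', hS'H, hS', hS'c⟩ := exists_pSub (ce g) t
      rw [← hS'c]
      exact Subgroup.card_le_of_le (le_inf (fun w hw => hmem (PE.of_mem hS' hw) Q) hS'H)
  obtain ⟨N₂, hN₂, hS₁⟩ := sum_two_vals (fun v : (Q : Subgroup G) => (v : G) ∈ center G)
    (fun v => Nat.card (ce (v : G))) (Nat.card G) (Nat.card K * k) hval1 hval2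
  obtain ⟨κ', hκ', hS₂⟩ := sum_two_vals (fun g : G => g ∈ K)
    (fun g => Nat.card ((Q : Subgroup G) ⊓ ce g : Subgroup G)) (Nat.card (Q : Subgroup G)) f'
    hval3 hval4
  have hD := double_count (Q : Subgroup G)
  rw [hS₁, hS₂] at hD
  generalize hz : Nat.card {v : (Q : Subgroup G) // (v : G) ∈ center G} = z at hD hN₂
  have hκ2 : Nat.card {g : G // g ∈ K} = Nat.card K := rfl
  rw [hκ2] at hD hκ'
  have hm0 : m ≠ 0 := by have := hc.hm; omega
  have hmN₂ : m ∣ N₂ := by
    apply dvd_of_primes hm0 (fun r' hr1 hd => (hfm hr1 hd).le)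
    intro s hs hsm
    haveI : Fact s.Prime := ⟨hs⟩
    let P : Sylow s G := default
    have h1 := card_modEq_conj (P : Subgroup G) (Q : Subgroup G) P.isPGroup'
      (fun g _ v hv => hQn.conj_mem v hv g)
    have h2 : Nat.card {v : (Q : Subgroup G) // ∀ g ∈ (P : Subgroup G), g * (v : G) * g⁻¹ = v} = z := by
      rw [← hz]
      apply Nat.card_congr
      refine Equiv.subtypeEquivRight ?_
      intro v
      constructor
      · intro h
        refine hc.central_of_sylow_le hsm P (fun g hg => mem_ce.mpr ?_)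
        calc g * (v : G) = (g * v * g⁻¹) * g := by group
          _ = v * g := by rw [h g hg]
      · intro h g _
        exact conj_center h g
    rw [h2] at h1
    have h3 : z ≤ Nat.card (Q : Subgroup G) := by omega
    have h4 := (Nat.modEq_iff_dvd' h3).mp h1.symm
    have h5 : Nat.card (Q : Subgroup G) - z = N₂ := by omega
    rwa [h5] at h4
  obtain ⟨d, hd⟩ := hmN₂
  have hkm : 0 < k * m := Nat.mul_pos (by omega) (by have := hc.hm; omega)
  obtain ⟨w, hw⟩ : ∃ w, k * m = w + 1 := ⟨k * m - 1, by omega⟩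
  have hκ'' : κ' = Nat.card K * w := by
    have h1 : Nat.card K + κ' = Nat.card K * w + Nat.card K := by
      rw [hκ', ← hcardG, hw]; ring
    omega
  rw [hd, ← hcardG, hcardQ, hκ''] at hD
  have hE : Nat.card K * (z * (k * m) + m * d * k) = Nat.card K * (n * f' + w * f') := by
    calc Nat.card K * (z * (k * m) + m * d * k)
        = z * (Nat.card K * (k * m)) + m * d * (Nat.card K * k) := by ring
      _ = Nat.card K * (n * f') + Nat.card K * w * f' := hD
      _ = Nat.card K * (n * f' + w * f') := by ring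
  have hE2 : z * (k * m) + m * d * k = n * f' + w * f' :=
    Nat.eq_of_mul_eq_mul_left Nat.card_pos hE
  have hq : z + m * d = n * f' := by
    rw [← hcardQ, ← hN₂, hd]
  have hnpos : 1 ≤ n := by have := hc.hn; omega
  have hdiv : k * m ∣ f' * (n - 1) := by
    have h1 : k * m ∣ f' * (n - 1) + f' * (k * m) := by
      refine ⟨z + d, ?_⟩
      have h2 : f' * (n - 1) + f' * (k * m) = f' * (n + w) := by
        rw [hw, ← mul_add]
        congr 1
        omega
      rw [h2]
      calc f' * (n + w) = n * f' + w * f' := by ring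
        _ = z * (k * m) + m * d * k := hE2.symm
        _ = k * m * (z + d) := by ring
    exact (Nat.dvd_add_left (dvd_mul_left (k * m) f')).mp h1
  have hcop : (k * m).Coprime f' := by
    rw [← hf']
    exact Nat.Coprime.pow_right _ ((Nat.Prime.coprime_iff_not_dvd ht.out).mpr htkm).symm
  have hdiv2 : k * m ∣ n - 1 := hcop.dvd_of_dvd_mul_left hdiv
  have hle : k * m ≤ n - 1 :=
    Nat.le_of_dvd (by have := hc.hn; omega) hdiv2
  have hineq : (n * k) * f' ≤ (n + w) * f' := by
    calc (n * k) * f' = (n * f') * k := by ring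
      _ = z * k + m * d * k := by rw [← hq]; ring
      _ ≤ z * (k * m) + m * d * k := by
          apply Nat.add_le_add_right
          apply Nat.mul_le_mul_left
          exact Nat.le_mul_of_pos_right k (by have := hc.hm; omega)
      _ = n * f' + w * f' := hE2
      _ = (n + w) * f' := by ring
  have h3 : n * k ≤ n + w := Nat.le_of_mul_le_mul_right hineq hf'pos
  have h4 : n * 2 ≤ n * k := Nat.mul_le_mul_left n hk2
  have h5 := hc.hn
  omega

end EX

/-- The main theorem on groups with class sizes `1, m, m n`. -/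
theorem main {m n : ℕ} (hc : CS G m n)
    (hnodf : ∀ A B : Subgroup G, A.Normal → B.Normal → A ⊓ B = ⊥ → A ⊔ B = ⊤ →
      IsMulCommutative A → A = ⊥) :
    m.Prime ∧ m ∣ n - 1 ∧
    (∃ M : Subgroup G, M.Normal ∧
      (M : Set G) = {x : G | (centralizer ({x} : Set G)).index = 1 ∨
        (centralizer ({x} : Set G)).index = m} ∧ M.index = m ∧ IsMulCommutative M) ∧
    (∃ N : Subgroup G, N.Normal ∧ (Nat.card N).Coprime m ∧ ∃ a : ℕ, N.index = m ^ a) ∧
    ∀ P : Sylow m G, Nat.card (commutator (P : Subgroup G)) = m := by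
  rcases hc.dichotomy with ⟨T, hT⟩ | ⟨t, ht, hall, htm, hx, hr⟩
  · haveI := hT.normal hc
    exact hT.final hc hnodf
  · haveI : Fact t.Prime := ⟨ht⟩
    exact (ex_false hc hall htm hx hr).elim

end Cfsg.Agent.Lib.Struct.ClassSize
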