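import Mathlib

/-! Commuting pairs and class numbers: `k(X) ≤ k(N) k(X/N)` and the subgroup bounds. -/

namespace Cfsg.Agent.Lib.Struct

/-- Number of commuting pairs is bounded over a normal subgroup and its quotient. -/
theorem card_comm_le_of_normal {X : Type*} [Group X] [Finite X] (N : Subgroup X) [hN : N.Normal] :
    Nat.card {p : X × X // Commute p.1 p.2} ≤
      Nat.card {p : (X ⧸ N) × (X ⧸ N) // Commute p.1 p.2} * Nat.card {p : N × N // Commute p.1 p.2} := by
  classical
  -- chosen representatives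
  let rep : (X ⧸ N) → X → X := fun q x =>
    if h : ∃ y : X, (y : X ⧸ N) = q ∧ Commute x y then h.choose else 1
  have hrep : ∀ (q : X ⧸ N) (x y : X), (y : X ⧸ N) = q → Commute x y →
      ((rep q x : X) : X ⧸ N) = q ∧ Commute x (rep q x) := by
    intro q x y hy hc
    have h : ∃ y : X, (y : X ⧸ N) = q ∧ Commute x y := ⟨y, hy, hc⟩
    simp only [rep, dif_pos h]
    exact h.choose_spec
  -- auxiliary fact : the quotient of two elements in a coset commuting with `x` commutes with `x`
  have hmem : ∀ (a b : X), (a : X ⧸ N) = (b : X ⧸ N) → a⁻¹ * b ∈ N := by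
    intro a b hab
    exact QuotientGroup.eq.mp hab
  have hcomm : ∀ (x a b : X), Commute x a → Commute x b → Commute x (a⁻¹ * b) := by
    intro x a b ha hb
    exact (Commute.inv_right ha).mul_right hb
  -- the map
  let φ : {p : X × X // Commute p.1 p.2} →
      {p : (X ⧸ N) × (X ⧸ N) // Commute p.1 p.2} × {p : N × N // Commute p.1 p.2} := fun p =>
    let x := p.1.1
    let y := p.1.2
    let hxy : Commute x y := p.2
    let q₁ : X ⧸ N := x
    let q₂ : X ⧸ N := y
    let y₀ := rep q₂ x
    have hy₀ := hrep q₂ x y rfl hxy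
    let n : N := ⟨y₀⁻¹ * y, hmem _ _ hy₀.1⟩
    have hnx : Commute (n : X) x := (hcomm x y₀ y hy₀.2 hxy).symm
    let x₀ := rep q₁ (n : X)
    have hx₀ := hrep q₁ (n : X) x rfl hnx
    let m : N := ⟨x₀⁻¹ * x, hmem _ _ hx₀.1⟩
    have hmn : Commute (m : X) (n : X) := (hcomm (n : X) x₀ x hx₀.2 hnx).symm
    (⟨(q₁, q₂), by
        show (x : X ⧸ N) * (y : X ⧸ N) = (y : X ⧸ N) * (x : X ⧸ N)
        rw [← QuotientGroup.mk_mul, ← QuotientGroup.mk_mul, hxy.eq]⟩,
      ⟨(m, n), by
        show m * n = n * m
        exact Subtype.ext hmn.eq⟩)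
  rw [← Nat.card_prod]
  refine Nat.card_le_card_of_injective φ ?_
  rintro ⟨⟨x, y⟩, hxy⟩ ⟨⟨x', y'⟩, hxy'⟩ h
  simp only [φ, Prod.mk.injEq, Subtype.mk.injEq] at h
  obtain ⟨⟨h1, h2⟩, h3, h4⟩ := h
  -- first `x = x'`
  have hn : (rep (y : X ⧸ N) x)⁻¹ * y = (rep (y' : X ⧸ N) x')⁻¹ * y' := h4
  have hm : (rep (x : X ⧸ N) ((rep (y : X ⧸ N) x)⁻¹ * y))⁻¹ * x =
      (rep (x' : X ⧸ N) ((rep (y' : X ⧸ N) x')⁻¹ * y'))⁻¹ * x' := h3
  rw [hn, h1] at hm
  have hxx : x = x' := mul_left_cancel hm
  subst hxx
  rw [h2] at hn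
  have hyy : y = y' := mul_left_cancel hn
  subst hyy
  rfl

/-- `k(X) ≤ k(N) k(X/N)`. -/
theorem card_conjClasses_le_of_normal {X : Type*} [Group X] [Finite X] (N : Subgroup X) [N.Normal] :
    Nat.card (ConjClasses X) ≤ Nat.card (ConjClasses N) * Nat.card (ConjClasses (X ⧸ N)) := by
  have h := card_comm_le_of_normal N
  rw [card_comm_eq_card_conjClasses_mul_card, card_comm_eq_card_conjClasses_mul_card,
    card_comm_eq_card_conjClasses_mul_card] at h
  have hX : Nat.card X = Nat.card (X ⧸ N) * Nat.card N := by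
    rw [← Subgroup.index_eq_card, Subgroup.index_mul_card]
  have hpos : 0 < Nat.card X := Nat.card_pos
  have h2 : Nat.card (ConjClasses X) * Nat.card X ≤
      (Nat.card (ConjClasses N) * Nat.card (ConjClasses (X ⧸ N))) * Nat.card X := by
    calc Nat.card (ConjClasses X) * Nat.card X ≤ _ := h
      _ = _ := by rw [hX]; ring
  exact Nat.le_of_mul_le_mul_right h2 hpos

/-- Commuting pairs in a subgroup. -/
theorem card_comm_subgroup_le {X : Type*} [Group X] [Finite X] (Y : Subgroup X) :
    Nat.card {p : Y × Y // Commute p.1 p.2} ≤ Nat.card {p : X × X // Commute p.1 p.2} := by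
  refine Nat.card_le_card_of_injective
    (fun p => ⟨((p.1.1 : X), (p.1.2 : X)), congrArg Subtype.val p.2⟩) ?_
  rintro ⟨⟨a, b⟩, h⟩ ⟨⟨c, d⟩, h'⟩ e
  have e' : ((a : X), (b : X)) = ((c : X), (d : X)) := congrArg Subtype.val e
  rw [Prod.mk.injEq] at e'
  have e1 : a = c := Subtype.ext e'.1
  have e2 : b = d := Subtype.ext e'.2
  subst e1 e2
  rfl

/-- Burnside count for the conjugation action of a subgroup. -/
theorem card_orbits_conj_le {X : Type*} [Group X] [Finite X] (Y : Subgroup X) :
    letI : MulAction Y X := MulAction.compHom X ((MulAut.conj : X →* MulAut X).comp Y.subtype)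
    Nat.card (MulAction.orbitRel.Quotient Y X) ≤ Y.index * Nat.card (ConjClasses Y) := by
  classical
  letI : MulAction Y X := MulAction.compHom X ((MulAut.conj : X →* MulAut X).comp Y.subtype)
  haveI := Fintype.ofFinite X
  haveI : Fintype Y := Fintype.ofFinite Y
  haveI : Fintype (MulAction.orbitRel.Quotient Y X) := Fintype.ofFinite _
  have hB := MulAction.sum_card_fixedBy_eq_card_orbits_mul_card_group Y X
  -- bound for each fixed point set
  have hbound : ∀ y : Y, Fintype.card (MulAction.fixedBy X y) ≤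
      Y.index * Nat.card (Subgroup.centralizer ({y} : Set Y)) := by
    intro y
    -- the fixed points are the centralizer of `y` in `X`
    let C : Subgroup X := Subgroup.centralizer ({(y : X)} : Set X)
    have e1 : Fintype.card (MulAction.fixedBy X y) = Nat.card C := by
      rw [← Nat.card_eq_fintype_card]
      refine Nat.card_congr (Equiv.subtypeEquivRight fun x => ?_)
      rw [MulAction.mem_fixedBy, Subgroup.mem_centralizer_singleton_iff]
      change (y : X) * x * (y : X)⁻¹ = x ↔ _
      rw [mul_inv_eq_iff_eq_mul]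
      exact ⟨fun h => h.symm, fun h => h.symm⟩
    rw [e1]
    have e2 : Nat.card (Y.subgroupOf C) = Nat.card (Subgroup.centralizer ({y} : Set Y)) := by
      refine Nat.card_congr ?_
      refine ⟨fun u => ⟨⟨u.1.1, u.2⟩, ?_⟩, fun v => ⟨⟨v.1.1, ?_⟩, ?_⟩, ?_, ?_⟩
      · rw [Subgroup.mem_centralizer_singleton_iff]
        apply Subtype.ext
        have := Subgroup.mem_centralizer_singleton_iff.mp u.1.2
        simpa using this
      · rw [Subgroup.mem_centralizer_singleton_iff]
        have := Subgroup.mem_centralizer_singleton_iff.mp v.2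
        exact congrArg Subtype.val this
      · exact v.1.2
      · intro u; rfl
      · intro v; rfl
    have e3 : Nat.card C = Nat.card (Y.subgroupOf C) * (Y.subgroupOf C).index :=
      (Subgroup.card_mul_index _).symm
    rw [e3, e2, mul_comm]
    refine Nat.mul_le_mul_right _ ?_
    have h4 : Y.relIndex C ≤ Y.relIndex ⊤ :=
      Subgroup.relIndex_le_of_le_right le_top (by
        rw [Subgroup.relIndex_top_right]; exact Subgroup.index_ne_zero_of_finite)
    rwa [Subgroup.relIndex_top_right] at h4
  have hsum : ∑ y : Y, Nat.card (Subgroup.centralizer ({y} : Set Y)) =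
      Nat.card (ConjClasses Y) * Nat.card Y := by
    rw [← card_comm_eq_card_conjClasses_mul_card, Nat.card_congr
      (Equiv.subtypeEquivRight (p := fun p : Y × Y => Commute p.1 p.2)
        (q := fun p : Y × Y => Commute p.1 p.2) (fun _ => Iff.rfl))]
    have e : {p : Y × Y // Commute p.1 p.2} ≃ Σ y : Y, Subgroup.centralizer ({y} : Set Y) :=
      { toFun := fun p => ⟨p.1.1, ⟨p.1.2, Subgroup.mem_centralizer_singleton_iff.mpr p.2.eq.symm⟩⟩
        invFun := fun p => ⟨(p.1, (p.2 : Y)),
          (Subgroup.mem_centralizer_singleton_iff.mp p.2.2).symm⟩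
        left_inv := fun p => rfl
        right_inv := fun p => rfl }
    rw [Nat.card_congr e, Nat.card_sigma]
  have hfinal : Nat.card (MulAction.orbitRel.Quotient Y X) * Nat.card Y ≤
      (Y.index * Nat.card (ConjClasses Y)) * Nat.card Y := by
    calc Nat.card (MulAction.orbitRel.Quotient Y X) * Nat.card Y
        = ∑ y : Y, Fintype.card (MulAction.fixedBy X y) := by
          rw [hB, Nat.card_eq_fintype_card, Nat.card_eq_fintype_card]
      _ ≤ ∑ y : Y, Y.index * Nat.card (Subgroup.centralizer ({y} : Set Y)) :=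
          Finset.sum_le_sum (fun y _ => hbound y)
      _ = (Y.index * Nat.card (ConjClasses Y)) * Nat.card Y := by
          rw [← Finset.mul_sum, hsum]; ring
  exact Nat.le_of_mul_le_mul_right hfinal Nat.card_pos

end Cfsg.Agent.Lib.Struct
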