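import Mathlib
import Cfsg.Agent.Lib.OddLocal.HallHigman
import Cfsg.Agent.Lib.OddLocal.PLength
import Cfsg.Agent.Lib.Fusion2.StrongRes
import Cfsg.Agent.Lib.Char.Burnside
import Cfsg.Agent.Lib.LocalEven.PReduced
import Cfsg.Agent.Lib.Components.Basic
import Cfsg.Agent.Lib.Basic.Core
import Cfsg.Agent.Lib.Transfer.Frattini

/-!
# Groups of exponent six have `2`-length and `3`-length at most one
-/

set_option autoImplicit false

namespace Cfsg.Agent.Lib.Struct

open Subgroup Cfsg

section Abstract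

/-- A module of exponent `3` for `A₄` with the relation `1 + x + x² = 0`: the Klein four-group acts trivially. -/
theorem a4_module_trivial {A : Type*} [AddCommGroup A] (h3 : ∀ a : A, a + a + a = 0) (U W X : A →+ A)
    (hUU : ∀ a, U (U a) = a) (hWW : ∀ a, W (W a) = a) (hUW : ∀ a, U (W a) = W (U a))
    (hXU : ∀ a, X (U a) = W (X a)) (hXW : ∀ a, X (W a) = U (W (X a)))
    (hsum : ∀ a, a + X a + X (X a) = 0) (hX3 : ∀ a, X (X (X a)) = a) : ∀ a, U a = a := by
  have hzero : ∀ y : A, y + y = 0 → y = 0 := by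
    intro y hy
    have := h3 y
    rw [hy, zero_add] at this
    exact this
  have hX0 : ∀ z : A, X (X z) = 0 → z = 0 := by
    intro z hz
    rw [← hX3 z, hz, map_zero]
  intro a
  -- first eigenspace
  have h1 : a + W a - U a - U (W a) = 0 := by
    set z := a + W a - U a - U (W a) with hz
    have hUz : U z = -z := by
      rw [hz]
      simp only [map_add, map_sub, hUU]
      abel
    have hWz : W z = z := by
      rw [hz]
      simp only [map_add, map_sub, hWW]
      have : W (U (W a)) = U a := by rw [← hUW, hWW]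
      rw [this, ← hUW a]
      abel
    have hWy₁ : W (X z) = -X z := by
      rw [← hXU, hUz, map_neg]
    have hUy₁ : U (X z) = -X z := by
      have h := hXW z
      rw [hWz, hWy₁, map_neg] at h
      exact (neg_eq_iff_eq_neg.mpr h).symm
    have hWy₂ : W (X (X z)) = -X (X z) := by
      rw [← hXU, hUy₁, map_neg]
    have hUy₂ : U (X (X z)) = X (X z) := by
      have h := hXW (X z)
      rw [hWy₁, hWy₂, map_neg, map_neg] at h
      exact (neg_injective h).symm
    have h4 := hsum z
    have h5 := congrArg U h4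
    rw [map_add, map_add, hUz, hUy₁, hUy₂, map_zero] at h5
    have h6 : X (X z) + X (X z) = 0 := by
      have : X (X z) + X (X z) = (z + X z + X (X z)) + (-z + -X z + X (X z)) := by abel
      rw [this, h4, h5, add_zero]
    exact hX0 z (hzero _ h6)
  -- second eigenspace
  have h2 : a - W a - U a + U (W a) = 0 := by
    set z := a - W a - U a + U (W a) with hz
    have hUz : U z = -z := by
      rw [hz]
      simp only [map_add, map_sub, hUU]
      abel
    have hWz : W z = -z := by
      rw [hz]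
      simp only [map_add, map_sub, hWW]
      have : W (U (W a)) = U a := by rw [← hUW, hWW]
      rw [this, ← hUW a]
      abel
    have hWy₁ : W (X z) = -X z := by
      rw [← hXU, hUz, map_neg]
    have hUy₁ : U (X z) = X z := by
      have h := hXW z
      rw [hWz, hWy₁, map_neg, map_neg] at h
      exact (neg_injective h).symm
    have h4 := hsum z
    have h5 := congrArg U h4
    have hWy₂ : W (X (X z)) = X (X z) := by
      rw [← hXU, hUy₁]
    have hUy₂ : U (X (X z)) = -X (X z) := by
      have h := hXW (X z)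
      rw [hWy₁, hWy₂, map_neg] at h
      exact h.symm
    rw [map_add, map_add, hUz, hUy₁, hUy₂, map_zero] at h5
    have h6 : X z + X z = 0 := by
      have : X z + X z = (z + X z + X (X z)) + (-z + X z + -X (X z)) := by abel
      rw [this, h4, h5, add_zero]
    have h7 : X (X z) = 0 := by rw [show X z = 0 from hzero _ h6, map_zero]
    exact hX0 z h7
  have h8 : (a - U a) + (a - U a) = 0 := by
    have : (a - U a) + (a - U a) = (a + W a - U a - U (W a)) + (a - W a - U a + U (W a)) := by abel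
    rw [this, h1, h2, add_zero]
  have h9 := hzero _ h8
  exact (sub_eq_zero.mp h9).symm

end Abstract

section Core

variable {G : Type*} [Group G] [Finite G]

/-- The action of `G` on the Frattini quotient of a normal subgroup. -/
noncomputable def frattAct (F : Subgroup G) [hF : F.Normal] (g : G) : (F ⧸ frattini F) →* (F ⧸ frattini F) :=
  QuotientGroup.map _ _ (MulAut.conjNormal g : MulAut F).toMonoidHom
    (le_of_eq ((inferInstance : (frattini F).Characteristic).fixed _).symm)

theorem frattAct_mk (F : Subgroup G) [hF : F.Normal] (g : G) (f : F) :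
    frattAct F g (f : F ⧸ frattini F) = ((MulAut.conjNormal g f : F) : F ⧸ frattini F) := rfl

theorem frattAct_mul (F : Subgroup G) [hF : F.Normal] (g h : G) (a : F ⧸ frattini F) :
    frattAct F (g * h) a = frattAct F g (frattAct F h a) := by
  induction a using QuotientGroup.induction_on with
  | H f =>
    simp only [frattAct_mk, map_mul]
    rfl

theorem frattAct_one (F : Subgroup G) [hF : F.Normal] (a : F ⧸ frattini F) : frattAct F 1 a = a := by
  induction a using QuotientGroup.induction_on with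
  | H f =>
    simp only [frattAct_mk, map_one]
    rfl

theorem eq_one_of_pow_pow {x : G} {a b : ℕ} (h1 : x ^ a = 1) (h2 : x ^ b = 1) (hab : a.Coprime b) : x = 1 := by
  have := (pow_gcd_eq_one).mpr ⟨h1, h2⟩
  rwa [hab.gcd_eq_one, pow_one] at this

theorem eq_one_of_isPGroup_pow {H : Subgroup G} {p m : ℕ} [hp : Fact p.Prime] (hH : IsPGroup p H) {x : G} (hx : x ∈ H)
    (hm : x ^ m = 1) (hpm : m.Coprime p) : x = 1 := by
  obtain ⟨k, hk⟩ := hH ⟨x, hx⟩
  have h1 : x ^ p ^ k = 1 := by
    have := congrArg Subtype.val hk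
    simpa using this
  exact eq_one_of_pow_pow hm h1 (Nat.Coprime.pow_right k hpm)

theorem frattQuot_comm {p : ℕ} [Fact p.Prime] (F : Subgroup G) (hFp : IsPGroup p F) (a b : F ⧸ frattini F) :
    a * b = b * a := by
  induction a using QuotientGroup.induction_on with
  | H a =>
  induction b using QuotientGroup.induction_on with
  | H b =>
  rw [← QuotientGroup.mk_mul, ← QuotientGroup.mk_mul, QuotientGroup.eq]
  have := Cfsg.Agent.Lib.Transfer.commutator_mem_frattini hFp b⁻¹ a⁻¹
  convert this using 1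
  group

theorem frattAct_congr {p : ℕ} [Fact p.Prime] (F : Subgroup G) [hF : F.Normal] (hFp : IsPGroup p F) {g h : G}
    (hz : g⁻¹ * h ∈ F) (a : F ⧸ frattini F) : frattAct F g a = frattAct F h a := by
  have hh : h = g * (g⁻¹ * h) := by group
  rw [hh, frattAct_mul]
  congr 1
  induction a using QuotientGroup.induction_on with
  | H f =>
  rw [frattAct_mk, eq_comm, QuotientGroup.eq]
  have h3 := Cfsg.Agent.Lib.Transfer.commutator_mem_frattini hFp ⟨_, hz⟩ f⁻¹
  convert h3 using 1
  apply Subtype.ext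
  simp [MulAut.conjNormal_apply]
  group

/-- Multiplicative form of the module lemma. -/
theorem a4_group_trivial {A : Type*} [Group A] (hc : ∀ a b : A, a * b = b * a) (h3 : ∀ a : A, a ^ 3 = 1)
    (U W X : A →* A) (hUU : ∀ a, U (U a) = a) (hWW : ∀ a, W (W a) = a) (hUW : ∀ a, U (W a) = W (U a))
    (hXU : ∀ a, X (U a) = W (X a)) (hXW : ∀ a, X (W a) = U (W (X a)))
    (hsum : ∀ a, a * X a * X (X a) = 1) (hX3 : ∀ a, X (X (X a)) = a) : ∀ a, U a = a := by
  letI : CommGroup A := { (inferInstance : Group A) with mul_comm := hc }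
  refine a4_module_trivial (A := Additive A) ?_ (MonoidHom.toAdditive U) (MonoidHom.toAdditive W) (MonoidHom.toAdditive X)
    hUU hWW hUW hXU hXW hsum hX3
  intro a
  have := h3 a.toMul
  rw [pow_succ, pow_two] at this
  exact this

/-- In a group of exponent `6` with `O_{3'} = 1`, the elements of order `3` lie in `O_3`. -/
theorem exp6_core3 [Group.IsSolvable G] (h6 : ∀ x : G, x ^ 6 = 1) (hO : pPrimeCore 3 G = ⊥) (x : G) (hx : x ^ 3 = 1) :
    x ∈ pCore 3 G := by
  classical
  haveI : Fact (Nat.Prime 2) := ⟨Nat.prime_two⟩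
  haveI : Fact (Nat.Prime 3) := ⟨Nat.prime_three⟩
  by_contra hxF
  set F : Subgroup G := pCore 3 G with hFdef
  haveI hFn : F.Normal := Cfsg.Agent.Lib.Basic.pCore_normal 3
  have hFp : IsPGroup 3 F := Cfsg.Agent.Lib.Basic.pCore_isPGroup 3
  let π := QuotientGroup.mk' F
  have hπ : Function.Surjective π := QuotientGroup.mk'_surjective F
  have hπ1 : ∀ a, π a = 1 ↔ a ∈ F := fun a => QuotientGroup.eq_one_iff a
  have h6' : ∀ a : G ⧸ F, a ^ 6 = 1 := by
    intro a
    obtain ⟨b, rfl⟩ := hπ a
    rw [← map_pow, h6, map_one]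
  -- the `3`-core of the quotient is trivial
  have hcore3 : pCore 3 (G ⧸ F) = ⊥ := by
    rw [Cfsg.Agent.Lib.LocalEven.pCore_quotient_eq_bot_iff]
    intro D hD hDp
    apply Cfsg.Agent.Lib.Basic.le_pCore hD
    intro d
    obtain ⟨k, hk⟩ := hDp d d.2
    obtain ⟨l, hl⟩ := hFp ⟨_, hk⟩
    refine ⟨k + l, ?_⟩
    apply Subtype.ext
    have := congrArg Subtype.val hl
    simp only [Subgroup.coe_pow, Subgroup.coe_mk, Subgroup.coe_one, ← pow_mul] at this
    simpa [pow_add] using this
  have hcore2' : pPrimeCore 2 (G ⧸ F) = ⊥ := by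
    have h1 : IsPGroup 3 (pPrimeCore 2 (G ⧸ F)) := by
      intro a
      refine ⟨1, ?_⟩
      have hc := Cfsg.Agent.Lib.Components.coprime_card_pPrimeCore (G := G ⧸ F) 2
      have h2 : (a : G ⧸ F) ^ Nat.card (pPrimeCore 2 (G ⧸ F)) = 1 := by
        have h3 := congrArg Subtype.val (pow_card_eq_one' (x := a))
        rwa [Subgroup.coe_pow, Subgroup.coe_one] at h3
      have h3 : ((a : G ⧸ F) ^ 3) = 1 := by
        have h4 : ((a : G ⧸ F) ^ 3) ^ 2 = 1 := by
          rw [← pow_mul]
          exact h6' _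
        have h5 : ((a : G ⧸ F) ^ 3) ^ Nat.card (pPrimeCore 2 (G ⧸ F)) = 1 := by
          rw [pow_right_comm, h2, one_pow]
        exact eq_one_of_pow_pow h4 h5 hc.symm
      apply Subtype.ext
      simpa using h3
    have h2 := Cfsg.Agent.Lib.Basic.le_pCore (Cfsg.Agent.Lib.Basic.pPrimeCore_normal 2) h1
    rw [hcore3] at h2
    exact le_bot_iff.mp h2
  set E : Subgroup (G ⧸ F) := pCore 2 (G ⧸ F) with hEdef
  have hEp : IsPGroup 2 E := Cfsg.Agent.Lib.Basic.pCore_isPGroup 2
  have hEn : E.Normal := Cfsg.Agent.Lib.Basic.pCore_normal 2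
  have hE2 : ∀ a ∈ E, a ^ 2 = 1 := by
    intro a ha
    have h1 : (a ^ 2) ^ 3 = 1 := by
      rw [← pow_mul]
      exact h6' a
    exact eq_one_of_isPGroup_pow hEp (E.pow_mem ha 2) h1 (by norm_num)
  have hs : ∀ a ∈ E, a * a = 1 := fun a ha => by rw [← pow_two]; exact hE2 a ha
  have hEc : ∀ a ∈ E, ∀ b ∈ E, a * b = b * a := by
    intro a ha b hb
    have h1 := hs _ (E.mul_mem ha hb)
    have h2 := hs a ha
    have h3 := hs b hb
    calc a * b = a * (a * b * (a * b)) * b := by rw [h1, mul_one]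
      _ = (a * a) * b * a * (b * b) := by group
      _ = b * a := by rw [h2, h3]; group
  have hC := Cfsg.Agent.Lib.OddLocal.centralizer_pCore_le (G := G ⧸ F) (p := 2) hcore2'
  set xb : G ⧸ F := π x with hxb
  have hxb3 : xb ^ 3 = 1 := by rw [hxb, ← map_pow, hx, map_one]
  have hxb1 : xb ≠ 1 := fun h => hxF ((hπ1 x).mp h)
  have hxbE : xb ∉ E := by
    intro h
    exact hxb1 (eq_one_of_isPGroup_pow hEp h hxb3 (by norm_num))
  have hxbC : xb ∉ centralizer (E : Set (G ⧸ F)) := fun h => hxbE (hC h)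
  rw [Subgroup.mem_centralizer_iff] at hxbC
  push_neg at hxbC
  obtain ⟨e, heE, hne⟩ := hxbC
  -- The elements
  have hconjE : ∀ a ∈ E, xb * a * xb⁻¹ ∈ E := fun a ha => hEn.conj_mem a ha xb
  set e₁ := xb * e * xb⁻¹ with he₁
  have he₁E : e₁ ∈ E := hconjE e heE
  set e₂ := xb * e₁ * xb⁻¹ with he₂
  have he₂E : e₂ ∈ E := hconjE e₁ he₁E
  set ue : G ⧸ F := e * e₁ with hue
  have hueE : ue ∈ E := E.mul_mem heE he₁E
  have hue1 : ue ≠ 1 := by
    intro h
    apply hne
    have h1 : e * e = 1 := hs e heE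
    have h2 : e₁ = e := by
      have h3 : e * e₁ = e * e := by rw [← hue, h, h1]
      exact mul_left_cancel h3
    calc e * xb = e₁ * xb := by rw [h2]
      _ = xb * e := by rw [he₁]; group
  obtain ⟨u₀, hu₀⟩ := hπ ue
  set u : G := u₀ ^ 3 with hu
  have huπ : π u = ue := by
    rw [hu, map_pow, hu₀]
    have h1 := hE2 ue hueE
    rw [pow_succ, h1, one_mul]
  have huu : u * u = 1 := by
    rw [hu, ← pow_add]
    exact h6 u₀
  obtain ⟨w, hw⟩ : ∃ w : G, w = x * u * x⁻¹ := ⟨_, rfl⟩
  have hww : w * w = 1 := by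
    rw [hw]
    have : x * u * x⁻¹ * (x * u * x⁻¹) = x * (u * u) * x⁻¹ := by group
    rw [this, huu]
    group
  have hxb3' : xb * xb * xb = 1 := by
    rw [← hxb3, pow_succ, pow_two]
  have he₃ : xb * e₂ * xb⁻¹ = e := by
    have h1 : xb * (xb * (xb * e * xb⁻¹) * xb⁻¹) * xb⁻¹ = (xb * xb * xb) * e * (xb * xb * xb)⁻¹ := by group
    rw [he₂, he₁, h1, hxb3']
    group
  have hc1 : xb * ue * xb⁻¹ = e₁ * e₂ := by
    have h1 : xb * (e * e₁) * xb⁻¹ = (xb * e * xb⁻¹) * (xb * e₁ * xb⁻¹) := by group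
    exact h1
  have hc2 : xb * (e₁ * e₂) * xb⁻¹ = e₂ * e := by
    have : xb * (e₁ * e₂) * xb⁻¹ = (xb * e₁ * xb⁻¹) * (xb * e₂ * xb⁻¹) := by group
    rw [this, he₃]
  have hwπ : π w = e₁ * e₂ := by
    rw [← hc1, hw, map_mul, map_mul, map_inv, huπ]
  have hwE : π w ∈ E := by
    rw [hwπ]
    exact E.mul_mem he₁E he₂E
  have hmul : ∀ a b : G, π (a * b) = π a * π b := fun a b => map_mul π a b
  have hUWc : π (u * w) = π (w * u) := by
    rw [hmul, hmul, huπ]
    exact hEc _ hueE _ hwE
  have hXWc : π (x * w) = π (u * w * x) := by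
    rw [hmul, hmul, hmul, huπ, hwπ, ← hxb]
    have h1 : xb * (e₁ * e₂) = (e₂ * e) * xb := by
      rw [← hc2]
      group
    rw [h1, hue]
    congr 1
    have e1 : e * e₁ * (e₁ * e₂) = e * (e₁ * e₁) * e₂ := by group
    rw [e1, hs e₁ he₁E, mul_one]
    exact hEc _ he₂E _ heE
  have hcongr : ∀ g h : G, π g = π h → ∀ a, frattAct F g a = frattAct F h a := by
    intro g h hgh a
    apply frattAct_congr F hFp
    rw [← hπ1, hmul, map_inv, hgh, inv_mul_cancel]
  -- cubes
  have hcube : ∀ f : F, ((x * (f : G)) ^ 3) = 1 := by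
    intro f
    set g := x * (f : G) with hg
    have h1 : π g = xb := by
      rw [hg, hmul, show π (f : G) = 1 from (hπ1 _).mpr f.2, mul_one]
    have h2 : g ^ 3 ∈ F := by
      rw [← hπ1, map_pow, h1, hxb3]
    refine eq_one_of_isPGroup_pow hFp h2 (m := 2) ?_ (by norm_num)
    rw [← pow_mul]
    exact h6 g
  have hxi : x⁻¹ * x⁻¹ = x := by
    have h1 : x * x * x = 1 := by rw [← hx, pow_succ, pow_two]
    have h2 : x⁻¹ * x⁻¹ = (x * x * x)⁻¹ * x := by group
    rw [h2, h1]
    group
  have hsumF : ∀ f : F, MulAut.conjNormal x f * MulAut.conjNormal x (MulAut.conjNormal x f) * f = 1 := by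
    intro f
    apply Subtype.ext
    simp only [Subgroup.coe_mul, MulAut.conjNormal_apply, Subgroup.coe_one]
    have h1 := hcube f
    rw [pow_succ, pow_two] at h1
    calc x * (f : G) * x⁻¹ * (x * (x * (f : G) * x⁻¹) * x⁻¹) * f
        = x * f * (x * f * (x⁻¹ * x⁻¹ * f)) := by group
      _ = x * f * (x * f) * (x * f) := by rw [hxi]; group
      _ = 1 := h1
  have hFc := frattQuot_comm F hFp
  have hU := a4_group_trivial hFc ?_ (frattAct F u) (frattAct F w) (frattAct F x) ?_ ?_ ?_ ?_ ?_ ?_ ?_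
  · -- the conclusion
    have hα : (orderOf (MulAut.conjNormal u : MulAut F)).Coprime 3 := by
      have h1 : (MulAut.conjNormal u : MulAut F) ^ 2 = 1 := by
        rw [← map_pow, pow_two, huu, map_one]
      have h2 := orderOf_dvd_of_pow_eq_one h1
      exact Nat.Coprime.coprime_dvd_left h2 (by norm_num)
    have h1 := Cfsg.Agent.Lib.Fusion2.aut_eq_one_of_frattini hFp hα (by
      intro f
      have h2 := hU (f : F ⧸ frattini F)
      rw [frattAct_mk, eq_comm, QuotientGroup.eq] at h2
      exact (inferInstance : (frattini F).Normal).mem_comm h2)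
    have h2 : u ∈ F := by
      apply Cfsg.Agent.Lib.OddLocal.centralizer_pCore_le (G := G) (p := 3) hO
      rw [Subgroup.mem_centralizer_iff]
      intro f hf
      have h3 : MulAut.conjNormal u (⟨f, hf⟩ : F) = ⟨f, hf⟩ := by
        rw [h1]
        rfl
      have h4 := congrArg Subtype.val h3
      simp only [MulAut.conjNormal_apply] at h4
      calc f * u = (u * f * u⁻¹) * u := by rw [h4]
        _ = u * f := by group
    apply hue1
    rw [← huπ]
    exact (hπ1 _).mpr h2
  · -- cubes in the quotient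
    intro a
    induction a using QuotientGroup.induction_on with
    | H f =>
    rw [← QuotientGroup.mk_pow]
    have h1 : f ^ 3 = 1 := by
      apply Subtype.ext
      refine eq_one_of_isPGroup_pow hFp (m := 2) (f ^ 3).2 ?_ (by norm_num)
      simp only [Subgroup.coe_pow]
      rw [← pow_mul]
      exact h6 _
    rw [h1]
    rfl
  · intro a
    rw [← frattAct_mul, huu, frattAct_one]
  · intro a
    rw [← frattAct_mul, hww, frattAct_one]
  · intro a
    rw [← frattAct_mul, ← frattAct_mul]
    exact hcongr _ _ hUWc a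
  · intro a
    rw [← frattAct_mul, ← frattAct_mul]
    congr 2
    rw [hw]
    group
  · intro a
    rw [← frattAct_mul, ← frattAct_mul, ← frattAct_mul]
    exact hcongr _ _ hXWc a
  · intro a
    induction a using QuotientGroup.induction_on with
    | H f =>
    simp only [frattAct_mk]
    rw [mul_assoc, hFc, ← QuotientGroup.mk_mul, ← QuotientGroup.mk_mul, hsumF]
    rfl
  · intro a
    rw [← frattAct_mul, ← frattAct_mul]
    have h1 : x * x * x = 1 := by rw [← hx, pow_succ, pow_two]
    rw [h1, frattAct_one]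

/-- In a group of exponent `6` with `O_{2'} = 1`, the involutions lie in `O_2`. -/
theorem exp6_core2 [Group.IsSolvable G] (h6 : ∀ x : G, x ^ 6 = 1) (hO : pPrimeCore 2 G = ⊥) (x : G) (hx : x ^ 2 = 1) :
    x ∈ pCore 2 G := by
  classical
  haveI : Fact (Nat.Prime 2) := ⟨Nat.prime_two⟩
  have hz : IsPGroup 2 (Subgroup.zpowers x) := by
    have h1 : orderOf x ∣ 2 ^ 1 := orderOf_dvd_of_pow_eq_one (by simpa using hx)
    obtain ⟨k, -, hk⟩ := (Nat.dvd_prime_pow Nat.prime_two).mp h1
    apply IsPGroup.of_card (n := k)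
    rw [Nat.card_zpowers, hk]
  obtain ⟨T, hT⟩ := hz.exists_le_sylow
  have hTp : IsPGroup 2 (T : Subgroup G) := T.isPGroup'
  have hs : ∀ a ∈ (T : Subgroup G), a * a = 1 := by
    intro a ha
    rw [← pow_two]
    have h1 : (a ^ 2) ^ 3 = 1 := by
      rw [← pow_mul]
      exact h6 a
    exact eq_one_of_isPGroup_pow hTp ((T : Subgroup G).pow_mem ha 2) h1 (by norm_num)
  have hEc : ∀ a ∈ (T : Subgroup G), ∀ b ∈ (T : Subgroup G), a * b = b * a := by
    intro a ha b hb
    have h1 := hs _ ((T : Subgroup G).mul_mem ha hb)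
    have h2 := hs a ha
    have h3 := hs b hb
    calc a * b = a * (a * b * (a * b)) * b := by rw [h1, mul_one]
      _ = (a * a) * b * a * (b * b) := by group
      _ = b * a := by rw [h2, h3]; group
  apply Cfsg.Agent.Lib.OddLocal.centralizer_pCore_le (G := G) (p := 2) hO
  rw [Subgroup.mem_centralizer_iff]
  intro h hh
  exact hEc h (Cfsg.Agent.Lib.Basic.pCore_le_sylow T hh) x (hT (Subgroup.mem_zpowers x))

/-- A criterion for `p`-length one. -/
theorem pLengthLE_one_of_pow (p q : ℕ) [hp : Fact p.Prime] [hq : Fact q.Prime] (hpq : p ≠ q)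
    (h : ∀ g : G, g ^ q ∈ pPrimePCore p G) : PLengthLE p 1 G := by
  have hn := Cfsg.Agent.Lib.OddLocal.upperPSeries_two (G := G) p
  have key : ∀ (N : Subgroup G) [N.Normal], N = pPrimePCore p G →
      (pPrimeCore p (G ⧸ N)).comap (QuotientGroup.mk' N) = ⊤ := by
    intro N _ e
    subst e
    have h1 : IsPGroup q (G ⧸ pPrimePCore p G) := by
      intro a
      refine ⟨1, ?_⟩
      induction a using QuotientGroup.induction_on with
      | H g =>
      rw [pow_one, ← QuotientGroup.mk_pow]
      exact (QuotientGroup.eq_one_iff _).mpr (h g)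
    have h2 : (Nat.card (G ⧸ pPrimePCore p G)).Coprime p := by
      obtain ⟨k, hk⟩ := IsPGroup.iff_card.mp h1
      rw [hk]
      exact Nat.Coprime.pow_left k ((Nat.coprime_primes hq.out hp.out).mpr hpq.symm)
    have h3 := Cfsg.Agent.Lib.Components.le_pPrimeCore (G := G ⧸ pPrimePCore p G) (p := p) (N := ⊤) inferInstance (by
      rwa [Subgroup.card_top])
    rw [top_le_iff] at h3
    rw [h3, Subgroup.comap_top]
  have h4 := Cfsg.Agent.Lib.OddLocal.upperPSeries_succ_even (G := G) p 2 (by decide)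
  show (upperPSeries p G 3).1 = ⊤
  rw [show (3 : ℕ) = 2 + 1 from rfl, h4]
  exact key _ hn

/-- Groups of exponent `6`. -/
theorem exp6_pLength (h : ∀ x : G, x ^ 6 = 1) : PLengthLE 2 1 G ∧ PLengthLE 3 1 G := by
  classical
  haveI : Fact (Nat.Prime 2) := ⟨Nat.prime_two⟩
  haveI : Fact (Nat.Prime 3) := ⟨Nat.prime_three⟩
  have hn0 : Nat.card G ≠ 0 := Nat.card_pos.ne'
  obtain ⟨a, m, hm2, hm⟩ := Nat.exists_eq_pow_mul_and_not_dvd hn0 2 (by norm_num)
  have hm0 : m ≠ 0 := by
    rintro rfl
    simp at hm2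
  obtain ⟨b, m', hm3, hm'⟩ := Nat.exists_eq_pow_mul_and_not_dvd hm0 3 (by norm_num)
  have hm1 : m' = 1 := by
    by_contra hne
    have hr := Nat.minFac_prime hne
    haveI : Fact (m'.minFac).Prime := ⟨hr⟩
    have hdvd : m'.minFac ∣ Nat.card G := by
      rw [hm, hm']
      exact Dvd.dvd.mul_left (Dvd.dvd.mul_left (Nat.minFac_dvd m') _) _
    obtain ⟨g, hg⟩ := exists_prime_orderOf_dvd_card' m'.minFac hdvd
    have h1 : m'.minFac ∣ 6 := by
      rw [← hg]
      exact orderOf_dvd_of_pow_eq_one (h g)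
    have h2 : m'.minFac ∣ 2 * 3 := h1
    rcases (Nat.Prime.dvd_mul hr).mp h2 with h3 | h3
    · have h4 := (Nat.prime_dvd_prime_iff_eq hr Nat.prime_two).mp h3
      apply hm2
      rw [hm']
      exact Dvd.dvd.mul_left (h4 ▸ Nat.minFac_dvd m') _
    · have h4 := (Nat.prime_dvd_prime_iff_eq hr Nat.prime_three).mp h3
      apply hm3
      exact h4 ▸ Nat.minFac_dvd m'
  haveI hsol : Group.IsSolvable G := by
    refine Cfsg.Agent.Lib.Char.isSolvable_of_card_eq_aux (p := 2) (q := 3) Nat.prime_two Nat.prime_three _ G rfl ⟨a, b, ?_⟩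
    rw [hm, hm', hm1, mul_one]
  constructor
  · apply pLengthLE_one_of_pow 2 3 (by norm_num)
    intro g
    show ((QuotientGroup.mk' (pPrimeCore 2 G)) (g ^ 3)) ∈ pCore 2 (G ⧸ pPrimeCore 2 G)
    apply exp6_core2
    · intro y
      obtain ⟨z, rfl⟩ := QuotientGroup.mk'_surjective _ y
      rw [← map_pow, h, map_one]
    · exact Cfsg.Agent.Lib.OddLocal.pPrimeCore_quotient_eq_bot 2
    · rw [← map_pow, ← pow_mul, h, map_one]
  · apply pLengthLE_one_of_pow 3 2 (by norm_num)
    intro g
    show ((QuotientGroup.mk' (pPrimeCore 3 G)) (g ^ 2)) ∈ pCore 3 (G ⧸ pPrimeCore 3 G)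
    apply exp6_core3
    · intro y
      obtain ⟨z, rfl⟩ := QuotientGroup.mk'_surjective _ y
      rw [← map_pow, h, map_one]
    · exact Cfsg.Agent.Lib.OddLocal.pPrimeCore_quotient_eq_bot 3
    · rw [← map_pow, ← pow_mul, h, map_one]

end Core

end Cfsg.Agent.Lib.Struct
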