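import Cfsg.Agent.Lib.PGroups.Frobenius2

/-!
# Solutions of `x ^ n = 1` in a coset of a normal subgroup of prime index
-/

set_option autoImplicit false

namespace Cfsg.Agent.Lib.Struct.FrobCount

open Subgroup Finset Cfsg.Agent.Lib.PGroups

/-- The number of solutions of `v ^ q ^ f = 1` over a nontrivial element of a group of order `q`
does not depend on that element. -/
theorem card_fiber_le {X Y : Type*} [Group X] [Finite X] [Group Y] (φ : X →* Y) {q : ℕ}
    (hq : q.Prime) (hY : Nat.card Y = q) (f : ℕ) (y y' : Y) (hy : y ≠ 1) (hy' : y' ≠ 1) :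
    Nat.card {v : X // v ^ q ^ f = 1 ∧ φ v = y} ≤ Nat.card {v : X // v ^ q ^ f = 1 ∧ φ v = y'} := by
  classical
  haveI : Fact q.Prime := ⟨hq⟩
  haveI : Finite Y := Nat.finite_of_card_ne_zero (by rw [hY]; exact hq.ne_zero)
  have htop : Subgroup.zpowers y = ⊤ := zpowers_eq_top_of_prime_card hY hy
  have hmem : y' ∈ Subgroup.zpowers y := by rw [htop]; trivial
  obtain ⟨t, ht⟩ := (mem_powers_iff_mem_zpowers).mpr hmem
  simp only at ht
  have hqt : ¬ q ∣ t := by
    intro h
    obtain ⟨s, rfl⟩ := h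
    apply hy'
    rw [← ht, pow_mul]
    have : y ^ q = 1 := by
      rw [← hY]
      exact pow_card_eq_one'
    rw [this, one_pow]
  have hcop : Nat.Coprime t (q ^ f) :=
    ((Nat.Prime.coprime_iff_not_dvd hq).mpr hqt).symm.pow_right f
  obtain ⟨s, hs⟩ : ∃ s : ℕ, t * s ≡ 1 [MOD q ^ f] := by
    by_cases h1 : q ^ f = 1
    · rw [h1]
      exact ⟨0, Nat.modEq_one⟩
    · have hgt : 1 < q ^ f := lt_of_le_of_ne (Nat.pos_of_ne_zero (pow_ne_zero _ hq.ne_zero)) (Ne.symm h1)
      obtain ⟨s, hs⟩ := Nat.exists_mul_mod_eq_one_of_coprime hcop hgt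
      refine ⟨s, ?_⟩
      unfold Nat.ModEq
      rw [hs.2, Nat.mod_eq_of_lt hgt]
  apply Nat.card_le_card_of_injective
    (fun v : {v : X // v ^ q ^ f = 1 ∧ φ v = y} =>
      (⟨v.1 ^ t, by
        rw [← pow_mul, mul_comm, pow_mul, v.2.1, one_pow], by
        rw [map_pow, v.2.2, ht]⟩ : {v : X // v ^ q ^ f = 1 ∧ φ v = y'}))
  intro v w hvw
  have hvw' : v.1 ^ t = w.1 ^ t := congrArg Subtype.val hvw
  apply Subtype.ext
  have h1 : v.1 = (v.1 ^ t) ^ s := by
    rw [← pow_mul, pow_eq_of_modEq v.2.1 hs, pow_one]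
  have h2 : w.1 = (w.1 ^ t) ^ s := by
    rw [← pow_mul, pow_eq_of_modEq w.2.1 hs, pow_one]
  rw [h1, h2, hvw']

theorem card_fiber_eq {X Y : Type*} [Group X] [Finite X] [Group Y] (φ : X →* Y) {q : ℕ}
    (hq : q.Prime) (hY : Nat.card Y = q) (f : ℕ) (y y' : Y) (hy : y ≠ 1) (hy' : y' ≠ 1) :
    Nat.card {v : X // v ^ q ^ f = 1 ∧ φ v = y} = Nat.card {v : X // v ^ q ^ f = 1 ∧ φ v = y'} :=
  le_antisymm (card_fiber_le φ hq hY f y y' hy hy') (card_fiber_le φ hq hY f y' y hy' hy)

/-- The number of solutions of `v ^ q ^ f = 1` over a nontrivial element of a group of order `q`. -/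
theorem gcd_dvd_card_fiber {X Y : Type*} [Group X] [Finite X] [Group Y] (φ : X →* Y) {q : ℕ}
    (hq : q.Prime) (hY : Nat.card Y = q) (f : ℕ) (y : Y) (hy : y ≠ 1) :
    Nat.gcd (q ^ f) (Nat.card φ.ker) ∣ Nat.card {v : X // v ^ q ^ f = 1 ∧ φ v = y} := by
  classical
  haveI : Fact q.Prime := ⟨hq⟩
  haveI : Finite Y := Nat.finite_of_card_ne_zero (by rw [hY]; exact hq.ne_zero)
  haveI : Fintype X := Fintype.ofFinite X
  haveI : Fintype Y := Fintype.ofFinite Y
  set E := Nat.card {v : X // v ^ q ^ f = 1 ∧ φ v = y} with hE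
  have hcardfib : ∀ y' : Y, Nat.card {v : X // v ^ q ^ f = 1 ∧ φ v = y'} =
      (univ.filter fun v : X => v ^ q ^ f = 1 ∧ φ v = y').card := by
    intro y'
    rw [Nat.card_eq_fintype_card, Fintype.card_subtype]
  have htotal : sol X (q ^ f) = ∑ y' : Y, Nat.card {v : X // v ^ q ^ f = 1 ∧ φ v = y'} := by
    unfold sol
    rw [Nat.card_eq_fintype_card, Fintype.card_subtype,
      Finset.card_eq_sum_card_fiberwise (f := φ) (t := Finset.univ) (fun _ _ => by simp)]
    refine Finset.sum_congr rfl fun y' _ => ?_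
    rw [hcardfib, Finset.filter_filter]
  have hone : Nat.card {v : X // v ^ q ^ f = 1 ∧ φ v = 1} = sol φ.ker (q ^ f) := by
    unfold sol
    apply Nat.card_congr
    refine ⟨fun v => ⟨⟨v.1, v.2.2⟩, Subtype.ext v.2.1⟩, fun v => ⟨v.1.1, ?_, v.1.2⟩, ?_, ?_⟩
    · have := congrArg Subtype.val v.2
      simpa using this
    · intro v
      rfl
    · intro v
      rfl
  have hsplit : sol X (q ^ f) = sol φ.ker (q ^ f) + (q - 1) * E := by
    rw [htotal, ← Finset.add_sum_erase _ _ (Finset.mem_univ (1 : Y)), hone]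
    congr 1
    rw [Finset.sum_congr rfl (g := fun _ => E)]
    · rw [Finset.sum_const, Finset.card_erase_of_mem (Finset.mem_univ _), Finset.card_univ,
        ← Nat.card_eq_fintype_card, hY, smul_eq_mul]
    · intro y' hy'
      exact card_fiber_eq φ hq hY f y' y (Finset.ne_of_mem_erase hy') hy
  set d := Nat.gcd (q ^ f) (Nat.card φ.ker) with hd
  have hd1 : d ∣ sol φ.ker (q ^ f) := gcd_dvd_sol _ _
  have hd2 : d ∣ sol X (q ^ f) := by
    refine dvd_trans ?_ (gcd_dvd_sol X (q ^ f))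
    exact Nat.gcd_dvd_gcd_of_dvd_right _ (Subgroup.card_subgroup_dvd_card _)
  have hd3 : d ∣ (q - 1) * E := by
    rw [hsplit] at hd2
    exact (Nat.dvd_add_right hd1).mp hd2
  have hcop : Nat.Coprime d (q - 1) := by
    have h1 : d ∣ q ^ f := Nat.gcd_dvd_left _ _
    have h2 : Nat.Coprime (q ^ f) (q - 1) := by
      apply Nat.Coprime.pow_left
      rw [Nat.coprime_comm, Nat.coprime_self_sub_left hq.one_le]
      exact (Nat.coprime_one_left_iff _).mpr trivial
    exact Nat.Coprime.coprime_dvd_left h1 h2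
  exact hcop.dvd_of_dvd_mul_left hd3


open Classical in
/-- `card_filter_pow_eq_sum` with `Nat.card`s of subtypes. -/
theorem card_pow_eq_sum' {G : Type*} [Group G] [Fintype G] {s t : ℕ} (hc : s.Coprime t) (Pr : G → Prop) :
    Nat.card {x : G // x ^ (s * t) = 1 ∧ Pr x} =
      ∑ u ∈ univ.filter (fun u : G => u ^ s = 1), Nat.card {v : G // v ^ t = 1 ∧ Commute u v ∧ Pr (u * v)} := by
  have key := card_filter_pow_eq_sum hc Pr
  rw [Nat.card_eq_fintype_card, Fintype.card_subtype]
  convert key using 2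
  rw [Nat.card_eq_fintype_card, Fintype.card_subtype]

/-- `p`-local divisibility of the number of solutions in a coset. -/
theorem prime_pow_dvd_card_coset {G : Type*} [Group G] [Finite G] (M : Subgroup G) [M.Normal]
    {q : ℕ} (hq : q.Prime) (hM : M.index = q) (g : G) (hg : g ∉ M) (n : ℕ) {p j : ℕ} (hp : p.Prime)
    (h1 : p ^ j ∣ n) (h2 : p ^ j ∣ Nat.card G) (h3 : p = q → p ^ (j + 1) ∣ n ∧ p ^ (j + 1) ∣ Nat.card G) :
    p ^ j ∣ Nat.card {x : G // x ^ n = 1 ∧ (x : G ⧸ M) = g} := by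
  classical
  haveI : Fintype G := Fintype.ofFinite G
  haveI : Fact q.Prime := ⟨hq⟩
  have hY : Nat.card (G ⧸ M) = q := hM
  obtain ⟨f, w, hpw, hcard⟩ := Nat.exists_eq_pow_mul_and_not_dvd (n := Nat.card G)
    Nat.card_pos.ne' p hp.ne_one
  have hcop : w.Coprime (p ^ f) := ((Nat.Prime.coprime_iff_not_dvd hp).mpr hpw).symm.pow_right f
  have hdiv : ∀ i, p ^ i ∣ Nat.card G → p ^ i ∣ p ^ f := by
    intro i hi
    have h4 : p ^ i ∣ p ^ f * w := hcard ▸ hi
    exact (Nat.Coprime.dvd_of_dvd_mul_right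
      (((Nat.Prime.coprime_iff_not_dvd hp).mpr hpw).pow_left i) h4)
  have hall : ∀ x : G, x ^ (w * p ^ f) = 1 := by
    intro x
    have := pow_card_eq_one' (x := x)
    rwa [hcard, mul_comm] at this
  set t₀ := Nat.gcd (p ^ f) n with ht₀
  have ht₀f : t₀ ∣ p ^ f := Nat.gcd_dvd_left _ _
  have ht₀n : t₀ ∣ n := Nat.gcd_dvd_right _ _
  have ht₀G : t₀ ∣ Nat.card G := by
    rw [hcard]
    exact ht₀f.trans (Dvd.intro _ rfl)
  have hT : Nat.card {x : G // x ^ n = 1 ∧ (x : G ⧸ M) = g} =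
      Nat.card {x : G // x ^ (w * p ^ f) = 1 ∧ (x ^ n = 1 ∧ (x : G ⧸ M) = g)} :=
    Nat.card_congr (Equiv.subtypeEquivRight (fun x => by simp [hall x]))
  rw [hT, card_pow_eq_sum' hcop (fun x : G => x ^ n = 1 ∧ (x : G ⧸ M) = g)]
  -- the quotient is commutative
  have hcyc : IsCyclic (G ⧸ M) := isCyclic_of_prime_card hY
  have hcommY : ∀ a b : G ⧸ M, a * b = b * a := fun a b => by
    letI : CommGroup (G ⧸ M) := IsCyclic.commGroup
    exact mul_comm' a b
  have hconjbar : ∀ a b : G, ((a * b * a⁻¹ : G) : G ⧸ M) = (b : G ⧸ M) := by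
    intro a b
    simp only [QuotientGroup.mk_mul, QuotientGroup.mk_inv]
    rw [hcommY (a : G ⧸ M) b]
    group
  -- the solutions of `u ^ n * v ^ n = 1`
  have hsplit : ∀ u v : G, u ^ w = 1 → v ^ p ^ f = 1 → Commute u v →
      ((u * v) ^ n = 1 ↔ u ^ n = 1 ∧ v ^ n = 1) := by
    intro u v hu hv huv
    rw [huv.mul_pow]
    constructor
    · intro h
      have h5 : u ^ n = (v ^ n)⁻¹ := eq_inv_of_mul_eq_one_left h
      have h6 : (v ^ n) ^ w = 1 := by
        have h7 : (u ^ n) ^ w = 1 := by rw [← pow_mul, mul_comm, pow_mul, hu, one_pow]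
        rw [h5, inv_pow] at h7
        exact inv_eq_one.mp h7
      have h7 : (v ^ n) ^ p ^ f = 1 := by rw [← pow_mul, mul_comm, pow_mul, hv, one_pow]
      have h8 := pow_gcd_eq_one.mpr ⟨h6, h7⟩
      rw [Nat.Coprime.gcd_eq_one hcop, pow_one] at h8
      refine ⟨?_, h8⟩
      rw [h5, h8, inv_one]
    · rintro ⟨h5, h6⟩
      rw [h5, h6, one_mul]
  have htiff : ∀ v : G, (v ^ p ^ f = 1 ∧ v ^ n = 1) ↔ v ^ t₀ = 1 := by
    intro v
    constructor
    · rintro ⟨a, b⟩
      exact pow_gcd_eq_one.mpr ⟨a, b⟩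
    · intro h
      constructor
      · obtain ⟨c, hc⟩ := ht₀f
        rw [hc, pow_mul, h, one_pow]
      · obtain ⟨c, hc⟩ := ht₀n
        rw [hc, pow_mul, h, one_pow]
  by_cases hpq : p = q
  · -- the prime `q`
    subst hpq
    obtain ⟨h4, h5⟩ := h3 rfl
    have hdt : p ^ (j + 1) ∣ t₀ := Nat.dvd_gcd (hdiv _ h5) h4
    have hubar : ∀ u : G, u ^ w = 1 → (u : G ⧸ M) = 1 := by
      intro u hu
      have h6 : (u : G ⧸ M) ^ w = 1 := by
        rw [← QuotientGroup.mk_pow, hu]
        rfl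
      have h7 : (u : G ⧸ M) ^ p = 1 := by
        rw [← hY]
        exact pow_card_eq_one'
      have h8 := pow_gcd_eq_one.mpr ⟨h6, h7⟩
      have h9 : Nat.gcd w p = 1 := ((Nat.Prime.coprime_iff_not_dvd hp).mpr hpw).symm
      rwa [h9, pow_one] at h8
    let E : G → ℕ := fun u => Nat.card {v : G // v ^ t₀ = 1 ∧ Commute u v ∧ (v : G ⧸ M) = g}
    have hinner : ∀ u ∈ univ.filter (fun u : G => u ^ w = 1),
        Nat.card {v : G // v ^ p ^ f = 1 ∧ Commute u v ∧
          ((u * v) ^ n = 1 ∧ ((u * v : G) : G ⧸ M) = g)} = if u ^ n = 1 then E u else 0 := by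
      intro u hu
      have hu' : u ^ w = 1 := (Finset.mem_filter.mp hu).2
      have hiff : ∀ v : G, (v ^ p ^ f = 1 ∧ Commute u v ∧
          ((u * v) ^ n = 1 ∧ ((u * v : G) : G ⧸ M) = g)) ↔
          (u ^ n = 1 ∧ v ^ t₀ = 1 ∧ Commute u v ∧ (v : G ⧸ M) = g) := by
        intro v
        have hub := hubar u hu'
        simp only [QuotientGroup.mk_mul, hub, one_mul]
        constructor
        · rintro ⟨a, b, c, d⟩
          obtain ⟨e₁, e₂⟩ := (hsplit u v hu' a b).mp c
          exact ⟨e₁, (htiff v).mp ⟨a, e₂⟩, b, d⟩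
        · rintro ⟨a, b, c, d⟩
          obtain ⟨e₁, e₂⟩ := (htiff v).mpr b
          exact ⟨e₁, c, (hsplit u v hu' e₁ c).mpr ⟨a, e₂⟩, d⟩
      rw [Nat.card_congr (Equiv.subtypeEquivRight hiff)]
      by_cases hun : u ^ n = 1
      · simp [hun, E]
      · simp only [hun, false_and, if_false]
        exact Nat.card_of_isEmpty
    rw [Finset.sum_congr rfl hinner, ← Finset.sum_filter, Finset.filter_filter]
    apply dvd_sum_of_conj_invariant
    · intro a u hu
      have hu' := (Finset.mem_filter.mp hu).2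
      refine Finset.mem_filter.mpr ⟨Finset.mem_univ _, ?_, ?_⟩
      · rw [conj_pow, hu'.1]
        simp
      · rw [conj_pow, hu'.2]
        simp
    · -- invariance of `E`
      intro a u
      apply Nat.card_congr
      refine ⟨fun v => ⟨a⁻¹ * v.1 * a, ?_⟩, fun v => ⟨a * v.1 * a⁻¹, ?_⟩, ?_, ?_⟩
      · obtain ⟨v, hv'⟩ := v
        refine ⟨?_, ?_, ?_⟩
        · have e : (a⁻¹ * v * a) ^ t₀ = a⁻¹ * v ^ t₀ * a := by
            simpa using conj_pow (a := a⁻¹) (b := v) (i := t₀)
          show (a⁻¹ * v * a) ^ t₀ = 1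
          rw [e, hv'.1]
          simp
        · have h6 : a * u * a⁻¹ * v = v * (a * u * a⁻¹) := hv'.2.1
          show u * (a⁻¹ * v * a) = (a⁻¹ * v * a) * u
          have h7 : a⁻¹ * (a * u * a⁻¹ * v) * a = a⁻¹ * (v * (a * u * a⁻¹)) * a := by rw [h6]
          simpa [mul_assoc] using h7
        · have := hconjbar a⁻¹ v
          rw [inv_inv] at this
          rw [this]
          exact hv'.2.2
      · obtain ⟨v, hv'⟩ := v
        refine ⟨?_, ?_, ?_⟩
        · show (a * v * a⁻¹) ^ t₀ = 1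
          rw [conj_pow, hv'.1]
          simp
        · have h6 : u * v = v * u := hv'.2.1
          show a * u * a⁻¹ * (a * v * a⁻¹) = a * v * a⁻¹ * (a * u * a⁻¹)
          have h7 : a * (u * v) * a⁻¹ = a * (v * u) * a⁻¹ := by rw [h6]
          simpa [mul_assoc] using h7
        · rw [hconjbar]
          exact hv'.2.2
      · intro v
        apply Subtype.ext
        simp [mul_assoc]
      · intro v
        apply Subtype.ext
        simp [mul_assoc]
    · -- divisibility
      intro u _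
      let X : Subgroup G := Subgroup.centralizer ({u} : Set G)
      let φ : X →* G ⧸ M := (QuotientGroup.mk' M).comp X.subtype
      have hgbar : (g : G ⧸ M) ≠ 1 := fun h => hg ((QuotientGroup.eq_one_iff g).mp h)
      obtain ⟨i, _, hi⟩ := (Nat.dvd_prime_pow hp).mp ht₀f
      have hfib := gcd_dvd_card_fiber φ hp hY i (g : G ⧸ M) hgbar
      rw [← hi] at hfib
      have hEu : Nat.card {v : X // v ^ t₀ = 1 ∧ φ v = (g : G ⧸ M)} = E u := by
        apply Nat.card_congr
        refine ⟨fun v => ⟨v.1.1, ?_, ?_, v.2.2⟩, fun v => ⟨⟨v.1, ?_⟩, ?_, v.2.2.2⟩, ?_, ?_⟩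
        · have := congrArg Subtype.val v.2.1
          simpa using this
        · have := Subgroup.mem_centralizer_iff.mp v.1.2 u (Set.mem_singleton u)
          exact this
        · rw [Subgroup.mem_centralizer_iff]
          intro h hh
          rw [Set.mem_singleton_iff] at hh
          rw [hh]
          exact v.2.2.1
        · apply Subtype.ext
          simpa using v.2.1
        · intro v
          rfl
        · intro v
          rfl
      rw [hEu] at hfib
      -- orders
      have hker : Nat.card X ∣ p * Nat.card φ.ker := by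
        have h6 : φ.ker.index * Nat.card φ.ker = Nat.card X := Subgroup.index_mul_card _
        have h7 : φ.ker.index ∣ p := by
          rw [Subgroup.index_ker, ← hY]
          exact Subgroup.card_subgroup_dvd_card _
        rw [← h6]
        exact Nat.mul_dvd_mul_right h7 _
      have hGX : X.index * Nat.card X = Nat.card G := Subgroup.index_mul_card X
      have h6 : p * p ^ j ∣ X.index * (p * Nat.card φ.ker) := by
        have h7 : p ^ (j + 1) ∣ Nat.card G := h5
        rw [pow_succ', ← hGX] at h7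
        exact h7.trans (Nat.mul_dvd_mul_left _ hker)
      have h8 : p ^ j ∣ X.index * Nat.card φ.ker := by
        have h9 : p * p ^ j ∣ p * (X.index * Nat.card φ.ker) := by
          convert h6 using 1
          ring
        exact Nat.dvd_of_mul_dvd_mul_left hp.pos h9
      have h10 := Cfsg.Agent.Lib.PGroups.dvd_mul_gcd_of_dvd_mul h8
      refine h10.trans (Nat.mul_dvd_mul_left _ ?_)
      refine dvd_trans ?_ hfib
      refine Nat.gcd_dvd_gcd_of_dvd_left _ ?_
      exact (Dvd.intro_left p (by rw [← pow_succ'])).trans hdt |> fun h => h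
  · -- a prime different from `q`
    have hdt : p ^ j ∣ t₀ := Nat.dvd_gcd (hdiv _ h2) h1
    refine hdt.trans ?_
    have hvbar : ∀ v : G, v ^ p ^ f = 1 → (v : G ⧸ M) = 1 := by
      intro v hv
      have h6 : (v : G ⧸ M) ^ p ^ f = 1 := by
        rw [← QuotientGroup.mk_pow, hv]
        rfl
      have h7 : (v : G ⧸ M) ^ q = 1 := by
        rw [← hY]
        exact pow_card_eq_one'
      have h8 := pow_gcd_eq_one.mpr ⟨h6, h7⟩
      have h9 : Nat.gcd (p ^ f) q = 1 :=
        Nat.Coprime.pow_left f ((Nat.coprime_primes hp hq).mpr hpq)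
      rwa [h9, pow_one] at h8
    have hinner : ∀ u ∈ univ.filter (fun u : G => u ^ w = 1),
        Nat.card {v : G // v ^ p ^ f = 1 ∧ Commute u v ∧
          ((u * v) ^ n = 1 ∧ ((u * v : G) : G ⧸ M) = g)} =
            if u ^ n = 1 ∧ (u : G ⧸ M) = g then cnt t₀ u else 0 := by
      intro u hu
      have hu' : u ^ w = 1 := (Finset.mem_filter.mp hu).2
      have hiff : ∀ v : G, (v ^ p ^ f = 1 ∧ Commute u v ∧
          ((u * v) ^ n = 1 ∧ ((u * v : G) : G ⧸ M) = g)) ↔
          ((u ^ n = 1 ∧ (u : G ⧸ M) = g) ∧ v ^ t₀ = 1 ∧ Commute u v) := by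
        intro v
        constructor
        · rintro ⟨a, b, c, d⟩
          obtain ⟨e₁, e₂⟩ := (hsplit u v hu' a b).mp c
          have hv1 := hvbar v a
          rw [QuotientGroup.mk_mul, hv1, mul_one] at d
          exact ⟨⟨e₁, d⟩, (htiff v).mp ⟨a, e₂⟩, b⟩
        · rintro ⟨⟨a, d⟩, b, c⟩
          obtain ⟨e₁, e₂⟩ := (htiff v).mpr b
          have hv1 := hvbar v e₁
          refine ⟨e₁, c, (hsplit u v hu' e₁ c).mpr ⟨a, e₂⟩, ?_⟩
          rw [QuotientGroup.mk_mul, hv1, mul_one, d]
      rw [Nat.card_congr (Equiv.subtypeEquivRight hiff)]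
      by_cases hun : u ^ n = 1 ∧ (u : G ⧸ M) = g
      · simp only [hun, if_true, true_and, and_self]
        rfl
      · simp only [hun, false_and, if_false]
        exact Nat.card_of_isEmpty
    rw [Finset.sum_congr rfl hinner, ← Finset.sum_filter, Finset.filter_filter]
    apply dvd_sum_of_conj_invariant
    · intro a u hu
      have hu' := (Finset.mem_filter.mp hu).2
      refine Finset.mem_filter.mpr ⟨Finset.mem_univ _, ?_, ?_, ?_⟩
      · rw [conj_pow, hu'.1]
        simp
      · rw [conj_pow, hu'.2.1]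
        simp
      · rw [hconjbar]
        exact hu'.2.2
    · exact cnt_conj t₀
    · intro u _
      exact dvd_index_mul_cnt ht₀G u

end Cfsg.Agent.Lib.Struct.FrobCount
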