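import Cfsg.Agent.Lib.PGroups.Frobenius2

/-!
# Counting solutions of `x ^ n = c` (P. Hall's generalisation of Frobenius' theorem)
-/

set_option autoImplicit false

namespace Cfsg.Agent.Lib.Struct.FrobCount

open Subgroup Finset Cfsg.Agent.Lib.PGroups

open Classical in
/-- Block argument: the fibres of `v ↦ ⟨v⟩` are cosets of a subgroup of order divisible by `p ^ k`. -/
theorem dvd_card_of_blocks {H : Type*} [Group H] [Fintype H] {p k n : ℕ} (hp : p.Prime)
    (hk : p ^ k ∣ n) (Q : H → Prop) [DecidablePred Q]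
    (h1 : ∀ v, Q v → ∃ N : ℕ, v ^ p ^ N = 1) (h2 : ∀ v, Q v → v ^ n ≠ 1)
    (h3 : ∀ v w, Q v → w ∈ zpowers v → w ^ n = 1 → Q (v * w))
    (h4 : ∀ v v', Q v → Q v' → zpowers v = zpowers v' → v ^ n = v' ^ n) :
    p ^ k ∣ (univ.filter Q).card := by
  rw [Finset.card_eq_sum_card_image (fun v : H => (zpowers v : Subgroup H)) (univ.filter Q)]
  apply Finset.dvd_sum
  intro C hC
  obtain ⟨v₀, hv₀, rfl⟩ := Finset.mem_image.mp hC
  have hQ₀ : Q v₀ := (Finset.mem_filter.mp hv₀).2
  -- the order of `v₀`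
  obtain ⟨N, hN⟩ := h1 v₀ hQ₀
  obtain ⟨a, -, ha⟩ := (Nat.dvd_prime_pow hp).mp (orderOf_dvd_of_pow_eq_one hN)
  have hnq : ¬ orderOf v₀ ∣ n := fun h => h2 v₀ hQ₀ (orderOf_dvd_iff_pow_eq_one.mp h)
  have hak : k < a := by
    by_contra hle
    push Not at hle
    exact hnq (ha ▸ (pow_dvd_pow p hle).trans hk)
  obtain ⟨b, rfl⟩ : ∃ b, a = b + 1 := ⟨a - 1, by omega⟩
  have hvb : v₀ ^ p ^ b ≠ 1 := by
    intro h
    have := orderOf_dvd_of_pow_eq_one h
    rw [ha] at this
    have h5 := (Nat.pow_dvd_pow_iff_le_right hp.one_lt).mp this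
    omega
  -- elements of the fibre
  have hgen : ∀ w ∈ zpowers v₀, w ^ n = 1 → zpowers (v₀ * w) = zpowers v₀ := by
    intro w hw hwn
    have hwq : w ^ orderOf v₀ = 1 := by
      obtain ⟨i, rfl⟩ := hw
      show (v₀ ^ i) ^ orderOf v₀ = 1
      rw [← zpow_natCast, ← zpow_mul, mul_comm, zpow_mul, zpow_natCast, pow_orderOf_eq_one, one_zpow]
    have hwb : w ^ p ^ b = 1 := by
      have hg : w ^ Nat.gcd n (orderOf v₀) = 1 := pow_gcd_eq_one.mpr ⟨hwn, hwq⟩
      obtain ⟨i, hi, hi2⟩ := (Nat.dvd_prime_pow hp).mp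
        (show Nat.gcd n (orderOf v₀) ∣ p ^ (b + 1) from ha ▸ Nat.gcd_dvd_right _ _)
      have hib : i ≤ b := by
        by_contra hcon
        have : i = b + 1 := by omega
        rw [this, ← ha] at hi2
        exact hnq (hi2 ▸ Nat.gcd_dvd_left _ _)
      have : Nat.gcd n (orderOf v₀) ∣ p ^ b := by
        rw [hi2]
        exact pow_dvd_pow p hib
      exact orderOf_dvd_iff_pow_eq_one.mp
        ((orderOf_dvd_of_pow_eq_one hg).trans this)
    have hcomm : Commute v₀ w := by
      obtain ⟨i, rfl⟩ := hw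
      exact (Commute.refl v₀).zpow_right i
    have hle : zpowers (v₀ * w) ≤ zpowers v₀ := by
      rw [zpowers_le]
      exact Subgroup.mul_mem _ (mem_zpowers v₀) hw
    apply Subgroup.eq_of_le_of_card_ge hle
    rw [Nat.card_zpowers, Nat.card_zpowers]
    have huo : orderOf (v₀ * w) ∣ p ^ (b + 1) := by
      apply orderOf_dvd_of_pow_eq_one
      rw [hcomm.mul_pow, ← ha, pow_orderOf_eq_one, hwq, one_mul]
    obtain ⟨i, hi, hi2⟩ := (Nat.dvd_prime_pow hp).mp huo
    have hib : i = b + 1 := by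
      by_contra hcon
      have hle' : i ≤ b := by omega
      have h5 : (v₀ * w) ^ p ^ b = 1 := by
        apply orderOf_dvd_iff_pow_eq_one.mp
        rw [hi2]
        exact pow_dvd_pow p hle'
      rw [hcomm.mul_pow, hwb, mul_one] at h5
      exact hvb h5
    rw [ha, hi2, hib]
  -- the fibre is in bijection with the solutions in `zpowers v₀`
  have hmemz : ∀ v ∈ (univ.filter Q).filter (fun v => (zpowers v : Subgroup H) = zpowers v₀),
      v ∈ zpowers v₀ := by
    intro v hv
    have hv' := (Finset.mem_filter.mp hv).2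
    rw [← hv']
    exact mem_zpowers v
  have hequiv : {x : zpowers v₀ // x ^ n = 1} ≃
      {v // v ∈ (univ.filter Q).filter (fun v => (zpowers v : Subgroup H) = zpowers v₀)} :=
    { toFun := fun w => ⟨v₀ * (w.1 : H), by
        have hw1 : (w.1 : H) ∈ zpowers v₀ := w.1.2
        have hw2 : (w.1 : H) ^ n = 1 := by
          have := congrArg Subtype.val w.2
          simpa using this
        exact Finset.mem_filter.mpr ⟨Finset.mem_filter.mpr ⟨Finset.mem_univ _, h3 _ _ hQ₀ hw1 hw2⟩,
          hgen _ hw1 hw2⟩⟩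
      invFun := fun v => ⟨⟨v₀⁻¹ * v.1, Subgroup.mul_mem _ (Subgroup.inv_mem _ (mem_zpowers v₀))
          (hmemz v.1 v.2)⟩, by
          have hv' := Finset.mem_filter.mp v.2
          have hv2 := (Finset.mem_filter.mp hv'.1).2
          apply Subtype.ext
          obtain ⟨i, hi⟩ := hmemz v.1 v.2
          have hc : Commute v₀⁻¹ v.1 := by
            rw [← hi]
            exact ((Commute.refl v₀).zpow_right i).inv_left
          show (v₀⁻¹ * v.1) ^ n = 1
          rw [hc.mul_pow, ← h4 v₀ v.1 hQ₀ hv2 hv'.2.symm, inv_pow, inv_mul_cancel]⟩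
      left_inv := by
        intro w
        apply Subtype.ext
        apply Subtype.ext
        simp
      right_inv := by
        intro v
        apply Subtype.ext
        simp }
  have hcard : ((univ.filter Q).filter (fun v => (zpowers v : Subgroup H) = zpowers v₀)).card =
      sol (zpowers v₀) n := by
    unfold sol
    rw [Nat.card_congr hequiv, Nat.card_eq_fintype_card, Fintype.card_coe]
  show p ^ k ∣ ((univ.filter Q).filter (fun v => (zpowers v : Subgroup H) = zpowers v₀)).card
  rw [hcard]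
  refine dvd_trans ?_ (gcd_dvd_sol (zpowers v₀) n)
  apply Nat.dvd_gcd hk
  rw [Nat.card_zpowers, ha]
  exact pow_dvd_pow p (by omega)


open Classical in
/-- `p`-local form of Hall's theorem: `p ^ k ∣ n` and `p ^ k ∣ |K|` give
`p ^ k ∣ #{x | x ^ n = c}` for central `c`. -/
theorem prime_pow_dvd_card_pow_eq {K : Type*} [Group K] [Finite K] (c : K)
    (hc : c ∈ Subgroup.center K) {p k : ℕ} (n : ℕ) (hp : p.Prime) (hk1 : p ^ k ∣ n)
    (hk2 : p ^ k ∣ Nat.card K) : p ^ k ∣ Nat.card {x : K // x ^ n = c} := by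
  classical
  haveI : Fintype K := Fintype.ofFinite K
  obtain ⟨f, w, hpw, hcard⟩ := Nat.exists_eq_pow_mul_and_not_dvd (n := Nat.card K)
    Nat.card_pos.ne' p hp.ne_one
  have hcop : w.Coprime (p ^ f) := ((Nat.Prime.coprime_iff_not_dvd hp).mpr hpw).symm.pow_right f
  have hkf : p ^ k ∣ p ^ f := by
    have h1 : p ^ k ∣ p ^ f * w := hcard ▸ hk2
    exact (Nat.Coprime.dvd_of_dvd_mul_right
      (((Nat.Prime.coprime_iff_not_dvd hp).mpr hpw).pow_left k) h1)
  have hall : ∀ x : K, x ^ (w * p ^ f) = 1 := by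
    intro x
    have := pow_card_eq_one' (x := x)
    rwa [hcard, mul_comm] at this
  have hT : Nat.card {x : K // x ^ n = c} =
      (univ.filter fun x : K => x ^ (w * p ^ f) = 1 ∧ x ^ n = c).card := by
    rw [Nat.card_eq_fintype_card, Fintype.card_subtype]
    congr 1
    ext x
    simp [hall x]
  rw [hT, card_filter_pow_eq_sum hcop (fun x => x ^ n = c)]
  by_cases hcw : c ^ w = 1
  · -- `c` is a `p'`-element
    set t₀ := Nat.gcd (p ^ f) n with ht₀
    have hkt : p ^ k ∣ t₀ := Nat.dvd_gcd hkf hk1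
    refine hkt.trans ?_
    have hinner : ∀ u ∈ univ.filter (fun u : K => u ^ w = 1),
        (univ.filter fun v : K => v ^ p ^ f = 1 ∧ Commute u v ∧ (u * v) ^ n = c).card =
          if u ^ n = c then cnt t₀ u else 0 := by
      intro u hu
      have hu' : u ^ w = 1 := (Finset.mem_filter.mp hu).2
      have hiff : ∀ v : K, (v ^ p ^ f = 1 ∧ Commute u v ∧ (u * v) ^ n = c) ↔
          (u ^ n = c ∧ v ^ t₀ = 1 ∧ Commute u v) := by
        intro v
        constructor
        · rintro ⟨h1, h2, h3⟩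
          rw [h2.mul_pow] at h3
          have hv1 : v ^ n = (u ^ n)⁻¹ * c := eq_inv_mul_of_mul_eq h3
          have hcc : Commute ((u ^ n)⁻¹) c :=
            (Subgroup.mem_center_iff.mp hc _)
          have hvw : (v ^ n) ^ w = 1 := by
            rw [hv1, hcc.mul_pow, inv_pow, ← pow_mul, mul_comm n w, pow_mul, hu', one_pow, inv_one,
              one_mul, hcw]
          have hvp : (v ^ n) ^ p ^ f = 1 := by
            rw [← pow_mul, mul_comm, pow_mul, h1, one_pow]
          have hvn : v ^ n = 1 := by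
            have h5 := pow_gcd_eq_one.mpr ⟨hvw, hvp⟩
            rw [Nat.Coprime.gcd_eq_one hcop, pow_one] at h5
            exact h5
          refine ⟨?_, pow_gcd_eq_one.mpr ⟨h1, hvn⟩, h2⟩
          rw [hvn, mul_one] at h3
          exact h3
        · rintro ⟨h1, h2, h3⟩
          have h4 : v ^ p ^ f = 1 := by
            obtain ⟨j, hj⟩ := Nat.gcd_dvd_left (p ^ f) n
            rw [hj, pow_mul, ← ht₀, h2, one_pow]
          have h5 : v ^ n = 1 := by
            obtain ⟨j, hj⟩ := Nat.gcd_dvd_right (p ^ f) n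
            rw [hj, pow_mul, ← ht₀, h2, one_pow]
          refine ⟨h4, h3, ?_⟩
          rw [h3.mul_pow, h5, mul_one, h1]
      simp only [hiff]
      by_cases hun : u ^ n = c
      · simp only [hun, if_true, true_and]
        unfold cnt
        rw [Nat.card_eq_fintype_card, Fintype.card_subtype]
      · simp [hun]
    rw [Finset.sum_congr rfl hinner, ← Finset.sum_filter, Finset.filter_filter]
    apply dvd_sum_of_conj_invariant
    · intro g u hu
      have hu' := (Finset.mem_filter.mp hu).2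
      refine Finset.mem_filter.mpr ⟨Finset.mem_univ _, ?_, ?_⟩
      · rw [conj_pow, hu'.1]
        simp
      · rw [conj_pow, hu'.2]
        rw [Subgroup.mem_center_iff.mp hc g]
        simp
    · exact cnt_conj t₀
    · intro u _
      apply dvd_index_mul_cnt
      rw [hcard]
      exact (Nat.gcd_dvd_left _ _).trans (Dvd.intro _ rfl)
  · -- `c` is not a `p'`-element
    apply Finset.dvd_sum
    intro u hu
    have hu' : u ^ w = 1 := (Finset.mem_filter.mp hu).2
    apply dvd_card_of_blocks hp hk1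
    · rintro v ⟨h1, -, -⟩
      exact ⟨f, h1⟩
    · rintro v ⟨-, h2, h3⟩ hvn
      rw [h2.mul_pow, hvn, mul_one] at h3
      apply hcw
      rw [← h3, ← pow_mul, mul_comm, pow_mul, hu', one_pow]
    · rintro v a ⟨h1, h2, h3⟩ ha han
      obtain ⟨i, rfl⟩ := ha
      have hcva : Commute v (v ^ i) := (Commute.refl v).zpow_right i
      have hcua : Commute u (v ^ i) := h2.zpow_right i
      refine ⟨?_, h2.mul_right hcua, ?_⟩
      · rw [hcva.mul_pow, h1, one_mul]
        show (v ^ i) ^ p ^ f = 1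
        rw [← zpow_natCast, ← zpow_mul, mul_comm, zpow_mul, zpow_natCast, h1, one_zpow]
      · rw [← mul_assoc, ((hcua.mul_left hcva)).mul_pow]
        show (u * v) ^ n * (v ^ i) ^ n = c
        have han' : (v ^ i) ^ n = 1 := han
        rw [han', mul_one, h3]
    · rintro v v' ⟨-, h2, h3⟩ ⟨-, h2', h3'⟩ -
      rw [h2.mul_pow] at h3
      rw [h2'.mul_pow] at h3'
      exact mul_left_cancel (h3.trans h3'.symm)

/-- Hall's theorem for a central element. -/
theorem gcd_dvd_card_pow_eq {K : Type*} [Group K] [Finite K] (c : K)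
    (hc : c ∈ Subgroup.center K) (n : ℕ) :
    Nat.gcd n (Nat.card K) ∣ Nat.card {x : K // x ^ n = c} := by
  rw [Nat.dvd_iff_prime_pow_dvd_dvd]
  intro p k hp hk
  exact prime_pow_dvd_card_pow_eq c hc n hp (hk.trans (Nat.gcd_dvd_left _ _))
    (hk.trans (Nat.gcd_dvd_right _ _))

end Cfsg.Agent.Lib.Struct.FrobCount
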