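import Cfsg.Agent.Lib.Basic.Frobenius2

/-!
# Constructing Frobenius groups as semidirect products with a fixed point free action.
-/

set_option autoImplicit false

namespace Cfsg.Agent.Lib.Struct

open Subgroup Cfsg SemidirectProduct

variable {N Q : Type*} [Group N] [Group Q]

/-- The two factors of a semidirect product are complements. -/
theorem semidirect_isComplement' (φ : Q →* MulAut N) :
    Subgroup.IsComplement' (inl : N →* N ⋊[φ] Q).range (inr : Q →* N ⋊[φ] Q).range := by
  apply Subgroup.isComplement'_of_disjoint_and_mul_eq_univ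
  · rw [Subgroup.disjoint_def]
    rintro x ⟨n, rfl⟩ ⟨q, hq⟩
    have h1 := congrArg SemidirectProduct.left hq
    simp only [left_inr, left_inl] at h1
    rw [← h1]
    simp
  · ext x
    simp only [Set.mem_univ, iff_true]
    exact Set.mem_mul.mpr ⟨inl x.left, ⟨x.left, rfl⟩, inr x.right, ⟨x.right, rfl⟩,
      inl_left_mul_inr_right x⟩

/-- A fixed point free action produces a Frobenius complement. -/
theorem semidirect_isFrobeniusComplement [Nontrivial N] [Nontrivial Q] (φ : Q →* MulAut N)
    (hfix : ∀ q : Q, q ≠ 1 → ∀ v : N, φ q v = v → v = 1) :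
    IsFrobeniusComplement (inr : Q →* N ⋊[φ] Q).range := by
  have : (inl : N →* N ⋊[φ] Q).range.Normal := by
    rw [range_inl_eq_ker_rightHom]
    infer_instance
  refine (Cfsg.Agent.Lib.Basic.isFrobeniusComplement_iff_fpf (semidirect_isComplement' φ)
    ?_ ?_).mpr ?_
  · obtain ⟨v, hv⟩ := exists_ne (1 : N)
    intro h
    have : inl v ∈ (inl : N →* N ⋊[φ] Q).range := ⟨v, rfl⟩
    rw [h, Subgroup.mem_bot] at this
    exact hv (inl_injective (by simpa using this))
  · obtain ⟨v, hv⟩ := exists_ne (1 : Q)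
    intro h
    have : inr v ∈ (inr : Q →* N ⋊[φ] Q).range := ⟨v, rfl⟩
    rw [h, Subgroup.mem_bot] at this
    exact hv (inr_injective (by simpa using this))
  · rintro _ ⟨q, rfl⟩ hq
    have hq1 : q ≠ 1 := by
      rintro rfl
      simp at hq
    rw [eq_bot_iff]
    rintro x hx
    obtain ⟨⟨v, rfl⟩, hc⟩ := Subgroup.mem_inf.mp hx
    rw [Subgroup.mem_centralizer_iff] at hc
    have h2 := hc _ (Set.mem_singleton _)
    have h3 : φ q v = v := by
      have := congrArg SemidirectProduct.left h2
      simpa using this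
    rw [hfix q hq1 v h3]
    simp

/-- Build a homomorphism to `MulAut N` from a multiplicative family of endomorphisms. -/
def mulAutOfEnd (f : Q → (N →* N)) (h1 : ∀ v, f 1 v = v) (hm : ∀ a b v, f (a * b) v = f a (f b v)) :
    Q →* MulAut N where
  toFun q :=
    { toFun := f q
      invFun := f q⁻¹
      left_inv := fun v => by rw [← hm, inv_mul_cancel, h1]
      right_inv := fun v => by rw [← hm, mul_inv_cancel, h1]
      map_mul' := (f q).map_mul }
  map_one' := by
    ext v
    exact h1 v
  map_mul' a b := by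
    ext v
    exact hm a b v

@[simp] theorem mulAutOfEnd_apply (f : Q → (N →* N)) (h1 : ∀ v, f 1 v = v)
    (hm : ∀ a b v, f (a * b) v = f a (f b v)) (q : Q) (v : N) :
    mulAutOfEnd f h1 hm q v = f q v := rfl

/-- Packaged form: a fixed point free family gives a Frobenius complement isomorphic to `Q`. -/
theorem exists_frobenius_of_fpf {N Q : Type} [Group N] [Group Q] [Finite N] [Finite Q] [Nontrivial N]
    [Nontrivial Q] (φ : Q →* MulAut N)
    (hfix : ∀ q : Q, q ≠ 1 → ∀ v : N, φ q v = v → v = 1) :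
    ∃ (L : Type) (_ : Group L) (_ : Finite L) (H : Subgroup L), IsFrobeniusComplement H ∧
      Nonempty (Q ≃* H) := by
  refine ⟨N ⋊[φ] Q, inferInstance, ?_, (inr : Q →* N ⋊[φ] Q).range,
    semidirect_isFrobeniusComplement φ hfix,
    ⟨MonoidHom.ofInjective inr_injective⟩⟩
  exact Finite.of_equiv _ (SemidirectProduct.equivProd (φ := φ)).symm

/-- Additive form of `exists_frobenius_of_fpf`. -/
theorem exists_frobenius_of_add {A Q : Type} [AddCommGroup A] [Group Q] [Finite A] [Finite Q]
    [Nontrivial A] [Nontrivial Q] (F : Q → (A →+ A)) (h1 : ∀ v, F 1 v = v)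
    (hm : ∀ a b v, F (a * b) v = F a (F b v))
    (hfix : ∀ q : Q, q ≠ 1 → ∀ v : A, F q v = v → v = 0) :
    ∃ (L : Type) (_ : Group L) (_ : Finite L) (H : Subgroup L), IsFrobeniusComplement H ∧
      Nonempty (Q ≃* H) := by
  refine exists_frobenius_of_fpf (N := Multiplicative A)
    (mulAutOfEnd (fun q => AddMonoidHom.toMultiplicative (F q)) (fun v => h1 v.toAdd)
      (fun a b v => hm a b v.toAdd)) ?_
  intro q hq v hv
  exact hfix q hq v.toAdd hv

/-- For `n ≠ 0` there are arbitrarily large primes `q` with a unit of order `n` in `ZMod q`. -/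
theorem exists_prime_unit_orderOf (n k : ℕ) (hn : n ≠ 0) :
    ∃ q : ℕ, q.Prime ∧ k < q ∧ ∃ (_ : Fact q.Prime) (ζ : (ZMod q)ˣ), orderOf ζ = n := by
  obtain ⟨q, hq, hkq, hmod⟩ := Nat.exists_prime_gt_modEq_one k hn
  have : Fact q.Prime := ⟨hq⟩
  refine ⟨q, hq, hkq, this, ?_⟩
  obtain ⟨g, hg⟩ := IsCyclic.exists_ofOrder_eq_natCard (α := (ZMod q)ˣ)
  have hcard : Nat.card (ZMod q)ˣ = q - 1 := by
    rw [Nat.card_eq_fintype_card, ZMod.card_units_eq_totient, Nat.totient_prime hq]
  have hdvd : n ∣ orderOf g := by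
    rw [hg, hcard]
    exact (Nat.modEq_iff_dvd' hq.one_lt.le).mp hmod.symm
  exact ⟨g ^ (orderOf g / n), orderOf_pow_orderOf_div (orderOf_pos g).ne' hdvd⟩

end Cfsg.Agent.Lib.Struct
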