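import Mathlib
import Cfsg.Agent.Lib.Basic.Gaschutz
import Cfsg.Agent.Lib.Basic.Index

/-!
# Gaschütz: complements of abelian normal subgroups are detected on Sylow preimages.
-/

set_option autoImplicit false
set_option linter.unusedSectionVars false
set_option linter.style.haveILetI false

namespace Cfsg.Agent.Lib.Struct

open Cfsg.Agent.Lib.Basic

open scoped IsMulCommutative

variable {G : Type*} [Group G]

/-- A complement in `U` gives a crossed homomorphism on `G` restricting to the `[G:U]`-th power. -/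
theorem exists_crossed_pow [Finite G] (K U : Subgroup G) [hKn : K.Normal] [hKc : IsMulCommutative K]
    (hKU : K ≤ U) (A : Subgroup G) (hAK : A ⊓ K = ⊥) (hKA : K ⊔ A = U) :
    ∃ c : G → K, (∀ x y, c (x * y) = c x * (MulAut.conjNormal x) (c y)) ∧
      ∀ a : K, c a = a ^ U.index := by
  classical
  haveI : Fintype (G ⧸ U) := Fintype.ofFinite _
  -- decomposition of elements of `U`
  have hdec : ∀ u : U, ∃ k : K, ∃ a ∈ A, (k : G) * a = u := by
    intro u
    have h1 : (u : G) ∈ K ⊔ A := by rw [hKA]; exact u.2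
    rw [Subgroup.mem_sup_of_normal_left] at h1
    obtain ⟨k, hk, a, ha, h2⟩ := h1
    exact ⟨⟨k, hk⟩, a, ha, h2⟩
  choose φ a₀ ha₀ hφ₀ using hdec
  have huniq : ∀ (k₁ k₂ : K) (a₁ a₂ : G), a₁ ∈ A → a₂ ∈ A → (k₁ : G) * a₁ = k₂ * a₂ → k₁ = k₂ := by
    intro k₁ k₂ a₁ a₂ h₁ h₂ h
    have h3 : ((k₂ : G))⁻¹ * k₁ = a₂ * a₁⁻¹ := by
      rw [inv_mul_eq_iff_eq_mul, ← mul_assoc, ← h]
      group
    have h4 : a₂ * a₁⁻¹ ∈ A ⊓ K := by
      refine ⟨A.mul_mem h₂ (A.inv_mem h₁), ?_⟩
      rw [← h3]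
      exact K.mul_mem (K.inv_mem k₂.2) k₁.2
    rw [hAK, Subgroup.mem_bot, ← h3] at h4
    apply Subtype.ext
    rw [inv_mul_eq_one] at h4
    exact h4.symm
  have hcommK : ∀ u v : G, u ∈ K → v ∈ K → u * v = v * u := by
    intro u v hu hv
    exact congrArg Subtype.val (mul_comm' (⟨u, hu⟩ : K) ⟨v, hv⟩)
  have hφ : ∀ x y : U, φ (x * y) = φ x * (MulAut.conjNormal (x : G)) (φ y) := by
    intro x y
    refine huniq _ _ (a₀ (x * y)) (a₀ x * a₀ y) (ha₀ _) (A.mul_mem (ha₀ x) (ha₀ y)) ?_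
    rw [hφ₀]
    simp only [Subgroup.coe_mul, MulAut.conjNormal_apply]
    have hx := hφ₀ x
    have hy := hφ₀ y
    set kx : G := (φ x : G) with hkx
    set ky : G := (φ y : G) with hky
    set ax := a₀ x with hax
    set ay := a₀ y with hay
    have hkxK : kx ∈ K := (φ x).2
    have hkyK : ky ∈ K := (φ y).2
    have hwK : ax * ky * ax⁻¹ ∈ K := hKn.conj_mem ky hkyK ax
    have hw : (x : G) * ky * (x : G)⁻¹ = ax * ky * ax⁻¹ := by
      rw [← hx]
      calc kx * ax * ky * (kx * ax)⁻¹ = kx * (ax * ky * ax⁻¹) * kx⁻¹ := by group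
        _ = (ax * ky * ax⁻¹) * kx * kx⁻¹ := by rw [hcommK _ _ hkxK hwK]
        _ = ax * ky * ax⁻¹ := by group
    rw [hw, ← hx, ← hy]
    group
  have hφK : ∀ u : U, ∀ hu : (u : G) ∈ K, φ u = ⟨u, hu⟩ := by
    intro u hu
    refine huniq _ _ (a₀ u) 1 (ha₀ u) A.one_mem ?_
    rw [hφ₀, mul_one]
  set c := corestr (MulAut.conjNormal : G →* MulAut K) U φ with hc
  have hccross : ∀ x y, c (x * y) = c x * (MulAut.conjNormal x) (c y) :=
    corestr_mul _ U hφ
  -- `c a = a ^ n` on `K`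
  have hcK : ∀ a : K, c a = a ^ Fintype.card (G ⧸ U) := by
    intro a
    rw [hc, corestr, ← Finset.card_univ, ← Finset.prod_const]
    refine Finset.prod_congr rfl fun q _ => ?_
    have hq : (a : G) • q = q := by
      conv_lhs => rw [← QuotientGroup.out_eq' q]
      have : (a : G) • ((q.out : G) : G ⧸ U) = (((a : G) * q.out : G) : G ⧸ U) := rfl
      rw [this]
      conv_rhs => rw [← QuotientGroup.out_eq' q]
      rw [QuotientGroup.eq]
      apply hKU
      have h1 := hKn.conj_mem _ (K.inv_mem a.2) q.out⁻¹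
      simpa [mul_assoc] using h1
    have hz : ((uCocycle U (a : G) q : U) : G) = q.out⁻¹ * ((a : G) * q.out) := by
      simp only [uCocycle, hq]
    have hzK : ((uCocycle U (a : G) q : U) : G) ∈ K := by
      rw [hz]
      have h1 := hKn.conj_mem _ a.2 q.out⁻¹
      simpa [mul_assoc] using h1
    rw [hφK _ hzK, hq]
    apply Subtype.ext
    rw [MulAut.conjNormal_apply]
    simp only [hz]
    group
  refine ⟨c, hccross, fun a => ?_⟩
  rw [hcK a, Subgroup.index, Nat.card_eq_fintype_card]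

/-- The exponents of crossed retractions form a subgroup of `ℤ`. -/
def crossedExponents (K : Subgroup G) [K.Normal] [IsMulCommutative K] : AddSubgroup ℤ where
  carrier := {n | ∃ c : G → K, (∀ x y, c (x * y) = c x * (MulAut.conjNormal x) (c y)) ∧
      ∀ a : K, c a = a ^ n}
  zero_mem' := ⟨fun _ => 1, fun x y => by simp, fun a => by simp⟩
  add_mem' := by
    rintro m n ⟨c, hc, hc'⟩ ⟨d, hd, hd'⟩
    refine ⟨fun g => c g * d g, fun x y => ?_, fun a => ?_⟩
    · simp only [hc, hd, map_mul]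
      rw [mul_mul_mul_comm]
    · simp only [hc', hd']
      rw [zpow_add]
  neg_mem' := by
    rintro m ⟨c, hc, hc'⟩
    refine ⟨fun g => (c g)⁻¹, fun x y => ?_, fun a => ?_⟩
    · simp only [hc, map_inv, mul_inv_rev]
      rw [mul_comm]
    · simp only [hc']
      rw [zpow_neg]

/-- The main theorem of this file. -/
theorem exists_complement_of_local [Finite G] (K : Subgroup G) [hKn : K.Normal] [hKc : IsMulCommutative K]
    (h : ∀ p : ℕ, p.Prime → p ∣ K.index → ∃ U A : Subgroup G, K ≤ U ∧ A ⊓ K = ⊥ ∧ K ⊔ A = U ∧ ¬ p ∣ U.index) :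
    ∃ H : Subgroup G, Subgroup.IsComplement' K H := by
  have hmem : ∀ U A : Subgroup G, K ≤ U → A ⊓ K = ⊥ → K ⊔ A = U → (U.index : ℤ) ∈ crossedExponents K := by
    intro U A hKU hAK hKA
    obtain ⟨c, hc, hc'⟩ := exists_crossed_pow K U hKU A hAK hKA
    exact ⟨c, hc, fun a => by rw [hc' a, zpow_natCast]⟩
  have hK0 : (K.index : ℤ) ∈ crossedExponents K := hmem K ⊥ le_rfl (bot_inf_eq _) (sup_bot_eq _)
  obtain ⟨d, hd⟩ := Int.subgroup_cyclic (crossedExponents K)
  have hd' : ∀ n : ℤ, n ∈ crossedExponents K ↔ d ∣ n := by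
    intro n
    rw [hd, AddSubgroup.mem_closure_singleton]
    constructor
    · rintro ⟨k, rfl⟩
      simp
    · rintro ⟨k, rfl⟩
      exact ⟨k, by simp [mul_comm]⟩
  have hd1 : d.natAbs = 1 := by
    by_contra hne
    obtain ⟨r, hr, hrd⟩ := Nat.exists_prime_and_dvd hne
    have hrd' : (r : ℤ) ∣ d := Int.natCast_dvd.mpr hrd
    have h1 : (r : ℤ) ∣ (K.index : ℤ) := hrd'.trans ((hd' _).mp hK0)
    have h2 : r ∣ K.index := Int.natCast_dvd_natCast.mp h1
    obtain ⟨U, A, hKU, hAK, hKA, hnd⟩ := h r hr h2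
    have h3 : (r : ℤ) ∣ (U.index : ℤ) := hrd'.trans ((hd' _).mp (hmem U A hKU hAK hKA))
    exact hnd (Int.natCast_dvd_natCast.mp h3)
  have h1mem : (1 : ℤ) ∈ crossedExponents K := by
    rw [hd']
    rw [← Int.natAbs_dvd_natAbs]
    simp [hd1]
  obtain ⟨c, hc, hc'⟩ := h1mem
  exact exists_complement_of_retraction K hc (fun a => by rw [hc' a, zpow_one])

end Cfsg.Agent.Lib.Struct
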