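import Mathlib
import Cfsg.Agent.Lib.Transfer.Frattini
import Cfsg.Agent.Lib.Struct.Basic
import Cfsg.Agent.Lib.Basic.Frattini

/-!
# The Hall-Wielandt transfer argument

Cocycles for an action of a `p`-group with values in `ZMod p`, and the vanishing of the associated
"transfer" on a set without fixed points of a subgroup `Q` satisfying an Engel condition.
-/

set_option autoImplicit false

namespace Cfsg.Agent.Lib.Struct

open Subgroup

theorem card_lt_of_lt'' {G : Type*} [Group G] [Finite G] {H K : Subgroup G} (h : H < K) :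
    Nat.card H < Nat.card K := by
  have h1 := card_inf_mul_relIndex H K
  rw [inf_of_le_left h.le] at h1
  have h2 : H.relIndex K ≠ 1 := by
    intro h3
    exact h.not_ge (Subgroup.relIndex_eq_one.mp h3)
  have h3 : H.relIndex K ≠ 0 := by
    intro h4
    rw [h4, mul_zero] at h1
    exact Nat.card_pos.ne' h1.symm
  have h4 : 0 < Nat.card H := Nat.card_pos
  have h5 : 2 ≤ H.relIndex K := by omega
  rw [← h1]
  nlinarith

section Coc

variable {P : Type*} [Group P] {X : Type*} [MulAction P X] {p : ℕ}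

/-- A `ZMod p`-valued cocycle. -/
def IsCoc (c : P → X → ZMod p) : Prop := ∀ (g h : P) (x : X), c (g * h) x = c g (h • x) + c h x

variable {c : P → X → ZMod p}

theorem IsCoc.one (hc : IsCoc c) (x : X) : c 1 x = 0 := by
  have := hc 1 1 x
  rw [one_smul, mul_one] at this
  simpa using this

theorem IsCoc.pow (hc : IsCoc c) (y : P) (x : X) (n : ℕ) :
    ∑ i ∈ Finset.range n, c y (y ^ i • x) = c (y ^ n) x := by
  induction n with
  | zero => simp [hc.one]
  | succ n ih =>
    rw [Finset.sum_range_succ, ih, pow_succ', hc y (y ^ n) x, add_comm]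

/-- Orbit formula: no fixed points gives zero. -/
theorem IsCoc.sum_eq_zero_of_free [Finite P] [DecidableEq X] (hc : IsCoc c) (y : P) (hH : ∀ (t : P) (x : X), t • x = x → orderOf t < orderOf y → c t x = 0) :
    ∀ (n : ℕ) (Y : Finset X), Y.card = n → (∀ x ∈ Y, y • x ∈ Y) → (∀ x ∈ Y, y • x ≠ x) →
    ∑ x ∈ Y, c y x = 0 := by
  intro n
  induction n using Nat.strong_induction_on with
  | _ n ih =>
  intro Y hn hY hfree
  rcases Y.eq_empty_or_nonempty with rfl | ⟨x₀, hx₀⟩
  · simp
  -- the orbit of `x₀`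
  have hord : 0 < orderOf y := orderOf_pos y
  have hper : (y ^ orderOf y) • x₀ = x₀ := by rw [pow_orderOf_eq_one, one_smul]
  let m := Nat.find (⟨orderOf y, hord, hper⟩ : ∃ m, 0 < m ∧ y ^ m • x₀ = x₀)
  have hm : 0 < m ∧ y ^ m • x₀ = x₀ := Nat.find_spec (⟨orderOf y, hord, hper⟩ : ∃ m, 0 < m ∧ y ^ m • x₀ = x₀)
  have hmin : ∀ k, k < m → ¬ (0 < k ∧ y ^ k • x₀ = x₀) := fun k hk =>
    Nat.find_min (⟨orderOf y, hord, hper⟩ : ∃ m, 0 < m ∧ y ^ m • x₀ = x₀) hk
  have hinj : Set.InjOn (fun i : ℕ => y ^ i • x₀) (Finset.range m : Set ℕ) := by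
    have key : ∀ i j, i < j → j < m → y ^ i • x₀ ≠ y ^ j • x₀ := by
      intro i j hij hj heq
      have h1 : y ^ (j - i) • x₀ = x₀ := by
        have : y ^ j = y ^ i * y ^ (j - i) := by
          rw [← pow_add]; congr 1; omega
        rw [this, mul_smul] at heq
        exact (smul_left_cancel _ heq).symm
      exact hmin (j - i) (by omega) ⟨by omega, h1⟩
    intro i hi j hj heq
    simp only [Finset.coe_range, Set.mem_Iio] at hi hj
    rcases lt_trichotomy i j with h | h | h
    · exact absurd heq (key i j h hj)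
    · exact h
    · exact absurd heq.symm (key j i h hi)
  set O := (Finset.range m).image (fun i : ℕ => y ^ i • x₀) with hO
  have hmemY : ∀ k : ℕ, y ^ k • x₀ ∈ Y := by
    intro k
    induction k with
    | zero => simpa using hx₀
    | succ k ih2 =>
      rw [pow_succ', mul_smul]
      exact hY _ ih2
  have hOsub : O ⊆ Y := by
    intro x hx
    obtain ⟨i, _, rfl⟩ := Finset.mem_image.mp hx
    exact hmemY i
  have hOy : ∀ x ∈ O, y • x ∈ O := by
    intro x hx
    obtain ⟨i, hi, rfl⟩ := Finset.mem_image.mp hx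
    have hi' := Finset.mem_range.mp hi
    rw [← mul_smul, ← pow_succ']
    by_cases h : i + 1 = m
    · rw [h, hm.2]
      exact Finset.mem_image.mpr ⟨0, Finset.mem_range.mpr hm.1, by simp⟩
    · exact Finset.mem_image.mpr ⟨i + 1, Finset.mem_range.mpr (by omega), rfl⟩
  have hOsum : ∑ x ∈ O, c y x = 0 := by
    rw [hO, Finset.sum_image hinj, hc.pow]
    -- `m > 1`, so `y ^ m` has smaller order
    have hm1 : 1 < m := by
      by_contra hle
      have : m = 1 := by omega
      rw [this, pow_one] at hm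
      exact hfree x₀ hx₀ hm.2
    refine hH _ _ hm.2 ?_
    have hdvd : m ∣ orderOf y := by
      -- the minimal period divides the order
      have h2 : y ^ (orderOf y % m) • x₀ = x₀ := by
        have h3 : y ^ orderOf y = y ^ (orderOf y % m) * y ^ (m * (orderOf y / m)) := by
          rw [← pow_add, Nat.mod_add_div]
        have h4 : ∀ k : ℕ, y ^ (m * k) • x₀ = x₀ := by
          intro k
          induction k with
          | zero => simp
          | succ k ih3 =>
            rw [Nat.mul_succ, pow_add, mul_smul, hm.2, ih3]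
        rw [h3, mul_smul, h4] at hper
        exact hper
      by_contra hnd
      have h6 : orderOf y % m ≠ 0 := fun h0 => hnd (Nat.dvd_of_mod_eq_zero h0)
      exact hmin _ (Nat.mod_lt _ hm.1) ⟨Nat.pos_of_ne_zero h6, h2⟩
    rw [orderOf_pow' y hm.1.ne', Nat.gcd_eq_right hdvd]
    exact Nat.div_lt_self hord hm1
  have hsd : ∑ x ∈ Y, c y x = ∑ x ∈ Y \ O, c y x + ∑ x ∈ O, c y x :=
    (Finset.sum_sdiff hOsub).symm
  rw [hsd, hOsum, add_zero]
  have hx₀O : x₀ ∈ O := Finset.mem_image.mpr ⟨0, Finset.mem_range.mpr hm.1, by simp⟩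
  have hlt : (Y \ O).card < n := by
    rw [← hn]
    exact Finset.card_lt_card (Finset.sdiff_ssubset hOsub ⟨x₀, hx₀O⟩)
  refine ih _ hlt _ rfl ?_ ?_
  · intro x hx
    rw [Finset.mem_sdiff] at hx ⊢
    refine ⟨hY x hx.1, fun h => hx.2 ?_⟩
    -- if `y • x ∈ O` then `x ∈ O`
    obtain ⟨i, hi, hix⟩ := Finset.mem_image.mp h
    have hi' := Finset.mem_range.mp hi
    rcases Nat.eq_zero_or_pos i with rfl | hipos
    · -- `y • x = x₀ = y ^ m • x₀`
      have h1 : x = y ^ (m - 1) • x₀ := by
        have h2 : y • x = y • (y ^ (m - 1) • x₀) := by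
          rw [← mul_smul, ← pow_succ', Nat.sub_add_cancel hm.1, hm.2, ← hix]
          simp
        exact smul_left_cancel _ h2
      rw [h1]
      exact Finset.mem_image.mpr ⟨m - 1, Finset.mem_range.mpr (by omega), rfl⟩
    · have h1 : x = y ^ (i - 1) • x₀ := by
        have h2 : y • x = y • (y ^ (i - 1) • x₀) := by
          rw [← mul_smul, ← pow_succ', Nat.sub_add_cancel hipos, hix]
        exact smul_left_cancel _ h2
      rw [h1]
      exact Finset.mem_image.mpr ⟨i - 1, Finset.mem_range.mpr (by omega), rfl⟩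
  · intro x hx
    exact hfree x (Finset.mem_sdiff.mp hx).1

end Coc

section Alg

variable {p : ℕ} [hp : Fact p.Prime]

theorem poly_identity : ((Polynomial.X : Polynomial (ZMod p)) - 1) ^ (p - 1) =
    ∑ i ∈ Finset.range p, (Polynomial.X : Polynomial (ZMod p)) ^ i := by
  have h1 : (∑ i ∈ Finset.range p, (Polynomial.X : Polynomial (ZMod p)) ^ i) * (Polynomial.X - 1) =
      Polynomial.X ^ p - 1 := geom_sum_mul _ _
  have h2 : ((Polynomial.X : Polynomial (ZMod p)) - 1) ^ p = Polynomial.X ^ p - 1 := by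
    have := sub_pow_char (Polynomial.X : Polynomial (ZMod p)) 1
    simpa using this
  have h3 : ((Polynomial.X : Polynomial (ZMod p)) - 1) ^ (p - 1) * (Polynomial.X - 1) = Polynomial.X ^ p - 1 := by
    rw [← pow_succ, Nat.sub_add_cancel hp.out.one_le, h2]
  have hne : ((Polynomial.X : Polynomial (ZMod p)) - 1) ≠ 0 := by
    have := Polynomial.X_sub_C_ne_zero (1 : ZMod p)
    simpa using this
  exact mul_right_cancel₀ hne (h3.trans h1.symm)

theorem end_identity {R : Type*} [Ring R] [Algebra (ZMod p) R] (E : R) :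
    (E - 1) ^ (p - 1) = ∑ i ∈ Finset.range p, E ^ i := by
  have h := congrArg (Polynomial.aeval E) (poly_identity (p := p))
  simpa [map_sum, map_pow, map_sub] using h

variable {M : Type*} [Group M]

/-- For an additive function `f` on `M` with values in `ZMod p` and an endomorphism `T`,
`∑_{i<p} f (T^i y) = f (e^{p-1} y)` with `e u = u⁻¹ T u`. -/
theorem sum_iter_eq (T : M →* M) (f : M → ZMod p) (hf : ∀ a b, f (a * b) = f a + f b) (y : M) :
    ∑ i ∈ Finset.range p, f (T^[i] y) = f ((fun u => u⁻¹ * T u)^[p - 1] y) := by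
  let E : Module.End (ZMod p) (M → ZMod p) := LinearMap.funLeft (ZMod p) (ZMod p) T
  have hE : ∀ (g : M → ZMod p) (u : M), E g u = g (T u) := fun _ _ => rfl
  have hEpow : ∀ (i : ℕ) (g : M → ZMod p) (u : M), (E ^ i) g u = g (T^[i] u) := by
    intro i
    induction i with
    | zero => intro g u; simp
    | succ i ih =>
      intro g u
      rw [pow_succ, Module.End.mul_apply, ih, hE, Function.iterate_succ']
      rfl
  have hkey : ∀ (k : ℕ) (g : M → ZMod p), (∀ a b, g (a * b) = g a + g b) → ∀ u,
      ((E - 1) ^ k) g u = g ((fun u => u⁻¹ * T u)^[k] u) := by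
    intro k
    induction k with
    | zero => intro g _ u; simp
    | succ k ih =>
      intro g hg u
      rw [pow_succ, Module.End.mul_apply]
      have hg₁ : ∀ a b, ((E - 1) g) (a * b) = ((E - 1) g) a + ((E - 1) g) b := by
        intro a b
        simp only [LinearMap.sub_apply, Module.End.one_apply, Pi.sub_apply, hE, map_mul, hg]
        ring
      rw [ih _ hg₁, Function.iterate_succ']
      simp only [Function.comp_apply, LinearMap.sub_apply, Module.End.one_apply, Pi.sub_apply, hE]
      have hinv : ∀ a, g a⁻¹ = - g a := by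
        intro a
        have h1 : g (a⁻¹ * a) = g a⁻¹ + g a := hg _ _
        have h2 : g 1 = 0 := by
          have := hg 1 1
          simpa using this
        rw [inv_mul_cancel, h2] at h1
        exact (eq_neg_of_add_eq_zero_left h1.symm)
      rw [hg, hinv]
      ring
  have h1 := hkey (p - 1) f hf y
  rw [end_identity E] at h1
  rw [← h1, LinearMap.sum_apply, Finset.sum_apply]
  refine Finset.sum_congr rfl fun i _ => ?_
  exact (hEpow i f y).symm

end Alg

section Main

variable {p : ℕ} [hp : Fact p.Prime]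

/-- cosets of a normal subgroup of prime index -/
theorem prime_index_facts {L : Type*} [Group L] [Finite L] {M : Subgroup L} [hM : M.Normal] (hi : M.index = p)
    {z : L} (hz : z ∉ M) :
    (∀ g : L, ∃ i, i < p ∧ (z ^ i)⁻¹ * g ∈ M) ∧ (∀ k : ℕ, z ^ k ∈ M → p ∣ k) := by
  classical
  have hcard : Nat.card (L ⧸ M) = p := hi
  have hzb : (z : L ⧸ M) ≠ 1 := fun h => hz ((QuotientGroup.eq_one_iff z).mp h)
  have hpow : (z : L ⧸ M) ^ p = 1 := by
    rw [← hcard]; exact pow_card_eq_one'
  have hord : orderOf (z : L ⧸ M) = p := orderOf_eq_prime hpow hzb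
  constructor
  · intro g
    have h1 : (g : L ⧸ M) ∈ Subgroup.zpowers (z : L ⧸ M) := mem_zpowers_of_prime_card hcard hzb
    rw [← mem_powers_iff_mem_zpowers, mem_powers_iff_mem_range_orderOf, hord] at h1
    obtain ⟨i, hi', he⟩ := Finset.mem_image.mp h1
    refine ⟨i, Finset.mem_range.mp hi', ?_⟩
    rw [← QuotientGroup.eq_one_iff, QuotientGroup.mk_mul, QuotientGroup.mk_inv, QuotientGroup.mk_pow, he]
    simp
  · intro k hk
    rw [← hord]
    apply orderOf_dvd_of_pow_eq_one
    rw [← QuotientGroup.mk_pow]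
    exact (QuotientGroup.eq_one_iff _).mpr hk

variable {P : Type*} [Group P] [Finite P] {X : Type*} [MulAction P X]

open Classical in
/-- The main vanishing statement. -/
theorem coc_sum_eq_zero (hP : IsPGroup p P) (Q : Subgroup P)
    (hE : ∀ u : P, ∀ z ∈ Q, (fun y => y⁻¹ * z⁻¹ * y * z)^[p - 1] u = 1)
    {c : P → X → ZMod p} (hc : IsCoc c) (y : P)
    (hH : ∀ (t : P) (x : X), t • x = x → orderOf t < orderOf y → c t x = 0) :
    ∀ (n : ℕ) (L : Subgroup P), Nat.card L = n → Q ≤ L → y ∈ L → ∀ (k : ℕ) (Y : Finset X), Y.card = k →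
      (∀ g ∈ L, ∀ x ∈ Y, g • x ∈ Y) → (∀ x ∈ Y, ∃ z ∈ Q, z • x ≠ x) → ∑ x ∈ Y, c y x = 0 := by
  intro n
  induction n using Nat.strong_induction_on with
  | _ n ih =>
  intro L hn hQL hyL k
  induction k using Nat.strong_induction_on with
  | _ k ih2 =>
  intro Y hk hYinv hfree
  rcases Y.eq_empty_or_nonempty with rfl | ⟨x₀, hx₀⟩
  · simp
  set O := Y.filter (fun x => ∃ g ∈ L, g • x₀ = x) with hO
  have hOsub : O ⊆ Y := Finset.filter_subset _ _
  have hx₀O : x₀ ∈ O := Finset.mem_filter.mpr ⟨hx₀, 1, L.one_mem, one_smul _ _⟩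
  have hOinv : ∀ g ∈ L, ∀ x ∈ O, g • x ∈ O := by
    intro g hg x hx
    obtain ⟨hxY, h, hh, rfl⟩ := Finset.mem_filter.mp hx
    exact Finset.mem_filter.mpr ⟨hYinv g hg _ hxY, g * h, L.mul_mem hg hh, mul_smul _ _ _⟩
  have hrest : ∑ x ∈ Y \ O, c y x = 0 := by
    refine ih2 _ ?_ _ rfl ?_ ?_
    · rw [← hk]
      exact Finset.card_lt_card (Finset.sdiff_ssubset hOsub ⟨x₀, hx₀O⟩)
    · intro g hg x hx
      rw [Finset.mem_sdiff] at hx ⊢
      refine ⟨hYinv g hg x hx.1, fun h => hx.2 ?_⟩
      have := hOinv g⁻¹ (L.inv_mem hg) _ h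
      simpa using this
    · intro x hx
      exact hfree x (Finset.mem_sdiff.mp hx).1
  rw [← Finset.sum_sdiff hOsub, hrest, zero_add]
  -- the point stabilizer lies in a maximal subgroup of `L`
  obtain ⟨z₀, hz₀Q, hz₀⟩ := hfree x₀ hx₀
  haveI : Finite L := inferInstance
  have hLp : IsPGroup p L := hP.to_subgroup L
  have hDne : (MulAction.stabilizer P x₀).subgroupOf L ≠ ⊤ := by
    intro h
    have : (⟨z₀, hQL hz₀Q⟩ : L) ∈ (MulAction.stabilizer P x₀).subgroupOf L := by
      rw [h]; trivial
    exact hz₀ this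
  obtain ⟨M₀, hM₀, hDM₀⟩ := Cfsg.Agent.Lib.Basic.exists_isCoatom_ge hDne
  obtain ⟨hM₀n, hM₀i⟩ := Cfsg.Agent.Lib.Transfer.normal_and_index_of_isCoatom hLp hM₀
  set M : Subgroup P := M₀.map L.subtype with hM
  have hML : M ≤ L := Subgroup.map_subtype_le _
  have hmemM : ∀ (g : L), (g : P) ∈ M ↔ g ∈ M₀ := by
    intro g
    constructor
    · rintro ⟨g', hg', he⟩
      have : g' = g := Subtype.ext he
      rwa [← this]
    · intro h
      exact ⟨g, h, rfl⟩
  have hconjM : ∀ g ∈ L, ∀ u ∈ M, g * u * g⁻¹ ∈ M := by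
    intro g hg u hu
    have huL := hML hu
    have h1 := hM₀n.conj_mem ⟨u, huL⟩ ((hmemM ⟨u, huL⟩).mp hu) ⟨g, hg⟩
    exact (hmemM _).mpr h1
  have hstabM : ∀ g ∈ L, g • x₀ = x₀ → g ∈ M := by
    intro g hg he
    have : (⟨g, hg⟩ : L) ∈ M₀ := hDM₀ he
    exact (hmemM ⟨g, hg⟩).mpr this
  by_cases hyM : y ∈ M
  · by_cases hQM : Q ≤ M
    · -- induction on `L`
      have hlt : Nat.card M < n := by
        rw [← hn]
        refine Cfsg.Agent.Lib.Struct.card_lt_of_lt'' (lt_of_le_of_ne hML ?_)
        intro hEq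
        have hM₀top : M₀ = ⊤ := by
          rw [eq_top_iff]
          intro g _
          refine (hmemM g).mp ?_
          rw [hEq]
          exact g.2
        exact hM₀.1 hM₀top
      refine ih _ hlt M rfl hQM hyM _ O rfl ?_ ?_
      · intro g hg x hx
        exact hOinv g (hML hg) x hx
      · intro x hx
        exact hfree x (hOsub hx)
    · -- the Engel argument
      obtain ⟨z, hzQ, hzM⟩ := SetLike.not_le_iff_exists.mp hQM
      have hzL : z ∈ L := hQL hzQ
      have hzM₀ : (⟨z, hzL⟩ : L) ∉ M₀ := fun h => hzM ((hmemM _).mpr h)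
      obtain ⟨hcos, hpowM⟩ := prime_index_facts hM₀i hzM₀
      have hzpow : ∀ i : ℕ, z ^ i ∈ L := fun i => L.pow_mem hzL i
      have hzcoe : ∀ i : ℕ, (((⟨z, hzL⟩ : L) ^ i : L) : P) = z ^ i := fun i => by simp
      set O₀ := O.filter (fun x => ∃ g ∈ M, g • x₀ = x) with hO₀
      have hO₀inv : ∀ g ∈ M, ∀ x ∈ O₀, g • x ∈ O₀ := by
        intro g hg x hx
        obtain ⟨hxO, h, hh, rfl⟩ := Finset.mem_filter.mp hx
        exact Finset.mem_filter.mpr ⟨hOinv g (hML hg) _ hxO, g * h, M.mul_mem hg hh, mul_smul _ _ _⟩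
      have hperm : ∀ v ∈ M, ∀ f : X → ZMod p, ∑ x ∈ O₀, f (v • x) = ∑ x ∈ O₀, f x := by
        intro v hv f
        refine Finset.sum_nbij' (fun x => v • x) (fun x => v⁻¹ • x) (fun x hx => hO₀inv v hv x hx)
          (fun x hx => hO₀inv _ (M.inv_mem hv) x hx) (fun x _ => by simp) (fun x _ => by simp) (fun x _ => rfl)
      -- decomposition into blocks
      let φ : ℕ × X → X := fun a => z ^ a.1 • a.2
      have hinjaux : ∀ i j x x', i ≤ j → j < p → x ∈ O₀ → x' ∈ O₀ → z ^ i • x = z ^ j • x' → i = j ∧ x = x' := by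
        intro i j x x' hij hj hx hx' he
        obtain ⟨_, g, hg, rfl⟩ := Finset.mem_filter.mp hx
        obtain ⟨_, g', hg', rfl⟩ := Finset.mem_filter.mp hx'
        have h1 : (g⁻¹ * z ^ (j - i) * g') • x₀ = x₀ := by
          have e : z ^ j = z ^ i * z ^ (j - i) := by
            rw [← pow_add]; congr 1; omega
          rw [e, mul_smul] at he
          have h2 := smul_left_cancel _ he
          rw [mul_smul, mul_smul, ← h2]
          simp
        have h2 := hstabM _ (L.mul_mem (L.mul_mem (L.inv_mem (hML hg)) (hzpow _)) (hML hg')) h1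
        have h3 : z ^ (j - i) ∈ M := by
          have e : z ^ (j - i) = g * (g⁻¹ * z ^ (j - i) * g') * g'⁻¹ := by group
          rw [e]
          exact M.mul_mem (M.mul_mem hg h2) (M.inv_mem hg')
        have h4 : (⟨z, hzL⟩ : L) ^ (j - i) ∈ M₀ := by
          refine (hmemM _).mp ?_
          rw [hzcoe]; exact h3
        have h5 := hpowM _ h4
        have h6 : j - i = 0 := by
          rcases Nat.eq_zero_or_pos (j - i) with h | h
          · exact h
          · have := Nat.le_of_dvd h h5
            omega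
        have hij' : i = j := by omega
        subst hij'
        exact ⟨rfl, smul_left_cancel _ he⟩
      have hinj : Set.InjOn φ (↑(Finset.range p ×ˢ O₀) : Set (ℕ × X)) := by
        rintro ⟨i, x⟩ ha ⟨j, x'⟩ hb he
        simp only [Finset.coe_product, Set.mem_prod, Finset.mem_coe, Finset.mem_range] at ha hb
        have he' : z ^ i • x = z ^ j • x' := he
        rcases le_total i j with h | h
        · obtain ⟨rfl, rfl⟩ := hinjaux i j x x' h hb.1 ha.2 hb.2 he'
          rfl
        · obtain ⟨rfl, rfl⟩ := hinjaux j i x' x h ha.1 hb.2 ha.2 he'.symm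
          rfl
      have hOeq : O = (Finset.range p ×ˢ O₀).image φ := by
        ext x
        constructor
        · intro hx
          obtain ⟨_, g, hg, rfl⟩ := Finset.mem_filter.mp hx
          obtain ⟨i, hi, hig⟩ := hcos ⟨g, hg⟩
          have hm : (z ^ i)⁻¹ * g ∈ M := by
            have := (hmemM _).mpr hig
            simpa using this
          refine Finset.mem_image.mpr ⟨(i, ((z ^ i)⁻¹ * g) • x₀), ?_, ?_⟩
          · refine Finset.mem_product.mpr ⟨Finset.mem_range.mpr hi, ?_⟩
            refine Finset.mem_filter.mpr ⟨hOinv _ (hML hm) _ hx₀O, _, hm, rfl⟩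
          · show z ^ i • ((z ^ i)⁻¹ * g) • x₀ = g • x₀
            rw [← mul_smul, mul_inv_cancel_left]
        · intro hx
          obtain ⟨⟨i, a⟩, ha, rfl⟩ := Finset.mem_image.mp hx
          have ha' := (Finset.mem_product.mp ha).2
          exact hOinv _ (hzpow i) _ (Finset.mem_filter.mp ha').1
      have hdecomp : ∀ f : X → ZMod p, ∑ x ∈ O, f x = ∑ i ∈ Finset.range p, ∑ x ∈ O₀, f (z ^ i • x) := by
        intro f
        rw [hOeq, Finset.sum_image hinj, Finset.sum_product]
      -- the additive function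
      let W : M → ZMod p := fun u => ∑ x ∈ O₀, c (u : P) x
      have hW : ∀ a b : M, W (a * b) = W a + W b := by
        intro a b
        show ∑ x ∈ O₀, c ((a * b : M) : P) x = ∑ x ∈ O₀, c (a : P) x + ∑ x ∈ O₀, c (b : P) x
        rw [← hperm b b.2 (fun x => c (a : P) x), ← Finset.sum_add_distrib]
        refine Finset.sum_congr rfl fun x _ => ?_
        exact hc _ _ _
      have hW1 : W 1 = 0 := by
        show ∑ x ∈ O₀, c ((1 : M) : P) x = 0
        exact Finset.sum_eq_zero fun x _ => hc.one x
      have hzinvN : ∀ u ∈ M, z⁻¹ * u * z ∈ M := by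
        intro u hu
        have := hconjM z⁻¹ (L.inv_mem hzL) u hu
        simpa using this
      let T : M →* M :=
        { toFun := fun u => ⟨z⁻¹ * u * z, hzinvN u u.2⟩
          map_one' := by
            apply Subtype.ext
            show z⁻¹ * 1 * z = 1
            group
          map_mul' := by
            intro a b
            apply Subtype.ext
            simp only [Subgroup.coe_mul]
            group }
      have hTcoe : ∀ (i : ℕ) (u : M), ((T^[i] u : M) : P) = (z ^ i)⁻¹ * u * z ^ i := by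
        intro i u
        induction i with
        | zero => simp
        | succ i ih3 =>
          rw [Function.iterate_succ_apply']
          show z⁻¹ * ((T^[i] u : M) : P) * z = _
          rw [ih3, pow_succ]
          group
      have hecoe : ∀ (k : ℕ) (u : M), (((fun u => u⁻¹ * T u)^[k] u : M) : P) =
          (fun y => y⁻¹ * z⁻¹ * y * z)^[k] (u : P) := by
        intro k u
        induction k with
        | zero => rfl
        | succ k ih3 =>
          rw [Function.iterate_succ_apply', Function.iterate_succ_apply', ← ih3]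
          show ((_ : M) : P)⁻¹ * (z⁻¹ * ((_ : M) : P) * z) = _
          group
      have hblock : ∀ i : ℕ, ∑ x ∈ O₀, c y (z ^ i • x) = W (T^[i] ⟨y, hyM⟩) := by
        intro i
        set yi := T^[i] ⟨y, hyM⟩ with hyi
        have hyic : (yi : P) = (z ^ i)⁻¹ * y * z ^ i := hTcoe i ⟨y, hyM⟩
        have h1 : ∀ x, c y (z ^ i • x) = c (z ^ i) ((yi : P) • x) + c (yi : P) x - c (z ^ i) x := by
          intro x
          have h2 := hc y (z ^ i) x
          have h3 := hc (z ^ i) (yi : P) x
          have e : z ^ i * (yi : P) = y * z ^ i := by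
            rw [hyic]; group
          rw [e] at h3
          rw [h2] at h3
          have : c y (z ^ i • x) = (c y (z ^ i • x) + c (z ^ i) x) - c (z ^ i) x := by ring
          rw [this, h3]
        show _ = ∑ x ∈ O₀, c (yi : P) x
        simp only [h1]
        rw [Finset.sum_sub_distrib, Finset.sum_add_distrib, hperm yi yi.2 (fun x => c (z ^ i) x)]
        ring
      rw [hdecomp (fun x => c y x)]
      simp only [hblock]
      rw [sum_iter_eq T W hW]
      have h1 : (fun u => u⁻¹ * T u)^[p - 1] (⟨y, hyM⟩ : M) = 1 := by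
        apply Subtype.ext
        rw [hecoe]
        exact hE y z hzQ
      rw [h1, hW1]
  · -- no fixed point
    refine hc.sum_eq_zero_of_free y hH _ O rfl (fun x hx => hOinv y hyL x hx) ?_
    intro x hx hfix
    obtain ⟨_, g, hg, rfl⟩ := Finset.mem_filter.mp hx
    have h1 : (g⁻¹ * y * g) • x₀ = x₀ := by
      rw [mul_smul, mul_smul, hfix]
      simp
    have h2 := hstabM _ (L.mul_mem (L.mul_mem (L.inv_mem hg) hyL) hg) h1
    have h3 := hconjM g hg _ h2
    have e : g * (g⁻¹ * y * g) * g⁻¹ = y := by group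
    rw [e] at h3
    exact hyM h3

end Main

end Cfsg.Agent.Lib.Struct
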