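import Mathlib
import Cfsg.Agent.Lib.Struct.HallWielandt
import Cfsg.Agent.Lib.LocalEven.Basic
import Cfsg.Agent.Lib.Fusion2.Tate
import Cfsg.Agent.Lib.Fusion.Hyperfocal
import Cfsg.Agent.Lib.Transfer.Misc
import Cfsg.Agent.Lib.Transfer.Frobenius
import Cfsg.Prelude.Def_Transfer
import Cfsg.Prelude.Def_BaumannBlocks

/-!
# The Hall-Wielandt theorem

If `Q` is weakly closed in a Sylow subgroup `P` of `G` and satisfies the Engel condition of length
`p - 1`, then `N_G(Q)` controls the largest `p`-quotient of `G`.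
-/

set_option autoImplicit false

namespace Cfsg.Agent.Lib.Struct

open Subgroup Cfsg
open scoped commutatorElement

section HW

variable {G : Type*} [Group G] {p : ℕ}

theorem hwK_mem (H : Subgroup G) (g : G) (ω : G ⧸ H) :
    (Quotient.out (g • ω) : G)⁻¹ * g * Quotient.out ω ∈ H := by
  have h1 : ((g * Quotient.out ω : G) : G ⧸ H) = g • ω := by
    conv_rhs => rw [← QuotientGroup.out_eq' ω]
    rfl
  have h2 : ((Quotient.out (g • ω) : G) : G ⧸ H) = ((g * Quotient.out ω : G) : G ⧸ H) := by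
    rw [h1]
    exact QuotientGroup.out_eq' _
  rw [mul_assoc]
  exact QuotientGroup.eq.mp h2

/-- The monomial cocycle attached to a character of `H`. -/
noncomputable def hwC (H : Subgroup G) (lam : H →* Multiplicative (ZMod p)) (g : G) (ω : G ⧸ H) : ZMod p :=
  Multiplicative.toAdd (lam ⟨_, hwK_mem H g ω⟩)

theorem hwC_coc (H : Subgroup G) (lam : H →* Multiplicative (ZMod p)) (g h : G) (ω : G ⧸ H) :
    hwC H lam (g * h) ω = hwC H lam g (h • ω) + hwC H lam h ω := by
  show Multiplicative.toAdd (lam _) = Multiplicative.toAdd (lam _) + Multiplicative.toAdd (lam _)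
  rw [← toAdd_mul, ← map_mul]
  congr 2
  apply Subtype.ext
  show (Quotient.out ((g * h) • ω) : G)⁻¹ * (g * h) * Quotient.out ω =
    (Quotient.out (g • (h • ω)) : G)⁻¹ * g * Quotient.out (h • ω) * ((Quotient.out (h • ω) : G)⁻¹ * h * Quotient.out ω)
  rw [mul_smul]
  group

/-- The transfer homomorphism. -/
noncomputable def hwTau (H : Subgroup G) [Fintype (G ⧸ H)] (lam : H →* Multiplicative (ZMod p)) :
    G →* Multiplicative (ZMod p) where
  toFun g := Multiplicative.ofAdd (∑ ω : G ⧸ H, hwC H lam g ω)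
  map_one' := by
    have h : ∀ ω : G ⧸ H, hwC H lam 1 ω = 0 := by
      intro ω
      have := hwC_coc H lam 1 1 ω
      rw [one_smul, mul_one] at this
      simpa using this
    simp [h]
  map_mul' := by
    intro g h
    rw [← ofAdd_add]
    congr 1
    simp only [hwC_coc H lam g h, Finset.sum_add_distrib]
    congr 1
    exact Equiv.sum_comp (MulAction.toPerm h) (fun ω => hwC H lam g ω)

theorem hwC_of_fix (H : Subgroup G) (lam : H →* Multiplicative (ZMod p)) {g : G} {ω : G ⧸ H} (h : g • ω = ω)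
    (hm : (Quotient.out ω : G)⁻¹ * g * Quotient.out ω ∈ H) :
    hwC H lam g ω = Multiplicative.toAdd (lam ⟨_, hm⟩) := by
  unfold hwC
  congr 2
  apply Subtype.ext
  show (Quotient.out (g • ω) : G)⁻¹ * g * _ = _
  rw [h]

theorem hom_conj_eq {K A : Type*} [Group K] [CommGroup A] (f : K →* A) (a t : K) : f (a * t * a⁻¹) = f t := by
  simp [map_mul, mul_comm]

end HW

section Main

variable {G : Type*} [Group G] [Finite G] {p : ℕ} [hp : Fact p.Prime]

theorem sylow_le_normalizer_of_weaklyClosed (P : Sylow p G) {Q : Subgroup G} (hQ : Cfsg.IsWeaklyClosed Q (P : Subgroup G)) :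
    (P : Subgroup G) ≤ normalizer (Q : Set G) := by
  intro u hu
  rw [← Cfsg.Agent.Lib.Transfer.map_conj_eq_iff]
  apply hQ.2
  rintro _ ⟨z, hz, rfl⟩
  exact P.mul_mem (P.mul_mem hu (hQ.1 hz)) (P.inv_mem hu)

theorem exists_conj_into_sylow (P : Sylow p G) {H : Subgroup G} (hH : (P : Subgroup G) ≤ H) {R : Subgroup G}
    (hR : IsPGroup p R) (hRH : R ≤ H) : ∃ h ∈ H, ∀ r ∈ R, h * r * h⁻¹ ∈ (P : Subgroup G) := by
  have hR₀ : IsPGroup p (R.subgroupOf H) := hR.comap_of_injective H.subtype H.subtype_injective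
  obtain ⟨S, hS⟩ := hR₀.exists_le_sylow
  obtain ⟨h, hh⟩ := MulAction.exists_smul_eq H S (P.subtype hH)
  refine ⟨h, h.2, fun r hr => ?_⟩
  have h1 : (⟨r, hRH hr⟩ : H) ∈ R.subgroupOf H := hr
  have h2 := Cfsg.Agent.Lib.Transfer.conj_mem_smul_sylow (g := h) (P := S) (hS h1)
  rw [hh] at h2
  have h3 : h * (⟨r, hRH hr⟩ : H) * h⁻¹ ∈ (P : Subgroup G).subgroupOf H := h2
  exact h3

theorem hw_fixed_eq_base (P : Sylow p G) {Q H : Subgroup G} (hQ : Cfsg.IsWeaklyClosed Q (P : Subgroup G))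
    (hHdef : H = normalizer (Q : Set G))
    (ω : G ⧸ H) (hω : ∀ z ∈ Q, z • ω = ω) : ω = ((1 : G) : G ⧸ H) := by
  have hPH : (P : Subgroup G) ≤ H := hHdef ▸ sylow_le_normalizer_of_weaklyClosed P hQ
  set g : G := Quotient.out ω with hg
  have hgω : ((g : G) : G ⧸ H) = ω := QuotientGroup.out_eq' ω
  have hz : ∀ z ∈ Q, g⁻¹ * z * g ∈ H := by
    intro z hzQ
    have h1 := hω z hzQ
    rw [← hgω] at h1
    have h2 : ((z * g : G) : G ⧸ H) = ((g : G) : G ⧸ H) := h1
    have h3 := QuotientGroup.eq.mp h2.symm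
    simpa [mul_assoc] using h3
  have hR : IsPGroup p (Q.map (MulAut.conj g⁻¹).toMonoidHom) :=
    (P.isPGroup'.to_le hQ.1).map _
  have hRH : Q.map (MulAut.conj g⁻¹).toMonoidHom ≤ H := by
    rintro _ ⟨z, hzQ, rfl⟩
    have := hz z hzQ
    simpa using this
  obtain ⟨h, hhH, hh⟩ := exists_conj_into_sylow P hPH hR hRH
  have h1 : Q.map (MulAut.conj (h * g⁻¹)).toMonoidHom ≤ (P : Subgroup G) := by
    rintro _ ⟨z, hzQ, rfl⟩
    have := hh _ ⟨z, hzQ, rfl⟩
    simpa [mul_assoc] using this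
  have h2 := hQ.2 _ h1
  rw [Cfsg.Agent.Lib.Transfer.map_conj_eq_iff, ← hHdef] at h2
  have h3 : g⁻¹ ∈ H := by
    have := H.mul_mem (H.inv_mem hhH) h2
    simpa using this
  rw [← hgω]
  apply QuotientGroup.eq.mpr
  simpa using H.inv_mem (H.inv_mem h3) 

theorem hw_card_modEq (P : Sylow p G) {Q H : Subgroup G} (hQ : Cfsg.IsWeaklyClosed Q (P : Subgroup G))
    (hHdef : H = normalizer (Q : Set G)) :
    Nat.card (G ⧸ H) ≡ 1 [MOD p] := by
  have hQp : IsPGroup p Q := P.isPGroup'.to_le hQ.1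
  have h1 := hQp.card_modEq_card_fixedPoints (G ⧸ H)
  have h2 : Nat.card (MulAction.fixedPoints Q (G ⧸ H)) = 1 := by
    rw [Nat.card_eq_one_iff_unique]
    refine ⟨⟨?_⟩, ⟨⟨((1 : G) : G ⧸ H), ?_⟩⟩⟩
    · rintro ⟨a, ha⟩ ⟨b, hb⟩
      apply Subtype.ext
      show a = b
      rw [hw_fixed_eq_base P hQ hHdef a (fun z hz => ha ⟨z, hz⟩), hw_fixed_eq_base P hQ hHdef b (fun z hz => hb ⟨z, hz⟩)]
    · rintro ⟨z, hz⟩
      show ((z : G) • ((1 : G) : G ⧸ H)) = _
      have h3 : (z : G) ∈ H := hHdef ▸ sylow_le_normalizer_of_weaklyClosed P hQ (hQ.1 hz)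
      have h4 : ((z * 1 : G) : G ⧸ H) = ((1 : G) : G ⧸ H) := by
        apply QuotientGroup.eq.mpr
        simpa using H.inv_mem h3
      exact h4
  rwa [h2] at h1

/-- On the Sylow subgroup, the transfer agrees with the character. -/
theorem hwTau_eq (P : Sylow p G) {Q H : Subgroup G} (hQ : Cfsg.IsWeaklyClosed Q (P : Subgroup G))
    (hHdef : H = normalizer (Q : Set G))
    (hE : ∀ u ∈ (P : Subgroup G), ∀ z ∈ Q, (fun y : G => y⁻¹ * z⁻¹ * y * z)^[p - 1] u = 1)
    [Fintype (G ⧸ H)] (hPH : (P : Subgroup G) ≤ H)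
    (lam : H →* Multiplicative (ZMod p)) :
    ∀ (n : ℕ) (x : G) (hx : x ∈ (P : Subgroup G)), orderOf x = n →
      hwTau _ lam x = lam ⟨x, hPH hx⟩ := by
  classical
  intro n
  induction n using Nat.strong_induction_on with
  | _ n ih =>
  intro x hx hxn
  let ell : ↥(P : Subgroup G) → ZMod p := fun t => Multiplicative.toAdd (lam ⟨(t : G), hPH t.2⟩)
  have hell : ∀ a b : ↥(P : Subgroup G), ell (a * b) = ell a + ell b := by
    intro a b
    show Multiplicative.toAdd (lam _) = Multiplicative.toAdd (lam _) + Multiplicative.toAdd (lam _)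
    rw [← toAdd_mul, ← map_mul]
    rfl
  let c₁ : ↥(P : Subgroup G) → (G ⧸ H) → ZMod p := fun t ω => hwC H lam (t : G) ω - ell t
  have hc₁ : IsCoc c₁ := by
    intro a b ω
    show hwC H lam ((a * b : ↥(P : Subgroup G)) : G) ω - ell (a * b) =
      (hwC H lam (a : G) (b • ω) - ell a) + (hwC H lam (b : G) ω - ell b)
    rw [hell, Subgroup.coe_mul, hwC_coc]
    have : b • ω = (b : G) • ω := rfl
    rw [this]
    ring
  let y : ↥(P : Subgroup G) := ⟨x, hx⟩
  have hy : orderOf y = n := by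
    rw [← hxn]
    exact Subgroup.orderOf_mk x hx
  -- the Engel condition inside `P`
  have hE₁ : ∀ u : ↥(P : Subgroup G), ∀ z ∈ Q.subgroupOf (P : Subgroup G),
      (fun y => y⁻¹ * z⁻¹ * y * z)^[p - 1] u = 1 := by
    intro u z hz
    have hco : ∀ (k : ℕ) (u : ↥(P : Subgroup G)),
        (((fun y => y⁻¹ * z⁻¹ * y * z)^[k] u : ↥(P : Subgroup G)) : G) =
          (fun y : G => y⁻¹ * (z : G)⁻¹ * y * z)^[k] (u : G) := by
      intro k u
      induction k with
      | zero => rfl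
      | succ k ih3 =>
        rw [Function.iterate_succ_apply', Function.iterate_succ_apply', ← ih3]
        rfl
    apply Subtype.ext
    rw [hco]
    exact hE u u.2 z hz
  -- small elements
  have hH : ∀ (t : ↥(P : Subgroup G)) (ω : G ⧸ H), t • ω = ω → orderOf t < orderOf y → c₁ t ω = 0 := by
    intro t ω hfix hlt
    have hfix' : (t : G) • ω = ω := hfix
    have hm : (Quotient.out ω : G)⁻¹ * (t : G) * Quotient.out ω ∈ H := by
      have := hwK_mem H (t : G) ω
      rwa [hfix'] at this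
    set g : G := Quotient.out ω with hg
    set w : G := g⁻¹ * (t : G) * g with hw
    have hot : orderOf w = orderOf t := by
      rw [← Subgroup.orderOf_coe t, hw]
      have := Cfsg.Agent.Lib.Struct.orderOf_conj g⁻¹ (t : G)
      simpa using this
    have hR : IsPGroup p (Subgroup.zpowers w) := by
      obtain ⟨k, hk⟩ := (IsPGroup.iff_orderOf.mp P.isPGroup') t
      apply IsPGroup.of_card (n := k)
      rw [Nat.card_zpowers, hot, hk]
    have hRH : Subgroup.zpowers w ≤ H := by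
      rw [Subgroup.zpowers_le]
      exact hm
    obtain ⟨h, hhH, hh⟩ := exists_conj_into_sylow P hPH hR hRH
    have ht' := hh w (Subgroup.mem_zpowers w)
    have hot' : orderOf (h * w * h⁻¹) = orderOf t := by
      rw [← hot]
      exact Cfsg.Agent.Lib.Struct.orderOf_conj h w
    have e1 := ih (orderOf t) (by rw [← hy]; exact hlt) (h * w * h⁻¹) ht' hot'
    have e2 := ih (orderOf t) (by rw [← hy]; exact hlt) (t : G) t.2 (Subgroup.orderOf_coe t)
    have e3 : hwTau H lam (h * w * h⁻¹) = hwTau H lam (t : G) := by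
      have : h * w * h⁻¹ = (h * g⁻¹) * (t : G) * (h * g⁻¹)⁻¹ := by
        rw [hw]; group
      rw [this, hom_conj_eq]
    have e4 : lam ⟨h * w * h⁻¹, hPH ht'⟩ = lam ⟨w, hm⟩ := by
      have : (⟨h * w * h⁻¹, hPH ht'⟩ : H) = (⟨h, hhH⟩ : H) * ⟨w, hm⟩ * (⟨h, hhH⟩ : H)⁻¹ := rfl
      rw [this, hom_conj_eq]
    show hwC H lam (t : G) ω - ell t = 0
    rw [hwC_of_fix H lam hfix' hm, sub_eq_zero]
    show Multiplicative.toAdd (lam ⟨w, hm⟩) = Multiplicative.toAdd (lam ⟨(t : G), hPH t.2⟩)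
    rw [← e2, ← e3, e1, e4]
  -- the set of moved points
  let base : G ⧸ H := ((1 : G) : G ⧸ H)
  have hbase : ∀ u ∈ (P : Subgroup G), u • base = base := by
    intro u hu
    have h4 : ((u * 1 : G) : G ⧸ H) = ((1 : G) : G ⧸ H) := by
      apply QuotientGroup.eq.mpr
      simpa using H.inv_mem (hPH hu)
    exact h4
  have hYinv : ∀ g ∈ (⊤ : Subgroup ↥(P : Subgroup G)), ∀ ω ∈ (Finset.univ.erase base : Finset (G ⧸ H)), g • ω ∈ (Finset.univ.erase base : Finset (G ⧸ H)) := by
    intro g _ ω hω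
    rw [Finset.mem_erase] at hω ⊢
    refine ⟨?_, Finset.mem_univ _⟩
    intro h0
    apply hω.1
    have h1 : (g : G) • ω = base := h0
    have h2 := hbase ((g : G)⁻¹) (P.inv_mem g.2)
    rw [← h1] at h2
    have h3 : ((g : G)⁻¹ * (g : G)) • ω = (g : G) • ω := by
      rw [mul_smul]
      exact h2
    rw [inv_mul_cancel, one_smul, h1] at h3
    exact h3
  have hYmov : ∀ ω ∈ (Finset.univ.erase base : Finset (G ⧸ H)), ∃ z ∈ Q.subgroupOf (P : Subgroup G), z • ω ≠ ω := by
    intro ω hω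
    rw [Finset.mem_erase] at hω
    by_contra hcon
    push_neg at hcon
    apply hω.1
    apply hw_fixed_eq_base P hQ hHdef ω
    intro z hz
    have h1 := hcon ⟨z, hQ.1 hz⟩ hz
    exact h1
  have hsum := coc_sum_eq_zero (P := ↥(P : Subgroup G)) (X := G ⧸ H) (p := p) P.isPGroup' (Q.subgroupOf (P : Subgroup G)) hE₁ hc₁ y hH _ ⊤ rfl le_top
    (Subgroup.mem_top y) _ (Finset.univ.erase base) rfl hYinv hYmov
  have hcard : ((Finset.univ.erase base).card : ZMod p) = 0 := by
    rw [Finset.card_erase_of_mem (Finset.mem_univ _), Finset.card_univ, ← Nat.card_eq_fintype_card]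
    have h1 := hw_card_modEq P hQ hHdef
    have h2 : 1 ≤ Nat.card (G ⧸ H) := Nat.card_pos
    have h3 : p ∣ Nat.card (G ⧸ H) - 1 := (Nat.modEq_iff_dvd' h2).mp h1.symm
    exact (ZMod.natCast_eq_zero_iff _ _).mpr h3
  have hsum2 : ∑ ω ∈ Finset.univ.erase base, hwC H lam x ω = 0 := by
    have h1 : ∑ ω ∈ Finset.univ.erase base, c₁ y ω =
        ∑ ω ∈ Finset.univ.erase base, hwC H lam x ω - ((Finset.univ.erase base).card : ZMod p) * ell y := by
      show ∑ ω ∈ Finset.univ.erase base, (hwC H lam x ω - ell y) = _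
      rw [Finset.sum_sub_distrib, Finset.sum_const, nsmul_eq_mul]
    rw [hsum, hcard, zero_mul, sub_zero] at h1
    exact h1.symm
  show Multiplicative.ofAdd (∑ ω : G ⧸ H, hwC H lam x ω) = _
  rw [← Finset.add_sum_erase Finset.univ _ (Finset.mem_univ base), hsum2, add_zero]
  have hbfix : x • base = base := hbase x hx
  set b : G := Quotient.out base with hb
  have hbH : b ∈ H := by
    have h1 : ((b : G) : G ⧸ H) = ((1 : G) : G ⧸ H) := QuotientGroup.out_eq' base
    have h2 := QuotientGroup.eq.mp h1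
    simpa using H.inv_mem h2
  have hm : b⁻¹ * x * b ∈ H := H.mul_mem (H.mul_mem (H.inv_mem hbH) (hPH hx)) hbH
  rw [hwC_of_fix H lam hbfix hm]
  have : (⟨b⁻¹ * x * b, hm⟩ : H) = (⟨b⁻¹, H.inv_mem hbH⟩ : H) * ⟨x, hPH hx⟩ * (⟨b⁻¹, H.inv_mem hbH⟩ : H)⁻¹ := by
    apply Subtype.ext
    show b⁻¹ * x * b = b⁻¹ * x * b⁻¹⁻¹
    simp
  rw [this, hom_conj_eq]
  rfl

/-- A criterion for control of the largest `p`-quotient in terms of characters. -/
theorem pResidualOf_eq_of_characters (P : Sylow p G) {H : Subgroup G} (hPH : (P : Subgroup G) ≤ H)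
    (hext : ∀ (lam : H →* Multiplicative (ZMod p)) (x : G) (hx : x ∈ (P : Subgroup G)),
      x ∈ pResidual p G → lam ⟨x, hPH hx⟩ = 1) :
    pResidualOf p H = pResidual p G ⊓ H := by
  classical
  have hPg : IsPGroup p (P : Subgroup G) := P.isPGroup'
  set R : Subgroup H := pResidual p H with hR
  haveI hRn : R.Normal := Cfsg.Agent.Lib.LocalEven.pResidual_normal p
  let L : Subgroup G := (P : Subgroup G) ⊓ R.map H.subtype
  let A : Subgroup G := (P : Subgroup G) ⊓ pResidual p G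
  have hRG : R.map H.subtype ≤ pResidual p G := Cfsg.Agent.Lib.LocalEven.pResidual_map_le _
  have hLA : L ≤ A := inf_le_inf_left _ hRG
  let π : (P : Subgroup G) →* H ⧸ R := (QuotientGroup.mk' R).comp (Subgroup.inclusion hPH)
  have hsup : R ⊔ ((P.subtype hPH : Sylow p H) : Subgroup H) = ⊤ :=
    Cfsg.Agent.Lib.LocalEven.pResidual_sup_sylow _
  have hdec : ∀ y : H, ∃ r ∈ R, ∃ t : (P : Subgroup G), r * Subgroup.inclusion hPH t = y := by
    intro y
    have hy : y ∈ R ⊔ ((P.subtype hPH : Sylow p H) : Subgroup H) := by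
      rw [hsup]
      exact Subgroup.mem_top y
    rw [Subgroup.mem_sup_of_normal_left] at hy
    obtain ⟨r, hr, t, ht, rfl⟩ := hy
    have ht' : (t : G) ∈ (P : Subgroup G) := ht
    exact ⟨r, hr, ⟨t, ht'⟩, rfl⟩
  have hπsurj : Function.Surjective π := by
    intro q
    induction q using QuotientGroup.induction_on with
    | H y =>
      obtain ⟨r, hr, t, rfl⟩ := hdec y
      refine ⟨t, ?_⟩
      show ((Subgroup.inclusion hPH t : H) : H ⧸ R) = ((r * Subgroup.inclusion hPH t : H) : H ⧸ R)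
      apply QuotientGroup.eq.mpr
      have : (Subgroup.inclusion hPH t)⁻¹ * (r * Subgroup.inclusion hPH t) =
        (Subgroup.inclusion hPH t)⁻¹ * r * ((Subgroup.inclusion hPH t)⁻¹)⁻¹ := by group
      rw [this]
      exact hRn.conj_mem _ hr _
  have hπker : ∀ t : (P : Subgroup G), t ∈ π.ker → (t : G) ∈ R.map H.subtype := by
    intro t ht
    have h1 : ((Subgroup.inclusion hPH t : H) : H ⧸ R) = 1 := ht
    rw [QuotientGroup.eq_one_iff] at h1
    exact ⟨_, h1, rfl⟩
  have hAle : A ≤ (frattini (P : Subgroup G)).map (P : Subgroup G).subtype ⊔ L := by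
    intro x hx
    by_contra hnot
    let M : Subgroup (P : Subgroup G) := π.ker ⊔ frattini (P : Subgroup G)
    haveI hMn : M.Normal := Subgroup.sup_normal _ _
    have hx₁ : (⟨x, hx.1⟩ : (P : Subgroup G)) ∉ M := by
      intro hxM
      apply hnot
      have h1 : x ∈ M.map (P : Subgroup G).subtype := ⟨_, hxM, rfl⟩
      have h2 : M.map (P : Subgroup G).subtype ≤ (frattini (P : Subgroup G)).map (P : Subgroup G).subtype ⊔ L := by
        rw [Subgroup.map_sup, sup_comm]
        refine sup_le_sup_left ?_ _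
        rintro _ ⟨t, ht, rfl⟩
        exact ⟨t.2, hπker t ht⟩
      exact h2 h1
    have hc : ∀ a b : (P : Subgroup G), ⁅a, b⁆ ∈ M := fun a b =>
      Subgroup.mem_sup_right (Cfsg.Agent.Lib.Transfer.commutator_mem_frattini hPg a b)
    obtain ⟨B, _, e, π', hs, hk, -⟩ := Cfsg.Agent.Lib.Fusion2.exists_comm_quotient hPg M hc
    have hexp : ∀ b : B, b ^ p = 1 := by
      intro b
      obtain ⟨a, rfl⟩ := hs b
      rw [← map_pow, ← MonoidHom.mem_ker, hk]
      exact Subgroup.mem_sup_right (Cfsg.Agent.Lib.Basic.pow_mem_frattini_of_isPGroup hPg a)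
    have hne : π' ⟨x, hx.1⟩ ≠ 1 := by
      intro h0
      apply hx₁
      rw [← hk]
      exact h0
    obtain ⟨φ, hφ⟩ := Cfsg.Agent.Lib.Transfer.exists_hom_zmod_ne_one hexp hne
    let μ : (P : Subgroup G) →* Multiplicative (ZMod p) := φ.comp π'
    have hμ : π.ker ≤ μ.ker := by
      intro a ha
      have h1 : a ∈ π'.ker := by
        rw [hk]
        exact Subgroup.mem_sup_left ha
      show φ (π' a) = 1
      rw [show π' a = 1 from h1, map_one]
    let ν : (H ⧸ R) →* Multiplicative (ZMod p) := π.liftOfSurjective hπsurj ⟨μ, hμ⟩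
    have hν : ∀ a, ν (π a) = μ a := fun a =>
      π.liftOfRightInverse_comp_apply (Function.surjInv hπsurj) (Function.rightInverse_surjInv hπsurj) ⟨μ, hμ⟩ a
    have h1 := hext (ν.comp (QuotientGroup.mk' R)) x hx.1 hx.2
    apply hφ
    have h2 := hν ⟨x, hx.1⟩
    rw [← show μ ⟨x, hx.1⟩ = φ (π' ⟨x, hx.1⟩) from rfl, ← h2]
    exact h1
  -- fusion
  have hF := Cfsg.Agent.Lib.Fusion.isSaturated_gfs P
  have hhyp := Cfsg.Agent.Lib.Fusion.hyp_gfs_eq P
  have hfoc := Cfsg.Agent.Lib.Fusion.focal_eq_hyp_sup hPg hF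
  have hLhyp : L ≤ (groupFusionSystem (P : Subgroup G)).hyperfocalSubgroup p := by
    rw [hhyp]
    exact hLA
  have hLn : ∀ s ∈ (P : Subgroup G), ∀ x ∈ L, s * x * s⁻¹ ∈ L := by
    intro s hs x hx
    refine ⟨(P : Subgroup G).mul_mem ((P : Subgroup G).mul_mem hs hx.1) ((P : Subgroup G).inv_mem hs), ?_⟩
    obtain ⟨r, hr, rfl⟩ := hx.2
    exact ⟨_, hRn.conj_mem r hr ⟨s, hPH hs⟩, rfl⟩
  have h1 : (groupFusionSystem (P : Subgroup G)).focalSubgroup ≤ L ⊔ ⁅(P : Subgroup G), (P : Subgroup G)⁆ := by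
    refine Cfsg.Agent.Lib.Fusion2.focal_le_of_le_frattini_sup hPg hF le_sup_right ?_ ?_
    · rw [hfoc]
      exact sup_le_sup_right hLhyp _
    · rw [hfoc, hhyp]
      refine sup_le (hAle.trans (sup_le le_sup_left (le_sup_of_le_right le_sup_left))) ?_
      exact le_sup_of_le_right le_sup_right
  have h2 : A ≤ L := by
    show (P : Subgroup G) ⊓ pResidual p G ≤ L
    rw [← hhyp]
    refine Cfsg.Agent.Lib.Fusion2.hyp_le_of_le_sup hPg hF hLhyp hLn ?_
    refine le_trans ?_ h1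
    rw [hfoc]
    exact le_sup_left
  apply le_antisymm
  · exact le_inf hRG (Subgroup.map_subtype_le _)
  · rintro x ⟨hx1, hx2⟩
    obtain ⟨r, hr, t, hrt⟩ := hdec ⟨x, hx2⟩
    have hxe : (r : G) * (t : G) = x := congrArg Subtype.val hrt
    have ht : (t : G) ∈ A := by
      refine ⟨t.2, ?_⟩
      have : (t : G) = (r : G)⁻¹ * x := by rw [← hxe]; group
      rw [this]
      exact (pResidual p G).mul_mem ((pResidual p G).inv_mem (hRG ⟨r, hr, rfl⟩)) hx1
    obtain ⟨r', hr', hr'e⟩ := (h2 ht).2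
    rw [← hxe, ← hr'e]
    show (r : G) * (r' : G) ∈ _
    exact ⟨r * r', R.mul_mem hr hr', rfl⟩

/-- The Hall-Wielandt theorem. -/
theorem hall_wielandt (P : Sylow p G) {Q : Subgroup G} (hQ : Cfsg.IsWeaklyClosed Q (P : Subgroup G))
    (hE : ∀ u ∈ (P : Subgroup G), ∀ z ∈ Q, (fun y : G => y⁻¹ * z⁻¹ * y * z)^[p - 1] u = 1) :
    pResidualOf p (normalizer (Q : Set G)) = pResidual p G ⊓ normalizer (Q : Set G) := by
  classical
  haveI := Fintype.ofFinite (G ⧸ normalizer (Q : Set G))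
  have hPH := sylow_le_normalizer_of_weaklyClosed P hQ
  refine pResidualOf_eq_of_characters P hPH ?_
  intro lam x hx hxr
  rw [← hwTau_eq P hQ rfl hE hPH lam _ x hx rfl]
  have h1 : pResidual p G ≤ (hwTau _ lam).ker := by
    rw [pResidual, Subgroup.closure_le]
    intro g hg
    have hg' : (orderOf g).Coprime p := hg
    have h2 : orderOf (hwTau _ lam g) ∣ orderOf g := orderOf_map_dvd _ g
    have h3 : orderOf (hwTau _ lam g) ∣ p := by
      have := orderOf_dvd_natCard (hwTau _ lam g)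
      simpa [Nat.card_eq_fintype_card, ZMod.card] using this
    have h4 := Nat.eq_one_of_dvd_coprimes hg' h2 h3
    exact orderOf_eq_one_iff.mp h4
  exact h1 hxr

end Main

end Cfsg.Agent.Lib.Struct
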