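import Mathlib
import Cfsg.Agent.Lib.Struct.CycSylow

/-!
# Dedekind groups: existence of a quaternion pair
-/

set_option autoImplicit false

namespace Cfsg.Agent.Lib.Struct

open Subgroup Cfsg

section Ham

variable {G : Type*} [Group G]

theorem comm_x_pow {x y c : G} (h : x * y = y * x * c) (hcx : c * x = x * c)
    (m : ℕ) : x ^ m * y = y * x ^ m * c ^ m := by
  induction m with
  | zero => simp
  | succ m ih =>
    have h1 : c * x ^ m = x ^ m * c := (Commute.pow_right (show Commute c x from hcx) m).eq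
    calc x ^ (m + 1) * y = x * (x ^ m * y) := by rw [pow_succ', mul_assoc]
      _ = x * (y * x ^ m * c ^ m) := by rw [ih]
      _ = (x * y) * x ^ m * c ^ m := by simp only [mul_assoc]
      _ = (y * x * c) * x ^ m * c ^ m := by rw [h]
      _ = y * x * (c * x ^ m) * c ^ m := by simp only [mul_assoc]
      _ = y * x * (x ^ m * c) * c ^ m := by rw [h1]
      _ = y * (x * x ^ m) * (c * c ^ m) := by simp only [mul_assoc]
      _ = y * x ^ (m + 1) * c ^ (m + 1) := by rw [pow_succ' x, pow_succ' c]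

theorem comm_y_pow {x y c : G} (h : x * y = y * x * c) (hcy : c * y = y * c)
    (m : ℕ) : x * y ^ m = y ^ m * x * c ^ m := by
  induction m with
  | zero => simp
  | succ m ih =>
    have h1 : c ^ m * y = y * c ^ m := (Commute.pow_left (show Commute c y from hcy) m).eq
    calc x * y ^ (m + 1) = (x * y ^ m) * y := by rw [pow_succ, mul_assoc]
      _ = (y ^ m * x * c ^ m) * y := by rw [ih]
      _ = y ^ m * x * (c ^ m * y) := by simp only [mul_assoc]
      _ = y ^ m * x * (y * c ^ m) := by rw [h1]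
      _ = y ^ m * (x * y) * c ^ m := by simp only [mul_assoc]
      _ = y ^ m * (y * x * c) * c ^ m := by rw [h]
      _ = (y ^ m * y) * x * (c * c ^ m) := by simp only [mul_assoc]
      _ = y ^ (m + 1) * x * c ^ (m + 1) := by rw [pow_succ y, pow_succ' c]

/-- The power formula in class two. -/
theorem mul_pow_class_two {u v e : G} (h : v * u = u * v * e) (heu : e * u = u * e) (hev : e * v = v * e)
    (r : ℕ) : (u * v) ^ r = u ^ r * v ^ r * e ^ (r.choose 2) := by
  induction r with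
  | zero => simp
  | succ r ih =>
    have h1 := comm_x_pow h hev r
    have h2 : e ^ r.choose 2 * u = u * e ^ r.choose 2 := (Commute.pow_left (show Commute e u from heu) _).eq
    have h3 : e ^ r.choose 2 * v = v * e ^ r.choose 2 := (Commute.pow_left (show Commute e v from hev) _).eq
    have h4 : e ^ r * v = v * e ^ r := (Commute.pow_left (show Commute e v from hev) _).eq
    have h5 : (r + 1).choose 2 = r + r.choose 2 := by
      rw [Nat.choose_succ_succ' r 1, Nat.choose_one_right]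
    calc (u * v) ^ (r + 1) = (u * v) ^ r * (u * v) := pow_succ _ _
      _ = u ^ r * v ^ r * e ^ (r.choose 2) * (u * v) := by rw [ih]
      _ = u ^ r * v ^ r * (e ^ (r.choose 2) * u) * v := by simp only [mul_assoc]
      _ = u ^ r * v ^ r * (u * e ^ (r.choose 2)) * v := by rw [h2]
      _ = u ^ r * (v ^ r * u) * (e ^ (r.choose 2) * v) := by simp only [mul_assoc]
      _ = u ^ r * (u * v ^ r * e ^ r) * (v * e ^ (r.choose 2)) := by rw [h1, h3]
      _ = (u ^ r * u) * v ^ r * (e ^ r * v) * e ^ (r.choose 2) := by simp only [mul_assoc]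
      _ = (u ^ r * u) * v ^ r * (v * e ^ r) * e ^ (r.choose 2) := by rw [h4]
      _ = (u ^ r * u) * (v ^ r * v) * (e ^ r * e ^ (r.choose 2)) := by simp only [mul_assoc]
      _ = u ^ (r + 1) * v ^ (r + 1) * e ^ ((r + 1).choose 2) := by
          rw [pow_succ u, pow_succ v, h5, pow_add]

theorem two_mul_choose_two (r : ℕ) : 2 * r.choose 2 = r * (r - 1) := by
  rw [Nat.choose_two_right, Nat.mul_div_cancel' (Nat.even_mul_pred_self r).two_dvd]

theorem mem_zpowers_of_pow_eq_one [Finite G] {x z X : G} {p : ℕ} (hp : 0 < p) (hX : X ∈ zpowers x)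
    (hz : z ∈ zpowers x) (hXo : orderOf X = p) (hzp : z ^ p = 1) : z ∈ zpowers X := by
  have h1 := cyc_mem_zpowers (X := ↥(zpowers x)) (x := ⟨X, hX⟩) (y := ⟨z, hz⟩) hp
    (by rw [Subgroup.orderOf_mk]; exact hXo)
    (Subtype.ext (by simpa using hzp))
  obtain ⟨i, hi⟩ := Subgroup.mem_zpowers_iff.mp h1
  rw [Subgroup.mem_zpowers_iff]
  exact ⟨i, congrArg Subtype.val hi⟩

/-- The existence of a quaternion pair in a non-abelian Dedekind group. -/
theorem exists_quat_pair [Finite G] (hn : ∀ H : Subgroup G, H.Normal) (hna : ∃ a b : G, a * b ≠ b * a) :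
    ∃ x y : G, x ^ 4 = 1 ∧ x ^ 2 ≠ 1 ∧ y ^ 2 = x ^ 2 ∧ y⁻¹ * x * y = x⁻¹ := by
  classical
  -- the minimal pair
  have hex : ∃ k y, y ∉ center G ∧ orderOf y = k := by
    obtain ⟨a, b, hab⟩ := hna
    refine ⟨_, a, ?_, rfl⟩
    intro h
    exact hab ((Subgroup.mem_center_iff.mp h b).symm)
  obtain ⟨y, hyc, hyk⟩ := Nat.find_spec hex
  have hymin : ∀ w : G, orderOf w < orderOf y → w ∈ center G := by
    intro w hw
    by_contra hwc
    rw [hyk] at hw
    exact Nat.find_min hex hw ⟨w, hwc, rfl⟩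
  have hex2 : ∃ n x, x * y ≠ y * x ∧ orderOf x = n := by
    have h : ∃ x, x * y ≠ y * x := by
      by_contra hcon
      push_neg at hcon
      apply hyc
      rw [Subgroup.mem_center_iff]
      exact hcon
    obtain ⟨x, hx⟩ := h
    exact ⟨_, x, hx, rfl⟩
  obtain ⟨x, hxc, hxn⟩ := Nat.find_spec hex2
  have hxmin : ∀ w : G, orderOf w < orderOf x → w * y = y * w := by
    intro w hw
    by_contra hwc
    rw [hxn] at hw
    exact Nat.find_min hex2 hw ⟨w, hwc, rfl⟩
  clear hyk hxn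
  obtain ⟨c, hcdef⟩ : ∃ c, c = x⁻¹ * y⁻¹ * x * y := ⟨_, rfl⟩
  have hcne : c ≠ 1 := by
    intro h
    apply hxc
    rw [hcdef] at h
    calc x * y = y * x * (x⁻¹ * y⁻¹ * x * y) := by group
      _ = y * x := by rw [h, mul_one]
  have hxy : x * y = y * x * c := by
    rw [hcdef]
    group
  have hc_x : c ∈ zpowers x := by
    have h1 := (hn (zpowers x)).conj_mem x (Subgroup.mem_zpowers x) y⁻¹
    have e : c = x⁻¹ * (y⁻¹ * x * y⁻¹⁻¹) := by rw [hcdef]; group
    rw [e]
    exact Subgroup.mul_mem _ (Subgroup.inv_mem _ (Subgroup.mem_zpowers x)) h1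
  have hc_y : c ∈ zpowers y := by
    have h1 := (hn (zpowers y)).conj_mem y⁻¹ (Subgroup.inv_mem _ (Subgroup.mem_zpowers y)) x⁻¹
    have e : c = (x⁻¹ * y⁻¹ * x⁻¹⁻¹) * y := by rw [hcdef]; group
    rw [e]
    exact Subgroup.mul_mem _ h1 (Subgroup.mem_zpowers y)
  have hcomm_zp : ∀ (a w : G), w ∈ zpowers a → w * a = a * w := by
    intro a w hw
    obtain ⟨i, rfl⟩ := Subgroup.mem_zpowers_iff.mp hw
    exact (Commute.zpow_left (Commute.refl a) i).eq
  have hcx : c * x = x * c := hcomm_zp _ _ hc_x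
  have hcy : c * y = y * c := hcomm_zp _ _ hc_y
  have hx1 : x ≠ 1 := by
    rintro rfl
    apply hxc
    simp
  have hy1 : y ≠ 1 := by
    rintro rfl
    apply hxc
    simp
  have hnpos : 0 < orderOf x := orderOf_pos x
  have hkpos : 0 < orderOf y := orderOf_pos y
  have hP1 : ∀ q : ℕ, q.Prime → q ∣ orderOf x → orderOf c = q := by
    intro q hq hqd
    have h1 : orderOf (x ^ q) < orderOf x := by
      rw [orderOf_pow' x hq.ne_zero, Nat.gcd_eq_right hqd]
      exact Nat.div_lt_self hnpos hq.one_lt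
    have h3 := hxmin _ h1
    have h4 := comm_x_pow hxy hcx q
    rw [h3] at h4
    have h5 : c ^ q = 1 := by
      have h6 : y * x ^ q * 1 = y * x ^ q * c ^ q := by rw [mul_one]; exact h4
      exact (mul_left_cancel h6).symm
    have h6 := orderOf_dvd_of_pow_eq_one h5
    rcases (Nat.dvd_prime hq).mp h6 with h7 | h7
    · exact absurd (orderOf_eq_one_iff.mp h7) hcne
    · exact h7
  have hP2 : ∀ q : ℕ, q.Prime → q ∣ orderOf y → orderOf c = q := by
    intro q hq hqd
    have h1 : orderOf (y ^ q) < orderOf y := by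
      rw [orderOf_pow' y hq.ne_zero, Nat.gcd_eq_right hqd]
      exact Nat.div_lt_self hkpos hq.one_lt
    have h3 := hymin _ h1
    have h4 := comm_y_pow hxy hcy q
    rw [(Subgroup.mem_center_iff.mp h3 x)] at h4
    have h5 : c ^ q = 1 := by
      have h6 : y ^ q * x * 1 = y ^ q * x * c ^ q := by rw [mul_one]; exact h4
      exact (mul_left_cancel h6).symm
    have h6 := orderOf_dvd_of_pow_eq_one h5
    rcases (Nat.dvd_prime hq).mp h6 with h7 | h7
    · exact absurd (orderOf_eq_one_iff.mp h7) hcne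
    · exact h7
  have hn1 : orderOf x ≠ 1 := fun h => hx1 (orderOf_eq_one_iff.mp h)
  obtain ⟨q₀, hq₀, hq₀d⟩ := Nat.exists_prime_and_dvd hn1
  obtain ⟨p, hpdef⟩ : ∃ p, p = orderOf c := ⟨_, rfl⟩
  have hp : p.Prime := by
    rw [hpdef, hP1 q₀ hq₀ hq₀d]
    exact hq₀
  obtain ⟨a, ha⟩ : ∃ a, orderOf x = p ^ a :=
    ⟨_, Nat.eq_prime_pow_of_unique_prime_dvd hnpos.ne' (fun {d} hd hdn => by
      rw [hpdef, hP1 d hd hdn])⟩
  obtain ⟨b, hb⟩ : ∃ b, orderOf y = p ^ b :=
    ⟨_, Nat.eq_prime_pow_of_unique_prime_dvd hkpos.ne' (fun {d} hd hdn => by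
      rw [hpdef, hP2 d hd hdn])⟩
  have hkn : orderOf y ≤ orderOf x := by
    by_contra h
    push_neg at h
    have h3 := hymin x h
    exact hxc (Subgroup.mem_center_iff.mp h3 y).symm
  have hba : b ≤ a := by
    rw [ha, hb] at hkn
    exact (Nat.pow_le_pow_iff_right hp.one_lt).mp hkn
  obtain ⟨l, hl⟩ : orderOf y ∣ orderOf x := by
    rw [ha, hb]
    exact pow_dvd_pow p hba
  have hpk : p ∣ orderOf y := by
    rw [hpdef]
    exact orderOf_dvd_of_mem_zpowers hc_y
  obtain ⟨r, hr⟩ := hpk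
  have hrpos : 0 < r := by
    rcases Nat.eq_zero_or_pos r with h | h
    · rw [h, mul_zero] at hr
      omega
    · exact h
  have hcp : c ^ p = 1 := by
    rw [hpdef]
    exact pow_orderOf_eq_one c
  -- `X`, `Y`
  have hnp : orderOf x / p = l * r := by
    rw [hl, hr]
    have : p * r * l = p * (l * r) := by ring
    rw [this, Nat.mul_div_cancel_left _ hp.pos]
  have hpn : p ∣ orderOf x := by
    rw [hl, hr]
    exact Dvd.intro _ (by ring_nf : p * (r * l) = p * r * l)
  have hXo : orderOf (x ^ (l * r)) = p := by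
    rw [← hnp]
    exact orderOf_pow_orderOf_div hnpos.ne' hpn
  have hYo : orderOf (y ^ r) = p := by
    have h3 : r = orderOf y / p := by
      rw [hr, Nat.mul_div_cancel_left _ hp.pos]
    rw [h3]
    exact orderOf_pow_orderOf_div hkpos.ne' ⟨r, hr⟩
  have hcX : c ∈ zpowers (x ^ (l * r)) :=
    mem_zpowers_of_pow_eq_one hp.pos (Subgroup.pow_mem _ (Subgroup.mem_zpowers x) _) hc_x hXo hcp
  have hYc : y ^ r ∈ zpowers c :=
    mem_zpowers_of_pow_eq_one hp.pos hc_y (Subgroup.pow_mem _ (Subgroup.mem_zpowers y) _) hpdef.symm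
      (by rw [← hYo]; exact pow_orderOf_eq_one _)
  have hYX : y ^ r ∈ zpowers (x ^ (l * r)) := (Subgroup.zpowers_le.mpr hcX) hYc
  rw [← mem_powers_iff_mem_zpowers] at hYX
  obtain ⟨s, hs⟩ := hYX
  have hs' : (x ^ (l * r)) ^ s = y ^ r := hs
  -- `y * w` cannot have smaller order than `y`
  have hd : ∀ w ∈ zpowers x, orderOf (y * w) < orderOf y → False := by
    intro w hw h1
    have h3 := hymin _ h1
    have h4 := Subgroup.mem_center_iff.mp h3 x
    have h5 := hcomm_zp _ _ hw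
    apply hxc
    have h6 : x * y * w = y * x * w := by
      calc x * y * w = x * (y * w) := by group
        _ = (y * w) * x := h4
        _ = y * (w * x) := by group
        _ = y * (x * w) := by rw [h5]
        _ = y * x * w := by group
    exact mul_right_cancel h6
  -- the inverse
  obtain ⟨m, hm⟩ : ∃ m, m = (orderOf x - 1) * (l * s) := ⟨_, rfl⟩
  have hvW : x ^ m * x ^ (l * s) = 1 := by
    rw [← pow_add, hm, ← add_one_mul, Nat.sub_add_cancel (show 1 ≤ orderOf x from hnpos), pow_mul, pow_orderOf_eq_one, one_pow]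
  have hvY : (x ^ m) ^ r * y ^ r = 1 := by
    rw [← hs', ← pow_mul, ← pow_mul, ← pow_add]
    have e : m * r + l * r * s = (m + l * s) * r := by ring
    rw [e, pow_mul, pow_add, hvW, one_pow]
  have hkey : ¬ p ∣ r.choose 2 := by
    intro hpd
    have hvy : x ^ m * y = y * x ^ m * c ^ m := comm_x_pow hxy hcx m
    have hev : c ^ m * x ^ m = x ^ m * c ^ m :=
      (Commute.pow_pow (show Commute c x from hcx) m m).eq
    have hey : c ^ m * y = y * c ^ m := (Commute.pow_left (show Commute c y from hcy) m).eq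
    have h3 := mul_pow_class_two hvy hey hev r
    have h4 : (c ^ m) ^ r.choose 2 = 1 := by
      obtain ⟨t, ht⟩ := hpd
      rw [ht, ← pow_mul, mul_comm, mul_assoc, pow_mul, hcp, one_pow]
    have h5 : (y * x ^ m) ^ r = 1 := by
      rw [h3, h4, mul_one]
      have h6 : (x ^ m) ^ r = (y ^ r)⁻¹ := eq_inv_of_mul_eq_one_left hvY
      rw [h6, mul_inv_cancel]
    refine hd (x ^ m) (Subgroup.pow_mem _ (Subgroup.mem_zpowers x) _) ?_
    have h6 := Nat.le_of_dvd hrpos (orderOf_dvd_of_pow_eq_one h5)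
    rw [hr]
    have h7 := hp.two_le
    nlinarith
  have hp2 : p = 2 := by
    by_contra hodd
    apply hkey
    by_cases hb0 : b = 0
    · rw [hb0, pow_zero] at hb
      exact absurd (orderOf_eq_one_iff.mp hb) hy1
    have hr' : r = p ^ (b - 1) := by
      have h3 : p * r = p * p ^ (b - 1) := by
        rw [← hr, hb, ← pow_succ', Nat.sub_add_cancel (Nat.pos_of_ne_zero hb0)]
      exact Nat.eq_of_mul_eq_mul_left hp.pos h3
    by_cases hb1 : b = 1
    · rw [hb1, Nat.sub_self, pow_zero] at hr'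
      rw [hr']
      simp
    · have h3 : p ∣ r := by
        rw [hr']
        exact dvd_pow_self p (by omega)
      have h4 : p ∣ 2 * r.choose 2 := by
        rw [two_mul_choose_two]
        exact Dvd.dvd.mul_right h3 _
      rcases (Nat.Prime.dvd_mul hp).mp h4 with h5 | h5
      · exact absurd ((Nat.prime_dvd_prime_iff_eq hp Nat.prime_two).mp h5) hodd
      · exact h5
  subst hp2
  have hr2 : r = 2 := by
    by_cases hb0 : b = 0
    · rw [hb0, pow_zero] at hb
      exact absurd (orderOf_eq_one_iff.mp hb) hy1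
    have hr' : r = 2 ^ (b - 1) := by
      have h3 : 2 * r = 2 * 2 ^ (b - 1) := by
        rw [← hr, hb, ← pow_succ', Nat.sub_add_cancel (Nat.pos_of_ne_zero hb0)]
      exact Nat.eq_of_mul_eq_mul_left (by norm_num) h3
    by_cases hb1 : b = 1
    · exfalso
      apply hkey
      rw [hb1, Nat.sub_self, pow_zero] at hr'
      rw [hr']
      simp
    by_cases hb2 : b = 2
    · rw [hb2] at hr'
      simpa using hr'
    · exfalso
      apply hkey
      obtain ⟨e, he⟩ : ∃ e, b - 1 = e + 2 := ⟨b - 3, by omega⟩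
      have h3 : r = 4 * 2 ^ e := by
        rw [hr', he, pow_add]
        ring
      have h4 := two_mul_choose_two r
      have h5 : r * (r - 1) = 2 * (2 * 2 ^ e * (r - 1)) := by
        nth_rw 1 [h3]
        ring
      rw [h5] at h4
      have h6 : r.choose 2 = 2 * 2 ^ e * (r - 1) := by omega
      rw [h6]
      exact ⟨2 ^ e * (r - 1), by ring⟩
  subst hr2
  have hk4 : orderOf y = 4 := by
    rw [hr]
  -- `c` is the common square
  have hyne : y ^ 2 ≠ 1 := by
    intro h
    have := orderOf_dvd_of_pow_eq_one h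
    rw [hk4] at this
    omega
  have hz2 : ∀ {w z : G}, orderOf w = 2 → z ∈ zpowers w → z ≠ 1 → z = w := by
    intro w z hw hz hz1
    rw [← mem_powers_iff_mem_zpowers] at hz
    obtain ⟨i, hi⟩ := hz
    have hi' : w ^ i = z := hi
    rcases Nat.even_or_odd' i with ⟨j, rfl | rfl⟩
    · exfalso
      apply hz1
      rw [← hi', pow_mul, ← hw, pow_orderOf_eq_one, one_pow]
    · rw [← hi', pow_succ, pow_mul, ← hw, pow_orderOf_eq_one, one_pow, one_mul]
  have hyc2 : y ^ 2 = c := hz2 hpdef.symm hYc hyne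
  have hXc : c = x ^ (l * 2) := hz2 hXo hcX hcne
  have hx4 : orderOf x = 4 := by
    by_contra hne
    -- `x` has order at least `8`
    have hl' : orderOf x = 2 * 2 * l := by rw [hl, hr]
    have hl2 : Even l := by
      have h3 : l ≠ 1 := by
        intro h
        apply hne
        rw [hl', h]
      have h4 : l ∣ 2 ^ a := by
        rw [← ha, hl]
        exact Dvd.intro_left _ rfl
      obtain ⟨e, -, he⟩ := (Nat.dvd_prime_pow Nat.prime_two).mp h4
      rcases Nat.eq_zero_or_pos e with h5 | h5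
      · rw [h5, pow_zero] at he
        exact absurd he h3
      · rw [he]
        exact (Nat.even_pow.mpr ⟨even_two, h5.ne'⟩)
    obtain ⟨t, ht⟩ := hl2
    have hlpos : 0 < l := by
      rcases Nat.eq_zero_or_pos l with h | h
      · rw [h, mul_zero] at hl'
        omega
      · exact h
    have hW : orderOf (x ^ l) = 4 := by
      have h3 : l = orderOf x / 4 := by
        rw [hl']
        have : 2 * 2 * l = 4 * l := by ring
        rw [this, Nat.mul_div_cancel_left _ (by norm_num)]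
      conv_lhs => rw [h3]
      exact orderOf_pow_orderOf_div hnpos.ne' ⟨l, by rw [hl']⟩
    have hlt : orderOf (x ^ l) < orderOf x := by
      rw [hW, hl', ht]
      have : 0 < t := by omega
      nlinarith
    have h3 := hxmin _ hlt
    -- `d = y * (x ^ l)⁻¹`
    refine hd (x ^ l)⁻¹ (Subgroup.inv_mem _ (Subgroup.pow_mem _ (Subgroup.mem_zpowers x) _)) ?_
    have h4 : (y * (x ^ l)⁻¹) ^ 2 = 1 := by
      have h5 : (x ^ l)⁻¹ * y = y * (x ^ l)⁻¹ := by
        have h6 : y = (x ^ l) * y * (x ^ l)⁻¹ := by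
          rw [h3]
          group
        calc (x ^ l)⁻¹ * y = (x ^ l)⁻¹ * (x ^ l * y * (x ^ l)⁻¹) := by rw [← h6]
          _ = y * (x ^ l)⁻¹ := by group
      have h6 : (x ^ l) ^ 2 = x ^ (l * 2) := (pow_mul _ _ _).symm
      calc (y * (x ^ l)⁻¹) ^ 2 = y * ((x ^ l)⁻¹ * y) * (x ^ l)⁻¹ := by
            rw [pow_two]
            group
        _ = y * (y * (x ^ l)⁻¹) * (x ^ l)⁻¹ := by rw [h5]
        _ = y ^ 2 * ((x ^ l) ^ 2)⁻¹ := by
            rw [pow_two, pow_two]
            group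
        _ = 1 := by rw [h6, ← hXc, hyc2, mul_inv_cancel]
    have h5 := Nat.le_of_dvd (by norm_num) (orderOf_dvd_of_pow_eq_one h4)
    rw [hk4]
    omega
  refine ⟨x, y, ?_, ?_, ?_, ?_⟩
  · rw [← hx4]
    exact pow_orderOf_eq_one x
  · intro h
    have := orderOf_dvd_of_pow_eq_one h
    rw [hx4] at this
    omega
  · have hl1 : l = 1 := by
      rw [hx4, hk4] at hl
      omega
    rw [hyc2, hXc, hl1]
  · have hl1 : l = 1 := by
      rw [hx4, hk4] at hl
      omega
    have hx4' : x ^ 4 = 1 := by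
      rw [← hx4]
      exact pow_orderOf_eq_one x
    have h3 : y⁻¹ * x * y = x * c := by
      rw [hcdef]
      group
    rw [h3, hXc, hl1, eq_inv_iff_mul_eq_one]
    calc x * x ^ (1 * 2) * x = x ^ 4 := by
          simp only [one_mul, pow_succ, pow_zero, mul_assoc]
      _ = 1 := hx4'

section Quat

variable {x y : G}

theorem pow_mul_y (hxy : y⁻¹ * x * y = x⁻¹) (k : ℕ) : x ^ k * y = y * (x ^ k)⁻¹ := by
  have h1 : x * y = y * x⁻¹ := by
    rw [← hxy]
    group
  induction k with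
  | zero => simp
  | succ k ih =>
    calc x ^ (k + 1) * y = x ^ k * (x * y) := by rw [pow_succ, mul_assoc]
      _ = x ^ k * (y * x⁻¹) := by rw [h1]
      _ = (x ^ k * y) * x⁻¹ := by simp only [mul_assoc]
      _ = y * (x ^ k)⁻¹ * x⁻¹ := by rw [ih]
      _ = y * (x ^ (k + 1))⁻¹ := by
          rw [pow_succ', mul_inv_rev, mul_assoc]

/-- The map from the quaternion group. -/
def quatFun (x y : G) : QuaternionGroup 2 → G
  | QuaternionGroup.a i => x ^ (ZMod.val i)
  | QuaternionGroup.xa i => y * x ^ (ZMod.val i)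

instance : NeZero (2 * 2) := ⟨by norm_num⟩

theorem gpow_add (hx4 : x ^ 4 = 1) (i j : ZMod (2 * 2)) :
    x ^ (ZMod.val (i + j)) = x ^ (ZMod.val i) * x ^ (ZMod.val j) := by
  rw [ZMod.val_add, ← pow_add]
  exact (pow_eq_pow_mod _ hx4).symm

/-- The map from the quaternion group as a homomorphism. -/
def quatHom (x y : G) (hx4 : x ^ 4 = 1) (hy2 : y ^ 2 = x ^ 2) (hxy : y⁻¹ * x * y = x⁻¹) :
    QuaternionGroup 2 →* G where
  toFun := quatFun x y
  map_one' := by
    show x ^ (ZMod.val (0 : ZMod (2 * 2))) = 1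
    rw [ZMod.val_zero, pow_zero]
  map_mul' := by
    have hadd := gpow_add hx4
    have hsub : ∀ i j : ZMod (2 * 2), x ^ (ZMod.val (j - i)) = (x ^ (ZMod.val i))⁻¹ * x ^ (ZMod.val j) := by
      intro i j
      have h1 := hadd i (j - i)
      rw [add_sub_cancel] at h1
      rw [h1]
      group
    have hn2 : x ^ (ZMod.val ((2 : ℕ) : ZMod (2 * 2))) = x ^ 2 := by
      rw [ZMod.val_natCast]
    rintro (i | i) (j | j)
    · show x ^ (ZMod.val (i + j)) = x ^ (ZMod.val i) * x ^ (ZMod.val j)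
      exact hadd i j
    · show y * x ^ (ZMod.val (j - i)) = x ^ (ZMod.val i) * (y * x ^ (ZMod.val j))
      rw [hsub]
      calc y * ((x ^ (ZMod.val i))⁻¹ * x ^ (ZMod.val j)) = (y * (x ^ (ZMod.val i))⁻¹) * x ^ (ZMod.val j) := by
            simp only [mul_assoc]
        _ = (x ^ (ZMod.val i) * y) * x ^ (ZMod.val j) := by rw [pow_mul_y hxy]
        _ = _ := by simp only [mul_assoc]
    · show y * x ^ (ZMod.val (i + j)) = y * x ^ (ZMod.val i) * x ^ (ZMod.val j)
      rw [hadd, mul_assoc]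
    · show x ^ (ZMod.val (((2 : ℕ) : ZMod (2 * 2)) + j - i)) = y * x ^ (ZMod.val i) * (y * x ^ (ZMod.val j))
      rw [hsub, hadd, hn2]
      have h3 : x ^ 2 * x ^ (ZMod.val i) = x ^ (ZMod.val i) * x ^ 2 := (Commute.pow_pow (Commute.refl x) _ _).eq
      have h4 : (x ^ (ZMod.val i))⁻¹ * x ^ 2 = x ^ 2 * (x ^ (ZMod.val i))⁻¹ := by
        calc (x ^ (ZMod.val i))⁻¹ * x ^ 2 = (x ^ (ZMod.val i))⁻¹ * (x ^ 2 * x ^ (ZMod.val i)) * (x ^ (ZMod.val i))⁻¹ := by group
          _ = (x ^ (ZMod.val i))⁻¹ * (x ^ (ZMod.val i) * x ^ 2) * (x ^ (ZMod.val i))⁻¹ := by rw [h3]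
          _ = _ := by group
      calc (x ^ (ZMod.val i))⁻¹ * (x ^ 2 * x ^ (ZMod.val j))
          = ((x ^ (ZMod.val i))⁻¹ * x ^ 2) * x ^ (ZMod.val j) := by simp only [mul_assoc]
        _ = (x ^ 2 * (x ^ (ZMod.val i))⁻¹) * x ^ (ZMod.val j) := by rw [h4]
        _ = y * y * (x ^ (ZMod.val i))⁻¹ * x ^ (ZMod.val j) := by rw [← hy2, pow_two]
        _ = y * (y * (x ^ (ZMod.val i))⁻¹) * x ^ (ZMod.val j) := by simp only [mul_assoc]
        _ = y * (x ^ (ZMod.val i) * y) * x ^ (ZMod.val j) := by rw [pow_mul_y hxy]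
        _ = _ := by simp only [mul_assoc]

theorem comm_false (hx2 : x ^ 2 ≠ 1) (hxy : y⁻¹ * x * y = x⁻¹) : y * x ≠ x * y := by
  intro h
  apply hx2
  have h1 : y⁻¹ * x * y = x := by
    rw [mul_assoc, ← h]
    group
  rw [h1] at hxy
  rw [pow_two]
  nth_rw 1 [hxy]
  group

theorem quatHom_injective (hx4 : x ^ 4 = 1) (hx2 : x ^ 2 ≠ 1) (hy2 : y ^ 2 = x ^ 2) (hxy : y⁻¹ * x * y = x⁻¹) :
    Function.Injective (quatHom x y hx4 hy2 hxy) := by
  rw [injective_iff_map_eq_one]
  have ho : orderOf x = 2 ^ (1 + 1) := orderOf_eq_prime_pow (p := 2) (n := 1) (by simpa using hx2) (by simpa using hx4)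
  rintro (i | i) h
  · have h1 : x ^ (ZMod.val i) = 1 := h
    have h3 := orderOf_dvd_of_pow_eq_one h1
    rw [ho] at h3
    have h4 : ZMod.val i < 2 * 2 := ZMod.val_lt i
    have h5 : ZMod.val i = 0 := by
      have : 2 * 2 = 2 ^ (1 + 1) := rfl
      exact Nat.eq_zero_of_dvd_of_lt h3 (by omega)
    rw [ZMod.val_eq_zero] at h5
    rw [h5]
    rfl
  · exfalso
    have h1 : y * x ^ (ZMod.val i) = 1 := h
    apply comm_false hx2 hxy
    have h3 : y = (x ^ (ZMod.val i))⁻¹ := eq_inv_of_mul_eq_one_left h1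
    rw [h3]
    have h4 : Commute x (x ^ (ZMod.val i))⁻¹ := Commute.inv_right (Commute.pow_right (Commute.refl x) _)
    exact h4.eq.symm

theorem conj_order_four {w u : G} (hw4 : w ^ 4 = 1) (hw2 : w ^ 2 ≠ 1) (hu : u * w * u⁻¹ ∈ zpowers w) [Finite G] :
    u * w * u⁻¹ = w ∨ u * w * u⁻¹ = w⁻¹ := by
  rw [← mem_powers_iff_mem_zpowers] at hu
  obtain ⟨i, hi⟩ := hu
  have hi' : w ^ i = u * w * u⁻¹ := hi
  rw [pow_eq_pow_mod i hw4] at hi'
  have h4 : i % 4 < 4 := Nat.mod_lt _ (by norm_num)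
  have hw1 : (u * w * u⁻¹) ^ 2 = u * w ^ 2 * u⁻¹ := by
    rw [pow_two, pow_two]
    group
  interval_cases h : i % 4
  · exfalso
    apply hw2
    rw [pow_zero] at hi'
    have : w = u⁻¹ * (u * w * u⁻¹) * u := by group
    rw [this, ← hi']
    simp
  · left
    rw [← hi', pow_one]
  · exfalso
    apply hw2
    have h5 : (u * w * u⁻¹) ^ 2 = 1 := by
      rw [← hi', ← pow_mul]
      exact hw4
    rw [hw1] at h5
    have : w ^ 2 = u⁻¹ * (u * w ^ 2 * u⁻¹) * u := by group
    rw [this, h5]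
    simp
  · right
    rw [← hi', eq_inv_iff_mul_eq_one, ← pow_succ]
    exact hw4

end Quat

/-- The structure theorem for non-abelian Dedekind groups. -/
theorem dedekind_structure [Finite G] (hna : ¬ IsMulCommutative G) (hn : ∀ H : Subgroup G, H.Normal) :
    ∃ Q E A : Subgroup G, Nonempty (Q ≃* QuaternionGroup 2) ∧ IsElementaryAbelian 2 E ∧ IsMulCommutative A ∧
      Odd (Nat.card A) ∧ E ⊓ A = ⊥ ∧ Q ⊓ (E ⊔ A) = ⊥ ∧ Q ⊔ (E ⊔ A) = ⊤ := by
  classical
  have hna' : ∃ a b : G, a * b ≠ b * a := by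
    by_contra h
    push_neg at h
    exact hna ⟨⟨h⟩⟩
  obtain ⟨x, y, hx4, hx2, hy2, hxy⟩ := exists_quat_pair hn hna'
  have hyx := comm_false hx2 hxy
  let f := quatHom x y hx4 hy2 hxy
  have hf : Function.Injective f := quatHom_injective hx4 hx2 hy2 hxy
  obtain ⟨Q, hQ⟩ : ∃ Q, Q = f.range := ⟨_, rfl⟩
  have hy4 : y ^ 4 = 1 := by
    have : y ^ 4 = (y ^ 2) ^ 2 := by rw [← pow_mul]
    rw [this, hy2, ← pow_mul]
    exact hx4
  have hy2' : y ^ 2 ≠ 1 := by rwa [hy2]
  have hxQ : x ∈ Q := by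
    rw [hQ]
    refine ⟨QuaternionGroup.a 1, ?_⟩
    show x ^ (ZMod.val (1 : ZMod (2 * 2))) = x
    have : ZMod.val (1 : ZMod (2 * 2)) = 1 := rfl
    rw [this, pow_one]
  have hyQ : y ∈ Q := by
    rw [hQ]
    refine ⟨QuaternionGroup.xa 0, ?_⟩
    show y * x ^ (ZMod.val (0 : ZMod (2 * 2))) = y
    rw [ZMod.val_zero, pow_zero, mul_one]
  have hQmem : ∀ q ∈ Q, (∃ k : ℕ, k < 4 ∧ q = x ^ k) ∨ (∃ k : ℕ, q = y * x ^ k) := by
    intro q hq
    rw [hQ] at hq
    obtain ⟨w, rfl⟩ := hq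
    rcases w with i | i
    · left
      exact ⟨ZMod.val i, ZMod.val_lt i, rfl⟩
    · right
      exact ⟨ZMod.val i, rfl⟩
  -- relations
  have R1 : y⁻¹ * x⁻¹ * y = x := by
    calc y⁻¹ * x⁻¹ * y = (y⁻¹ * x * y)⁻¹ := by group
      _ = x := by rw [hxy, inv_inv]
  have R0 : x * y = y * x⁻¹ := by
    rw [← hxy]
    group
  have hyy : x * x = y * y := by
    rw [← pow_two, ← pow_two, hy2]
  have R2 : x⁻¹ * y⁻¹ * x = y := by
    have h5 : y⁻¹ * x = x * y := by
      calc y⁻¹ * x = y⁻¹ * (x * x) * x⁻¹ := by group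
        _ = y⁻¹ * (y * y) * x⁻¹ := by rw [hyy]
        _ = y * x⁻¹ := by group
        _ = x * y := R0.symm
    calc x⁻¹ * y⁻¹ * x = x⁻¹ * (y⁻¹ * x) := by simp only [mul_assoc]
      _ = x⁻¹ * (x * y) := by rw [h5]
      _ = y := by group
  -- the centralizer
  obtain ⟨C, hC⟩ : ∃ C : Subgroup G, C = centralizer ({x, y} : Set G) := ⟨_, rfl⟩
  have hCmem : ∀ g, g ∈ C ↔ x * g = g * x ∧ y * g = g * y := by
    intro g
    rw [hC, Subgroup.mem_centralizer_iff]
    constructor
    · intro h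
      exact ⟨h x (by simp), h y (by simp)⟩
    · rintro ⟨h1, h3⟩ w hw
      rcases hw with hw | hw
      · rw [hw]
        exact h1
      · rw [Set.mem_singleton_iff] at hw
        rw [hw]
        exact h3
  have hdec : ∀ g, ∃ q ∈ Q, q⁻¹ * g ∈ C := by
    intro g
    have h1 := conj_order_four hx4 hx2 ((hn (zpowers x)).conj_mem x (Subgroup.mem_zpowers x) g)
    have h3 := conj_order_four hy4 hy2' ((hn (zpowers y)).conj_mem y (Subgroup.mem_zpowers y) g)
    have key : ∀ q, q ∈ Q → q⁻¹ * (g * x * g⁻¹) * q = x → q⁻¹ * (g * y * g⁻¹) * q = y →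
        ∃ q ∈ Q, q⁻¹ * g ∈ C := by
      intro q hq h5 h6
      refine ⟨q, hq, (hCmem _).mpr ⟨?_, ?_⟩⟩
      · calc x * (q⁻¹ * g) = (q⁻¹ * (g * x * g⁻¹) * q) * (q⁻¹ * g) := by rw [h5]
          _ = q⁻¹ * g * x := by group
      · calc y * (q⁻¹ * g) = (q⁻¹ * (g * y * g⁻¹) * q) * (q⁻¹ * g) := by rw [h6]
          _ = q⁻¹ * g * y := by group
    rcases h1 with h1 | h1 <;> rcases h3 with h3 | h3
    · exact key 1 (one_mem _) (by rw [h1]; group) (by rw [h3]; group)
    · exact key x hxQ (by rw [h1]; group) (by rw [h3]; exact R2)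
    · exact key y hyQ (by rw [h1]; exact R1) (by rw [h3]; group)
    · refine key (x * y) (Q.mul_mem hxQ hyQ) ?_ ?_
      · rw [h1]
        calc (x * y)⁻¹ * x⁻¹ * (x * y) = y⁻¹ * x⁻¹ * y := by group
          _ = x := R1
      · rw [h3]
        calc (x * y)⁻¹ * y⁻¹ * (x * y) = y⁻¹ * (x⁻¹ * y⁻¹ * x) * y := by group
          _ = y⁻¹ * y * y := by rw [R2]
          _ = y := by group
  have hno4 : ∀ c ∈ C, c ^ 4 = 1 → c ^ 2 = 1 := by
    intro c hc hc4
    obtain ⟨hcx, hcy⟩ := (hCmem c).mp hc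
    have hcomm : Commute x c := hcx
    have h1 := (hn (zpowers (x * c))).conj_mem (x * c) (Subgroup.mem_zpowers _) y
    have h3 : y * (x * c) * y⁻¹ = x⁻¹ * c := by
      have e1 : y * x = x⁻¹ * y := by
        calc y * x = y * (y⁻¹ * x⁻¹ * y) := by rw [R1]
          _ = x⁻¹ * y := by group
      calc y * (x * c) * y⁻¹ = (y * x) * c * y⁻¹ := by group
        _ = x⁻¹ * y * c * y⁻¹ := by rw [e1]
        _ = x⁻¹ * (y * c) * y⁻¹ := by group
        _ = x⁻¹ * (c * y) * y⁻¹ := by rw [hcy]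
        _ = _ := by group
    rw [h3, ← mem_powers_iff_mem_zpowers] at h1
    obtain ⟨i, hi⟩ := h1
    have hi' : (x * c) ^ i = x⁻¹ * c := hi
    have hg4 : (x * c) ^ 4 = 1 := by
      rw [hcomm.mul_pow, hx4, hc4, one_mul]
    rw [pow_eq_pow_mod i hg4, hcomm.mul_pow] at hi'
    have h4 : i % 4 < 4 := Nat.mod_lt _ (by norm_num)
    have hxc : c ≠ x := by
      rintro rfl
      exact hyx hcy
    have hxinv : x⁻¹ = x ^ 3 := by
      rw [inv_eq_iff_mul_eq_one, ← pow_succ']
      exact hx4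
    interval_cases h : i % 4
    · exfalso
      simp only [pow_zero, one_mul] at hi'
      apply hxc
      have h5 : x * 1 = x * (x⁻¹ * c) := by rw [← hi']
      simpa using h5.symm
    · exfalso
      simp only [pow_one] at hi'
      have h5 : x = x⁻¹ := mul_right_cancel hi'
      apply hx2
      rw [pow_two]
      nth_rw 1 [h5]
      group
    · exfalso
      apply hxc
      -- `x² c² = x⁻¹ c`
      have h5 : x ^ 2 * c ^ 2 = x⁻¹ * c := hi'
      have h6 : x ^ 2 * c = x⁻¹ := by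
        have h7 : x ^ 2 * c * c = x⁻¹ * c := by rw [mul_assoc, ← pow_two]; exact h5
        exact mul_right_cancel h7
      have h7 : c = x := by
        have h8 : x ^ 2 * x ^ 2 = 1 := by rw [← pow_add]; exact hx4
        calc c = (x ^ 2 * x ^ 2) * c := by rw [h8, one_mul]
          _ = x ^ 2 * (x ^ 2 * c) := by simp only [mul_assoc]
          _ = x ^ 2 * x⁻¹ := by rw [h6]
          _ = x := by rw [pow_two]; group
      exact h7
    · have h5 : x ^ 3 * c ^ 3 = x⁻¹ * c := hi'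
      rw [← hxinv] at h5
      have h6 : c ^ 3 = c := mul_left_cancel h5
      have h7 : c ^ 2 * c = 1 * c := by
        rw [← pow_succ, h6, one_mul]
      exact mul_right_cancel h7
  have hCab : ∀ a ∈ C, ∀ b ∈ C, a * b = b * a := by
    by_contra hcon
    push_neg at hcon
    obtain ⟨a, ha, b, hb, hab⟩ := hcon
    have hn' : ∀ H : Subgroup ↥C, H.Normal := by
      intro H
      constructor
      intro m hm g
      have h1 := (hn (H.map C.subtype)).conj_mem (m : G) ⟨m, hm, rfl⟩ (g : G)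
      obtain ⟨m', hm', he⟩ := h1
      have h3 : m' = g * m * g⁻¹ := Subtype.ext he
      rwa [← h3]
    have hna2 : ∃ a b : ↥C, a * b ≠ b * a :=
      ⟨⟨a, ha⟩, ⟨b, hb⟩, fun h => hab (congrArg Subtype.val h)⟩
    obtain ⟨x', y', hx4', hx2', -, -⟩ := exists_quat_pair hn' hna2
    apply hx2'
    apply Subtype.ext
    have h1 : ((x' : G)) ^ 4 = 1 := by
      have := congrArg Subtype.val hx4'
      simpa using this
    have h3 := hno4 _ x'.2 h1
    simpa using h3
  -- the subgroups `E₀` and `A`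
  obtain ⟨E₀, hE₀⟩ : ∃ E₀ : Subgroup G, ∀ g, g ∈ E₀ ↔ g ∈ C ∧ g ^ 2 = 1 := by
    refine ⟨{ carrier := {g | g ∈ C ∧ g ^ 2 = 1}, mul_mem' := ?_, one_mem' := ?_, inv_mem' := ?_ }, fun g => Iff.rfl⟩
    · rintro a b ⟨ha, ha2⟩ ⟨hb, hb2⟩
      refine ⟨C.mul_mem ha hb, ?_⟩
      have hcomm : Commute a b := hCab a ha b hb
      rw [hcomm.mul_pow, ha2, hb2, one_mul]
    · exact ⟨one_mem _, one_pow _⟩
    · rintro a ⟨ha, ha2⟩
      exact ⟨C.inv_mem ha, by rw [inv_pow, ha2, inv_one]⟩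
  obtain ⟨A, hA⟩ : ∃ A : Subgroup G, ∀ g, g ∈ A ↔ g ∈ C ∧ ∃ m : ℕ, Odd m ∧ g ^ m = 1 := by
    refine ⟨{ carrier := {g | g ∈ C ∧ ∃ m : ℕ, Odd m ∧ g ^ m = 1}, mul_mem' := ?_, one_mem' := ?_, inv_mem' := ?_ },
      fun g => Iff.rfl⟩
    · rintro a b ⟨ha, m, hm, ham⟩ ⟨hb, n, hn', hbn⟩
      refine ⟨C.mul_mem ha hb, m * n, hm.mul hn', ?_⟩
      have hcomm : Commute a b := hCab a ha b hb
      rw [hcomm.mul_pow, pow_mul, ham, one_pow, one_mul, mul_comm, pow_mul, hbn, one_pow]
    · exact ⟨one_mem _, 1, odd_one, one_pow _⟩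
    · rintro a ⟨ha, m, hm, ham⟩
      exact ⟨C.inv_mem ha, m, hm, by rw [inv_pow, ham, inv_one]⟩
  have hE₀C : E₀ ≤ C := fun g hg => ((hE₀ g).mp hg).1
  have hAC : A ≤ C := fun g hg => ((hA g).mp hg).1
  have hE₀A : ∀ g, g ^ 2 = 1 → g ∈ A → g = 1 := by
    intro g hg hgA
    obtain ⟨-, m, hm, hgm⟩ := (hA g).mp hgA
    have h1 : orderOf g ∣ Nat.gcd 2 m :=
      Nat.dvd_gcd (orderOf_dvd_of_pow_eq_one hg) (orderOf_dvd_of_pow_eq_one hgm)
    have h3 : Nat.gcd 2 m = 1 := Nat.Coprime.symm hm.coprime_two_right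
    rw [h3, Nat.dvd_one] at h1
    exact orderOf_eq_one_iff.mp h1
  have hCdec : ∀ c ∈ C, ∃ e ∈ E₀, ∃ a ∈ A, c = e * a := by
    intro c hc
    obtain ⟨e, m, hm, hem⟩ := Nat.exists_eq_two_pow_mul_odd (orderOf_pos c).ne'
    have hc2m : c ^ (2 * m) = 1 := by
      by_cases he : e ≤ 1
      · have h1 : orderOf c ∣ 2 * m := by
          rw [hem]
          exact Nat.mul_dvd_mul (by
            calc 2 ^ e ∣ 2 ^ 1 := pow_dvd_pow 2 he
              _ = 2 := pow_one 2) dvd_rfl
        exact orderOf_dvd_iff_pow_eq_one.mp h1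
      · exfalso
        obtain ⟨f, rfl⟩ : ∃ f, e = f + 2 := ⟨e - 2, by omega⟩
        have h1 : (c ^ (2 ^ f * m)) ^ 4 = 1 := by
          rw [← pow_mul]
          have : 2 ^ f * m * 4 = orderOf c := by rw [hem]; ring
          rw [this, pow_orderOf_eq_one]
        have h3 := hno4 _ (C.pow_mem hc _) h1
        rw [← pow_mul] at h3
        have h4 := orderOf_dvd_of_pow_eq_one h3
        rw [hem] at h4
        have h5 : 0 < 2 ^ f * m * 2 := by
          have := hm.pos
          positivity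
        have h6 := Nat.le_of_dvd h5 h4
        have h7 : 2 ^ (f + 2) * m = 2 * (2 ^ f * m * 2) := by ring
        omega
    obtain ⟨t, ht⟩ := hm
    refine ⟨c ^ m, (hE₀ _).mpr ⟨C.pow_mem hc _, ?_⟩, (c ^ (2 * t))⁻¹, (hA _).mpr ⟨C.inv_mem (C.pow_mem hc _), m, ⟨t, ht⟩, ?_⟩, ?_⟩
    · rw [← pow_mul, mul_comm]
      exact hc2m
    · rw [inv_pow, ← pow_mul]
      have : 2 * t * m = 2 * m * t := by ring
      rw [this, pow_mul, hc2m, one_pow, inv_one]
    · rw [ht, pow_succ]
      group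
  have hzC : x ^ 2 ∈ C := by
    rw [hCmem]
    constructor
    · exact (Commute.pow_right (Commute.refl x) 2).eq
    · rw [← hy2]
      exact (Commute.pow_right (Commute.refl y) 2).eq
  have hzE₀ : x ^ 2 ∈ E₀ := (hE₀ _).mpr ⟨hzC, by rw [← pow_mul]; exact hx4⟩
  -- a complement of `⟨z⟩` in `E₀`
  let T : Set (Subgroup G) := {H | H ≤ E₀ ∧ x ^ 2 ∉ H}
  have hTne : T.Nonempty := ⟨⊥, bot_le, fun h => hx2 (Subgroup.mem_bot.mp h)⟩
  obtain ⟨E, hE⟩ := T.toFinite.exists_maximal hTne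
  have hEE₀ : E ≤ E₀ := hE.1.1
  have hzE : x ^ 2 ∉ E := hE.1.2
  have hE₀comm : ∀ a ∈ E₀, ∀ b ∈ E₀, a * b = b * a := fun a ha b hb => hCab a (hE₀C ha) b (hE₀C hb)
  have hdecE : ∀ e ∈ E₀, e ∈ E ∨ x ^ 2 * e ∈ E := by
    intro e he
    by_cases heE : e ∈ E
    · exact Or.inl heE
    right
    have hz' : x ^ 2 ∈ E ⊔ zpowers e := by
      by_contra hz'
      have h1 : E ⊔ zpowers e ∈ T :=
        ⟨sup_le hEE₀ (Subgroup.zpowers_le.mpr he), hz'⟩
      have h3 := hE.2 h1 le_sup_left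
      exact heE (h3 (Subgroup.mem_sup_right (Subgroup.mem_zpowers e)))
    obtain ⟨f, hf, w, hw, hfw⟩ := Cfsg.Agent.Lib.Components.exists_mul_of_mem_sup_of_commutes
      (A := E) (B := zpowers e) (fun a ha b hb => hE₀comm a (hEE₀ ha) b
        ((Subgroup.zpowers_le.mpr he) hb)) hz'
    rw [← mem_powers_iff_mem_zpowers] at hw
    obtain ⟨i, hi⟩ := hw
    have hi' : e ^ i = w := hi
    have he2 : e ^ 2 = 1 := ((hE₀ e).mp he).2
    rcases Nat.even_or_odd' i with ⟨j, rfl | rfl⟩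
    · exfalso
      rw [pow_mul, he2, one_pow] at hi'
      rw [← hi', mul_one] at hfw
      exact hzE (hfw ▸ hf)
    · rw [pow_succ, pow_mul, he2, one_pow, one_mul] at hi'
      rw [hfw, ← hi', mul_assoc, ← pow_two, he2, mul_one]
      exact hf
  refine ⟨Q, E, A, ?_, ?_, ?_, ?_, ?_, ?_, ?_⟩
  · rw [hQ]
    exact ⟨(MonoidHom.ofInjective hf).symm⟩
  · refine ⟨⟨⟨fun a b => Subtype.ext (hE₀comm a (hEE₀ a.2) b (hEE₀ b.2))⟩⟩, fun a ha => ((hE₀ a).mp (hEE₀ ha)).2⟩
  · exact ⟨⟨fun a b => Subtype.ext (hCab a (hAC a.2) b (hAC b.2))⟩⟩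
  · by_contra hodd
    rw [Nat.not_odd_iff_even, even_iff_two_dvd] at hodd
    haveI : Fact (Nat.Prime 2) := ⟨Nat.prime_two⟩
    obtain ⟨a, ha⟩ := exists_prime_orderOf_dvd_card' (G := ↥A) 2 hodd
    have h1 : (a : G) ^ 2 = 1 := by
      have := pow_orderOf_eq_one a
      rw [ha] at this
      simpa using congrArg Subtype.val this
    have h3 := hE₀A _ h1 a.2
    have h4 : a = 1 := Subtype.ext h3
    rw [h4, orderOf_one] at ha
    omega
  · rw [eq_bot_iff]
    rintro g ⟨hgE, hgA⟩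
    exact hE₀A g ((hE₀ g).mp (hEE₀ hgE)).2 hgA
  · rw [eq_bot_iff]
    rintro g ⟨hgQ, hgS⟩
    have hSC : E ⊔ A ≤ C := sup_le (hEE₀.trans hE₀C) hAC
    have hgC : g ∈ C := hSC hgS
    have hQC : g = 1 ∨ g = x ^ 2 := by
      rcases hQmem g hgQ with ⟨k, hk, rfl⟩ | ⟨k, rfl⟩
      · interval_cases k
        · left
          simp
        · exfalso
          rw [pow_one, hCmem] at hgC
          exact hyx hgC.2
        · right
          rfl
        · exfalso
          have h1 : x ^ 3 * (x ^ 2)⁻¹ ∈ C := C.mul_mem hgC (C.inv_mem hzC)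
          have e : x ^ 3 * (x ^ 2)⁻¹ = x := by
            rw [pow_succ x 2]
            group
          rw [e, hCmem] at h1
          exact hyx h1.2
      · exfalso
        rw [hCmem] at hgC
        have h1 := hgC.1
        apply hyx
        have hc : x * x ^ k = x ^ k * x := (Commute.pow_right (Commute.refl x) k).eq
        have h3 : x * y * x ^ k = y * x * x ^ k := by
          calc x * y * x ^ k = x * (y * x ^ k) := by simp only [mul_assoc]
            _ = y * x ^ k * x := h1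
            _ = y * (x ^ k * x) := by simp only [mul_assoc]
            _ = y * (x * x ^ k) := by rw [hc]
            _ = _ := by simp only [mul_assoc]
        exact (mul_right_cancel h3).symm
    rcases hQC with h | h
    · exact Subgroup.mem_bot.mpr h
    · exfalso
      rw [h] at hgS
      obtain ⟨e, he, a, ha, hea⟩ := Cfsg.Agent.Lib.Components.exists_mul_of_mem_sup_of_commutes
        (A := E) (B := A) (fun a ha b hb => hCab a (hE₀C (hEE₀ ha)) b (hAC hb)) hgS
      have h1 : a = e⁻¹ * x ^ 2 := by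
        rw [hea]
        group
      have h3 : a ∈ E₀ := by
        rw [h1]
        exact E₀.mul_mem (E₀.inv_mem (hEE₀ he)) hzE₀
      have h4 := hE₀A a ((hE₀ a).mp h3).2 ha
      rw [h4, mul_one] at hea
      exact hzE (hea ▸ he)
  · rw [eq_top_iff]
    intro g _
    obtain ⟨q, hq, hc⟩ := hdec g
    obtain ⟨e, he, a, ha, hea⟩ := hCdec _ hc
    have hg : g = q * (e * a) := by
      rw [← hea]
      group
    rcases hdecE e he with h1 | h1
    · rw [hg]
      exact Subgroup.mul_mem_sup hq (Subgroup.mul_mem_sup h1 ha)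
    · have hx22 : x ^ 2 * x ^ 2 = 1 := by rw [← pow_add]; exact hx4
      have e1 : g = (q * x ^ 2) * ((x ^ 2 * e) * a) := by
        rw [hg]
        calc q * (e * a) = q * ((x ^ 2 * x ^ 2) * (e * a)) := by rw [hx22, one_mul]
          _ = _ := by simp only [mul_assoc]
      rw [e1]
      exact Subgroup.mul_mem_sup (Q.mul_mem hq (Q.pow_mem hxQ 2)) (Subgroup.mul_mem_sup h1 ha)

end Ham

end Cfsg.Agent.Lib.Struct
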