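import Mathlib

/-!
# The Krull–Schmidt theorem for finite groups.
-/

set_option autoImplicit false

namespace Cfsg.Agent.Lib.Struct.KrullSchmidt

universe u v

/-- Directly indecomposable nontrivial group. -/
def Indec (G : Type*) [Group G] : Prop :=
  Nontrivial G ∧ ∀ H K : Subgroup G, H.Normal → K.Normal → H ⊓ K = ⊥ → H ⊔ K = ⊤ → H = ⊥ ∨ K = ⊥

section Fitting

variable {G : Type*} [Group G]

/-- Iterates of an endomorphism. -/
def iterH (φ : G →* G) : ℕ → (G →* G)
  | 0 => MonoidHom.id G
  | n + 1 => φ.comp (iterH φ n)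

theorem iterH_succ (φ : G →* G) (n : ℕ) (x : G) : iterH φ (n + 1) x = φ (iterH φ n x) := rfl

theorem iterH_zero (φ : G →* G) (x : G) : iterH φ 0 x = x := rfl

theorem iterH_succ' (φ : G →* G) (n : ℕ) (x : G) : iterH φ (n + 1) x = iterH φ n (φ x) := by
  induction n with
  | zero => rfl
  | succ n ih => rw [iterH_succ, ih, iterH_succ]

theorem iterH_add (φ : G →* G) (m n : ℕ) (x : G) : iterH φ (m + n) x = iterH φ m (iterH φ n x) := by
  induction m with
  | zero => simp [iterH_zero]
  | succ m ih => rw [Nat.succ_add, iterH_succ, ih, iterH_succ]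

theorem iterH_normal (φ : G →* G) (hφ : ∀ a x, φ (a * x * a⁻¹) = a * φ x * a⁻¹) (k : ℕ) (a x : G) :
    iterH φ k (a * x * a⁻¹) = a * iterH φ k x * a⁻¹ := by
  induction k with
  | zero => rfl
  | succ k ih => rw [iterH_succ, ih, hφ, iterH_succ]

theorem range_iterH_le (φ : G →* G) (m n : ℕ) :
    (iterH φ (m + n)).range ≤ (iterH φ m).range := by
  rintro _ ⟨x, rfl⟩
  exact ⟨iterH φ n x, (iterH_add φ m n x).symm⟩

/-- Fitting's lemma for normal endomorphisms of an indecomposable finite group. -/
theorem fitting [Finite G] (hG : Indec G) (φ : G →* G)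
    (hφ : ∀ a x, φ (a * x * a⁻¹) = a * φ x * a⁻¹) :
    Function.Injective φ ∨ ∃ k, ∀ x, iterH φ k x = 1 := by
  classical
  let c : ℕ → ℕ := fun n => Nat.card (iterH φ (n + 1)).range
  let k₀ := Function.argmin c
  have hmin : ∀ n, c k₀ ≤ c n := fun n => Function.argmin_le c n
  let k := k₀ + 1
  -- stabilization
  have hstab : (iterH φ (k + k)).range = (iterH φ k).range := by
    apply Subgroup.eq_of_le_of_card_ge (range_iterH_le φ k k)
    have := hmin (k + k - 1)
    have e : k + k - 1 + 1 = k + k := by omega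
    simp only [c, e] at this
    exact this
  let K := (iterH φ k).ker
  let R := (iterH φ k).range
  have hsurj : ∀ x, ∃ y, iterH φ k x = iterH φ k (iterH φ k y) := by
    intro x
    have h1 : iterH φ k x ∈ (iterH φ (k + k)).range := by
      rw [hstab]; exact ⟨x, rfl⟩
    obtain ⟨y, hy⟩ := h1
    exact ⟨y, by rw [← hy, iterH_add]⟩
  -- the map on R
  let ρ : R → R := fun r => ⟨iterH φ k r, ⟨r, rfl⟩⟩
  have hρs : Function.Surjective ρ := by
    rintro ⟨_, ⟨x, rfl⟩⟩
    obtain ⟨y, hy⟩ := hsurj x
    exact ⟨⟨iterH φ k y, ⟨y, rfl⟩⟩, Subtype.ext hy.symm⟩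
  have hρi : Function.Injective ρ := Finite.injective_iff_surjective.2 hρs
  have hinf : K ⊓ R = ⊥ := by
    rw [eq_bot_iff]
    rintro r ⟨hrK, hrR⟩
    rw [Subgroup.mem_bot]
    have h1 : ρ ⟨r, hrR⟩ = ρ ⟨1, R.one_mem⟩ := by
      apply Subtype.ext
      show iterH φ k r = iterH φ k 1
      rw [map_one]
      exact hrK
    have h2 := congrArg Subtype.val (hρi h1)
    exact h2
  have hsup : K ⊔ R = ⊤ := by
    rw [eq_top_iff]
    intro x _
    obtain ⟨y, hy⟩ := hsurj x
    have hm : x * (iterH φ k y)⁻¹ ∈ K := by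
      show iterH φ k (x * (iterH φ k y)⁻¹) = 1
      rw [map_mul, map_inv, hy, mul_inv_cancel]
    have hr : iterH φ k y ∈ R := ⟨y, rfl⟩
    have := Subgroup.mul_mem_sup hm hr
    simpa using this
  have hRn : R.Normal := by
    constructor
    rintro _ ⟨x, rfl⟩ g
    exact ⟨g * x * g⁻¹, iterH_normal φ hφ k g x⟩
  have hKn : K.Normal := MonoidHom.normal_ker _
  rcases hG.2 K R hKn hRn hinf hsup with h | h
  · left
    rw [injective_iff_map_eq_one]
    intro x hx
    have h1 : x ∈ K := by
      show iterH φ (k₀ + 1) x = 1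
      rw [iterH_succ', hx, map_one]
    rw [h, Subgroup.mem_bot] at h1
    exact h1
  · right
    refine ⟨k, fun x => ?_⟩
    have : iterH φ k x ∈ R := ⟨x, rfl⟩
    rw [h, Subgroup.mem_bot] at this
    exact this

theorem normal_of_binary (φ ψ : G →* G) (h1 : ∀ x, φ x * ψ x = x)
    (h2 : ∀ x y, φ x * ψ y = ψ y * φ x) (a x : G) : φ (a * x * a⁻¹) = a * φ x * a⁻¹ := by
  have e : a * φ x * a⁻¹ = φ a * φ x * (φ a)⁻¹ := by
    calc a * φ x * a⁻¹ = φ a * ψ a * φ x * (φ a * ψ a)⁻¹ := by rw [h1 a]
      _ = φ a * (ψ a * φ x) * (ψ a)⁻¹ * (φ a)⁻¹ := by group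
      _ = φ a * (φ x * ψ a) * (ψ a)⁻¹ * (φ a)⁻¹ := by rw [h2 x a]
      _ = _ := by group
  rw [e, map_mul, map_mul, map_inv]

/-- A local-ring style statement. -/
theorem binary [Finite G] (hG : Indec G) (φ ψ : G →* G) (h1 : ∀ x, φ x * ψ x = x)
    (h2 : ∀ x y, φ x * ψ y = ψ y * φ x) : Function.Injective φ ∨ Function.Injective ψ := by
  rcases fitting hG φ (normal_of_binary φ ψ h1 h2) with h | ⟨k, hk⟩
  · exact Or.inl h
  · right
    rw [injective_iff_map_eq_one]
    intro x hx
    have hφ : φ x = x := by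
      have := h1 x
      rwa [hx, mul_one] at this
    have hit : ∀ n, iterH φ n x = x := by
      intro n
      induction n with
      | zero => rfl
      | succ n ih => rw [iterH_succ, ih, hφ]
    rw [← hit k, hk]

end Fitting

section Local

variable {A : Type*} [Group A] [Finite A] {κ : Type*} [Fintype κ] [DecidableEq κ]
  {B : κ → Type*} [∀ j, Group (B j)]

/-- The projection to the coordinates in `S`. -/
def projS (S : Finset κ) : (∀ j, B j) →* (∀ j, B j) where
  toFun y := fun j => if j ∈ S then y j else 1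
  map_one' := by
    funext j
    by_cases h : j ∈ S <;> simp [h]
  map_mul' x y := by
    funext j
    by_cases h : j ∈ S <;> simp [h]

theorem exists_local (hA : Indec A) (f : A →* ∀ j, B j) (g : (∀ j, B j) →* A) :
    ∀ S : Finset κ, Function.Injective (g.comp ((projS S).comp f)) →
      ∃ j ∈ S, Function.Injective (g.comp ((MonoidHom.mulSingle B j).comp ((Pi.evalMonoidHom B j).comp f))) := by
  classical
  intro S
  induction S using Finset.induction_on with
  | empty =>
    intro h
    exfalso
    obtain ⟨x, y, hxy⟩ := hA.1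
    apply hxy
    apply h
    have e : ∀ z : A, (g.comp ((projS ∅).comp f)) z = 1 := by
      intro z
      have : (projS (∅ : Finset κ)) (f z) = 1 := by
        funext j
        simp [projS]
      simp [this]
    rw [e, e]
  | insert j₀ S' hj ih =>
    intro h
    let θ := g.comp ((projS (insert j₀ S')).comp f)
    have hθ : Function.Bijective θ := ⟨h, Finite.injective_iff_surjective.1 h⟩
    let θe : A ≃* A := MulEquiv.ofBijective θ hθ
    let φ' := g.comp ((MonoidHom.mulSingle B j₀).comp ((Pi.evalMonoidHom B j₀).comp f))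
    let ψ' := g.comp ((projS S').comp f)
    have hsum : ∀ x, φ' x * ψ' x = θ x := by
      intro x
      show g _ * g _ = g _
      rw [← map_mul]
      congr 1
      funext j
      by_cases hjj : j = j₀
      · subst hjj
        simp [projS, hj]
      · by_cases hjs : j ∈ S' <;> simp [projS, hjj, hjs, Pi.mulSingle_eq_of_ne hjj]
    have hcomm : ∀ x y, φ' x * ψ' y = ψ' y * φ' x := by
      intro x y
      show g _ * g _ = g _ * g _
      rw [← map_mul, ← map_mul]
      congr 1
      funext j
      by_cases hjj : j = j₀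
      · subst hjj
        simp [projS, hj]
      · simp [projS, hjj, Pi.mulSingle_eq_of_ne hjj]
    let φ : A →* A := θe.symm.toMonoidHom.comp φ'
    let ψ : A →* A := θe.symm.toMonoidHom.comp ψ'
    have h1 : ∀ x, φ x * ψ x = x := by
      intro x
      show θe.symm (φ' x) * θe.symm (ψ' x) = x
      rw [← map_mul, hsum]
      exact θe.symm_apply_apply x
    have h2 : ∀ x y, φ x * ψ y = ψ y * φ x := by
      intro x y
      show θe.symm (φ' x) * θe.symm (ψ' y) = θe.symm (ψ' y) * θe.symm (φ' x)
      rw [← map_mul, ← map_mul, hcomm]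
    rcases binary hA φ ψ h1 h2 with hφ | hψ
    · refine ⟨j₀, Finset.mem_insert_self _ _, ?_⟩
      intro x y hxy
      apply hφ
      show θe.symm (φ' x) = θe.symm (φ' y)
      rw [show φ' x = φ' y from hxy]
    · have hψ' : Function.Injective ψ' := by
        intro x y hxy
        apply hψ
        show θe.symm (ψ' x) = θe.symm (ψ' y)
        rw [hxy]
      obtain ⟨j, hjS, hinj⟩ := ih hψ'
      exact ⟨j, Finset.mem_insert_of_mem hjS, hinj⟩

theorem exists_local' (hA : Indec A) (f : A →* ∀ j, B j) (g : (∀ j, B j) →* A)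
    (hfg : Function.Injective (g.comp f)) :
    ∃ j, Function.Injective (g.comp ((MonoidHom.mulSingle B j).comp ((Pi.evalMonoidHom B j).comp f))) := by
  classical
  obtain ⟨j, _, h⟩ := exists_local hA f g Finset.univ (by
    have : (projS (Finset.univ : Finset κ) : (∀ j, B j) →* (∀ j, B j)) = MonoidHom.id _ := by
      ext y j
      simp [projS]
    rw [this]
    exact hfg)
  exact ⟨j, h⟩

end Local

section Main

/-- Extension by one of a tuple outside a coordinate. -/
def extH {ι : Type*} [DecidableEq ι] (A : ι → Type*) [∀ i, Group (A i)] (i₀ : ι) :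
    (∀ i : {i // i ≠ i₀}, A i) →* (∀ i, A i) where
  toFun a := fun i => if h : i = i₀ then 1 else a ⟨i, h⟩
  map_one' := by
    funext i
    by_cases h : i = i₀ <;> simp [h]
  map_mul' x y := by
    funext i
    by_cases h : i = i₀ <;> simp [h]

/-- Restriction of a tuple. -/
def resH {ι : Type*} (A : ι → Type*) [∀ i, Group (A i)] (i₀ : ι) :
    (∀ i, A i) →* (∀ i : {i // i ≠ i₀}, A i) where
  toFun a := fun i => a i
  map_one' := rfl
  map_mul' _ _ := rfl

theorem card_pi_split {ι : Type*} [Fintype ι] [DecidableEq ι] (A : ι → Type*) [∀ i, Finite (A i)] (i₀ : ι) :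
    Nat.card (∀ i, A i) = Nat.card (A i₀) * Nat.card (∀ i : {i // i ≠ i₀}, A i) := by
  rw [← Nat.card_prod]
  exact Nat.card_congr (Equiv.piSplitAt i₀ A)

theorem iterH_comp {X Y : Type*} [Group X] [Group Y] (α : X →* Y) (β : Y →* X) (k : ℕ) (x : X) :
    iterH (β.comp α) (k + 1) x = β (iterH (α.comp β) k (α x)) := by
  induction k with
  | zero => rfl
  | succ k ih =>
    rw [iterH_succ, ih, iterH_succ]
    rfl

theorem aux (k : ℕ) : ∀ (ι κ : Type) [Fintype ι] [Fintype κ] [DecidableEq ι] [DecidableEq κ]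
    (A : ι → Type u) (B : κ → Type v) [∀ i, Group (A i)] [∀ j, Group (B j)] [∀ i, Finite (A i)]
    [∀ j, Finite (B j)] (_ : ∀ i, Indec (A i)) (_ : ∀ j, Indec (B j))
    (_ : (∀ i, A i) ≃* (∀ j, B j)), Fintype.card ι = k → ∃ σ : ι ≃ κ, ∀ i, Nonempty (A i ≃* B (σ i)) := by
  induction k with
  | zero =>
    intro ι κ _ _ _ _ A B _ _ _ _ hA hB e hk
    have hι : IsEmpty ι := Fintype.card_eq_zero_iff.1 hk
    have hκ : IsEmpty κ := by
      constructor
      intro j
      obtain ⟨x, y, hxy⟩ := (hB j).1
      have hsub : Subsingleton (∀ i, A i) := inferInstance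
      have hsub2 : Subsingleton (∀ j, B j) := e.symm.injective.subsingleton
      have := hsub2.elim (Pi.mulSingle j x) (Pi.mulSingle j y)
      have h2 := congrFun this j
      simp only [Pi.mulSingle_eq_same] at h2
      exact hxy h2
    exact ⟨Equiv.equivOfIsEmpty _ _, fun i => (hι.false i).elim⟩
  | succ k ih =>
    intro ι κ _ _ _ _ A B _ _ _ _ hA hB e hk
    have hne : Nonempty ι := Fintype.card_pos_iff.1 (by omega)
    obtain ⟨i₀⟩ := hne
    -- the local step
    let f : A i₀ →* ∀ j, B j := e.toMonoidHom.comp (MonoidHom.mulSingle A i₀)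
    let g : (∀ j, B j) →* A i₀ := (Pi.evalMonoidHom A i₀).comp e.symm.toMonoidHom
    have hgf : ∀ x, g (f x) = x := by
      intro x
      show (e.symm (e (Pi.mulSingle i₀ x))) i₀ = x
      simp
    obtain ⟨j₀, hj₀⟩ := exists_local' (hA i₀) f g (by
      intro x y hxy
      have h1 : g (f x) = g (f y) := hxy
      rwa [hgf, hgf] at h1)
    let α : A i₀ →* B j₀ := (Pi.evalMonoidHom B j₀).comp f
    let β : B j₀ →* A i₀ := g.comp (MonoidHom.mulSingle B j₀)
    have hβα : Function.Injective (β.comp α) := hj₀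
    have hαinj : Function.Injective α := by
      intro x y hxy
      apply hβα
      show β (α x) = β (α y)
      rw [hxy]
    -- the other composite is a summand of the identity of `B j₀`
    let φ : B j₀ →* B j₀ := α.comp β
    let ψ : B j₀ →* B j₀ := (Pi.evalMonoidHom B j₀).comp (e.toMonoidHom.comp ((extH A i₀).comp
      ((resH A i₀).comp (e.symm.toMonoidHom.comp (MonoidHom.mulSingle B j₀)))))
    have hsplit : ∀ z : ∀ i, A i, Pi.mulSingle i₀ (z i₀) * extH A i₀ (resH A i₀ z) = z := by
      intro z
      funext i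
      by_cases h : i = i₀
      · subst h
        simp [extH]
      · simp [extH, resH, h, Pi.mulSingle_eq_of_ne h]
    have hcomm0 : ∀ z w : ∀ i, A i, (Pi.mulSingle i₀ (z i₀) : ∀ i, A i) * extH A i₀ (resH A i₀ w)
        = extH A i₀ (resH A i₀ w) * Pi.mulSingle i₀ (z i₀) := by
      intro z w
      funext i
      by_cases h : i = i₀
      · subst h
        simp [extH]
      · simp [extH, h, Pi.mulSingle_eq_of_ne h]
    have h1 : ∀ y, φ y * ψ y = y := by
      intro y
      have := hsplit (e.symm (Pi.mulSingle j₀ y))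
      have h3 := congrArg e this
      rw [map_mul, e.apply_symm_apply] at h3
      have h4 := congrFun h3 j₀
      rw [Pi.mul_apply, Pi.mulSingle_eq_same] at h4
      exact h4
    have h2 : ∀ x y, φ x * ψ y = ψ y * φ x := by
      intro x y
      have := hcomm0 (e.symm (Pi.mulSingle j₀ x)) (e.symm (Pi.mulSingle j₀ y))
      have h3 := congrArg e this
      rw [map_mul, map_mul] at h3
      exact congrFun h3 j₀
    have hφ : Function.Injective φ := by
      rcases fitting (hB j₀) φ (normal_of_binary φ ψ h1 h2) with h | ⟨n, hn⟩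
      · exact h
      · exfalso
        obtain ⟨x, y, hxy⟩ := (hA i₀).1
        have hit : ∀ m, Function.Injective (iterH (β.comp α) m) := by
          intro m
          induction m with
          | zero => exact fun _ _ h => h
          | succ m ih =>
            intro u v huv
            rw [iterH_succ, iterH_succ] at huv
            exact ih (hβα huv)
        apply hxy
        apply hit (n + 1)
        rw [iterH_comp, iterH_comp]
        show β (iterH φ n (α x)) = β (iterH φ n (α y))
        rw [hn, hn]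
    have hβinj : Function.Injective β := by
      intro x y hxy
      apply hφ
      show α (β x) = α (β y)
      rw [hxy]
    have hcardle1 : Nat.card (A i₀) ≤ Nat.card (B j₀) := Nat.card_le_card_of_injective α hαinj
    have hcardle2 : Nat.card (B j₀) ≤ Nat.card (A i₀) := Nat.card_le_card_of_injective β hβinj
    have hαbij : Function.Bijective α :=
      Function.Injective.bijective_of_nat_card_le hαinj hcardle2
    let αe : A i₀ ≃* B j₀ := MulEquiv.ofBijective α hαbij
    -- the exchange
    let Λ : (∀ i : {i // i ≠ i₀}, A i) →* (∀ j : {j // j ≠ j₀}, B j) :=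
      (resH B j₀).comp (e.toMonoidHom.comp (extH A i₀))
    have hΛinj : Function.Injective Λ := by
      rw [injective_iff_map_eq_one]
      intro a ha
      have hext : ∀ j, j ≠ j₀ → e (extH A i₀ a) j = 1 := by
        intro j hj
        exact congrFun ha ⟨j, hj⟩
      have hsingle : e (extH A i₀ a) = Pi.mulSingle j₀ (e (extH A i₀ a) j₀) := by
        funext j
        by_cases h : j = j₀
        · subst h; simp
        · rw [hext j h, Pi.mulSingle_eq_of_ne h]
      have hβb : β (e (extH A i₀ a) j₀) = 1 := by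
        show (e.symm (Pi.mulSingle j₀ (e (extH A i₀ a) j₀))) i₀ = 1
        rw [← hsingle, e.symm_apply_apply]
        simp [extH]
      have hb : e (extH A i₀ a) j₀ = 1 := hβinj (by rw [hβb, map_one])
      have h3 : e (extH A i₀ a) = 1 := by
        rw [hsingle, hb, Pi.mulSingle_one]
      have h4 : extH A i₀ a = 1 := by
        rw [← map_one e] at h3
        exact e.injective h3
      funext i
      have h5 := congrFun h4 i.1
      simpa [extH, i.2] using h5
    have hcard : Nat.card (∀ j : {j // j ≠ j₀}, B j) ≤ Nat.card (∀ i : {i // i ≠ i₀}, A i) := by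
      have h1 := card_pi_split A i₀
      have h2 := card_pi_split B j₀
      have h3 : Nat.card (∀ i, A i) = Nat.card (∀ j, B j) := Nat.card_congr e.toEquiv
      have h4 : Nat.card (A i₀) = Nat.card (B j₀) := le_antisymm hcardle1 hcardle2
      rw [h1, h2, h4] at h3
      have hpos : 0 < Nat.card (B j₀) := Nat.card_pos
      exact (Nat.eq_of_mul_eq_mul_left hpos h3).ge
    have hΛbij : Function.Bijective Λ :=
      Function.Injective.bijective_of_nat_card_le hΛinj hcard
    let Λe := MulEquiv.ofBijective Λ hΛbij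
    have hcardι : Fintype.card {i // i ≠ i₀} = k := by
      rw [Fintype.card_subtype_compl, hk]
      simp
    obtain ⟨σ', hσ'⟩ := ih {i // i ≠ i₀} {j // j ≠ j₀} (fun i => A i) (fun j => B j)
      (fun i => hA i) (fun j => hB j) Λe hcardι
    -- glue
    let τ : ι → κ := fun i => if h : i = i₀ then j₀ else (σ' ⟨i, h⟩ : {j // j ≠ j₀})
    have hτ₀ : τ i₀ = j₀ := by simp [τ]
    have hτ : ∀ i (h : i ≠ i₀), τ i = (σ' ⟨i, h⟩ : {j // j ≠ j₀}) := by
      intro i h
      simp [τ, h]
    have hτinj : Function.Injective τ := by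
      intro x y hxy
      by_cases hx : x = i₀
      · by_cases hy : y = i₀
        · rw [hx, hy]
        · exfalso
          rw [hx, hτ₀, hτ y hy] at hxy
          exact (σ' ⟨y, hy⟩).2 hxy.symm
      · by_cases hy : y = i₀
        · exfalso
          rw [hy, hτ₀, hτ x hx] at hxy
          exact (σ' ⟨x, hx⟩).2 hxy
        · rw [hτ x hx, hτ y hy] at hxy
          have := σ'.injective (Subtype.ext hxy)
          exact congrArg Subtype.val this
    have hτsurj : Function.Surjective τ := by
      intro j
      by_cases hj : j = j₀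
      · exact ⟨i₀, by rw [hτ₀, hj]⟩
      · refine ⟨(σ'.symm ⟨j, hj⟩ : {i // i ≠ i₀}), ?_⟩
        rw [hτ _ (σ'.symm ⟨j, hj⟩).2]
        simp
    refine ⟨Equiv.ofBijective τ ⟨hτinj, hτsurj⟩, fun i => ?_⟩
    show Nonempty (A i ≃* B (τ i))
    by_cases hi : i = i₀
    · subst hi
      rw [hτ₀]
      exact ⟨αe⟩
    · rw [hτ i hi]
      exact hσ' ⟨i, hi⟩

theorem krull_schmidt {m n : ℕ} {A : Fin m → Type u} {B : Fin n → Type v} [∀ i, Group (A i)]
    [∀ j, Group (B j)] [∀ i, Finite (A i)] [∀ j, Finite (B j)]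
    (hA : ∀ i, Indec (A i)) (hB : ∀ j, Indec (B j))
    (e : ((i : Fin m) → A i) ≃* ((j : Fin n) → B j)) :
    ∃ σ : Fin m ≃ Fin n, ∀ i, Nonempty (A i ≃* B (σ i)) :=
  aux m (Fin m) (Fin n) A B hA hB e (Fintype.card_fin m)

end Main

end Cfsg.Agent.Lib.Struct.KrullSchmidt
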