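import Cfsg.Agent.Lib.Struct.MultA

/-! Small support elements in 4-transitive groups; 4-transitive groups of degree 9. -/

set_option autoImplicit false

open Equiv Equiv.Perm MulAction

namespace Cfsg.Agent.Lib.Struct.Mult

variable {α : Type*} [Fintype α] [DecidableEq α]

lemma preprim_of_four (G : Subgroup (Perm α)) (hG4 : IsMultiplyPretransitive G α 4)
    (h4 : 4 ≤ Fintype.card α) : IsPreprimitive G α := by
  have h2 : IsMultiplyPretransitive G α 2 :=
    isMultiplyPretransitive_of_le (n := 4) (by norm_num) (by simpa using h4)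
  exact isPreprimitive_of_is_two_pretransitive h2

lemma conj_swap (g : Perm α) (a b : α) : g * swap a b * g⁻¹ = swap (g a) (g b) :=
  (swap_apply_apply g a b).symm

/-- A double transposition in a 4-transitive group of degree at least 5. -/
theorem alt_le_of_double (G : Subgroup (Perm α)) (hG4 : IsMultiplyPretransitive G α 4)
    (h5 : 5 ≤ Fintype.card α) {a b c d : α} (hab : a ≠ b) (hac : a ≠ c) (had : a ≠ d)
    (hbc : b ≠ c) (hbd : b ≠ d) (hcd : c ≠ d) (h : swap a b * swap c d ∈ G) :
    alternatingGroup α ≤ G := by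
  have hD : ({a, b, c, d} : Finset α).card ≤ 4 := Finset.card_le_four
  obtain ⟨γ, hγ⟩ : ∃ γ, γ ∉ ({a, b, c, d} : Finset α) := by
    by_contra hcon
    push Not at hcon
    have : ({a, b, c, d} : Finset α) = Finset.univ := Finset.eq_univ_iff_forall.mpr hcon
    rw [this, Finset.card_univ] at hD
    omega
  simp only [Finset.mem_insert, Finset.mem_singleton, not_or] at hγ
  obtain ⟨h1, h2, h3, h4⟩ := hγ
  obtain ⟨g, hg, hgf⟩ := exists_extend G hG4 (by omega) {a, b, c, d} hD (swap d γ)
    (fun x _ y _ e => (swap d γ).injective e)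
  have ga : g a = a := by
    rw [hgf a (by simp), swap_apply_of_ne_of_ne had (Ne.symm h1)]
  have gb : g b = b := by
    rw [hgf b (by simp), swap_apply_of_ne_of_ne hbd (Ne.symm h2)]
  have gc : g c = c := by
    rw [hgf c (by simp), swap_apply_of_ne_of_ne hcd (Ne.symm h3)]
  have gd : g d = γ := by
    rw [hgf d (by simp), swap_apply_left]
  have ht : swap a b * swap c γ ∈ G := by
    have := G.mul_mem (G.mul_mem hg h) (G.inv_mem hg)
    have e : g * (swap a b * swap c d) * g⁻¹ = (g * swap a b * g⁻¹) * (g * swap c d * g⁻¹) := by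
      group
    rw [e, conj_swap, conj_swap, ga, gb, gc, gd] at this
    exact this
  have hcomm : swap a b * swap c d = swap c d * swap a b :=
    (disjoint_swap_swap (by simp [hab, hac, had, hbc, hbd, hcd])).commute
  have h3c : (swap c d * swap c γ).IsThreeCycle :=
    isThreeCycle_swap_mul_swap_same hcd (Ne.symm h3) (Ne.symm h4)
  have hmem : swap c d * swap c γ ∈ G := by
    have := G.mul_mem h ht
    have e : swap a b * swap c d * (swap a b * swap c γ) = swap c d * swap c γ := by
      rw [hcomm, mul_assoc, ← mul_assoc (swap a b), swap_mul_self, one_mul]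
    rwa [e] at this
  exact alternatingGroup_le_of_isPreprimitive_of_isThreeCycle_mem
    (preprim_of_four G hG4 (by omega)) h3c hmem

/-- An element of small support in a 4-transitive group of degree at least 8. -/
theorem alt_le_of_small_support (G : Subgroup (Perm α)) (hG4 : IsMultiplyPretransitive G α 4)
    (h8 : 8 ≤ Fintype.card α) (e : Perm α) (he : e ∈ G) (hne : e ≠ 1)
    (hs : e.support.card ≤ 5) : alternatingGroup α ≤ G := by
  have hprim := preprim_of_four G hG4 (by omega)
  have ho : orderOf e ≠ 1 := by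
    rwa [Ne, orderOf_eq_one_iff]
  obtain ⟨q, hq, hqd⟩ := Nat.exists_prime_and_dvd ho
  have ho0 : orderOf e ≠ 0 := (orderOf_pos e).ne'
  set e' := e ^ (orderOf e / q) with he'
  have hoe' : orderOf e' = q := orderOf_pow_orderOf_div ho0 hqd
  have he'G : e' ∈ G := G.pow_mem he _
  have hs' : e'.support.card ≤ 5 :=
    le_trans (Finset.card_le_card (support_pow_le e _)) hs
  obtain ⟨m, hm⟩ := cycleType_prime_order (σ := e') (by rw [hoe']; exact hq)
  rw [hoe'] at hm
  have hsum : (m + 1) * q = e'.support.card := by
    rw [← sum_cycleType, hm, Multiset.sum_replicate, smul_eq_mul]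
  have hq2 := hq.two_le
  have hq5 : q ≤ 5 := by nlinarith
  have hcases : (q = 2 ∧ m = 0) ∨ (q = 2 ∧ m = 1) ∨ (q = 3 ∧ m = 0) ∨ (q = 5 ∧ m = 0) := by
    interval_cases q
    · have : m = 0 ∨ m = 1 := by omega
      tauto
    · have : m = 0 := by omega
      tauto
    · exact absurd hq (by norm_num)
    · have : m = 0 := by omega
      tauto
  rcases hcases with ⟨rfl, rfl⟩ | ⟨rfl, rfl⟩ | ⟨rfl, rfl⟩ | ⟨rfl, rfl⟩
  · have h2 : e'.support.card = 2 := by omega
    have hsw : IsSwap e' := card_support_eq_two.mp h2
    rw [subgroup_eq_top_of_isPreprimitive_of_isSwap_mem hprim e' hsw he'G]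
    exact le_top
  · -- double transposition
    obtain ⟨a, b, c, d, hab, hac, had, hbc, hbd, hcd⟩ : ∃ a b c d : α,
        a ≠ b ∧ a ≠ c ∧ a ≠ d ∧ b ≠ c ∧ b ≠ d ∧ c ≠ d := by
      have h3 : 3 < (Finset.univ : Finset α).card := by
        rw [Finset.card_univ]
        omega
      obtain ⟨a, _, b, _, c, _, d, _, hab, hac, had, hbc, hbd, hcd⟩ := Finset.three_lt_card.mp h3
      exact ⟨a, b, c, d, hab, hac, had, hbc, hbd, hcd⟩
    have hdis : Disjoint (swap a b) (swap c d) :=
      disjoint_swap_swap (by simp [hab, hac, had, hbc, hbd, hcd])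
    have hct : (swap a b * swap c d).cycleType = Multiset.replicate (1 + 1) 2 := by
      rw [hdis.cycleType_mul, (isCycle_swap hab).cycleType, (isCycle_swap hcd).cycleType,
        card_support_swap hab, card_support_swap hcd]
      rfl
    have hconj : IsConj (swap a b * swap c d) e' :=
      isConj_iff_cycleType_eq.2 (hct.trans hm.symm)
    obtain ⟨g, hg⟩ := isConj_iff.1 hconj
    have e2 : e' = swap (g a) (g b) * swap (g c) (g d) := by
      rw [← hg, ← conj_swap, ← conj_swap]
      group
    rw [e2] at he'G
    exact alt_le_of_double G hG4 (by omega) (g.injective.ne hab) (g.injective.ne hac)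
      (g.injective.ne had) (g.injective.ne hbc) (g.injective.ne hbd) (g.injective.ne hcd) he'G
  · exact alternatingGroup_le_of_isPreprimitive_of_isThreeCycle_mem hprim
      (show e'.IsThreeCycle by
        rw [IsThreeCycle, hm]
        rfl) he'G
  · have h5' : e'.support.card = 5 := by omega
    have hcyc : e'.IsCycle := isCycle_of_prime_order (by rw [hoe']; exact hq) (by omega)
    exact alt_le_of_cycle G hprim (p := 5) (by norm_num) (by omega) hcyc h5' he'G

end Cfsg.Agent.Lib.Struct.Mult
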