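import Cfsg.Agent.Lib.Struct.MultB

/-! 4-transitive groups of degree 9 contain the alternating group. -/

set_option autoImplicit false

open Equiv Equiv.Perm MulAction

namespace Cfsg.Agent.Lib.Struct.Mult

variable {α : Type*} [Fintype α] [DecidableEq α]

lemma card_of_orbit (K : Subgroup (Perm α)) (y : α) (T : Finset α)
    (hT : ∀ t, t ∈ T ↔ ∃ k ∈ K, k y = t) :
    Nat.card K = T.card * Nat.card (stabilizer K y) := by
  have h := Subgroup.card_mul_index (stabilizer K y)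
  have e : orbit K y = (T : Set α) := by
    ext t
    simp only [Finset.mem_coe, hT]
    constructor
    · rintro ⟨k, rfl⟩
      exact ⟨k.1, k.2, rfl⟩
    · rintro ⟨k, hk, rfl⟩
      exact ⟨⟨k, hk⟩, rfl⟩
  rw [index_stabilizer, e, Set.ncard_coe_finset, mul_comm] at h
  exact h.symm

theorem alt_le_nine (G : Subgroup (Perm α)) (hcard : Fintype.card α = 9)
    (hG4 : IsMultiplyPretransitive G α 4) : alternatingGroup α ≤ G := by
  by_contra hcon
  have hsharp : ∀ g ∈ G, ∀ D : Finset α, 4 ≤ D.card → (∀ d ∈ D, g d = d) → g = 1 := by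
    intro g hg D hD hfix
    by_contra hne
    apply hcon
    refine alt_le_of_small_support G hG4 (by omega) g hg hne ?_
    have h1 : g.support ⊆ Dᶜ := by
      intro x hx
      rw [Finset.mem_compl]
      intro hxD
      exact (mem_support.mp hx) (hfix x hxD)
    have h2 := Finset.card_le_card h1
    rw [Finset.card_compl] at h2
    omega
  -- points
  obtain ⟨a, b, c, γ₀, hab, hac, haγ, hbc, hbγ, hcγ⟩ : ∃ a b c d : α,
      a ≠ b ∧ a ≠ c ∧ a ≠ d ∧ b ≠ c ∧ b ≠ d ∧ c ≠ d := by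
    have h3 : 3 < (Finset.univ : Finset α).card := by
      rw [Finset.card_univ]
      omega
    obtain ⟨a, _, b, _, c, _, d, _, hab, hac, had, hbc, hbd, hcd⟩ := Finset.three_lt_card.mp h3
    exact ⟨a, b, c, d, hab, hac, had, hbc, hbd, hcd⟩
  set Δ : Finset α := {a, b, c} with hΔ
  have hΔc : Δ.card = 3 := by
    rw [hΔ]
    exact Finset.card_eq_three.mpr ⟨a, b, c, hab, hac, hbc, rfl⟩
  set Δ₂ : Finset α := {a, b} with hΔ₂
  have hΔ₂c : Δ₂.card = 2 := by
    rw [hΔ₂]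
    exact Finset.card_pair hab
  have hγ₀ : γ₀ ∉ Δ := by
    simp [hΔ, Ne.symm haγ, Ne.symm hbγ, Ne.symm hcγ]
  have hc₂ : c ∉ Δ₂ := by
    simp [hΔ₂, Ne.symm hac, Ne.symm hbc]
  set H : Subgroup (Perm α) := G ⊓ fixG Δ with hH
  set L : Subgroup (Perm α) := G ⊓ fixG Δ₂ with hL
  have hHL : H ≤ L := by
    intro h hh
    refine ⟨hh.1, fun d hd => hh.2 d ?_⟩
    simp only [hΔ₂, Finset.mem_insert, Finset.mem_singleton] at hd
    simp only [hΔ, Finset.mem_insert, Finset.mem_singleton]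
    tauto
  -- transitivity
  have htr : ∀ D : Finset α, D.card ≤ 3 → ∀ t t', t ∉ D → t' ∉ D → ∃ g ∈ G ⊓ fixG D, g t = t' := by
    intro D hD t t' ht ht'
    obtain ⟨g, hg, hgf⟩ := exists_extend G hG4 (by omega) (insert t D)
      (le_trans (Finset.card_insert_le _ _) (by omega)) (swap t t')
      (fun x _ y _ e => (swap t t').injective e)
    refine ⟨g, ⟨hg, fun d hd => ?_⟩, ?_⟩
    · rw [hgf d (Finset.mem_insert_of_mem hd)]
      apply swap_apply_of_ne_of_ne
      · rintro rfl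
        exact ht hd
      · rintro rfl
        exact ht' hd
    · rw [hgf t (Finset.mem_insert_self _ _), swap_apply_left]
  -- order of `H`
  have hHc : Nat.card H = 6 := by
    have h1 := card_of_orbit H γ₀ Δᶜ (by
      intro t
      rw [Finset.mem_compl]
      constructor
      · intro ht
        exact htr Δ (by omega) γ₀ t hγ₀ ht
      · rintro ⟨k, hk, rfl⟩ hmem
        have h2 : k⁻¹ (k γ₀) = k γ₀ := (H.inv_mem hk).2 _ hmem
        rw [iav] at h2
        exact hγ₀ (h2 ▸ hmem))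
    have h2 : Nat.card (stabilizer H γ₀) = 1 := by
      rw [Nat.card_eq_one_iff_unique]
      refine ⟨⟨fun x y => ?_⟩, ⟨1⟩⟩
      have key : ∀ x : stabilizer H γ₀, x = 1 := by
        intro x
        apply Subtype.ext
        apply Subtype.ext
        apply hsharp x.1.1 x.1.2.1 (insert γ₀ Δ)
        · rw [Finset.card_insert_of_notMem hγ₀, hΔc]
        · intro d hd
          rcases Finset.mem_insert.mp hd with rfl | hd
          · exact x.2
          · exact x.1.2.2 d hd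
      rw [key x, key y]
    rw [h1, h2, mul_one, Finset.card_compl, hΔc, hcard]
  have hLc : Nat.card L = 42 := by
    have h1 := card_of_orbit L c Δ₂ᶜ (by
      intro t
      rw [Finset.mem_compl]
      constructor
      · intro ht
        exact htr Δ₂ (by omega) c t hc₂ ht
      · rintro ⟨k, hk, rfl⟩ hmem
        have h2 : k⁻¹ (k c) = k c := (L.inv_mem hk).2 _ hmem
        rw [iav] at h2
        exact hc₂ (h2 ▸ hmem))
    have h2 : Nat.card (stabilizer L c) = Nat.card H := by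
      refine Nat.card_congr ⟨fun x => ⟨x.1.1, x.1.2.1, ?_⟩,
        fun y => ⟨⟨y.1, hHL y.2⟩, ?_⟩, ?_, ?_⟩
      · intro d hd
        simp only [hΔ, Finset.mem_insert, Finset.mem_singleton] at hd
        rcases hd with rfl | rfl | rfl
        · exact x.1.2.2 _ (by simp [hΔ₂])
        · exact x.1.2.2 _ (by simp [hΔ₂])
        · exact x.2
      · exact y.2.2 c (by simp [hΔ])
      · intro x
        rfl
      · intro y
        rfl
    rw [h1, h2, hHc, Finset.card_compl, hΔ₂c, hcard]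
  -- the Sylow 7-subgroup of `L`
  haveI : Fact (Nat.Prime 7) := ⟨by norm_num⟩
  obtain ⟨Q⟩ : Nonempty (Sylow 7 L) := inferInstance
  obtain ⟨j, hj⟩ := IsPGroup.iff_card.mp Q.isPGroup'
  have hQi := Subgroup.card_mul_index (Q : Subgroup L)
  have hQn := Q.not_dvd_index
  rw [hj, hLc] at hQi
  have hj1 : j = 1 ∧ (Q : Subgroup L).index = 6 := by
    rcases j with _ | _ | j
    · exfalso
      apply hQn
      have : (Q : Subgroup L).index = 42 := by simpa using hQi
      rw [this]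
      norm_num
    · constructor
      · rfl
      · simp at hQi
        omega
    · exfalso
      have h49 : 7 ^ 2 ∣ 42 := by
        rw [← hQi]
        exact Dvd.dvd.mul_right (pow_dvd_pow 7 (by omega)) _
      norm_num at h49
  obtain ⟨rfl, hQi6⟩ := hj1
  have hn7 : Nat.card (Sylow 7 L) = 1 := by
    have h3 := Sylow.card_dvd_index Q
    rw [hQi6] at h3
    have h4 := card_sylow_modEq_one 7 L
    have h5 := Nat.le_of_dvd (by norm_num) h3
    unfold Nat.ModEq at h4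
    omega
  haveI hsub : Subsingleton (Sylow 7 L) := (Nat.card_eq_one_iff_unique.mp hn7).1
  have hQnorm : (Q : Subgroup L).Normal := Sylow.normal_of_subsingleton Q
  set Q' : Subgroup (Perm α) := (Q : Subgroup L).map L.subtype with hQ'
  have hQ'c : Nat.card Q' = 7 := by
    rw [hQ', Subgroup.card_map_of_injective L.subtype_injective, hj, pow_one]
  haveI hQ'cyc : IsCyclic Q' := isCyclic_of_prime_card hQ'c
  have hQ'n : ∀ l ∈ L, ∀ t ∈ Q', l * t * l⁻¹ ∈ Q' := by
    rintro l hl _ ⟨t, ht, rfl⟩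
    exact ⟨⟨l, hl⟩ * t * ⟨l, hl⟩⁻¹, hQnorm.conj_mem t ht ⟨l, hl⟩, rfl⟩
  have hQ'L : Q' ≤ L := by
    rintro _ ⟨t, _, rfl⟩
    exact t.2
  -- an element of order 7
  obtain ⟨y, hyQ, hy1⟩ : ∃ y ∈ Q', y ≠ 1 := by
    by_contra hno
    push Not at hno
    have : Q' = ⊥ := (Subgroup.eq_bot_iff_forall _).2 hno
    rw [this] at hQ'c
    simp at hQ'c
  have hy7 : y ^ 7 = 1 := by
    have h1 : (⟨y, hyQ⟩ : Q') ^ Nat.card Q' = 1 := pow_card_eq_one'
    rw [hQ'c] at h1
    have := congrArg Subtype.val h1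
    simpa using this
  have hoy : orderOf y = 7 := orderOf_eq_prime hy7 hy1
  have hsupp : y.support ⊆ Δ₂ᶜ := by
    intro x hx
    rw [Finset.mem_compl]
    intro hxD
    exact (mem_support.mp hx) ((hQ'L hyQ).2 x hxD)
  have hsuppc : y.support.card ≤ 7 := by
    have h2 := Finset.card_le_card hsupp
    rw [Finset.card_compl, hΔ₂c, hcard] at h2
    exact h2
  have hycyc : y.IsCycle := isCycle_of_prime_order (by rw [hoy]; norm_num) (by omega)
  have hycard : y.support.card = 7 := by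
    rw [← hycyc.orderOf, hoy]
  have hysupp : y.support = Δ₂ᶜ := by
    apply Finset.eq_of_subset_of_card_le hsupp
    rw [Finset.card_compl, hΔ₂c, hcard, hycard]
  -- `H` is abelian
  have hHcomm : ∀ h₁ ∈ H, ∀ h₂ ∈ H, h₁ * h₂ = h₂ * h₁ := by
    intro h₁ hh₁ h₂ hh₂
    have hcomm := comm_of_cyclic Q' h₁ h₂ (hQ'n h₁ (hHL hh₁)) (hQ'n h₂ (hHL hh₂)) y hyQ
    set w := h₁ * h₂ * h₁⁻¹ * h₂⁻¹ with hw
    have hwH : w ∈ H := H.mul_mem (H.mul_mem (H.mul_mem hh₁ hh₂) (H.inv_mem hh₁)) (H.inv_mem hh₂)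
    have hwc : w c = c := hwH.2 c (by simp [hΔ])
    have hcy : c ∈ y.support := by
      rw [hysupp, Finset.mem_compl]
      exact hc₂
    have hwy : ∀ i : ℕ, w * y ^ i = y ^ i * w := fun i =>
      (Commute.pow_right (show Commute w y from hcomm) i).eq
    have hw1 : w = 1 := by
      apply hsharp w hwH.1 Δ₂ᶜ
      · rw [Finset.card_compl, hΔ₂c, hcard]
        norm_num
      · intro d hd
        have hd' : d ∈ y.support := by
          rw [hysupp]
          exact hd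
        obtain ⟨i, hi⟩ := hycyc.exists_pow_eq (mem_support.mp hcy) (mem_support.mp hd')
        rw [← hi]
        have := congrArg (fun f : Perm α => f c) (hwy i)
        simp only [Perm.mul_apply] at this
        rw [this, hwc]
    have e : h₁ * h₂ * h₁⁻¹ * h₂⁻¹ = 1 := hw1
    have e2 : h₁ * h₂ = (h₁ * h₂ * h₁⁻¹ * h₂⁻¹) * (h₂ * h₁) := by group
    rw [e2, e, one_mul]
  -- `H` is cyclic
  haveI hHcyc : IsCyclic H := by
    haveI : Fact (Nat.Prime 3) := ⟨by norm_num⟩
    haveI : Fact (Nat.Prime 2) := ⟨by norm_num⟩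
    obtain ⟨x₃, hx₃⟩ := exists_prime_orderOf_dvd_card' (G := H) 3 (by rw [hHc]; norm_num)
    obtain ⟨x₂, hx₂⟩ := exists_prime_orderOf_dvd_card' (G := H) 2 (by rw [hHc]; norm_num)
    have hc : Commute x₃ x₂ := Subtype.ext (hHcomm _ x₃.2 _ x₂.2)
    have hco : orderOf (x₃ * x₂) = 6 := by
      rw [hc.orderOf_mul_eq_mul_orderOf_of_coprime (by rw [hx₃, hx₂]; norm_num), hx₃, hx₂]
    exact isCyclic_of_orderOf_eq_card _ (by rw [hco, hHc])
  -- Witt's trick
  have hπ₁ : Pres Δ (swap a b) := pres_swap Δ (by simp [hΔ]) (by simp [hΔ])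
  have hπ₂ : Pres Δ (swap a c) := pres_swap Δ (by simp [hΔ]) (by simp [hΔ])
  obtain ⟨n₁, hn₁G, hn₁⟩ := exists_extend G hG4 (by omega) Δ (by omega) (swap a b)
    (fun x _ y _ e => (swap a b).injective e)
  obtain ⟨n₂, hn₂G, hn₂⟩ := exists_extend G hG4 (by omega) Δ (by omega) (swap a c)
    (fun x _ y _ e => (swap a c).injective e)
  have hn₁P := pres_of_res Δ n₁ _ hn₁ hπ₁
  have hn₂P := pres_of_res Δ n₂ _ hn₂ hπ₂
  have hnorm : ∀ n ∈ G, Pres Δ n → ∀ t ∈ H, n * t * n⁻¹ ∈ H := by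
    intro n hn hp t ht
    refine ⟨G.mul_mem (G.mul_mem hn ht.1) (G.inv_mem hn), fun d hd => ?_⟩
    have h1 : n⁻¹ d ∈ Δ := (pres_inv Δ n hp d).2 hd
    simp only [Perm.mul_apply]
    rw [ht.2 _ h1, aiv]
  set c₀ := n₁ * n₂ * n₁⁻¹ * n₂⁻¹ with hc₀
  have hcomm : ∀ t ∈ H, c₀ * t = t * c₀ :=
    comm_of_cyclic H n₁ n₂ (hnorm n₁ hn₁G hn₁P) (hnorm n₂ hn₂G hn₂P)
  have hc₀G : c₀ ∈ G :=
    G.mul_mem (G.mul_mem (G.mul_mem hn₁G hn₂G) (G.inv_mem hn₁G)) (G.inv_mem hn₂G)
  have hc₀P : Pres Δ c₀ :=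
    pres_mul Δ (pres_mul Δ (pres_mul Δ hn₁P hn₂P) (pres_inv Δ _ hn₁P)) (pres_inv Δ _ hn₂P)
  have hc₀ρ : Res Δ c₀ (swap a b * swap a c * (swap a b)⁻¹ * (swap a c)⁻¹) :=
    res_mul Δ (res_mul Δ (res_mul Δ hn₁ hn₂ hπ₂) (res_inv Δ hn₁ hπ₁) (pres_inv Δ _ hπ₁))
      (res_inv Δ hn₂ hπ₂) (pres_inv Δ _ hπ₂)
  have hc₀a : c₀ a = b := by
    rw [hc₀ρ a (by simp [hΔ]), swap_inv, swap_inv]
    simp only [Perm.mul_apply]
    rw [swap_apply_left, swap_apply_of_ne_of_ne (Ne.symm hac) (Ne.symm hbc), swap_apply_right,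
      swap_apply_left]
  have hc₀γ : c₀ γ₀ ∉ Δ := fun h => hγ₀ ((hc₀P γ₀).1 h)
  obtain ⟨h₀, hh₀, hh₀γ⟩ := htr Δ (by omega) γ₀ (c₀ γ₀) hγ₀ hc₀γ
  have hz : h₀⁻¹ * c₀ = 1 := by
    apply hsharp _ (G.mul_mem (G.inv_mem hh₀.1) hc₀G) Δᶜ
    · rw [Finset.card_compl, hΔc, hcard]
      norm_num
    · intro d hd
      obtain ⟨h, hh, hhd⟩ := htr Δ (by omega) γ₀ d hγ₀ (Finset.mem_compl.mp hd)
      rw [← hhd]
      have e1 := congrArg (fun f : Perm α => f γ₀) (hcomm h hh)
      simp only [Perm.mul_apply] at e1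
      have e2 := congrArg (fun f : Perm α => f γ₀) (hHcomm h hh h₀ hh₀)
      simp only [Perm.mul_apply] at e2
      simp only [Perm.mul_apply]
      rw [e1, ← hh₀γ, e2, iav]
  have hfin : c₀ a = a := by
    have e : c₀ = h₀ := by
      have := congrArg (fun f => h₀ * f) hz
      simpa using this
    rw [e]
    exact hh₀.2 a (by simp [hΔ])
  rw [hc₀a] at hfin
  exact hab hfin.symm

end Cfsg.Agent.Lib.Struct.Mult
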