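import Cfsg.Agent.Lib.Struct.MultC

/-! `p`-groups all of whose nontrivial orbits have size `p`, and their normalisers. -/

set_option autoImplicit false

open Equiv Equiv.Perm MulAction

namespace Cfsg.Agent.Lib.Struct.Mult

variable {α : Type*} [Fintype α] [DecidableEq α]

lemma mem_orb (P : Subgroup (Perm α)) {γ y : α} : y ∈ orbit P γ ↔ ∃ u ∈ P, u γ = y := by
  constructor
  · rintro ⟨u, rfl⟩
    exact ⟨u.1, u.2, rfl⟩
  · rintro ⟨u, hu, rfl⟩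
    exact ⟨⟨u, hu⟩, rfl⟩

/-- The data: a `p`-group fixing all points outside `Γ`, with orbits of size `p` on `Γ`. -/
structure Setup (p : ℕ) (P : Subgroup (Perm α)) (Γ : Finset α) : Prop where
  pg : IsPGroup p P
  fix : ∀ u ∈ P, ∀ d, d ∉ Γ → u d = d
  orb : ∀ γ ∈ Γ, Nat.card (orbit P γ) = p

/-- `n` acts on the orbit `O` of `P` by the power map `s`. -/
def MulOn (P : Subgroup (Perm α)) (O : Set α) (n : Perm α) (s : ℕ) : Prop :=
  ∀ v ∈ P, ∀ y ∈ O, (n * v * n⁻¹) y = (v ^ s) y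

/-- Elements normalising `P` (in the one-sided sense). -/
def Nz (P : Subgroup (Perm α)) (n : Perm α) : Prop := ∀ t ∈ P, n * t * n⁻¹ ∈ P

lemma Nz.inv {P : Subgroup (Perm α)} {n : Perm α} (h : Nz P n) : ∀ t ∈ P, n⁻¹ * t * n ∈ P :=
  conj_inv_mem P n h

lemma Nz.mul {P : Subgroup (Perm α)} {a b : Perm α} (ha : Nz P a) (hb : Nz P b) : Nz P (a * b) := by
  intro t ht
  have := ha _ (hb t ht)
  have e : a * b * t * (a * b)⁻¹ = a * (b * t * b⁻¹) * a⁻¹ := by group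
  rwa [e]

lemma Nz.inv' {P : Subgroup (Perm α)} {n : Perm α} (h : Nz P n) : Nz P n⁻¹ := by
  intro t ht
  have := h.inv t ht
  simpa using this

lemma Nz.pow {P : Subgroup (Perm α)} {n : Perm α} (h : Nz P n) (k : ℕ) : Nz P (n ^ k) := by
  induction k with
  | zero =>
    intro t ht
    simpa using ht
  | succ k ih =>
    rw [pow_succ]
    exact ih.mul h

lemma pow_agree {O : Set α} {a b : Perm α} (h : ∀ y ∈ O, a y = b y) (hb : ∀ y ∈ O, b y ∈ O)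
    (k : ℕ) : ∀ y ∈ O, (a ^ k) y = (b ^ k) y := by
  induction k with
  | zero =>
    intro y _
    simp
  | succ k ih =>
    intro y hy
    rw [pow_succ, pow_succ]
    simp only [Perm.mul_apply]
    rw [h y hy]
    exact ih _ (hb y hy)

namespace Setup

variable {p : ℕ} {P : Subgroup (Perm α)} {Γ : Finset α}

lemma inv_fix (S : Setup p P Γ) {u : Perm α} (hu : u ∈ P) {d : α} (hd : d ∉ Γ) : u⁻¹ d = d :=
  S.fix _ (P.inv_mem hu) d hd

lemma mem_of_mem (S : Setup p P Γ) {γ : α} (hγ : γ ∈ Γ) {u : Perm α} (hu : u ∈ P) : u γ ∈ Γ := by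
  by_contra h
  have h1 := S.inv_fix hu h
  rw [iav] at h1
  rw [← h1] at h
  exact h hγ

lemma orb_sub (S : Setup p P Γ) {γ y : α} (hγ : γ ∈ Γ) (hy : y ∈ orbit P γ) : y ∈ Γ := by
  obtain ⟨u, hu, rfl⟩ := (mem_orb P).1 hy
  exact S.mem_of_mem hγ hu

variable [hp : Fact p.Prime]

lemma exists_moved (S : Setup p P Γ) {γ : α} (hγ : γ ∈ Γ) : ∃ u ∈ P, u γ ≠ γ := by
  by_contra hcon
  push Not at hcon
  have h1 : orbit P γ = {γ} := by
    ext y
    simp only [Set.mem_singleton_iff, mem_orb]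
    constructor
    · rintro ⟨u, hu, rfl⟩
      exact hcon u hu
    · rintro rfl
      exact ⟨1, P.one_mem, rfl⟩
  have h2 := S.orb γ hγ
  rw [h1] at h2
  simp only [Nat.card_unique] at h2
  exact hp.out.one_lt.ne h2

lemma pow_p (S : Setup p P Γ) {v : Perm α} (hv : v ∈ P) : v ^ p = 1 := by
  ext y
  by_cases hy : y ∈ Γ
  · exact orbit_pow_p P S.pg y (S.orb y hy) v hv y (mem_orbit_self y)
  · exact S.fix _ (P.pow_mem hv p) y hy

lemma mem_iff (S : Setup p P Γ) (y : α) : y ∈ Γ ↔ ∃ u ∈ P, u y ≠ y := by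
  constructor
  · exact S.exists_moved
  · rintro ⟨u, hu, h⟩
    by_contra hy
    exact h (S.fix u hu y hy)

lemma pres_of_nz (S : Setup p P Γ) {n : Perm α} (hn : Nz P n) : Pres Γ n := by
  intro y
  rw [S.mem_iff, S.mem_iff]
  constructor
  · rintro ⟨u, hu, h⟩
    refine ⟨n⁻¹ * u * n, hn.inv u hu, ?_⟩
    intro e
    apply h
    simp only [Perm.mul_apply] at e
    have := congrArg n e
    rwa [aiv] at this
  · rintro ⟨u, hu, h⟩
    refine ⟨n * u * n⁻¹, hn u hu, ?_⟩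
    simp only [Perm.mul_apply, iav]
    exact fun e => h (n.injective e)

/-- Elements of the normaliser act on orbits by conjugation. -/
lemma smul_orbit {n : Perm α} (hn : Nz P n) {γ y : α} (hy : y ∈ orbit P γ) :
    n y ∈ orbit P (n γ) := by
  obtain ⟨u, hu, rfl⟩ := (mem_orb P).1 hy
  refine (mem_orb P).2 ⟨n * u * n⁻¹, hn u hu, ?_⟩
  simp only [Perm.mul_apply]
  rw [iav]

lemma image_orbit {n : Perm α} (hn : Nz P n) (γ : α) : n '' orbit P γ = orbit P (n γ) := by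
  ext y
  constructor
  · rintro ⟨z, hz, rfl⟩
    exact smul_orbit hn hz
  · intro hy
    refine ⟨n⁻¹ y, ?_, aiv n y⟩
    have := smul_orbit hn.inv' hy
    rwa [iav] at this

omit hp in
lemma mem_self_iff {γ y : α} : y ∈ orbit P γ ↔ orbit P y = orbit P γ :=
  (orbit_eq_iff).symm

/-- Multipliers exist on each orbit. -/
theorem exists_mulOn (S : Setup p P Γ) {n : Perm α} (hn : Nz P n) {γ : α} (hγ : γ ∈ Γ)
    (hk : ∀ y ∈ orbit P γ, n⁻¹ y ∈ orbit P γ) : ∃ s, MulOn P (orbit P γ) n s := by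
  obtain ⟨u₀, hu₀, hmv⟩ := S.exists_moved hγ
  have hO := S.orb γ hγ
  obtain ⟨s, hs⟩ := orbit_power P S.pg γ hO u₀ hu₀ γ (mem_orbit_self γ) hmv _ (hn u₀ hu₀)
  refine ⟨s, fun v hv y hy => ?_⟩
  obtain ⟨j, hj⟩ := orbit_power P S.pg γ hO u₀ hu₀ γ (mem_orbit_self γ) hmv v hv
  have hstab : ∀ w ∈ P, ∀ y ∈ orbit P γ, w y ∈ orbit P γ := by
    intro w hw y hy
    obtain ⟨u, hu, rfl⟩ := (mem_orb P).1 hy
    exact (mem_orb P).2 ⟨w * u, P.mul_mem hw hu, rfl⟩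
  have e1 : (n * v * n⁻¹) y = (n * u₀ ^ j * n⁻¹) y := by
    simp only [Perm.mul_apply]
    rw [hj _ (hk y hy)]
  have e2 : n * u₀ ^ j * n⁻¹ = (n * u₀ * n⁻¹) ^ j := (conj_pow).symm
  rw [e1, e2]
  rw [pow_agree hs (hstab _ (P.pow_mem hu₀ s)) j y hy]
  have e3 := pow_agree hj (hstab _ (P.pow_mem hu₀ j)) s y hy
  rw [e3, ← pow_mul, ← pow_mul, mul_comm]

end Setup

lemma mulOn_mul {P : Subgroup (Perm α)} {O : Set α} {n₁ n₂ : Perm α} {s₁ s₂ : ℕ}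
    (h₁ : MulOn P O n₁ s₁) (h₂ : MulOn P O n₂ s₂) (hn₂ : Nz P n₂) :
    MulOn P O (n₁ * n₂) (s₁ * s₂) := by
  intro v hv y hy
  have e : n₁ * n₂ * v * (n₁ * n₂)⁻¹ = n₁ * (n₂ * v * n₂⁻¹) * n₁⁻¹ := by group
  rw [e, h₁ _ (hn₂ v hv) y hy, conj_pow, h₂ _ (P.pow_mem hv s₁) y hy, pow_mul]

lemma mulOn_one (P : Subgroup (Perm α)) (O : Set α) : MulOn P O 1 1 := by
  intro v _ y _
  simp

lemma mulOn_pow {P : Subgroup (Perm α)} {O : Set α} {n : Perm α} {s : ℕ}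
    (h : MulOn P O n s) (hn : Nz P n) (k : ℕ) : MulOn P O (n ^ k) (s ^ k) := by
  induction k with
  | zero =>
    simpa using mulOn_one P O
  | succ k ih =>
    rw [pow_succ, pow_succ]
    exact mulOn_mul ih h hn

/-- Elements of the normaliser preserving every orbit of `P` in `Γ`. -/
def K₀ (P : Subgroup (Perm α)) (Γ : Finset α) : Subgroup (Perm α) :=
  have hmul : ∀ {a b : Perm α}, (Nz P a ∧ ∀ γ ∈ Γ, a γ ∈ orbit P γ) →
      (Nz P b ∧ ∀ γ ∈ Γ, b γ ∈ orbit P γ) →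
      (Nz P (a * b) ∧ ∀ γ ∈ Γ, (a * b) γ ∈ orbit P γ) := by
    intro a b ha hb
    refine ⟨ha.1.mul hb.1, fun γ hγ => ?_⟩
    obtain ⟨u, hu, hu'⟩ := (mem_orb P).1 (hb.2 γ hγ)
    obtain ⟨w, hw, hw'⟩ := (mem_orb P).1 (ha.2 γ hγ)
    refine (mem_orb P).2 ⟨(a * u * a⁻¹) * w, P.mul_mem (ha.1 u hu) hw, ?_⟩
    simp only [Perm.mul_apply]
    rw [hw', iav, hu']
  { carrier := {n | Nz P n ∧ ∀ γ ∈ Γ, n γ ∈ orbit P γ}
    mul_mem' := fun ha hb => hmul ha hb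
    one_mem' := ⟨by
      intro t ht
      simpa using ht, fun γ _ => (mem_orb P).2 ⟨1, P.one_mem, rfl⟩⟩
    inv_mem' := by
      intro a ha
      have hpow : ∀ k : ℕ, (Nz P (a ^ k) ∧ ∀ γ ∈ Γ, (a ^ k) γ ∈ orbit P γ) := by
        intro k
        induction k with
        | zero =>
          refine ⟨by
            intro t ht
            simpa using ht, fun γ _ => (mem_orb P).2 ⟨1, P.one_mem, rfl⟩⟩
        | succ k ih =>
          rw [pow_succ]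
          exact hmul ih ha
      have h0 : 0 < orderOf a := orderOf_pos a
      have e1 : a⁻¹ = a ^ (orderOf a - 1) := by
        rw [inv_eq_iff_mul_eq_one, ← pow_succ', Nat.sub_add_cancel h0, pow_orderOf_eq_one]
      rw [e1]
      exact hpow _ }

lemma mem_K₀ {P : Subgroup (Perm α)} {Γ : Finset α} {n : Perm α} :
    n ∈ K₀ P Γ ↔ Nz P n ∧ ∀ γ ∈ Γ, n γ ∈ orbit P γ := Iff.rfl

lemma K₀_conj {P : Subgroup (Perm α)} {Γ : Finset α} {n t : Perm α} (hn : n ∈ K₀ P Γ)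
    (ht : Nz P t) (hp : Pres Γ t) : t * n * t⁻¹ ∈ K₀ P Γ := by
  refine ⟨(ht.mul hn.1).mul ht.inv', fun γ hγ => ?_⟩
  have h1 : t⁻¹ γ ∈ Γ := (pres_inv Γ t hp γ).2 hγ
  obtain ⟨u, hu, hu'⟩ := (mem_orb P).1 (hn.2 _ h1)
  refine (mem_orb P).2 ⟨t * u * t⁻¹, ht u hu, ?_⟩
  simp only [Perm.mul_apply]
  rw [hu']

section main

variable {p : ℕ} [hp : Fact p.Prime] {P : Subgroup (Perm α)} {Γ : Finset α}

lemma K₀_inv_mem_orbit {n : Perm α} (hn : n ∈ K₀ P Γ) {γ y : α} (hγ : γ ∈ Γ)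
    (S : Setup p P Γ) (hy : y ∈ orbit P γ) : n⁻¹ y ∈ orbit P γ := by
  have h1 : y ∈ Γ := S.orb_sub hγ hy
  have h2 := ((K₀ P Γ).inv_mem hn).2 y h1
  rw [(orbit_eq_iff).2 hy] at h2
  exact h2

lemma K₀_mem_orbit {n : Perm α} (hn : n ∈ K₀ P Γ) {γ y : α} (hγ : γ ∈ Γ)
    (S : Setup p P Γ) (hy : y ∈ orbit P γ) : n y ∈ orbit P γ := by
  have h1 : y ∈ Γ := S.orb_sub hγ hy
  have h2 := hn.2 y h1
  rw [(orbit_eq_iff).2 hy] at h2
  exact h2

/-- Commutators in `K₀` centralise `P`. -/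
theorem comm_of_K₀ (S : Setup p P Γ) {n₁ n₂ : Perm α} (h₁ : n₁ ∈ K₀ P Γ) (h₂ : n₂ ∈ K₀ P Γ) :
    ∀ v ∈ P, (n₁ * n₂ * n₁⁻¹ * n₂⁻¹) * v = v * (n₁ * n₂ * n₁⁻¹ * n₂⁻¹) := by
  intro v hv
  set c := n₁ * n₂ * n₁⁻¹ * n₂⁻¹ with hc
  have hcK : c ∈ K₀ P Γ := (K₀ P Γ).mul_mem ((K₀ P Γ).mul_mem ((K₀ P Γ).mul_mem h₁ h₂)
    ((K₀ P Γ).inv_mem h₁)) ((K₀ P Γ).inv_mem h₂)
  ext y
  by_cases hy : y ∈ Γ
  · obtain ⟨s₁, hs₁⟩ := S.exists_mulOn h₁.1 hy (fun z hz => K₀_inv_mem_orbit h₁ hy S hz)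
    obtain ⟨s₂, hs₂⟩ := S.exists_mulOn h₂.1 hy (fun z hz => K₀_inv_mem_orbit h₂ hy S hz)
    have ha := mulOn_mul hs₁ hs₂ h₂.1
    have hb := mulOn_mul hs₂ hs₁ h₁.1
    have hn : Nz P (n₂ * n₁) := h₂.1.mul h₁.1
    have hz : c y ∈ orbit P y := hcK.2 y hy
    have hv₁ : (n₂ * n₁)⁻¹ * v * (n₂ * n₁) ∈ P := hn.inv v hv
    have e1 := ha _ hv₁ (c y) hz
    have e2 := hb _ hv₁ (c y) hz
    rw [mul_comm s₁ s₂, ← e2] at e1
    have e3 : n₁ * n₂ * ((n₂ * n₁)⁻¹ * v * (n₂ * n₁)) * (n₁ * n₂)⁻¹ = c * v * c⁻¹ := by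
      rw [hc]
      group
    have e4 : n₂ * n₁ * ((n₂ * n₁)⁻¹ * v * (n₂ * n₁)) * (n₂ * n₁)⁻¹ = v := by
      group
    rw [e3, e4] at e1
    simp only [Perm.mul_apply] at e1 ⊢
    rw [iav] at e1
    exact e1
  · have h1 : c y ∉ Γ := fun h => hy ((S.pres_of_nz hcK.1 y).1 h)
    simp only [Perm.mul_apply]
    rw [S.fix v hv y hy, S.fix v hv _ h1]

/-- An element preserving the orbits and centralising `P` has `p`-th power trivial on `Γ`. -/
theorem pow_fix_of_comm (S : Setup p P Γ) {c : Perm α} (hc : ∀ γ ∈ Γ, c γ ∈ orbit P γ)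
    (hcomm : ∀ v ∈ P, c * v = v * c) : ∀ γ ∈ Γ, (c ^ p) γ = γ := by
  intro γ hγ
  obtain ⟨u, hu, hu'⟩ := (mem_orb P).1 (hc γ hγ)
  have hcu : ∀ k : ℕ, (c ^ k) γ = (u ^ k) γ := by
    intro k
    induction k with
    | zero => simp
    | succ k ih =>
      rw [pow_succ, pow_succ]
      simp only [Perm.mul_apply]
      rw [← hu']
      have h1 : c ^ k * u = u * c ^ k := (Commute.pow_left (show Commute c u from hcomm u hu) k).eq
      have h2 := congrArg (fun f : Perm α => f γ) h1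
      simp only [Perm.mul_apply] at h2
      rw [h2, ih]
      have h3 : u ^ k * u = u * u ^ k := (Commute.pow_left (Commute.refl u) k).eq
      have h4 := congrArg (fun f : Perm α => f γ) h3
      simp only [Perm.mul_apply] at h4
      rw [h4]
  rw [hcu, S.pow_p hu]
  rfl

end main

end Cfsg.Agent.Lib.Struct.Mult
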