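import Cfsg.Agent.Lib.Struct.MultD

/-! The orbits of `P`, the action of the normaliser on them, and multipliers. -/

set_option autoImplicit false

open Equiv Equiv.Perm MulAction

namespace Cfsg.Agent.Lib.Struct.Mult

variable {α : Type*} [Fintype α] [DecidableEq α]

open Classical in
/-- The set of orbits of `P` on `Γ`. -/
noncomputable def orbs (P : Subgroup (Perm α)) (Γ : Finset α) : Finset (Set α) :=
  Γ.image (fun γ => orbit P γ)

lemma mem_orbs {P : Subgroup (Perm α)} {Γ : Finset α} {O : Set α} :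
    O ∈ orbs P Γ ↔ ∃ γ ∈ Γ, orbit P γ = O := by
  simp [orbs]

section main

variable {p : ℕ} [hp : Fact p.Prime] {P : Subgroup (Perm α)} {Γ : Finset α}

lemma card_orbs (S : Setup p P Γ) : Γ.card = (orbs P Γ).card * p := by
  classical
  have h := Finset.card_eq_sum_card_fiberwise (f := fun γ => orbit P γ) (s := Γ) (t := orbs P Γ)
    (fun γ hγ => mem_orbs.2 ⟨γ, hγ, rfl⟩)
  rw [h, Finset.sum_const_nat (m := p)]
  intro O hO
  obtain ⟨γ, hγ, rfl⟩ := mem_orbs.1 hO
  have e : ((Γ.filter (fun a => orbit P a = orbit P γ) : Finset α) : Set α) = orbit P γ := by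
    ext y
    simp only [Finset.coe_filter, Set.mem_setOf_eq]
    constructor
    · rintro ⟨_, h2⟩
      exact orbit_eq_iff.1 h2
    · intro h2
      exact ⟨S.orb_sub hγ h2, orbit_eq_iff.2 h2⟩
  rw [← Set.ncard_coe_finset, e, ← Nat.card_coe_set_eq, S.orb γ hγ]

lemma nz_of_mem {n : Perm α} (h : n ∈ Subgroup.normalizer (P : Set (Perm α))) : Nz P n :=
  fun t ht => (Subgroup.mem_normalizer_iff.mp h t).1 ht

lemma mem_of_nz {n : Perm α} (h : Nz P n) : n ∈ Subgroup.normalizer (P : Set (Perm α)) := by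
  rw [Subgroup.mem_normalizer_iff]
  intro t
  refine ⟨h t, fun ht => ?_⟩
  have := h.inv _ ht
  have e : n⁻¹ * (n * t * n⁻¹) * n = t := by group
  rwa [e] at this

theorem exists_nu (S : Setup p P Γ) :
    ∃ ν : Subgroup.normalizer (P : Set (Perm α)) →* Perm (orbs P Γ),
      ∀ n (O : orbs P Γ), ((ν n O : orbs P Γ) : Set α) = (n : Perm α) '' (O : Set α) := by
  have hmem : ∀ (n : Subgroup.normalizer (P : Set (Perm α))) (O : orbs P Γ),
      (n : Perm α) '' (O : Set α) ∈ orbs P Γ := by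
    intro n O
    obtain ⟨γ, hγ, hO⟩ := mem_orbs.1 O.2
    refine mem_orbs.2 ⟨(n : Perm α) γ, (S.pres_of_nz (nz_of_mem n.2) γ).2 hγ, ?_⟩
    rw [← hO]
    exact (Setup.image_orbit (nz_of_mem n.2) γ).symm
  let act : Subgroup.normalizer (P : Set (Perm α)) → orbs P Γ → orbs P Γ :=
    fun n O => ⟨(n : Perm α) '' (O : Set α), hmem n O⟩
  have hact1 : ∀ O, act 1 O = O := by
    intro O
    apply Subtype.ext
    simp [act]
  have hactm : ∀ a b O, act (a * b) O = act a (act b O) := by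
    intro a b O
    apply Subtype.ext
    simp only [act, Subgroup.coe_mul, Perm.coe_mul]
    exact Set.image_comp _ _ _
  let ν : Subgroup.normalizer (P : Set (Perm α)) →* Perm (orbs P Γ) :=
    MonoidHom.mk' (fun n =>
      { toFun := act n
        invFun := act n⁻¹
        left_inv := fun O => by
          rw [← hactm, inv_mul_cancel, hact1]
        right_inv := fun O => by
          rw [← hactm, mul_inv_cancel, hact1] })
      (fun a b => by
        ext1 O
        exact hactm a b O)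
  exact ⟨ν, fun n O => rfl⟩

lemma K₀_of_nu_eq_one (_S : Setup p P Γ)
    {ν : Subgroup.normalizer (P : Set (Perm α)) →* Perm (orbs P Γ)}
    (hν : ∀ n (O : orbs P Γ), ((ν n O : orbs P Γ) : Set α) = (n : Perm α) '' (O : Set α))
    {n : Subgroup.normalizer (P : Set (Perm α))} (h : ν n = 1) : (n : Perm α) ∈ K₀ P Γ := by
  refine ⟨nz_of_mem n.2, fun γ hγ => ?_⟩
  have hO : orbit P γ ∈ orbs P Γ := mem_orbs.2 ⟨γ, hγ, rfl⟩
  have h1 := hν n ⟨orbit P γ, hO⟩
  rw [h] at h1
  have h2 : (n : Perm α) γ ∈ (n : Perm α) '' (orbit P γ) :=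
    ⟨γ, mem_orbit_self γ, rfl⟩
  rw [← show ((1 : Perm (orbs P Γ)) ⟨orbit P γ, hO⟩ : Set α) = _ from h1] at h2
  exact h2

lemma period_lemma (v : Perm α) (y : α) (h1 : (v ^ p) y = y) {a b : ℕ} (hab : (v ^ a) y = (v ^ b) y)
    (hne : ¬ a ≡ b [MOD p]) : v y = y := by
  wlog hle : a ≤ b generalizing a b
  · exact this hab.symm (fun h => hne h.symm) (by omega)
  obtain ⟨c, rfl⟩ := Nat.exists_eq_add_of_le hle
  have h2 : (v ^ c) y = y := by
    rw [pow_add] at hab
    simp only [Perm.mul_apply] at hab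
    exact ((v ^ a).injective hab).symm
  have hc : ¬ p ∣ c := by
    intro hd
    apply hne
    have : a + c ≡ a + 0 [MOD p] := Nat.ModEq.add_left a ((Nat.modEq_zero_iff_dvd).2 hd)
    simpa using this.symm
  have hper1 : Function.IsPeriodicPt v c y := by
    unfold Function.IsPeriodicPt Function.IsFixedPt
    rw [Equiv.Perm.iterate_eq_pow]
    exact h2
  have hper2 : Function.IsPeriodicPt v p y := by
    unfold Function.IsPeriodicPt Function.IsFixedPt
    rw [Equiv.Perm.iterate_eq_pow]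
    exact h1
  have hg := hper1.gcd hper2
  have hcop : Nat.gcd c p = 1 := by
    have := (Nat.Prime.coprime_iff_not_dvd hp.out).2 hc
    rw [Nat.gcd_comm]
    exact this
  rw [hcop] at hg
  exact hg

/-- Separating multipliers produces an element supported on a single orbit. -/
theorem exists_single (S : Setup p P Γ) {n : Perm α} (hn : n ∈ K₀ P Γ) (s : Set α → ℕ)
    (hs : ∀ O ∈ orbs P Γ, MulOn P O n (s O)) {O₁ : Set α} (hO₁ : O₁ ∈ orbs P Γ)
    (hsep : ∀ O ∈ orbs P Γ, O ≠ O₁ → ¬ s O ≡ s O₁ [MOD p]) :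
    ∃ v ∈ P, (∃ y ∈ O₁, v y ≠ y) ∧ ∀ O ∈ orbs P Γ, O ≠ O₁ → ∀ y ∈ O, v y = y := by
  classical
  have key : ∀ T : Finset (Set α), T ⊆ (orbs P Γ).erase O₁ →
      ∃ v ∈ P, (∃ y ∈ O₁, v y ≠ y) ∧ ∀ O ∈ T, ∀ y ∈ O, v y = y := by
    intro T
    induction T using Finset.induction_on with
    | empty =>
      intro _
      obtain ⟨γ, hγ, rfl⟩ := mem_orbs.1 hO₁
      obtain ⟨u, hu, hmv⟩ := S.exists_moved hγ
      exact ⟨u, hu, ⟨γ, mem_orbit_self γ, hmv⟩, by simp⟩
    | insert O' T hO' ih =>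
      intro hsub
      obtain ⟨v, hv, ⟨y₁, hy₁, hy₁'⟩, hvT⟩ := ih (fun x hx => hsub (Finset.mem_insert_of_mem hx))
      have hO'mem := hsub (Finset.mem_insert_self _ _)
      have hO'1 := (Finset.mem_erase.mp hO'mem).1
      have hO'2 := (Finset.mem_erase.mp hO'mem).2
      refine ⟨(v ^ s O')⁻¹ * (n * v * n⁻¹),
        P.mul_mem (P.inv_mem (P.pow_mem hv _)) (hn.1 v hv), ⟨y₁, hy₁, ?_⟩, ?_⟩
      · intro hcon
        have h1 : (n * v * n⁻¹) y₁ = (v ^ s O') y₁ := by
          have := congrArg (v ^ s O') hcon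
          simp only [Perm.mul_apply] at this
          rwa [aiv] at this
        have h2 := hs O₁ hO₁ v hv y₁ hy₁
        rw [h1] at h2
        have hper : (v ^ p) y₁ = y₁ := by
          rw [S.pow_p hv]
          rfl
        exact hy₁' (period_lemma v y₁ hper h2 (hsep O' hO'2 hO'1))
      · intro O hO y hy
        rcases Finset.mem_insert.mp hO with rfl | hO
        · simp only [Perm.mul_apply]
          rw [show n (v (n⁻¹ y)) = (n * v * n⁻¹) y from rfl, hs O hO'2 v hv y hy, iav]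
        · have hOm : O ∈ orbs P Γ :=
            (Finset.mem_erase.mp (hsub (Finset.mem_insert_of_mem hO))).2
          have hvy := hvT O hO y hy
          have hpow : ∀ k : ℕ, (v ^ k) y = y := by
            intro k
            induction k with
            | zero => simp
            | succ k ih =>
              rw [pow_succ]
              simp only [Perm.mul_apply]
              rw [hvy, ih]
          simp only [Perm.mul_apply]
          rw [show n (v (n⁻¹ y)) = (n * v * n⁻¹) y from rfl, hs O hOm v hv y hy, hpow,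
            Perm.inv_eq_iff_eq, hpow]
  obtain ⟨v, hv, h1, h2⟩ := key ((orbs P Γ).erase O₁) (Finset.Subset.refl _)
  exact ⟨v, hv, h1, fun O hO hne => h2 O (Finset.mem_erase.mpr ⟨hne, hO⟩)⟩

/-- An element supported on a single orbit is a `p`-cycle. -/
theorem pcycle_of_single (S : Setup p P Γ) {v : Perm α} (hv : v ∈ P) {O₁ : Set α}
    (hO₁ : O₁ ∈ orbs P Γ) (h1 : ∃ y ∈ O₁, v y ≠ y)
    (h2 : ∀ O ∈ orbs P Γ, O ≠ O₁ → ∀ y ∈ O, v y = y) : v.IsCycle ∧ v.support.card = p := by
  have hne : v ≠ 1 := by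
    rintro rfl
    obtain ⟨y, _, hy⟩ := h1
    exact hy rfl
  have ho : orderOf v = p := orderOf_eq_prime (S.pow_p hv) hne
  obtain ⟨γ₁, hγ₁, rfl⟩ := mem_orbs.1 hO₁
  have hsub : (v.support : Set α) ⊆ orbit P γ₁ := by
    intro y hy
    have hy' : v y ≠ y := mem_support.mp hy
    have hyΓ : y ∈ Γ := by
      by_contra h
      exact hy' (S.fix v hv y h)
    by_contra hcon
    refine hy' (h2 (orbit P y) (mem_orbs.2 ⟨y, hyΓ, rfl⟩) ?_ y (mem_orbit_self y))
    intro e
    apply hcon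
    rw [← e]
    exact mem_orbit_self y
  have hcard : v.support.card ≤ p := by
    have h3 := Set.ncard_le_ncard hsub (Set.toFinite _)
    rw [Set.ncard_coe_finset, ← Nat.card_coe_set_eq, S.orb γ₁ hγ₁] at h3
    exact h3
  have hcyc : v.IsCycle := isCycle_of_prime_order (by rw [ho]; exact hp.out) (by
    have := hp.out.pos
    omega)
  exact ⟨hcyc, by rw [← hcyc.orderOf, ho]⟩

/-- Multipliers exist for all orbits simultaneously. -/
theorem exists_mult (S : Setup p P Γ) {n : Perm α} (hn : n ∈ K₀ P Γ) :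
    ∃ s : Set α → ℕ, ∀ O ∈ orbs P Γ, MulOn P O n (s O) := by
  have h : ∀ O ∈ orbs P Γ, ∃ s, MulOn P O n s := by
    intro O hO
    obtain ⟨γ, hγ, rfl⟩ := mem_orbs.1 hO
    exact S.exists_mulOn hn.1 hγ (fun z hz => K₀_inv_mem_orbit hn hγ S hz)
  choose! s hs using h
  exact ⟨s, hs⟩

lemma mult_not_dvd (S : Setup p P Γ) {n : Perm α} (hn : n ∈ K₀ P Γ) {O : Set α}
    (hO : O ∈ orbs P Γ) {s : ℕ} (hs : MulOn P O n s) : ¬ p ∣ s := by
  intro hd
  obtain ⟨γ, hγ, rfl⟩ := mem_orbs.1 hO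
  obtain ⟨u, hu, hmv⟩ := S.exists_moved hγ
  have h1 := hs u hu (n γ) (hn.2 γ hγ)
  obtain ⟨c, rfl⟩ := hd
  rw [pow_mul, S.pow_p hu, one_pow] at h1
  simp only [Perm.mul_apply, iav, Perm.one_apply] at h1
  exact hmv (n.injective h1)

/-- If `n ∈ K₀` has all multipliers `≡ 1`, then it centralises `P`. -/
theorem comm_of_mult_one (S : Setup p P Γ) {n : Perm α} (hn : n ∈ K₀ P Γ) (s : Set α → ℕ)
    (hs : ∀ O ∈ orbs P Γ, MulOn P O n (s O)) (h1 : ∀ O ∈ orbs P Γ, s O ≡ 1 [MOD p]) :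
    ∀ v ∈ P, n * v = v * n := by
  intro v hv
  ext y
  by_cases hy : y ∈ Γ
  · have hO : orbit P y ∈ orbs P Γ := mem_orbs.2 ⟨y, hy, rfl⟩
    have hz : n y ∈ orbit P y := hn.2 y hy
    have e1 := hs _ hO v hv (n y) hz
    have e2 : v ^ s (orbit P y) = v := by
      have hp1 : v ^ p = 1 := S.pow_p hv
      have ho : orderOf v ∣ p := orderOf_dvd_of_pow_eq_one hp1
      have hm : s (orbit P y) ≡ 1 [MOD orderOf v] := (h1 _ hO).of_dvd ho
      have := (pow_eq_pow_iff_modEq (x := v)).2 hm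
      simpa using this
    rw [e2] at e1
    simp only [Perm.mul_apply, iav] at e1 ⊢
    exact e1
  · have h3 : n y ∉ Γ := fun h => hy ((S.pres_of_nz hn.1 y).1 h)
    simp only [Perm.mul_apply]
    rw [S.fix v hv y hy, S.fix v hv _ h3]

/-- With at most three orbits and no `p`-cycle, multipliers are scalars. -/
theorem scalar_of_no_cycle (S : Setup p P Γ)
    (hno : ∀ v ∈ P, v.IsCycle → v.support.card ≠ p) (h3 : (orbs P Γ).card ≤ 3)
    {n : Perm α} (hn : n ∈ K₀ P Γ) (s : Set α → ℕ) (hs : ∀ O ∈ orbs P Γ, MulOn P O n (s O)) :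
    ∀ O ∈ orbs P Γ, ∀ O' ∈ orbs P Γ, s O ≡ s O' [MOD p] := by
  classical
  intro Oa hOa Ob hOb
  by_contra hne
  have hfin : ∀ {O₁ : Set α}, O₁ ∈ orbs P Γ →
      (∀ O ∈ orbs P Γ, O ≠ O₁ → ¬ s O ≡ s O₁ [MOD p]) → False := by
    intro O₁ hO₁ hsep
    obtain ⟨v, hv, h1, h2⟩ := exists_single S hn s hs hO₁ hsep
    obtain ⟨hc, hcard⟩ := pcycle_of_single S hv hO₁ h1 h2
    exact hno v hv hc hcard
  by_cases hA : ∀ O ∈ orbs P Γ, O ≠ Oa → ¬ s O ≡ s Oa [MOD p]
  · exact hfin hOa hA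
  push Not at hA
  obtain ⟨Oc, hOc, hca, hsc⟩ := hA
  have hab : Oa ≠ Ob := by
    rintro rfl
    exact hne (Nat.ModEq.refl _)
  have hcb : Oc ≠ Ob := by
    rintro rfl
    exact hne hsc.symm
  apply hfin hOb
  intro O hO hOb'
  by_cases hOa' : O = Oa
  · rw [hOa']
    exact hne
  by_cases hOc' : O = Oc
  · rw [hOc']
    exact fun h => hne (hsc.symm.trans h)
  exfalso
  have hsub : ({O, Oa, Ob, Oc} : Finset (Set α)) ⊆ orbs P Γ := by
    intro x hx
    simp only [Finset.mem_insert, Finset.mem_singleton] at hx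
    rcases hx with rfl | rfl | rfl | rfl <;> assumption
  have hc4 : ({O, Oa, Ob, Oc} : Finset (Set α)).card = 4 := by
    rw [Finset.card_insert_of_notMem, Finset.card_insert_of_notMem, Finset.card_insert_of_notMem,
      Finset.card_singleton]
    · simp [hcb.symm]
    · simp [hab, Ne.symm hca]
    · simp [hOa', hOb', hOc']
  have := Finset.card_le_card hsub
  omega

end main

/-- In a cyclic group, any two elements satisfy a relation with exponents not both even. -/
lemma exists_parity {C : Type*} [CommGroup C] [Finite C] [IsCyclic C] (u₁ u₂ : C) :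
    ∃ a b : ℕ, (Odd a ∨ Odd b) ∧ u₁ ^ a * u₂ ^ b = 1 := by
  obtain ⟨g, hg⟩ := IsCyclic.exists_generator (α := C)
  have hfin : IsOfFinOrder g := isOfFinOrder_of_finite g
  obtain ⟨i, hi⟩ := hfin.mem_powers_iff_mem_zpowers.mpr (hg u₁)
  obtain ⟨j, hj⟩ := hfin.mem_powers_iff_mem_zpowers.mpr (hg u₂)
  have hi' : g ^ i = u₁ := hi
  have hj' : g ^ j = u₂ := hj
  by_cases h0 : i = 0 ∧ j = 0
  · refine ⟨1, 0, Or.inl odd_one, ?_⟩
    rw [← hi', h0.1]
    simp
  set d := Nat.gcd i j with hd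
  have hdpos : 0 < d := Nat.gcd_pos_iff.mpr (by omega)
  obtain ⟨A, hA⟩ : d ∣ j := Nat.gcd_dvd_right i j
  obtain ⟨B, hB⟩ : d ∣ i := Nat.gcd_dvd_left i j
  have hcop : Nat.Coprime B A := by
    have := Nat.coprime_div_gcd_div_gcd (m := i) (n := j) hdpos
    rw [← hd] at this
    rwa [hB, hA, Nat.mul_div_cancel_left _ hdpos, Nat.mul_div_cancel_left _ hdpos] at this
  set m := orderOf g with hm
  have hmpos : 0 < m := orderOf_pos g
  refine ⟨A, B * (2 * m - 1), ?_, ?_⟩
  · have hodd : Odd (2 * m - 1) := by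
      rw [Nat.odd_iff]
      omega
    by_cases hAo : Odd A
    · exact Or.inl hAo
    · right
      rw [Nat.odd_mul]
      refine ⟨?_, hodd⟩
      rw [Nat.not_odd_iff_even] at hAo
      by_contra hBo
      rw [Nat.not_odd_iff_even] at hBo
      have h2 : 2 ∣ Nat.gcd B A := Nat.dvd_gcd hBo.two_dvd hAo.two_dvd
      rw [hcop] at h2
      omega
  · rw [← hi', ← hj', ← pow_mul, ← pow_mul, ← pow_add]
    have e : i * A + j * (B * (2 * m - 1)) = m * (2 * (d * A * B)) := by
      obtain ⟨m', hm'⟩ : ∃ m', m = m' + 1 := ⟨m - 1, by omega⟩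
      rw [hB, hA, hm']
      have : 2 * (m' + 1) - 1 = 2 * m' + 1 := by omega
      rw [this]
      ring
    rw [e, pow_mul, pow_orderOf_eq_one, one_pow]

end Cfsg.Agent.Lib.Struct.Mult
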