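import Cfsg.Agent.Lib.Struct.MultE

/-! Assembly of the theorem on `(r+1)`-transitive groups of degree `kp + r`. -/

set_option autoImplicit false

open Equiv Equiv.Perm MulAction

namespace Cfsg.Agent.Lib.Struct.Mult

variable {α : Type*} [Fintype α] [DecidableEq α]

lemma pres_compl {Γ : Finset α} {n : Perm α} (h : Pres Γ n) : Pres Γᶜ n := by
  intro d
  simp only [Finset.mem_compl]
  rw [h d]

lemma swap_swap_comm {u v w t : α} (huv : u ≠ v) (huw : u ≠ w) (hut : u ≠ t) (hvw : v ≠ w)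
    (hvt : v ≠ t) (hwt : w ≠ t) : swap u v * swap w t = swap w t * swap u v :=
  (disjoint_swap_swap (by simp [huv, huw, hut, hvw, hvt, hwt])).commute

lemma double_sq {u v w t : α} (huv : u ≠ v) (huw : u ≠ w) (hut : u ≠ t) (hvw : v ≠ w)
    (hvt : v ≠ t) (hwt : w ≠ t) : (swap u v * swap w t) * (swap u v * swap w t) = 1 := by
  have h := swap_swap_comm huv huw hut hvw hvt hwt
  calc (swap u v * swap w t) * (swap u v * swap w t)
      = swap u v * (swap w t * swap u v) * swap w t := by group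
    _ = swap u v * (swap u v * swap w t) * swap w t := by rw [h]
    _ = 1 := by
      rw [← mul_assoc, swap_mul_self, one_mul, swap_mul_self]

lemma pow_of_sq {π : Perm α} (h2 : π * π = 1) {p : ℕ} (hp : Odd p) : π ^ p = π := by
  obtain ⟨m, rfl⟩ := hp
  rw [pow_succ, pow_mul, pow_two, h2, one_pow, one_mul]

lemma comm_three {x y z w : α} (hxy : x ≠ y) (hxz : x ≠ z) (hxw : x ≠ w) (hyz : y ≠ z)
    (hyw : y ≠ w) (hzw : z ≠ w) :
    (swap x y * swap z y) * (swap x y * swap w y) * (swap x y * swap z y)⁻¹ *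
      (swap x y * swap w y)⁻¹ = swap x y * swap z w := by
  have h1 := hxy.symm
  have h2 := hxz.symm
  have h3 := hxw.symm
  have h4 := hyz.symm
  have h5 := hyw.symm
  have h6 := hzw.symm
  ext t
  simp only [mul_inv_rev, swap_inv, Perm.mul_apply, swap_apply_def]
  by_cases e1 : t = x
  · subst e1
    simp [*]
  by_cases e2 : t = y
  · subst e2
    simp [*]
  by_cases e3 : t = z
  · subst e3
    simp [*]
  by_cases e4 : t = w
  · subst e4
    simp [*]
  simp [*]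

lemma mul_two {a b d e f : α} (hab : a ≠ b) (had : a ≠ d) (hae : a ≠ e) (haf : a ≠ f)
    (hbd : b ≠ d) (hbe : b ≠ e) (hbf : b ≠ f) (hde : d ≠ e) (hdf : d ≠ f) (hef : e ≠ f) :
    (swap b e * swap a d) * (swap b f * swap a d) = swap e b * swap f b := by
  have h := swap_swap_comm (u := a) (v := d) (w := b) (t := f) had hab haf (Ne.symm hbd) hdf hbf
  calc (swap b e * swap a d) * (swap b f * swap a d)
      = swap b e * (swap a d * swap b f) * swap a d := by group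
    _ = swap b e * (swap b f * swap a d) * swap a d := by rw [h]
    _ = swap b e * swap b f := by
      rw [mul_assoc, mul_assoc, swap_mul_self, mul_one]
    _ = swap e b * swap f b := by
      rw [swap_comm b e, swap_comm b f]

lemma three_sq {x y z : α} (hxy : x ≠ y) (hxz : x ≠ z) (hyz : y ≠ z) :
    (swap x y * swap z y) * (swap x y * swap z y) = swap z y * swap x y := by
  have h1 := hxy.symm
  have h2 := hxz.symm
  have h4 := hyz.symm
  ext t
  simp only [Perm.mul_apply, swap_apply_def]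
  by_cases e1 : t = x
  · subst e1
    simp [*]
  by_cases e2 : t = y
  · subst e2
    simp [*]
  by_cases e3 : t = z
  · subst e3
    simp [*]
  simp [*]

lemma two_doubles {x₁ x₂ x₃ x₄ : α} (h12 : x₁ ≠ x₂) (h13 : x₁ ≠ x₃) (h14 : x₁ ≠ x₄) (h23 : x₂ ≠ x₃)
    (h24 : x₂ ≠ x₄) (h34 : x₃ ≠ x₄) :
    (swap x₁ x₂ * swap x₃ x₄) * (swap x₁ x₃ * swap x₂ x₄) = swap x₁ x₄ * swap x₂ x₃ := by
  have a1 := h12.symm
  have a2 := h13.symm
  have a3 := h14.symm
  have a4 := h23.symm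
  have a5 := h24.symm
  have a6 := h34.symm
  ext t
  simp only [Perm.mul_apply, swap_apply_def]
  by_cases e1 : t = x₁
  · subst e1
    simp [*]
  by_cases e2 : t = x₂
  · subst e2
    simp [*]
  by_cases e3 : t = x₃
  · subst e3
    simp [*]
  by_cases e4 : t = x₄
  · subst e4
    simp [*]
  simp [*]

/-- Lifting from Witt's lemma. -/
theorem lift_witt {p : ℕ} [Fact p.Prime] (G : Subgroup (Perm α)) {m : ℕ}
    (hG : IsMultiplyPretransitive G α m) (hm : m ≤ Fintype.card α) (F : Finset α)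
    (hF : F.card ≤ m) (P₀ : Sylow p ↥(G ⊓ fixG F)) (π : Perm α) (hπ : Pres F π) :
    ∃ n ∈ G, Nz ((P₀ : Subgroup ↥(G ⊓ fixG F)).map (G ⊓ fixG F).subtype) n ∧ Res F n π := by
  obtain ⟨g, hgG, hgπ⟩ := exists_extend G hG hm F hF π (fun a _ b _ h => π.injective h)
  have hgP : Pres F g := pres_of_res F g π hgπ hπ
  obtain ⟨h, hhH, hhw⟩ := witt (G ⊓ fixG F) P₀ g (by
    intro h
    constructor
    · intro hh
      refine ⟨G.mul_mem (G.mul_mem hgG hh.1) (G.inv_mem hgG), ?_⟩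
      intro d hd
      have h1 : g⁻¹ d ∈ F := (pres_inv F g hgP d).2 hd
      simp only [Perm.mul_apply]
      rw [hh.2 _ h1, aiv]
    · intro hh
      have hh1 : h ∈ G := by
        have := G.mul_mem (G.mul_mem (G.inv_mem hgG) hh.1) hgG
        have e : g⁻¹ * (g * h * g⁻¹) * g = h := by group
        rwa [e] at this
      refine ⟨hh1, ?_⟩
      intro d hd
      have h1 : g d ∈ F := (hgP d).2 hd
      have h2 := hh.2 _ h1
      simp only [Perm.mul_apply] at h2
      rw [iav] at h2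
      exact g.injective h2)
  refine ⟨h * g, G.mul_mem hhH.1 hgG, hhw, ?_⟩
  intro d hd
  simp only [Perm.mul_apply]
  rw [hgπ d hd]
  exact hhH.2 _ ((hπ d).2 hd)

section main

variable {p : ℕ} [hp : Fact p.Prime] {P : Subgroup (Perm α)} {Γ : Finset α}

theorem finish_double (S : Setup p P Γ) (G : Subgroup (Perm α))
    (hG4 : IsMultiplyPretransitive G α 4) (h5 : 5 ≤ Fintype.card α) (hodd : Odd p) {z : Perm α}
    (hzG : z ∈ G) (hz : z ∈ K₀ P Γ) (hcomm : ∀ v ∈ P, z * v = v * z) {u v w t : α}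
    (hu : u ∉ Γ) (hv : v ∉ Γ) (hw : w ∉ Γ) (ht : t ∉ Γ)
    (huv : u ≠ v) (huw : u ≠ w) (hut : u ≠ t) (hvw : v ≠ w) (hvt : v ≠ t) (hwt : w ≠ t)
    (hR : Res Γᶜ z (swap u v * swap w t)) : alternatingGroup α ≤ G := by
  have hPr : Pres Γᶜ (swap u v * swap w t) :=
    pres_mul _ (pres_swap _ (Finset.mem_compl.2 hu) (Finset.mem_compl.2 hv))
      (pres_swap _ (Finset.mem_compl.2 hw) (Finset.mem_compl.2 ht))
  have e : z ^ p = swap u v * swap w t := by
    ext y
    by_cases hy : y ∈ Γ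
    · rw [pow_fix_of_comm S hz.2 hcomm y hy]
      have h1 : y ≠ u := fun h => hu (h ▸ hy)
      have h2 : y ≠ v := fun h => hv (h ▸ hy)
      have h3 : y ≠ w := fun h => hw (h ▸ hy)
      have h4 : y ≠ t := fun h => ht (h ▸ hy)
      simp only [Perm.mul_apply]
      rw [swap_apply_of_ne_of_ne h3 h4, swap_apply_of_ne_of_ne h1 h2]
    · have := res_pow _ hR hPr p y (Finset.mem_compl.2 hy)
      rw [this, pow_of_sq (double_sq huv huw hut hvw hvt hwt) hodd]
  have hmem : swap u v * swap w t ∈ G := by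
    rw [← e]
    exact G.pow_mem hzG p
  exact alt_le_of_double G hG4 h5 huv huw hut hvw hvt hwt hmem

theorem three_to_double (S : Setup p P Γ) (G : Subgroup (Perm α))
    (hG4 : IsMultiplyPretransitive G α 4) (h5 : 5 ≤ Fintype.card α) (hodd : Odd p)
    (hlift : ∀ π, Pres Γᶜ π → ∃ n ∈ G, Nz P n ∧ Res Γᶜ n π) {n₁ : Perm α}
    (hG : n₁ ∈ G) (hK : n₁ ∈ K₀ P Γ) {x y z w : α}
    (hx : x ∉ Γ) (hy : y ∉ Γ) (hz : z ∉ Γ) (hw : w ∉ Γ)
    (hxy : x ≠ y) (hxz : x ≠ z) (hxw : x ≠ w) (hyz : y ≠ z) (hyw : y ≠ w) (hzw : z ≠ w)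
    (hR : Res Γᶜ n₁ (swap x y * swap z y)) : alternatingGroup α ≤ G := by
  have mx := Finset.mem_compl.2 hx
  have my := Finset.mem_compl.2 hy
  have mz := Finset.mem_compl.2 hz
  have mw := Finset.mem_compl.2 hw
  have hg : Pres Γᶜ (swap z w) := pres_swap _ mz mw
  have hA : Pres Γᶜ (swap x y * swap z y) := pres_mul _ (pres_swap _ mx my) (pres_swap _ mz my)
  have hB : Pres Γᶜ (swap x y * swap w y) := pres_mul _ (pres_swap _ mx my) (pres_swap _ mw my)
  obtain ⟨t, htG, htN, htR⟩ := hlift _ hg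
  have htP : Pres Γ t := S.pres_of_nz htN
  set n₂ := t * n₁ * t⁻¹ with hn₂
  have hn₂K : n₂ ∈ K₀ P Γ := K₀_conj hK htN htP
  have hn₂G : n₂ ∈ G := G.mul_mem (G.mul_mem htG hG) (G.inv_mem htG)
  have hn₂R : Res Γᶜ n₂ (swap x y * swap w y) := by
    have h1 := res_mul _ (res_mul _ htR hR hA) (res_inv _ htR hg) (pres_inv _ _ hg)
    have e : swap z w * (swap x y * swap z y) * (swap z w)⁻¹ = swap x y * swap w y := by
      have e0 : swap z w * (swap x y * swap z y) * (swap z w)⁻¹ =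
          (swap z w * swap x y * (swap z w)⁻¹) * (swap z w * swap z y * (swap z w)⁻¹) := by
        group
      rw [e0, conj_swap, conj_swap, swap_apply_left, swap_apply_of_ne_of_ne hxz hxw,
        swap_apply_of_ne_of_ne hyz.symm.symm hyw]
    rwa [e] at h1
  set c := n₁ * n₂ * n₁⁻¹ * n₂⁻¹ with hc
  have hcK : c ∈ K₀ P Γ := (K₀ P Γ).mul_mem ((K₀ P Γ).mul_mem ((K₀ P Γ).mul_mem hK hn₂K)
    ((K₀ P Γ).inv_mem hK)) ((K₀ P Γ).inv_mem hn₂K)
  have hcG : c ∈ G := G.mul_mem (G.mul_mem (G.mul_mem hG hn₂G) (G.inv_mem hG)) (G.inv_mem hn₂G)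
  have hcR : Res Γᶜ c (swap x y * swap z w) := by
    have h1 := res_mul _ (res_mul _ (res_mul _ hR hn₂R hB) (res_inv _ hR hA) (pres_inv _ _ hA))
      (res_inv _ hn₂R hB) (pres_inv _ _ hB)
    rwa [comm_three hxy hxz hxw hyz hyw hzw] at h1
  exact finish_double S G hG4 h5 hodd hcG hcK (comm_of_K₀ S hK hn₂K) hx hy hz hw hxy hxz hxw hyz
    hyw hzw hcR

/-- An element of `K₀` moving a point outside `Γ`. -/
theorem exists_moved_K₀ (S : Setup p P Γ) (G : Subgroup (Perm α))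
    (hlift : ∀ π, Pres Γᶜ π → ∃ n ∈ G, Nz P n ∧ Res Γᶜ n π) (hk : 0 < (orbs P Γ).card)
    (hkr : (orbs P Γ).card < Γᶜ.card) :
    ∃ n ∈ G, n ∈ K₀ P Γ ∧ ∃ d, d ∉ Γ ∧ n d ≠ d := by
  classical
  by_contra hcon
  push Not at hcon
  obtain ⟨ν, hν⟩ := exists_nu S
  have hpres : ∀ σ : Perm ↥Γᶜ, Pres Γᶜ (ofSubtype σ : Perm α) := by
    intro σ d
    by_cases hd : d ∈ Γᶜ
    · rw [ofSubtype_apply_of_mem σ hd]
      simp [hd]
    · rw [ofSubtype_apply_of_not_mem σ hd]
  choose f hfG hfN hfR using fun σ : Perm ↥Γᶜ => hlift _ (hpres σ)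
  let Φ : Perm ↥Γᶜ → Perm (orbs P Γ) := fun σ => ν ⟨f σ, mem_of_nz (hfN σ)⟩
  have hΦ : Function.Injective Φ := by
    intro σ τ h
    have h1 : ν ((⟨f σ, mem_of_nz (hfN σ)⟩ : Subgroup.normalizer (P : Set (Perm α)))⁻¹ *
        ⟨f τ, mem_of_nz (hfN τ)⟩) = 1 := by
      rw [map_mul, map_inv]
      change (Φ σ)⁻¹ * Φ τ = 1
      rw [h, inv_mul_cancel]
    have h2 := K₀_of_nu_eq_one S hν h1
    have h3 : (f σ)⁻¹ * f τ ∈ G := G.mul_mem (G.inv_mem (hfG σ)) (hfG τ)
    have h4 := hcon _ h3 h2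
    ext d
    have hd : (d : α) ∉ Γ := Finset.mem_compl.mp d.2
    have h5 := h4 d hd
    simp only [Perm.mul_apply] at h5
    have h6 : f τ d = f σ d := by
      have := congrArg (f σ) h5
      rwa [aiv] at this
    rw [hfR σ d d.2, hfR τ d d.2, ofSubtype_apply_coe, ofSubtype_apply_coe] at h6
    exact (Subtype.ext h6).symm ▸ rfl
  have h1 := Fintype.card_le_of_injective Φ hΦ
  rw [Fintype.card_perm, Fintype.card_perm, Fintype.card_coe, Fintype.card_coe] at h1
  have h2 := (Nat.factorial_lt hk).2 hkr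
  omega

lemma sq_mem_K₀ (S : Setup p P Γ) (h2 : (orbs P Γ).card ≤ 2) {t : Perm α} (ht : Nz P t) :
    t * t ∈ K₀ P Γ := by
  obtain ⟨ν, hν⟩ := exists_nu S
  have h1 : ν ⟨t * t, mem_of_nz (ht.mul ht)⟩ = 1 := by
    have e : (⟨t * t, mem_of_nz (ht.mul ht)⟩ : Subgroup.normalizer (P : Set (Perm α))) =
        ⟨t, mem_of_nz ht⟩ * ⟨t, mem_of_nz ht⟩ := rfl
    rw [e, map_mul, ← pow_two]
    apply orderOf_dvd_iff_pow_eq_one.mp
    refine (orderOf_dvd_natCard _).trans ?_
    rw [Nat.card_perm, Nat.card_eq_fintype_card, Fintype.card_coe]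
    calc (orbs P Γ).card.factorial ∣ Nat.factorial 2 := Nat.factorial_dvd_factorial h2
      _ = 2 := rfl
  exact K₀_of_nu_eq_one S hν h1

/-- With two orbits and no `p`-cycle, `P` is cyclic. -/
theorem cyclic_of_two_orbits (S : Setup p P Γ)
    (hno : ∀ v ∈ P, v.IsCycle → v.support.card ≠ p) (h2 : (orbs P Γ).card ≤ 2) {γ₁ : α}
    (hγ₁ : γ₁ ∈ Γ) : ∃ x, P = Subgroup.zpowers x := by
  classical
  obtain ⟨x, hx, hmv⟩ := S.exists_moved hγ₁
  refine ⟨x, le_antisymm ?_ (Subgroup.zpowers_le.mpr hx)⟩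
  intro v hv
  obtain ⟨s, hs⟩ := orbit_power P S.pg γ₁ (S.orb γ₁ hγ₁) x hx γ₁ (mem_orbit_self γ₁) hmv v hv
  have hw : (x ^ s)⁻¹ * v = 1 := by
    by_contra hne
    obtain ⟨y₂, hy₂⟩ : ∃ y, ((x ^ s)⁻¹ * v) y ≠ y := by
      by_contra hno'
      push Not at hno'
      exact hne (Equiv.ext hno')
    have hwP : (x ^ s)⁻¹ * v ∈ P := P.mul_mem (P.inv_mem (P.pow_mem hx s)) hv
    have hy₂Γ : y₂ ∈ Γ := (S.mem_iff y₂).2 ⟨_, hwP, hy₂⟩
    have htriv : ∀ y ∈ orbit P γ₁, ((x ^ s)⁻¹ * v) y = y := by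
      intro y hy
      simp only [Perm.mul_apply]
      rw [hs y hy, iav]
    have hO₁ : orbit P γ₁ ∈ orbs P Γ := mem_orbs.2 ⟨γ₁, hγ₁, rfl⟩
    have hO₂ : orbit P y₂ ∈ orbs P Γ := mem_orbs.2 ⟨y₂, hy₂Γ, rfl⟩
    have hne12 : orbit P γ₁ ≠ orbit P y₂ := by
      intro e
      apply hy₂
      apply htriv
      rw [e]
      exact mem_orbit_self y₂
    have hsub : ({orbit P γ₁, orbit P y₂} : Finset (Set α)) ⊆ orbs P Γ := by
      intro z hz
      simp only [Finset.mem_insert, Finset.mem_singleton] at hz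
      rcases hz with rfl | rfl <;> assumption
    have heq : ({orbit P γ₁, orbit P y₂} : Finset (Set α)) = orbs P Γ :=
      Finset.eq_of_subset_of_card_le hsub (by rwa [Finset.card_pair hne12])
    obtain ⟨hc, hcard⟩ := pcycle_of_single S hwP hO₂ ⟨y₂, mem_orbit_self y₂, hy₂⟩ (by
      intro O hO hne'
      rw [← heq] at hO
      simp only [Finset.mem_insert, Finset.mem_singleton] at hO
      rcases hO with rfl | rfl
      · exact htriv
      · exact absurd rfl hne')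
    exact hno _ hwP hc hcard
  have : v = x ^ s := by
    have h1 := congrArg (fun f => x ^ s * f) hw
    simpa using h1
  rw [this]
  exact Subgroup.npow_mem_zpowers x s

end main

end Cfsg.Agent.Lib.Struct.Mult
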