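import Cfsg.Agent.Lib.Struct.MultF

/-! Final assembly: `(r+1)`-transitive groups of degree `kp + r`. -/

set_option autoImplicit false

open Equiv Equiv.Perm MulAction

namespace Cfsg.Agent.Lib.Struct.Mult

variable {α : Type*} [Fintype α] [DecidableEq α]

section main

variable {p : ℕ} [hp : Fact p.Prime] {P : Subgroup (Perm α)} {Γ : Finset α}

/-- The case `r = 3`, `k = 2`, `p ≠ 3`, no `p`-cycle. -/
theorem case_r3 (S : Setup p P Γ) (G : Subgroup (Perm α))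
    (hG4 : IsMultiplyPretransitive G α 4) (h8 : 8 ≤ Fintype.card α)
    (hlift : ∀ π, Pres Γᶜ π → ∃ n ∈ G, Nz P n ∧ Res Γᶜ n π)
    (hno : ∀ v ∈ P, v.IsCycle → v.support.card ≠ p) (h2 : (orbs P Γ).card ≤ 2) {γ₁ : α}
    (hγ₁ : γ₁ ∈ Γ) (hr : Γᶜ.card = 3) (hp3 : p ≠ 3) : alternatingGroup α ≤ G := by
  obtain ⟨x, hPx⟩ := cyclic_of_two_orbits S hno h2 hγ₁
  haveI hcyc : IsCyclic P := by
    rw [hPx]
    infer_instance
  obtain ⟨a, b, c, hab, hac, hbc, hΔ⟩ := Finset.card_eq_three.mp hr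
  have ma : a ∈ Γᶜ := by simp [hΔ]
  have mb : b ∈ Γᶜ := by simp [hΔ]
  have mc : c ∈ Γᶜ := by simp [hΔ]
  have hπ₁ : Pres Γᶜ (swap a b) := pres_swap _ ma mb
  have hπ₂ : Pres Γᶜ (swap a c) := pres_swap _ ma mc
  obtain ⟨n₁, hn₁G, hn₁N, hn₁⟩ := hlift _ hπ₁
  obtain ⟨n₂, hn₂G, hn₂N, hn₂⟩ := hlift _ hπ₂
  set c₀ := n₁ * n₂ * n₁⁻¹ * n₂⁻¹ with hc₀
  have hcomm : ∀ v ∈ P, c₀ * v = v * c₀ := comm_of_cyclic P n₁ n₂ hn₁N hn₂N
  have hc₀N : Nz P c₀ := ((hn₁N.mul hn₂N).mul hn₁N.inv').mul hn₂N.inv'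
  have hc₀G : c₀ ∈ G :=
    G.mul_mem (G.mul_mem (G.mul_mem hn₁G hn₂G) (G.inv_mem hn₁G)) (G.inv_mem hn₂G)
  set ρ := swap a b * swap a c * (swap a b)⁻¹ * (swap a c)⁻¹ with hρ
  have hρ3 : ρ.IsThreeCycle := by
    have e : ρ = (swap a b * swap a c) * (swap a b * swap a c) := by
      rw [hρ, swap_inv, swap_inv]
      group
    rw [e]
    exact (isThreeCycle_swap_mul_swap_same hab hac hbc).isThreeCycle_sq
  have hρP : Pres Γᶜ ρ := pres_mul _ (pres_mul _ (pres_mul _ hπ₁ hπ₂) (pres_inv _ _ hπ₁))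
    (pres_inv _ _ hπ₂)
  have hc₀ρ : Res Γᶜ c₀ ρ :=
    res_mul _ (res_mul _ (res_mul _ hn₁ hn₂ hπ₂) (res_inv _ hn₁ hπ₁) (pres_inv _ _ hπ₁))
      (res_inv _ hn₂ hπ₂) (pres_inv _ _ hπ₂)
  set d := c₀ * c₀ with hd
  have hdK : d ∈ K₀ P Γ := sq_mem_K₀ S h2 hc₀N
  have hdcomm : ∀ v ∈ P, d * v = v * d := by
    intro v hv
    rw [hd, mul_assoc, hcomm v hv, ← mul_assoc, hcomm v hv, mul_assoc]
  have hfix := pow_fix_of_comm S hdK.2 hdcomm
  set e := d ^ p with he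
  have heG : e ∈ G := G.pow_mem (G.mul_mem hc₀G hc₀G) p
  have heR : Res Γᶜ e ((ρ * ρ) ^ p) :=
    res_pow _ (res_mul _ hc₀ρ hc₀ρ hρP) (pres_mul _ hρP hρP) p
  have hρfix : ∀ y ∈ Γ, ρ y = y := by
    intro y hy
    have h1 : y ≠ a := fun h => (Finset.mem_compl.mp ma) (h ▸ hy)
    have h2 : y ≠ b := fun h => (Finset.mem_compl.mp mb) (h ▸ hy)
    have h3 : y ≠ c := fun h => (Finset.mem_compl.mp mc) (h ▸ hy)
    rw [hρ, swap_inv, swap_inv]
    simp only [Perm.mul_apply]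
    rw [swap_apply_of_ne_of_ne h1 h3, swap_apply_of_ne_of_ne h1 h2,
      swap_apply_of_ne_of_ne h1 h3, swap_apply_of_ne_of_ne h1 h2]
  have hene : e ≠ 1 := by
    intro he1
    have h1 : (ρ * ρ) ^ p = 1 := by
      ext y
      by_cases hy : y ∈ Γ
      · have h4 : (ρ * ρ) y = y := by
          simp only [Perm.mul_apply]
          rw [hρfix y hy, hρfix y hy]
        have h5 : ∀ k : ℕ, ((ρ * ρ) ^ k) y = y := by
          intro k
          induction k with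
          | zero => simp
          | succ k ih =>
            rw [pow_succ]
            simp only [Perm.mul_apply] at h4 ⊢
            rw [h4]
            simpa using ih
        exact h5 p
      · have := heR y (Finset.mem_compl.2 hy)
        rw [he1] at this
        exact this.symm
    have h3 : orderOf ρ ∣ 2 * p := by
      apply orderOf_dvd_of_pow_eq_one
      rw [pow_mul, pow_two]
      exact h1
    rw [hρ3.orderOf] at h3
    have h4 := (Nat.Prime.dvd_mul Nat.prime_three).mp h3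
    rcases h4 with h4 | h4
    · omega
    · exact hp3 ((Nat.prime_dvd_prime_iff_eq Nat.prime_three hp.out).mp h4).symm
  have hsupp : e.support ⊆ Γᶜ := by
    intro y hy
    rw [Finset.mem_compl]
    intro hyΓ
    exact (mem_support.mp hy) (hfix y hyΓ)
  exact alt_le_of_small_support G hG4 h8 e heG hene (by
    have := Finset.card_le_card hsupp
    omega)

/-- The case `r ≥ 4`, `k ≥ 2`, no `p`-cycle. -/
theorem case_r4 (S : Setup p P Γ) (G : Subgroup (Perm α))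
    (hG4 : IsMultiplyPretransitive G α 4) (h5 : 5 ≤ Fintype.card α) (hodd : Odd p)
    (hlift : ∀ π, Pres Γᶜ π → ∃ n ∈ G, Nz P n ∧ Res Γᶜ n π)
    (hno : ∀ v ∈ P, v.IsCycle → v.support.card ≠ p) (hk0 : 0 < (orbs P Γ).card)
    (hkr : (orbs P Γ).card < Γᶜ.card) (hr : 4 ≤ Γᶜ.card) {γ₁ : α} (hγ₁ : γ₁ ∈ Γ) :
    alternatingGroup α ≤ G := by
  classical
  obtain ⟨n₀, hn₀G, hn₀K, a, ha, hmv⟩ := exists_moved_K₀ S G hlift hk0 hkr
  have hn₀P : Pres Γ n₀ := S.pres_of_nz hn₀K.1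
  have hn₀P' : Pres Γᶜ n₀ := pres_compl hn₀P
  set b := n₀ a with hb
  have mb : b ∉ Γ := fun h => ha ((hn₀P a).1 h)
  have hex : ∀ T : Finset α, T.card < Γᶜ.card → ∃ d, d ∉ Γ ∧ d ∉ T := by
    intro T hT
    obtain ⟨d, hd, hd'⟩ := Finset.exists_mem_notMem_of_card_lt_card hT
    exact ⟨d, Finset.mem_compl.mp hd, hd'⟩
  obtain ⟨d, md, hd⟩ := hex {a, b, n₀⁻¹ a} (lt_of_le_of_lt Finset.card_le_three (by omega))
  simp only [Finset.mem_insert, Finset.mem_singleton, not_or] at hd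
  obtain ⟨hda, hdb, hdi⟩ := hd
  have hπ : Pres Γᶜ (swap a d) := pres_swap _ (Finset.mem_compl.2 ha) (Finset.mem_compl.2 md)
  obtain ⟨t, htG, htN, htR⟩ := hlift _ hπ
  have htP : Pres Γ t := S.pres_of_nz htN
  have hres0 : Res Γᶜ n₀ n₀ := fun _ _ => rfl
  set n₁ := n₀ * t * n₀⁻¹ * t⁻¹ with hn₁
  have hn₁K : n₁ ∈ K₀ P Γ := by
    have h1 : t * n₀⁻¹ * t⁻¹ ∈ K₀ P Γ := K₀_conj ((K₀ P Γ).inv_mem hn₀K) htN htP
    have e : n₁ = n₀ * (t * n₀⁻¹ * t⁻¹) := by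
      rw [hn₁]
      group
    rw [e]
    exact (K₀ P Γ).mul_mem hn₀K h1
  have hn₁G : n₁ ∈ G := G.mul_mem (G.mul_mem (G.mul_mem hn₀G htG) (G.inv_mem hn₀G)) (G.inv_mem htG)
  set e' := n₀ d with he'
  have me' : e' ∉ Γ := fun h => md ((hn₀P d).1 h)
  have hae' : a ≠ e' := by
    intro h
    apply hdi
    rw [he'] at h
    rw [h, iav]
  have hbe' : b ≠ e' := fun h => hda (n₀.injective h).symm
  have hn₁R : Res Γᶜ n₁ (swap b e' * swap a d) := by
    have h1 := res_mul _ (res_mul _ (res_mul _ hres0 htR hπ) (res_inv _ hres0 hn₀P')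
      (pres_inv _ _ hn₀P')) (res_inv _ htR hπ) (pres_inv _ _ hπ)
    rwa [conj_swap, swap_inv] at h1
  have hab : a ≠ b := Ne.symm hmv
  by_cases hed : e' = d
  · -- a three-cycle
    rw [hed] at hn₁R
    obtain ⟨w, mw, hw⟩ := hex {a, b, d} (lt_of_le_of_lt Finset.card_le_three (by omega))
    simp only [Finset.mem_insert, Finset.mem_singleton, not_or] at hw
    obtain ⟨hwa, hwb, hwd⟩ := hw
    exact three_to_double S G hG4 h5 hodd hlift hn₁G hn₁K (x := b) (y := d) (z := a) (w := w) mb md ha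
      mw (Ne.symm hdb) hab.symm (Ne.symm hwb) hda (Ne.symm hwd) (Ne.symm hwa) hn₁R
  -- a double transposition
  have hde' : d ≠ e' := Ne.symm hed
  by_cases hr5 : 5 ≤ Γᶜ.card
  · obtain ⟨f, mf, hf⟩ := hex {a, b, d, e'} (lt_of_le_of_lt Finset.card_le_four (by omega))
    simp only [Finset.mem_insert, Finset.mem_singleton, not_or] at hf
    obtain ⟨hfa, hfb, hfd, hfe⟩ := hf
    have hπ' : Pres Γᶜ (swap e' f) := pres_swap _ (Finset.mem_compl.2 me') (Finset.mem_compl.2 mf)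
    have hD : Pres Γᶜ (swap b e' * swap a d) :=
      pres_mul _ (pres_swap _ (Finset.mem_compl.2 mb) (Finset.mem_compl.2 me'))
        (pres_swap _ (Finset.mem_compl.2 ha) (Finset.mem_compl.2 md))
    obtain ⟨t', ht'G, ht'N, ht'R⟩ := hlift _ hπ'
    have ht'P : Pres Γ t' := S.pres_of_nz ht'N
    set n₂ := t' * n₁ * t'⁻¹ with hn₂
    have hn₂K : n₂ ∈ K₀ P Γ := K₀_conj hn₁K ht'N ht'P
    have hn₂G : n₂ ∈ G := G.mul_mem (G.mul_mem ht'G hn₁G) (G.inv_mem ht'G)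
    have hn₂R : Res Γᶜ n₂ (swap b f * swap a d) := by
      have h1 := res_mul _ (res_mul _ ht'R hn₁R hD) (res_inv _ ht'R hπ') (pres_inv _ _ hπ')
      have e : swap e' f * (swap b e' * swap a d) * (swap e' f)⁻¹ = swap b f * swap a d := by
        have e0 : swap e' f * (swap b e' * swap a d) * (swap e' f)⁻¹ =
            (swap e' f * swap b e' * (swap e' f)⁻¹) * (swap e' f * swap a d * (swap e' f)⁻¹) := by
          group
        rw [e0, conj_swap, conj_swap, swap_apply_left, swap_apply_of_ne_of_ne hbe' (Ne.symm hfb),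
          swap_apply_of_ne_of_ne hae' (Ne.symm hfa), swap_apply_of_ne_of_ne hde' (Ne.symm hfd)]
      rwa [e] at h1
    have hn₃R := res_mul _ hn₁R hn₂R (pres_mul _ (pres_swap _ (Finset.mem_compl.2 mb)
      (Finset.mem_compl.2 mf)) (pres_swap _ (Finset.mem_compl.2 ha) (Finset.mem_compl.2 md)))
    rw [mul_two hab (Ne.symm hda) hae' (Ne.symm hfa) (Ne.symm hdb) hbe' (Ne.symm hfb) hde'
      (Ne.symm hfd) (Ne.symm hfe)] at hn₃R
    exact three_to_double S G hG4 h5 hodd hlift (G.mul_mem hn₁G hn₂G) ((K₀ P Γ).mul_mem hn₁K hn₂K)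
      (x := e') (y := b) (z := f) (w := a) me' mb mf ha (Ne.symm hbe') (Ne.symm hfe) (Ne.symm hae')
      (Ne.symm hfb) hab.symm hfa hn₃R
  have hr4 : Γᶜ.card = 4 := by omega
  by_cases hk2 : (orbs P Γ).card ≤ 2
  · have hρ : Pres Γᶜ (swap b d * swap a d) :=
      pres_mul _ (pres_swap _ (Finset.mem_compl.2 mb) (Finset.mem_compl.2 md))
        (pres_swap _ (Finset.mem_compl.2 ha) (Finset.mem_compl.2 md))
    obtain ⟨τ, hτG, hτN, hτR⟩ := hlift _ hρ
    have hτ2 : τ * τ ∈ K₀ P Γ := sq_mem_K₀ S hk2 hτN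
    have hτ2R := res_mul _ hτR hτR hρ
    rw [three_sq (Ne.symm hdb) hab.symm hda] at hτ2R
    exact three_to_double S G hG4 h5 hodd hlift (G.mul_mem hτG hτG) hτ2 (x := a) (y := d) (z := b)
      (w := e') ha md mb me' (Ne.symm hda) hab hae' hdb hde' hbe' hτ2R
  -- the scalar case: exactly three orbits
  have hk3 : (orbs P Γ).card ≤ 3 := by omega
  have hπ' : Pres Γᶜ (swap e' a) := pres_swap _ (Finset.mem_compl.2 me') (Finset.mem_compl.2 ha)
  have hD : Pres Γᶜ (swap b e' * swap a d) :=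
    pres_mul _ (pres_swap _ (Finset.mem_compl.2 mb) (Finset.mem_compl.2 me'))
      (pres_swap _ (Finset.mem_compl.2 ha) (Finset.mem_compl.2 md))
  obtain ⟨t', ht'G, ht'N, ht'R⟩ := hlift _ hπ'
  have ht'P : Pres Γ t' := S.pres_of_nz ht'N
  set n₂ := t' * n₁ * t'⁻¹ with hn₂
  have hn₂K : n₂ ∈ K₀ P Γ := K₀_conj hn₁K ht'N ht'P
  have hn₂G : n₂ ∈ G := G.mul_mem (G.mul_mem ht'G hn₁G) (G.inv_mem ht'G)
  have hbd : b ≠ d := Ne.symm hdb
  have had : a ≠ d := Ne.symm hda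
  have hn₂R : Res Γᶜ n₂ (swap b a * swap e' d) := by
    have h1 := res_mul _ (res_mul _ ht'R hn₁R hD) (res_inv _ ht'R hπ') (pres_inv _ _ hπ')
    have e : swap e' a * (swap b e' * swap a d) * (swap e' a)⁻¹ = swap b a * swap e' d := by
      have e0 : swap e' a * (swap b e' * swap a d) * (swap e' a)⁻¹ =
          (swap e' a * swap b e' * (swap e' a)⁻¹) * (swap e' a * swap a d * (swap e' a)⁻¹) := by
        group
      rw [e0, conj_swap, conj_swap, swap_apply_left, swap_apply_right,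
        swap_apply_of_ne_of_ne hbe' hab.symm, swap_apply_of_ne_of_ne hde' (Ne.symm had)]
    rwa [e] at h1
  -- the multipliers
  obtain ⟨s₁, hs₁⟩ := exists_mult S hn₁K
  obtain ⟨s₂, hs₂⟩ := exists_mult S hn₂K
  have hsc₁ := scalar_of_no_cycle S hno hk3 hn₁K s₁ hs₁
  have hsc₂ := scalar_of_no_cycle S hno hk3 hn₂K s₂ hs₂
  have hO₁ : orbit P γ₁ ∈ orbs P Γ := mem_orbs.2 ⟨γ₁, hγ₁, rfl⟩
  have hnd₁ := mult_not_dvd S hn₁K hO₁ (hs₁ _ hO₁)
  have hnd₂ := mult_not_dvd S hn₂K hO₁ (hs₂ _ hO₁)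
  let u₁ : (ZMod p)ˣ := Units.mk0 ((s₁ (orbit P γ₁) : ℕ) : ZMod p)
    (by rwa [Ne, ZMod.natCast_eq_zero_iff])
  let u₂ : (ZMod p)ˣ := Units.mk0 ((s₂ (orbit P γ₁) : ℕ) : ZMod p)
    (by rwa [Ne, ZMod.natCast_eq_zero_iff])
  obtain ⟨A, B, hAB, hrel⟩ := exists_parity u₁ u₂
  have hrel' : (s₁ (orbit P γ₁)) ^ A * (s₂ (orbit P γ₁)) ^ B ≡ 1 [MOD p] := by
    rw [← ZMod.natCast_eq_natCast_iff]
    have := congrArg Units.val hrel
    simpa [u₁, u₂] using this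
  set z := n₁ ^ A * n₂ ^ B with hz
  have hzK : z ∈ K₀ P Γ := (K₀ P Γ).mul_mem ((K₀ P Γ).pow_mem hn₁K A) ((K₀ P Γ).pow_mem hn₂K B)
  have hzG : z ∈ G := G.mul_mem (G.pow_mem hn₁G A) (G.pow_mem hn₂G B)
  have hzm : ∀ O ∈ orbs P Γ, MulOn P O z ((s₁ O) ^ A * (s₂ O) ^ B) := fun O hO =>
    mulOn_mul (mulOn_pow (hs₁ O hO) hn₁K.1 A) (mulOn_pow (hs₂ O hO) hn₂K.1 B) (hn₂K.1.pow B)
  have hzc : ∀ v ∈ P, z * v = v * z := by
    apply comm_of_mult_one S hzK _ hzm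
    intro O hO
    refine Nat.ModEq.trans ?_ hrel'
    exact Nat.ModEq.mul ((hsc₁ O hO _ hO₁).pow A) ((hsc₂ O hO _ hO₁).pow B)
  -- the action on `Δ`
  have mb' := Finset.mem_compl.2 mb
  have me'' := Finset.mem_compl.2 me'
  have ma' := Finset.mem_compl.2 ha
  have md' := Finset.mem_compl.2 md
  have hπ₁P : Pres Γᶜ (swap b e' * swap a d) := hD
  have hπ₂P : Pres Γᶜ (swap b a * swap e' d) :=
    pres_mul _ (pres_swap _ mb' ma') (pres_swap _ me'' md')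
  have hzR : Res Γᶜ z ((swap b e' * swap a d) ^ A * (swap b a * swap e' d) ^ B) :=
    res_mul _ (res_pow _ hn₁R hπ₁P A) (res_pow _ hn₂R hπ₂P B) (pres_pow _ hπ₂P B)
  have hsq₁ := double_sq hbe' hab.symm hbd hae'.symm hde'.symm had
  have hsq₂ := double_sq hab.symm hbe' hbd hae' had hde'.symm
  have hpow₁ : ∀ m : ℕ, Even m → (swap b e' * swap a d) ^ m = 1 := by
    rintro m ⟨c, rfl⟩
    rw [← two_mul, pow_mul, pow_two, hsq₁, one_pow]
  have hpow₂ : ∀ m : ℕ, Even m → (swap b a * swap e' d) ^ m = 1 := by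
    rintro m ⟨c, rfl⟩
    rw [← two_mul, pow_mul, pow_two, hsq₂, one_pow]
  by_cases hA : Odd A
  · rw [pow_of_sq hsq₁ hA] at hzR
    by_cases hB : Odd B
    · rw [pow_of_sq hsq₂ hB] at hzR
      -- here `x₁ = b, x₂ = e', x₃ = a, x₄ = d`
      have e2 := two_doubles hbe' hab.symm hbd hae'.symm hde'.symm had
      rw [e2] at hzR
      exact finish_double S G hG4 h5 hodd hzG hzK hzc mb md me' ha hbd hbe' hab.symm hde'
        hda hae'.symm hzR
    · rw [Nat.not_odd_iff_even] at hB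
      rw [hpow₂ B hB, mul_one] at hzR
      exact finish_double S G hG4 h5 hodd hzG hzK hzc mb me' ha md hbe' hab.symm hbd hae'.symm
        hde'.symm had hzR
  · rw [Nat.not_odd_iff_even] at hA
    have hB : Odd B := hAB.resolve_left (by rwa [Nat.not_odd_iff_even])
    rw [hpow₁ A hA, one_mul, pow_of_sq hsq₂ hB] at hzR
    exact finish_double S G hG4 h5 hodd hzG hzK hzc mb ha me' md hab.symm hbe' hbd hae' had
      hde'.symm hzR

end main

end Cfsg.Agent.Lib.Struct.Mult
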