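import Mathlib

/-!
Fixed point free modules in varying characteristic: if a finite group has a nonzero module in
some coprime characteristic on which the norm elements of the prime order subgroups vanish, then
it has one in every characteristic. (Lifting idempotents to `ZMod (p ^ N)[G]`, and a bridge through
`ℤ[G]`.)
-/

set_option autoImplicit false
set_option linter.unusedSectionVars false

namespace Cfsg.Agent.Lib.Struct.PF

open MonoidAlgebra

variable {G : Type} [Group G]

/-- The norm element of the cyclic subgroup generated by `c`. -/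
noncomputable def sig (R : Type) [CommRing R] (c : G) : MonoidAlgebra R G :=
  ∑ k ∈ Finset.range (orderOf c), MonoidAlgebra.of R G (c ^ k)

/-- The generators of the norm ideal. -/
def normGens (R : Type) [CommRing R] (G : Type) [Group G] : Set (MonoidAlgebra R G) :=
  {x | ∃ c : G, (orderOf c).Prime ∧ ∃ b : G, x = sig R c * MonoidAlgebra.of R G b}

/-- The norm ideal, as a left ideal. -/
noncomputable def normIdeal (R : Type) [CommRing R] (G : Type) [Group G] :
    Submodule (MonoidAlgebra R G) (MonoidAlgebra R G) :=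
  Submodule.span (MonoidAlgebra R G) (normGens R G)

section generic

variable {R S : Type} [CommRing R] [CommRing S]

lemma map_sig (f : R →+* S) (c : G) : mapRingHom G f (sig R c) = sig S c := by
  simp [sig, map_sum, MonoidAlgebra.of, mapRingHom_single]

lemma map_of (f : R →+* S) (b : G) :
    mapRingHom G f (MonoidAlgebra.of R G b) = MonoidAlgebra.of S G b := by
  simp [MonoidAlgebra.of, mapRingHom_single]

lemma of_mul_sig [Finite G] (c : G) :
    MonoidAlgebra.of R G c * sig R c = sig R c := by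
  have h0 : orderOf c ≠ 0 := (orderOf_pos c).ne'
  unfold sig
  rw [Finset.mul_sum]
  have h1 : ∀ k, MonoidAlgebra.of R G c * MonoidAlgebra.of R G (c ^ k) =
      MonoidAlgebra.of R G (c ^ (k + 1)) := by
    intro k
    rw [← map_mul, pow_succ']
  simp only [h1]
  have h2 := Finset.sum_range_succ (fun k => MonoidAlgebra.of R G (c ^ k)) (orderOf c)
  have h3 := Finset.sum_range_succ' (fun k => MonoidAlgebra.of R G (c ^ k)) (orderOf c)
  rw [h2] at h3
  simp only [pow_orderOf_eq_one, pow_zero] at h3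
  exact (add_right_cancel h3).symm

lemma pow_of_mul_sig [Finite G] (c : G) (j : ℕ) :
    MonoidAlgebra.of R G (c ^ j) * sig R c = sig R c := by
  induction j with
  | zero => rw [pow_zero, map_one, one_mul]
  | succ j ih =>
    rw [pow_succ, map_mul, mul_assoc, of_mul_sig, ih]

lemma sig_mul_sig [Finite G] (c : G) :
    sig R c * sig R c = (orderOf c : R) • sig R c := by
  conv_lhs => enter [1]; unfold sig
  rw [Finset.sum_mul]
  simp only [pow_of_mul_sig]
  rw [Finset.sum_const, Finset.card_range, Nat.cast_smul_eq_nsmul]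

lemma map_surj (f : R →+* S) (hf : Function.Surjective f) :
    Function.Surjective (mapRingHom G f) := by
  intro y
  induction y using MonoidAlgebra.induction_linear with
  | zero => exact ⟨0, map_zero _⟩
  | add a b ha hb =>
    obtain ⟨a', rfl⟩ := ha
    obtain ⟨b', rfl⟩ := hb
    exact ⟨a' + b', map_add _ _ _⟩
  | single g s =>
    obtain ⟨r, rfl⟩ := hf s
    exact ⟨single g r, by simp [mapRingHom_single]⟩

lemma map_ker_smul [Finite G] (f : R →+* S) (m : R) (hm : ∀ a, f a = 0 → ∃ t, a = m * t)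
    (x : MonoidAlgebra R G) (hx : mapRingHom G f x = 0) : ∃ y : MonoidAlgebra R G, x = m • y := by
  classical
  have h1 : ∀ g, ∃ t, x.coeff g = m * t := by
    intro g
    apply hm
    have := congrArg (fun z => MonoidAlgebra.coeff z g) hx
    simpa using this
  choose t ht using h1
  letI := Fintype.ofFinite G
  refine ⟨MonoidAlgebra.ofCoeff (Finsupp.equivFunOnFinite.symm t), ?_⟩
  ext g
  simp [ht g]

end generic

section lift

variable {p : ℕ} [hpf : Fact p.Prime]

/-- Step 1: a good idempotent of `ZMod p [G]`. -/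
theorem pf_idem [Finite G] (hp : ¬ p ∣ Nat.card G)
    {V : Type} [AddCommGroup V] [Module (ZMod p) V] [Nontrivial V]
    (ρ : G →* Module.End (ZMod p) V)
    (hσ : ∀ c : G, (orderOf c).Prime →
      MonoidAlgebra.lift (ZMod p) (Module.End (ZMod p) V) G ρ (sig (ZMod p) c) = 0) :
    ∃ e : MonoidAlgebra (ZMod p) G, e ≠ 0 ∧ IsIdempotentElem e ∧
      ∀ c : G, (orderOf c).Prime → ∀ x, sig (ZMod p) c * x * e = 0 := by
  classical
  haveI : NeZero (Nat.card G : ZMod p) := ⟨by
    intro h
    exact hp ((ZMod.natCast_eq_zero_iff _ _).mp h)⟩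
  obtain ⟨v, hv⟩ := exists_ne (0 : V)
  set ρ' := MonoidAlgebra.lift (ZMod p) (Module.End (ZMod p) V) G ρ with hρ'
  let K : Submodule (MonoidAlgebra (ZMod p) G) (MonoidAlgebra (ZMod p) G) :=
    { carrier := {x | ρ' x v = 0}
      add_mem' := by
        intro a b ha hb
        simp only [Set.mem_setOf_eq] at ha hb ⊢
        rw [map_add, LinearMap.add_apply, ha, hb, add_zero]
      zero_mem' := by simp
      smul_mem' := by
        intro a x hx
        simp only [Set.mem_setOf_eq] at hx ⊢
        rw [smul_eq_mul, map_mul, Module.End.mul_apply, hx, map_zero] }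
  obtain ⟨K', hK'⟩ := MonoidAlgebra.Submodule.exists_isCompl K
  have h1 : (1 : MonoidAlgebra (ZMod p) G) ∈ K ⊔ K' := by
    rw [hK'.sup_eq_top]
    trivial
  obtain ⟨k, hk, e, he, hke⟩ := Submodule.mem_sup.mp h1
  have hdisj : ∀ z, z ∈ K → z ∈ K' → z = 0 := fun z hz hz' => by
    have := hK'.inf_eq_bot ▸ Submodule.mem_inf.mpr ⟨hz, hz'⟩
    simpa using this
  have hmem : ∀ x, x * e ∈ K' := fun x => by
    simpa using K'.smul_mem x he
  have hekey : ∀ x, x ∈ K' → x * e = x := by
    intro x hx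
    have h2 : x = x * k + x * e := by rw [← mul_add, hke, mul_one]
    have h3 : x * k ∈ K := by simpa using K.smul_mem x hk
    have h4 : x * k = x - x * e := by rw [eq_sub_iff_add_eq, ← h2]
    have h5 : x * k ∈ K' := by rw [h4]; exact K'.sub_mem hx (hmem x)
    have h6 := hdisj _ h3 h5
    rw [h6, zero_add] at h2
    exact h2.symm
  refine ⟨e, ?_, hekey e he, ?_⟩
  · rintro rfl
    rw [add_zero] at hke
    subst hke
    have : ρ' 1 v = 0 := hk
    rw [map_one] at this
    exact hv this
  · intro c hc x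
    apply hdisj _ _ (hmem _)
    show ρ' (sig (ZMod p) c * x * e) v = 0
    rw [mul_assoc, map_mul, hσ c hc, zero_mul, LinearMap.zero_apply]

/-- The kernel of reduction is nilpotent. -/
lemma zmod_pow_dvd_of_cast {N : ℕ} (hN : N ≠ 0) (a : ZMod (p ^ N))
    (ha : ZMod.castHom (dvd_pow_self p hN) (ZMod p) a = 0) :
    ∃ t, a = (p : ZMod (p ^ N)) * t := by
  haveI : NeZero (p ^ N) := ⟨pow_ne_zero _ hpf.out.ne_zero⟩
  have h1 : ((a.val : ℕ) : ZMod (p ^ N)) = a := ZMod.natCast_zmod_val a
  rw [← h1, map_natCast] at ha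
  obtain ⟨t, ht⟩ := (ZMod.natCast_eq_zero_iff _ _).mp ha
  refine ⟨t, ?_⟩
  rw [← h1, ht]
  push_cast
  rfl

/-- Step 2: lifting. -/
theorem pf_lift [Finite G] (hp : ¬ p ∣ Nat.card G) {N : ℕ} (hN : N ≠ 0)
    (e₀ : MonoidAlgebra (ZMod p) G) (he₀ : IsIdempotentElem e₀)
    (h₀ : ∀ c : G, (orderOf c).Prime → ∀ x, sig (ZMod p) c * x * e₀ = 0) :
    ∃ e : MonoidAlgebra (ZMod (p ^ N)) G, IsIdempotentElem e ∧
      mapRingHom G (ZMod.castHom (dvd_pow_self p hN) (ZMod p)) e = e₀ ∧
      ∀ c : G, (orderOf c).Prime → ∀ x, sig (ZMod (p ^ N)) c * x * e = 0 := by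
  classical
  haveI : NeZero (p ^ N) := ⟨pow_ne_zero _ hpf.out.ne_zero⟩
  set f := ZMod.castHom (dvd_pow_self p hN) (ZMod p) with hf
  set π := mapRingHom G f with hπ
  have hfs : Function.Surjective f := ZMod.castHom_surjective _
  have hπs : Function.Surjective π := map_surj f hfs
  have hpN : ((p : ZMod (p ^ N))) ^ N = 0 := by
    have := ZMod.natCast_self (p ^ N)
    push_cast at this
    exact this
  have hker : ∀ x, π x = 0 → ∃ y, x = (p : ZMod (p ^ N)) • y :=
    fun x hx => map_ker_smul f _ (zmod_pow_dvd_of_cast hN) x hx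
  have hnil : ∀ x ∈ RingHom.ker π, IsNilpotent x := by
    intro x hx
    obtain ⟨y, rfl⟩ := hker x hx
    refine ⟨N, ?_⟩
    rw [smul_pow, hpN, zero_smul]
  obtain ⟨e, he, hee⟩ := exists_isIdempotentElem_eq_of_ker_isNilpotent π hnil e₀ (hπs e₀) he₀
  refine ⟨e, he, hee, ?_⟩
  intro c hc
  -- the order of `c` is a unit
  have hcop : Nat.Coprime (orderOf c) (p ^ N) := by
    apply Nat.Coprime.pow_right
    rw [Nat.coprime_comm, Nat.Prime.coprime_iff_not_dvd hpf.out]
    exact fun h => hp (h.trans (orderOf_dvd_natCard c))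
  obtain ⟨u, hu⟩ : ∃ u : ZMod (p ^ N), u * (orderOf c : ZMod (p ^ N)) = 1 := by
    obtain ⟨w, hw⟩ := (ZMod.isUnit_iff_coprime _ _).mpr hcop
    exact ⟨(w⁻¹ : (ZMod (p ^ N))ˣ), by rw [← hw]; simp⟩
  have hone : ∀ x, ∃ z, sig (ZMod (p ^ N)) c * x * e = (p : ZMod (p ^ N)) • (z * e) := by
    intro x
    have h1 : π (sig (ZMod (p ^ N)) c * x * e) = 0 := by
      rw [map_mul, map_mul, hπ, map_sig, ← hπ, hee]
      exact h₀ c hc _
    obtain ⟨y, hy⟩ := hker _ h1
    refine ⟨y, ?_⟩
    have h2 : sig (ZMod (p ^ N)) c * x * e * e = sig (ZMod (p ^ N)) c * x * e := by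
      rw [mul_assoc, he.eq]
    rw [← h2, hy, smul_mul_assoc]
  have hk : ∀ k : ℕ, ∀ x, ∃ z, sig (ZMod (p ^ N)) c * x * e = (p : ZMod (p ^ N)) ^ k • (z * e) := by
    intro k
    induction k with
    | zero =>
      intro x
      exact ⟨sig (ZMod (p ^ N)) c * x, by simp⟩
    | succ k ih =>
      intro x
      obtain ⟨z, hz⟩ := ih x
      obtain ⟨z', hz'⟩ := hone z
      have h3 : (orderOf c : ZMod (p ^ N)) • (sig (ZMod (p ^ N)) c * x * e) =
          (p : ZMod (p ^ N)) ^ (k + 1) • (z' * e) := by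
        calc (orderOf c : ZMod (p ^ N)) • (sig (ZMod (p ^ N)) c * x * e)
            = sig (ZMod (p ^ N)) c * (sig (ZMod (p ^ N)) c * x * e) := by
              rw [← mul_assoc, ← mul_assoc, sig_mul_sig, smul_mul_assoc, smul_mul_assoc,
                mul_assoc]
          _ = (p : ZMod (p ^ N)) ^ k • (sig (ZMod (p ^ N)) c * z * e) := by
              rw [hz, mul_smul_comm, mul_assoc]
          _ = (p : ZMod (p ^ N)) ^ (k + 1) • (z' * e) := by
              rw [hz', smul_smul, pow_succ]
      refine ⟨u • z', ?_⟩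
      have h4 : sig (ZMod (p ^ N)) c * x * e =
          (u * (orderOf c : ZMod (p ^ N))) • (sig (ZMod (p ^ N)) c * x * e) := by
        rw [hu, one_smul]
      rw [h4, mul_smul, h3, smul_comm, smul_mul_assoc]
  intro x
  obtain ⟨z, hz⟩ := hk N x
  rw [hz, hpN, zero_smul]

/-- Step 3: no nonzero integer lies in the norm ideal of `ℤ[G]`. -/
theorem pf_nat_notMem [Finite G] (hp : ¬ p ∣ Nat.card G)
    (e₀ : MonoidAlgebra (ZMod p) G) (he₀0 : e₀ ≠ 0) (he₀ : IsIdempotentElem e₀)
    (h₀ : ∀ c : G, (orderOf c).Prime → ∀ x, sig (ZMod p) c * x * e₀ = 0)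
    (n : ℕ) (hn : n ≠ 0) : ((n : MonoidAlgebra ℤ G)) ∉ normIdeal ℤ G := by
  classical
  intro hI
  obtain ⟨a, m, hm, hnm⟩ := Nat.exists_eq_pow_mul_and_not_dvd hn p hpf.out.ne_one
  have hN : a + 1 ≠ 0 := Nat.succ_ne_zero a
  haveI : NeZero (p ^ (a + 1)) := ⟨pow_ne_zero _ hpf.out.ne_zero⟩
  obtain ⟨e, he, hee, hk⟩ := pf_lift (N := a + 1) hp hN e₀ he₀ h₀
  set φ := mapRingHom G (Int.castRingHom (ZMod (p ^ (a + 1)))) with hφ
  have hall : ∀ y ∈ normIdeal ℤ G, φ y * e = 0 := by
    intro y hy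
    induction hy using Submodule.span_induction with
    | mem y hy =>
      obtain ⟨c, hc, b, rfl⟩ := hy
      rw [map_mul, hφ, map_sig, map_of]
      exact hk c hc _
    | zero => simp
    | add y z _ _ hy hz => rw [map_add, add_mul, hy, hz, add_zero]
    | smul r y _ hy => rw [smul_eq_mul, map_mul, mul_assoc, hy, mul_zero]
  have h1 := hall _ hI
  rw [map_natCast] at h1
  -- a coefficient of `e` which is a unit
  have he0 : ∃ g, (e₀.coeff g) ≠ 0 := by
    by_contra hcon
    push Not at hcon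
    apply he₀0
    ext g
    simpa using hcon g
  obtain ⟨g, hg⟩ := he0
  have h2 : ZMod.castHom (dvd_pow_self p hN) (ZMod p) (e.coeff g) ≠ 0 := by
    intro h
    apply hg
    rw [← hee]
    simpa using h
  have h3 : ((n : ZMod (p ^ (a + 1)))) * e.coeff g = 0 := by
    have := congrArg (fun z => MonoidAlgebra.coeff z g) h1
    simpa [MonoidAlgebra.natCast_def, MonoidAlgebra.coeff_single_one_mul] using this
  have h4 : ((e.coeff g).val : ZMod (p ^ (a + 1))) = e.coeff g := ZMod.natCast_zmod_val _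
  rw [← h4, ← Nat.cast_mul, ZMod.natCast_eq_zero_iff] at h3
  rw [← h4, map_natCast] at h2
  have h5 : ¬ p ∣ (e.coeff g).val := fun h => h2 ((ZMod.natCast_eq_zero_iff _ _).mpr h)
  generalize (e.coeff g).val = w at h3 h5
  rw [hnm, pow_succ, mul_assoc] at h3
  have h6 : p ∣ m * w := (Nat.mul_dvd_mul_iff_left
    (pow_pos hpf.out.pos a)).mp h3
  rcases hpf.out.dvd_mul.mp h6 with h | h
  · exact hm h
  · exact h5 h

end lift

end Cfsg.Agent.Lib.Struct.PF
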