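import Mathlib
import Cfsg.Agent.Lib.Struct.PF1
import Cfsg.Agent.Lib.Struct.FrobeniusConstruct

/-!
Fixed point free modules: the combination step.
-/

set_option autoImplicit false
set_option linter.unusedSectionVars false

namespace Cfsg.Agent.Lib.Struct.PF

open MonoidAlgebra

variable {G : Type} [Group G]

lemma finite_monoidAlgebra (R : Type) [CommRing R] [Finite R] [Finite G] :
    Finite (MonoidAlgebra R G) := by
  haveI : Finite (G →₀ R) := Finite.of_injective (fun f : G →₀ R => (f : G → R)) DFunLike.coe_injective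
  exact Finite.of_equiv _ (MonoidAlgebra.coeffEquiv (R := R) (M := G)).symm

lemma moduleFinite_int [Finite G] : Module.Finite ℤ (MonoidAlgebra ℤ G) := by
  letI := Fintype.ofFinite G
  classical
  refine ⟨⟨Finset.univ.image (fun g => MonoidAlgebra.of ℤ G g), ?_⟩⟩
  rw [eq_top_iff]
  intro x _
  induction x using MonoidAlgebra.induction_linear with
  | zero => exact Submodule.zero_mem _
  | add a b ha hb => exact Submodule.add_mem _ (ha trivial) (hb trivial)
  | single g r =>
    have : (single g r : MonoidAlgebra ℤ G) = r • MonoidAlgebra.of ℤ G g := by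
      simp [MonoidAlgebra.of]
    rw [this]
    apply Submodule.smul_mem
    apply Submodule.subset_span
    simp

/-- Step 4: the bridge through `ℤ[G]`. -/
theorem pf_one_notMem [Finite G]
    (hN : ∀ n : ℕ, n ≠ 0 → ((n : MonoidAlgebra ℤ G)) ∉ normIdeal ℤ G) (ℓ : ℕ) [hℓ : Fact ℓ.Prime] :
    (1 : MonoidAlgebra (ZMod ℓ) G) ∉ normIdeal (ZMod ℓ) G := by
  classical
  intro h1
  set ψ := mapRingHom G (Int.castRingHom (ZMod ℓ)) with hψ
  have hψs : Function.Surjective ψ := map_surj _ (ZMod.intCast_surjective)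
  have hlift : ∀ z ∈ normIdeal (ZMod ℓ) G, ∃ y ∈ normIdeal ℤ G, ψ y = z := by
    intro z hz
    induction hz using Submodule.span_induction with
    | mem z hz =>
      obtain ⟨c, hc, b, rfl⟩ := hz
      refine ⟨sig ℤ c * MonoidAlgebra.of ℤ G b, Submodule.subset_span ⟨c, hc, b, rfl⟩, ?_⟩
      rw [map_mul, hψ, map_sig, map_of]
    | zero => exact ⟨0, Submodule.zero_mem _, map_zero _⟩
    | add a b _ _ ha hb =>
      obtain ⟨a', ha', rfl⟩ := ha
      obtain ⟨b', hb', rfl⟩ := hb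
      exact ⟨a' + b', Submodule.add_mem _ ha' hb', map_add _ _ _⟩
    | smul r z _ hz =>
      obtain ⟨z', hz', rfl⟩ := hz
      obtain ⟨r', rfl⟩ := hψs r
      exact ⟨r' • z', Submodule.smul_mem _ _ hz', by rw [smul_eq_mul, smul_eq_mul, map_mul]⟩
  obtain ⟨y, hy, hy1⟩ := hlift 1 h1
  obtain ⟨w, hw⟩ : ∃ w : MonoidAlgebra ℤ G, 1 - y = (ℓ : ℤ) • w := by
    apply map_ker_smul (Int.castRingHom (ZMod ℓ)) (ℓ : ℤ)
    · intro a ha
      have h2 : (ℓ : ℤ) ∣ a := (ZMod.intCast_zmod_eq_zero_iff_dvd a ℓ).mp (by simpa using ha)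
      obtain ⟨t, ht⟩ := h2
      exact ⟨t, ht⟩
    · rw [map_sub, map_one, ← hψ, hy1, sub_self]
  set I₀ : Submodule ℤ (MonoidAlgebra ℤ G) := (normIdeal ℤ G).restrictScalars ℤ with hI₀
  haveI : Module.Finite ℤ (MonoidAlgebra ℤ G) := moduleFinite_int
  have hfg : (⊤ : Submodule ℤ (MonoidAlgebra ℤ G ⧸ I₀)).FG := Module.Finite.fg_top
  have hle : (⊤ : Submodule ℤ (MonoidAlgebra ℤ G ⧸ I₀)) ≤
      Ideal.span {(ℓ : ℤ)} • (⊤ : Submodule ℤ (MonoidAlgebra ℤ G ⧸ I₀)) := by
    intro t _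
    obtain ⟨x, rfl⟩ := Submodule.Quotient.mk_surjective I₀ t
    have h2 : x = x * y + (ℓ : ℤ) • (x * w) := by
      rw [← mul_smul_comm, ← hw, ← mul_add]
      simp
    have h3 : x * y ∈ I₀ :=
      (Submodule.restrictScalars_mem ℤ _ _).mpr (Submodule.smul_mem (normIdeal ℤ G) x hy)
    have h4 : Submodule.Quotient.mk (p := I₀) x =
        (ℓ : ℤ) • Submodule.Quotient.mk (p := I₀) (x * w) := by
      conv_lhs => rw [h2]
      rw [Submodule.Quotient.mk_add, (Submodule.Quotient.mk_eq_zero I₀).mpr h3, zero_add,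
        Submodule.Quotient.mk_smul]
    rw [h4]
    exact Submodule.smul_mem_smul (Ideal.mem_span_singleton_self _) trivial
  obtain ⟨r, hr1, hr2⟩ := Submodule.exists_sub_one_mem_and_smul_eq_zero_of_fg_of_le_smul _ _ hfg hle
  have hr3 : r • (1 : MonoidAlgebra ℤ G) ∈ I₀ := by
    have := hr2 (Submodule.Quotient.mk (p := I₀) 1) trivial
    rw [← Submodule.Quotient.mk_smul] at this
    exact (Submodule.Quotient.mk_eq_zero I₀).mp this
  have hr0 : r ≠ 0 := by
    rintro rfl
    obtain ⟨t, ht⟩ := Ideal.mem_span_singleton'.mp hr1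
    have h5 : (ℓ : ℤ) ∣ 1 := ⟨-t, by linarith⟩
    have h6 : ((ℓ : ℤ)) ∣ ((1 : ℕ) : ℤ) := by simpa using h5
    have h7 := Int.natCast_dvd_natCast.mp h6
    exact hℓ.out.one_lt.ne' (Nat.dvd_one.mp h7)
  apply hN r.natAbs (Int.natAbs_ne_zero.mpr hr0)
  have h8 : ((r.natAbs : MonoidAlgebra ℤ G)) = ((r.natAbs : ℤ)) • (1 : MonoidAlgebra ℤ G) := by
    simp
  rw [h8]
  rcases Int.natAbs_eq r with h | h
  · have : ((r.natAbs : ℤ)) = r := h.symm
    rw [this]
    exact hr3
  · have : ((r.natAbs : ℤ)) = -r := by omega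
    rw [this, neg_smul]
    exact I₀.neg_mem hr3

/-- The action on an abstract module over the group algebra. -/
noncomputable def rhoOf (F : Type) [CommRing F] (M : Type) [AddCommGroup M] [Module F M]
    [Module (MonoidAlgebra F G) M] [IsScalarTower F (MonoidAlgebra F G) M] :
    G →* Module.End F M where
  toFun g :=
    { toFun := fun m => MonoidAlgebra.of F G g • m
      map_add' := fun a b => smul_add _ a b
      map_smul' := fun r m => by
        rw [RingHom.id_apply]
        have h : MonoidAlgebra.of F G g * (r • (1 : MonoidAlgebra F G)) =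
            r • MonoidAlgebra.of F G g := by rw [mul_smul_comm, mul_one]
        calc MonoidAlgebra.of F G g • r • m
            = MonoidAlgebra.of F G g • (r • (1 : MonoidAlgebra F G)) • m := by rw [smul_one_smul]
          _ = (r • MonoidAlgebra.of F G g) • m := by rw [← mul_smul, h]
          _ = r • MonoidAlgebra.of F G g • m := smul_assoc _ _ _ }
  map_one' := LinearMap.ext fun m => by
    show MonoidAlgebra.of F G 1 • m = m
    rw [map_one, one_smul]
  map_mul' := fun a b => LinearMap.ext fun m => by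
    show MonoidAlgebra.of F G (a * b) • m =
      MonoidAlgebra.of F G a • MonoidAlgebra.of F G b • m
    rw [map_mul, mul_smul]

lemma rhoOf_apply (F : Type) [CommRing F] (M : Type) [AddCommGroup M] [Module F M]
    [Module (MonoidAlgebra F G) M] [IsScalarTower F (MonoidAlgebra F G) M] (g : G) (m : M) :
    rhoOf F M g m = MonoidAlgebra.of F G g • m := rfl

lemma rhoOf_sum (F : Type) [CommRing F] (M : Type) [AddCommGroup M] [Module F M]
    [Module (MonoidAlgebra F G) M] [IsScalarTower F (MonoidAlgebra F G) M] (c : G)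
    (h : ∀ m : M, sig F c • m = 0) :
    ∑ k ∈ Finset.range (orderOf c), (rhoOf F M c) ^ k = 0 := by
  ext m
  rw [LinearMap.sum_apply, LinearMap.zero_apply]
  have h2 : ∀ k, ((rhoOf F M c) ^ k) m = MonoidAlgebra.of F G (c ^ k) • m := by
    intro k
    rw [← map_pow]
    rfl
  simp only [h2]
  rw [← h m]
  unfold sig
  rw [Finset.sum_smul]

/-- Step 5: the module. -/
theorem pf_module [Finite G] (ℓ : ℕ) [hℓ : Fact ℓ.Prime]
    (h1 : (1 : MonoidAlgebra (ZMod ℓ) G) ∉ normIdeal (ZMod ℓ) G) :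
    ∃ (M : Type) (_ : AddCommGroup M) (_ : Module (ZMod ℓ) M) (_ : Finite M) (_ : Nontrivial M)
      (ρ : G →* Module.End (ZMod ℓ) M),
      ∀ c : G, (orderOf c).Prime → ∑ k ∈ Finset.range (orderOf c), (ρ c) ^ k = 0 := by
  classical
  haveI := finite_monoidAlgebra (G := G) (ZMod ℓ)
  haveI : Finite (MonoidAlgebra (ZMod ℓ) G ⧸ normIdeal (ZMod ℓ) G) :=
    Finite.of_surjective (Submodule.Quotient.mk (p := normIdeal (ZMod ℓ) G))
      (Submodule.Quotient.mk_surjective _)
  haveI : Nontrivial (MonoidAlgebra (ZMod ℓ) G ⧸ normIdeal (ZMod ℓ) G) := by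
    refine ⟨⟨Submodule.Quotient.mk (p := normIdeal (ZMod ℓ) G) 1, 0, ?_⟩⟩
    intro h
    exact h1 ((Submodule.Quotient.mk_eq_zero _).mp h)
  refine ⟨MonoidAlgebra (ZMod ℓ) G ⧸ normIdeal (ZMod ℓ) G, inferInstance, inferInstance,
    inferInstance, inferInstance, rhoOf (ZMod ℓ) _, ?_⟩
  intro c hc
  apply rhoOf_sum
  intro m
  obtain ⟨x, rfl⟩ := Submodule.Quotient.mk_surjective _ m
  rw [← Submodule.Quotient.mk_smul]
  apply (Submodule.Quotient.mk_eq_zero _).mpr
  rw [smul_eq_mul]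
  induction x using MonoidAlgebra.induction_linear with
  | zero => simp
  | add a b ha hb =>
    rw [mul_add]
    exact Submodule.add_mem _ ha hb
  | single g r =>
    have : (single g r : MonoidAlgebra (ZMod ℓ) G) = r • MonoidAlgebra.of (ZMod ℓ) G g := by
      simp [MonoidAlgebra.of]
    rw [this, mul_smul_comm]
    exact Submodule.smul_of_tower_mem _ r (Submodule.subset_span ⟨c, hc, g, rfl⟩)

lemma norm_fixed {F M : Type} [Field F] [AddCommGroup M] [Module F M] (φ : Module.End F M) (r : ℕ)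
    (hφ : ∑ k ∈ Finset.range r, φ ^ k = 0) (hr : (r : F) ≠ 0) (m : M) (hm : φ m = m) : m = 0 := by
  have h1 : ∀ k : ℕ, (φ ^ k) m = m := by
    intro k
    induction k with
    | zero => simp
    | succ k ih => rw [pow_succ, Module.End.mul_apply, hm, ih]
  have h2 := LinearMap.congr_fun hφ m
  rw [LinearMap.sum_apply, LinearMap.zero_apply] at h2
  simp only [h1, Finset.sum_const, Finset.card_range] at h2
  rw [← Nat.cast_smul_eq_nsmul F] at h2
  exact (smul_eq_zero.mp h2).resolve_left hr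

/-- Step 6: combination. -/
theorem pf_combine {G₁ G₂ : Type} [Group G₁] [Finite G₁] [Nontrivial G₁] [Group G₂] [Finite G₂]
    [Nontrivial G₂] (hc : (Nat.card G₁).Coprime (Nat.card G₂)) (ℓ : ℕ) [hℓ : Fact ℓ.Prime]
    (h1 : ¬ ℓ ∣ Nat.card G₁) (h2 : ¬ ℓ ∣ Nat.card G₂)
    {M₁ M₂ : Type} [AddCommGroup M₁] [Module (ZMod ℓ) M₁] [Finite M₁] [Nontrivial M₁]
    [AddCommGroup M₂] [Module (ZMod ℓ) M₂] [Finite M₂] [Nontrivial M₂]
    (ρ₁ : G₁ →* Module.End (ZMod ℓ) M₁) (ρ₂ : G₂ →* Module.End (ZMod ℓ) M₂)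
    (hσ₁ : ∀ c : G₁, (orderOf c).Prime → ∑ k ∈ Finset.range (orderOf c), (ρ₁ c) ^ k = 0)
    (hσ₂ : ∀ c : G₂, (orderOf c).Prime → ∑ k ∈ Finset.range (orderOf c), (ρ₂ c) ^ k = 0) :
    ∃ (L : Type) (_ : Group L) (_ : Finite L) (H : Subgroup L),
      Cfsg.IsFrobeniusComplement H ∧ Nonempty ((G₁ × G₂) ≃* H) := by
  classical
  let A := M₁ →ₗ[ZMod ℓ] M₂
  haveI : Finite A := Finite.of_injective (fun f : A => (f : M₁ → M₂)) DFunLike.coe_injective
  haveI : Nontrivial A := by
    obtain ⟨m, hm⟩ := exists_ne (0 : M₁)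
    obtain ⟨n, hn⟩ := exists_ne (0 : M₂)
    have : ∃ φ : Module.Dual (ZMod ℓ) M₁, φ m ≠ 0 := by
      by_contra h
      push Not at h
      exact hm ((Module.forall_dual_apply_eq_zero_iff (ZMod ℓ) m).mp h)
    obtain ⟨φ, hφ⟩ := this
    refine ⟨φ.smulRight n, 0, fun h => ?_⟩
    have h3 := LinearMap.congr_fun h m
    simp only [LinearMap.smulRight_apply, LinearMap.zero_apply] at h3
    exact (smul_eq_zero.mp h3).elim hφ hn
  let T : G₁ × G₂ → (A →+ A) := fun x =>
    { toFun := fun f => (ρ₂ x.2).comp (f.comp (ρ₁ x.1⁻¹))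
      map_zero' := LinearMap.ext fun m => by
        show ρ₂ x.2 ((0 : A) (ρ₁ x.1⁻¹ m)) = 0
        rw [LinearMap.zero_apply, map_zero]
      map_add' := fun f g => LinearMap.ext fun m => by
        show ρ₂ x.2 ((f + g) (ρ₁ x.1⁻¹ m)) = ρ₂ x.2 (f (ρ₁ x.1⁻¹ m)) + ρ₂ x.2 (g (ρ₁ x.1⁻¹ m))
        rw [LinearMap.add_apply, map_add] }
  have hT : ∀ (x : G₁ × G₂) (f : A) (m : M₁), T x f m = ρ₂ x.2 (f (ρ₁ x.1⁻¹ m)) := fun _ _ _ => rfl
  have hT1 : ∀ f, T 1 f = f := by
    intro f
    ext m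
    rw [hT]
    simp
  have hTm : ∀ a b f, T (a * b) f = T a (T b f) := by
    intro a b f
    ext m
    simp only [hT, Prod.fst_mul, Prod.snd_mul, mul_inv_rev, map_mul, Module.End.mul_apply]
  refine Cfsg.Agent.Lib.Struct.exists_frobenius_of_add T hT1 hTm ?_
  intro x hx f hf
  -- a power of prime order
  have hord : orderOf x ≠ 1 := fun h => hx (orderOf_eq_one_iff.mp h)
  obtain ⟨r, hr, hrd⟩ := Nat.exists_prime_and_dvd hord
  haveI : Fact r.Prime := ⟨hr⟩
  set c := x ^ (orderOf x / r) with hc0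
  have hco : orderOf c = r := orderOf_pow_orderOf_div (orderOf_pos x).ne' hrd
  have hfk : ∀ k : ℕ, T (x ^ k) f = f := by
    intro k
    induction k with
    | zero => simpa using hT1 f
    | succ k ih => rw [pow_succ, hTm, hf, ih]
  have hfc : T c f = f := hfk _
  have hcr : c ^ r = 1 := by
    rw [← hco]
    exact pow_orderOf_eq_one c
  have hc1r : c.1 ^ r = 1 := by
    have := congrArg Prod.fst hcr
    simpa using this
  have hc2r : c.2 ^ r = 1 := by
    have := congrArg Prod.snd hcr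
    simpa using this
  have hc1 : c ≠ 1 := by
    intro h
    rw [h, orderOf_one] at hco
    exact hr.one_lt.ne hco
  have hrd2 : r ∣ Nat.card G₁ * Nat.card G₂ := by
    rw [← Nat.card_prod, ← hco]
    exact orderOf_dvd_natCard c
  have htriv : ∀ {K : Type} [Group K] [Finite K] (y : K), y ^ r = 1 → ¬ r ∣ Nat.card K → y = 1 := by
    intro K _ _ y hy hn
    by_contra hy1
    have := orderOf_eq_prime hy hy1
    exact hn (this ▸ orderOf_dvd_natCard y)
  have hrl : ∀ s : ℕ, s.Prime → s ∣ Nat.card G₁ * Nat.card G₂ → (s : ZMod ℓ) ≠ 0 := by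
    intro s hs hsd h
    have h3 : ℓ ∣ s := (ZMod.natCast_eq_zero_iff _ _).mp h
    have h4 : ℓ = s := (Nat.prime_dvd_prime_iff_eq hℓ.out hs).mp h3
    subst h4
    rcases hℓ.out.dvd_mul.mp hsd with h5 | h5
    · exact h1 h5
    · exact h2 h5
  have hrF := hrl r hr hrd2
  have hrF' : (r : ZMod ℓ) ≠ 0 := hrF
  ext m
  rw [LinearMap.zero_apply]
  rcases hr.dvd_mul.mp hrd2 with hd | hd
  · -- `c` lives in the first factor
    have hnd : ¬ r ∣ Nat.card G₂ := fun h =>
      hr.one_lt.ne' (Nat.dvd_one.mp (hc ▸ Nat.dvd_gcd hd h))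
    have hc2 : c.2 = 1 := htriv _ hc2r hnd
    have hg1 : c.1 ≠ 1 := fun h => hc1 (Prod.ext h hc2)
    have hog : orderOf c.1 = r := orderOf_eq_prime hc1r hg1
    have hσ := hσ₁ c.1 (by rw [hog]; exact hr)
    rw [hog] at hσ
    have hf1 : ∀ n, f (ρ₁ c.1⁻¹ n) = f n := by
      intro n
      have := LinearMap.congr_fun hfc n
      rw [hT, hc2, map_one, Module.End.one_apply] at this
      exact this
    have hf2 : ∀ n, f (ρ₁ c.1 n) = f n := by
      intro n
      have := hf1 (ρ₁ c.1 n)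
      rw [← Module.End.mul_apply, ← map_mul, inv_mul_cancel, map_one, Module.End.one_apply] at this
      exact this.symm
    have hf3 : ∀ k : ℕ, ∀ n, f (((ρ₁ c.1) ^ k) n) = f n := by
      intro k
      induction k with
      | zero => simp
      | succ k ih =>
        intro n
        rw [pow_succ, Module.End.mul_apply, ih, hf2]
    have h3 := congrArg f (LinearMap.congr_fun hσ m)
    rw [LinearMap.sum_apply, LinearMap.zero_apply, map_sum, map_zero] at h3
    simp only [hf3, Finset.sum_const, Finset.card_range] at h3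
    rw [← Nat.cast_smul_eq_nsmul (ZMod ℓ)] at h3
    exact (smul_eq_zero.mp h3).resolve_left hrF'
  · have hnd : ¬ r ∣ Nat.card G₁ := fun h =>
      hr.one_lt.ne' (Nat.dvd_one.mp (hc ▸ Nat.dvd_gcd h hd))
    have hc2 : c.1 = 1 := htriv _ hc1r hnd
    have hg1 : c.2 ≠ 1 := fun h => hc1 (Prod.ext hc2 h)
    have hog : orderOf c.2 = r := orderOf_eq_prime hc2r hg1
    have hσ := hσ₂ c.2 (by rw [hog]; exact hr)
    rw [hog] at hσ
    apply norm_fixed (F := ZMod ℓ) (ρ₂ c.2) r hσ hrF'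
    have := LinearMap.congr_fun hfc m
    rw [hT, hc2, inv_one, map_one, Module.End.one_apply] at this
    exact this

end Cfsg.Agent.Lib.Struct.PF
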