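import Mathlib

/-!
Z-groups with the `pq`-condition are presented by `x^n, y^m, x⁻¹ y x = y^r`.
-/

set_option autoImplicit false
set_option linter.unusedSectionVars false

namespace Cfsg.Agent.Lib.Struct.PF

/-- The relators. -/
abbrev zRels (n m r : ℕ) : Set (FreeGroup (Fin 2)) :=
  {FreeGroup.of (0 : Fin 2) ^ n, FreeGroup.of (1 : Fin 2) ^ m,
   (FreeGroup.of (0 : Fin 2))⁻¹ * FreeGroup.of 1 * FreeGroup.of 0 * (FreeGroup.of (1 : Fin 2) ^ r)⁻¹}

theorem zpg_card (n m r : ℕ) (hn : 0 < n) (hm : 0 < m) :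
    Finite (PresentedGroup (zRels n m r)) ∧ Nat.card (PresentedGroup (zRels n m r)) ≤ n * m := by
  classical
  let X : PresentedGroup (zRels n m r) := PresentedGroup.of 0
  let Y : PresentedGroup (zRels n m r) := PresentedGroup.of 1
  have hX : X ^ n = 1 := PresentedGroup.one_of_mem (rels := zRels n m r)
    (x := FreeGroup.of (0 : Fin 2) ^ n) (by simp [zRels])
  have hY : Y ^ m = 1 := PresentedGroup.one_of_mem (rels := zRels n m r)
    (x := FreeGroup.of (1 : Fin 2) ^ m) (by simp [zRels])
  have hXY : X⁻¹ * Y * X * (Y ^ r)⁻¹ = 1 := PresentedGroup.one_of_mem (rels := zRels n m r)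
    (x := (FreeGroup.of (0 : Fin 2))⁻¹ * FreeGroup.of 1 * FreeGroup.of 0 *
      (FreeGroup.of (1 : Fin 2) ^ r)⁻¹) (by simp [zRels])
  have hXY' : X⁻¹ * Y * X = Y ^ r := by
    have := mul_inv_eq_one.mp hXY
    exact this
  have hYX : Y * X = X * Y ^ r := by
    rw [← hXY']
    group
  have hYXk : ∀ (i j : ℕ), Y ^ j * X ^ i = X ^ i * Y ^ (j * r ^ i) := by
    intro i
    induction i with
    | zero => intro j; simp
    | succ i ih =>
      intro j
      have h1 : ∀ j, Y ^ j * X = X * Y ^ (j * r) := by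
        intro j
        induction j with
        | zero => simp
        | succ j ihj =>
          rw [pow_succ, mul_assoc, hYX, ← mul_assoc, ihj, mul_assoc, ← pow_add, Nat.succ_mul]
      rw [pow_succ X i, pow_succ r i, ← mul_assoc, ih, mul_assoc, h1]
      simp only [mul_assoc]
  -- normal form
  have hform : ∀ g : PresentedGroup (zRels n m r), ∃ i j : ℕ, g = X ^ i * Y ^ j := by
    intro g
    have hg : g ∈ Subgroup.closure (Set.range (PresentedGroup.of (rels := zRels n m r))) := by
      rw [PresentedGroup.closure_range_of]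
      trivial
    induction hg using Subgroup.closure_induction_left with
    | one => exact ⟨0, 0, by simp⟩
    | mul_left a ha y _ ih =>
      obtain ⟨i, j, rfl⟩ := ih
      obtain ⟨k, rfl⟩ := ha
      fin_cases k
      · exact ⟨i + 1, j, by
          show X * (X ^ i * Y ^ j) = _
          rw [pow_succ', mul_assoc]⟩
      · refine ⟨i, r ^ i + j, ?_⟩
        show Y * (X ^ i * Y ^ j) = _
        have := hYXk i 1
        rw [pow_one, one_mul] at this
        rw [← mul_assoc, this, mul_assoc, ← pow_add]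
    | inv_mul_cancel a ha y _ ih =>
      obtain ⟨i, j, rfl⟩ := ih
      obtain ⟨k, rfl⟩ := ha
      fin_cases k
      · refine ⟨n - 1 + i, j, ?_⟩
        show X⁻¹ * (X ^ i * Y ^ j) = _
        have h2 : X⁻¹ = X ^ (n - 1) := by
          rw [inv_eq_iff_mul_eq_one, ← pow_succ', Nat.sub_add_cancel hn, hX]
        rw [h2, pow_add, mul_assoc]
      · refine ⟨i, (m - 1) * r ^ i + j, ?_⟩
        show Y⁻¹ * (X ^ i * Y ^ j) = _
        have h2 : Y⁻¹ = Y ^ (m - 1) := by
          rw [inv_eq_iff_mul_eq_one, ← pow_succ', Nat.sub_add_cancel hm, hY]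
        rw [h2, ← mul_assoc, hYXk, mul_assoc, ← pow_add]
  -- reduce modulo n and m
  let F : Fin n × Fin m → PresentedGroup (zRels n m r) := fun p => X ^ (p.1 : ℕ) * Y ^ (p.2 : ℕ)
  have hF : Function.Surjective F := by
    intro g
    obtain ⟨i, j, rfl⟩ := hform g
    refine ⟨(⟨i % n, Nat.mod_lt _ hn⟩, ⟨j % m, Nat.mod_lt _ hm⟩), ?_⟩
    show X ^ (i % n) * Y ^ (j % m) = _
    rw [← pow_eq_pow_mod i hX, ← pow_eq_pow_mod j hY]
  have hfin : Finite (PresentedGroup (zRels n m r)) := Finite.of_surjective F hF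
  refine ⟨hfin, ?_⟩
  have := Nat.card_le_card_of_surjective F hF
  simpa using this


/-- The `pq`-condition. -/
def PQCond (C : Type*) [Group C] : Prop :=
  ∀ a x : C, (orderOf a).Prime → (orderOf x).Prime → x * a * x⁻¹ ∈ Subgroup.zpowers a → x * a = a * x

lemma nat_rad_dvd (n d : ℕ) (hn : n ≠ 0) (h : ∀ p ∈ n.primeFactors, d * p ∣ n) (hd : d ∣ n) :
    d * ∏ p ∈ n.primeFactors, p ∣ n := by
  classical
  have key : ∀ s : Finset ℕ, s ⊆ n.primeFactors → d * ∏ p ∈ s, p ∣ n := by
    intro s
    induction s using Finset.induction_on with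
    | empty => intro _; simpa using hd
    | insert a s ha ih =>
      intro hs
      have h1 := ih (fun x hx => hs (Finset.mem_insert_of_mem hx))
      have h2 := h a (hs (Finset.mem_insert_self a s))
      have h3 : a.Prime := Nat.prime_of_mem_primeFactors (hs (Finset.mem_insert_self a s))
      have hcop : Nat.Coprime a (∏ p ∈ s, p) := by
        apply Nat.Coprime.prod_right
        intro i hi
        have h4 : i.Prime := Nat.prime_of_mem_primeFactors (hs (Finset.mem_insert_of_mem hi))
        exact (Nat.coprime_primes h3 h4).mpr (fun h5 => ha (h5 ▸ hi))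
      have h5 : Nat.lcm (d * a) (d * ∏ p ∈ s, p) ∣ n := Nat.lcm_dvd h2 h1
      rw [Nat.lcm_mul_left, hcop.lcm_eq_mul] at h5
      rw [Finset.prod_insert ha]
      exact h5
  exact key _ (Finset.Subset.refl _)

lemma nat_div_rad_dvd (n d : ℕ) (hn : n ≠ 0) (hd : d ∣ n) (h : ∀ p ∈ n.primeFactors, d ∣ n / p) :
    d ∣ n / ∏ p ∈ n.primeFactors, p := by
  have h1 : d * ∏ p ∈ n.primeFactors, p ∣ n := by
    apply nat_rad_dvd n d hn _ hd
    intro p hp
    have hpp := Nat.prime_of_mem_primeFactors hp
    have hpd := Nat.dvd_of_mem_primeFactors hp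
    have := Nat.mul_dvd_mul_right (h p hp) p
    rwa [Nat.div_mul_cancel hpd] at this
  have hrad : (∏ p ∈ n.primeFactors, p) ≠ 0 :=
    Finset.prod_ne_zero_iff.mpr fun p hp => (Nat.prime_of_mem_primeFactors hp).ne_zero
  have hrd : (∏ p ∈ n.primeFactors, p) ∣ n := dvd_of_mul_left_dvd h1
  exact (Nat.dvd_div_iff_mul_dvd hrd).mpr (by rwa [mul_comm])

/-- The exponent of a coprime automorphism acting trivially on elements of prime order. -/
lemma nat_exponent_trivial (m s p : ℕ) (hm : 0 < m) (hp : p.Prime) (hpm : ¬ p ∣ m)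
    (hs : s ^ p % m = 1 % m) (hq : ∀ q, q.Prime → q ∣ m → s % q = 1 % q) : s % m = 1 % m := by
  have hmi : ((m : ℕ) : ℤ) ∣ (s : ℤ) ^ p - 1 := by
    have := (Nat.ModEq.symm hs : 1 ≡ s ^ p [MOD m])
    have h2 := (Nat.modEq_iff_dvd.mp this)
    push_cast at h2
    exact h2
  have hfac : (s : ℤ) ^ p - 1 = ((s : ℤ) - 1) * ∑ i ∈ Finset.range p, (s : ℤ) ^ i := by
    rw [mul_geom_sum]
  have hcop : IsCoprime ((m : ℕ) : ℤ) (∑ i ∈ Finset.range p, (s : ℤ) ^ i) := by
    have h5 : (∑ i ∈ Finset.range p, (s : ℤ) ^ i) = ((∑ i ∈ Finset.range p, s ^ i : ℕ) : ℤ) := by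
      push_cast
      rfl
    rw [h5, Nat.isCoprime_iff_coprime]
    apply Nat.coprime_of_dvd
    intro q hqp hqm hqs
    haveI : Fact q.Prime := ⟨hqp⟩
    have h6 : (s : ZMod q) = 1 := by
      have := (ZMod.natCast_eq_natCast_iff' s 1 q).mpr (hq q hqp hqm)
      simpa using this
    have h7 := (ZMod.natCast_eq_zero_iff _ q).mpr hqs
    push_cast at h7
    rw [h6] at h7
    simp only [one_pow, Finset.sum_const, Finset.card_range, nsmul_eq_mul, mul_one] at h7
    have h8 : q ∣ p := (ZMod.natCast_eq_zero_iff _ q).mp h7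
    have h9 : q = p := (Nat.prime_dvd_prime_iff_eq hqp hp).mp h8
    exact hpm (h9 ▸ hqm)
  have : ((m : ℕ) : ℤ) ∣ (s : ℤ) - 1 := by
    rw [hfac] at hmi
    exact hcop.dvd_of_dvd_mul_right hmi
  have h3 : (1 : ℕ) ≡ s [MOD m] := by
    apply (Nat.modEq_iff_dvd).mpr
    push_cast
    exact this
  exact h3.symm

/-- Presentation of a Z-group satisfying the `pq`-condition. -/
theorem zgroup_presentation {C : Type*} [Group C] [Finite C] [IsZGroup C] (hpq : PQCond C) :
    ∃ n m r : ℕ, 0 < n ∧ 0 < m ∧ Nat.Coprime (r - 1) m ∧ Nat.Coprime n m ∧ 1 ≤ r ∧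
      r ^ (n / ∏ p ∈ n.primeFactors, p) % m = 1 % m ∧
      Nonempty (C ≃* PresentedGroup (zRels n m r)) := by
  classical
  haveI hYc : IsCyclic (commutator C) := IsZGroup.isCyclic_commutator C
  have hcop : (Nat.card (commutator C)).Coprime (commutator C).index :=
    IsZGroup.coprime_commutator_index C
  obtain ⟨X, hX⟩ := Subgroup.exists_right_complement'_of_coprime hcop
  have e1 : Abelianization C ≃* X := hX.symm.QuotientMulEquiv
  haveI hXc : IsCyclic X := isCyclic_of_surjective _ e1.surjective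
  obtain ⟨y', hy'⟩ := IsCyclic.exists_generator (α := commutator C)
  obtain ⟨x', hx'⟩ := IsCyclic.exists_generator (α := X)
  set y : C := (y' : C) with hy
  set x : C := (x' : C) with hx
  have hYz : commutator C = Subgroup.zpowers y := by
    ext g
    constructor
    · intro hg
      obtain ⟨k, hk⟩ := hy' ⟨g, hg⟩
      exact ⟨k, by simpa using congrArg Subtype.val hk⟩
    · rintro ⟨k, rfl⟩
      exact Subgroup.zpow_mem _ y'.2 k
  have hXz : X = Subgroup.zpowers x := by
    ext g
    constructor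
    · intro hg
      obtain ⟨k, hk⟩ := hx' ⟨g, hg⟩
      exact ⟨k, by simpa using congrArg Subtype.val hk⟩
    · rintro ⟨k, rfl⟩
      exact Subgroup.zpow_mem _ x'.2 k
  set m := orderOf y with hm
  set n := orderOf x with hn
  have hmc : Nat.card (commutator C) = m := by rw [hYz, Nat.card_zpowers]
  have hnc : Nat.card X = n := by rw [hXz, Nat.card_zpowers]
  have hmpos : 0 < m := orderOf_pos y
  have hnpos : 0 < n := orderOf_pos x
  have hcardC : m * n = Nat.card C := by rw [← hmc, ← hnc]; exact hX.card_mul_card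
  have hcop2 : Nat.Coprime n m := by
    have := hX.symm.index_eq_card
    rw [this, hmc, hnc] at hcop
    exact hcop.symm
  -- generation
  have hgen : Subgroup.closure ({x, y} : Set C) = ⊤ := by
    rw [eq_top_iff, ← hX.sup_eq_top, hYz, hXz]
    apply sup_le
    · rw [Subgroup.zpowers_le]
      exact Subgroup.subset_closure (by simp)
    · rw [Subgroup.zpowers_le]
      exact Subgroup.subset_closure (by simp)
  -- the exponent
  have hmem : x⁻¹ * y * x ∈ Subgroup.zpowers y := by
    rw [← hYz]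
    have : y ∈ commutator C := y'.2
    have h2 := (inferInstance : (commutator C).Normal).conj_mem y this x⁻¹
    simpa using h2
  obtain ⟨t, ht⟩ : ∃ t : ℕ, y ^ t = x⁻¹ * y * x := by
    obtain ⟨k, hk⟩ := hmem
    refine ⟨(k % (orderOf y : ℤ)).toNat, ?_⟩
    have h1 : 0 ≤ k % (orderOf y : ℤ) := Int.emod_nonneg _ (by exact_mod_cast hmpos.ne')
    rw [← zpow_natCast, Int.toNat_of_nonneg h1, zpow_mod_orderOf]
    exact hk
  set r := t + m with hr
  have hrpos : 1 ≤ r := by omega
  have hymr : y ^ r = x⁻¹ * y * x := by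
    rw [hr, pow_add, pow_orderOf_eq_one, mul_one, ht]
  -- conjugation by powers of `x`
  have hconj : ∀ (k j : ℕ), (x ^ k)⁻¹ * y ^ j * x ^ k = y ^ (j * r ^ k) := by
    intro k
    induction k with
    | zero => intro j; simp
    | succ k ih =>
      intro j
      have h1 : ∀ j, x⁻¹ * y ^ j * x = y ^ (j * r) := by
        intro j
        rw [pow_mul', hymr]
        have := conj_pow (a := x⁻¹) (b := y) (i := j)
        rw [inv_inv] at this
        exact this.symm
      calc (x ^ (k + 1))⁻¹ * y ^ j * x ^ (k + 1)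
          = x⁻¹ * ((x ^ k)⁻¹ * y ^ j * x ^ k) * x := by
            rw [pow_succ]
            group
        _ = x⁻¹ * y ^ (j * r ^ k) * x := by rw [ih]
        _ = y ^ (j * r ^ k * r) := h1 _
        _ = y ^ (j * r ^ (k + 1)) := by rw [pow_succ, mul_assoc]
  -- coprimality of r - 1 and m
  have hcop3 : Nat.Coprime (r - 1) m := by
    apply Nat.coprime_of_dvd
    intro q hq hqr hqm
    set W := Subgroup.zpowers (y ^ q) with hW
    have hWn : W.Normal := by
      refine ⟨?_⟩
      rintro _ ⟨i, rfl⟩ g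
      have h1 : g * y * g⁻¹ ∈ Subgroup.zpowers y := by
        rw [← hYz]
        exact (inferInstance : (commutator C).Normal).conj_mem y y'.2 g
      obtain ⟨j, hj⟩ := h1
      refine ⟨j * i, ?_⟩
      show (y ^ q) ^ (j * i) = g * (y ^ q) ^ i * g⁻¹
      have h2 : g * y ^ q * g⁻¹ = (y ^ q) ^ j := by
        rw [← conj_pow, ← hj]
        show (y ^ j) ^ q = _
        rw [← zpow_natCast (y ^ j) q, ← zpow_mul, ← zpow_natCast y q, ← zpow_mul, mul_comm]
      calc (y ^ q) ^ (j * i) = ((y ^ q) ^ j) ^ i := zpow_mul _ _ _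
        _ = (g * y ^ q * g⁻¹) ^ i := by rw [h2]
        _ = g * (y ^ q) ^ i * g⁻¹ := conj_zpow
    have hr1 : y ^ (r - 1) ∈ W := by
      obtain ⟨l, hl⟩ := hqr
      rw [hl, pow_mul]
      exact Subgroup.pow_mem _ (Subgroup.mem_zpowers _) l
    have hcomm : x * y * (y * x)⁻¹ ∈ W := by
      have h1 : y * x = x * y ^ r := by
        rw [hymr]
        group
      have h2 : y ^ r = y * y ^ (r - 1) := by
        rw [← pow_succ']
        congr 1
        omega
      rw [h1, h2]
      have h3 : x * y * (x * (y * y ^ (r - 1)))⁻¹ = x * (y ^ (r - 1))⁻¹ * x⁻¹ := by group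
      rw [h3]
      exact hWn.conj_mem _ (W.inv_mem hr1) x
    have hle : commutator C ≤ W := by
      let π := QuotientGroup.mk' W
      have hxy : π x * π y = π y * π x := by
        have : π (x * y * (y * x)⁻¹) = 1 := (QuotientGroup.eq_one_iff _).mpr hcomm
        rw [map_mul, map_inv, map_mul, mul_inv_eq_one, ← map_mul] at this
        simpa [map_mul] using this
      have hcl : ∀ a ∈ ({π x, π y} : Set (C ⧸ W)), ∀ b ∈ ({π x, π y} : Set (C ⧸ W)), a * b = b * a := by
        rintro a (rfl | rfl) b (rfl | rfl)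
        · rfl
        · exact hxy
        · exact hxy.symm
        · rfl
      have hcc := Subgroup.isMulCommutative_closure hcl
      have hall : ∀ g : C, π g ∈ Subgroup.closure ({π x, π y} : Set (C ⧸ W)) := by
        intro g
        have hg : g ∈ Subgroup.closure ({x, y} : Set C) := by rw [hgen]; trivial
        have h1 : Subgroup.closure ({x, y} : Set C) ≤
            (Subgroup.closure ({π x, π y} : Set (C ⧸ W))).comap π := by
          rw [Subgroup.closure_le]
          rintro a (rfl | rfl)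
          · exact Subgroup.subset_closure (by simp)
          · exact Subgroup.subset_closure (by simp)
        exact h1 hg
      rw [commutator_def, Subgroup.commutator_le]
      intro g _ h _
      have h2 := hcc.is_comm.comm (⟨π g, hall g⟩ : Subgroup.closure ({π x, π y} : Set (C ⧸ W)))
        ⟨π h, hall h⟩
      have h3 : π g * π h = π h * π g := congrArg Subtype.val h2
      show g * h * g⁻¹ * h⁻¹ ∈ W
      rw [← QuotientGroup.eq_one_iff]
      show π (g * h * g⁻¹ * h⁻¹) = 1
      rw [map_mul, map_mul, map_mul, map_inv, map_inv, h3]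
      group
    have hyW : y ∈ W := hle y'.2
    obtain ⟨k, hk⟩ := hyW
    have h1 : y ^ ((q : ℤ) * k - 1) = 1 := by
      rw [zpow_sub, zpow_mul, zpow_natCast, zpow_one]
      rw [mul_inv_eq_one]
      exact hk
    have h2 := orderOf_dvd_iff_zpow_eq_one.mpr h1
    have h3 : (q : ℤ) ∣ (q : ℤ) * k - 1 := (Int.natCast_dvd_natCast.mpr hqm).trans h2
    have h4 : (q : ℤ) ∣ 1 := by
      have := (Int.dvd_sub (dvd_mul_right (q : ℤ) k) h3)
      simpa using this
    have h5 := Int.natCast_dvd_natCast.mp (by simpa using h4 : ((q : ℕ) : ℤ) ∣ ((1 : ℕ) : ℤ))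
    exact hq.one_lt.ne' (Nat.dvd_one.mp h5)
  -- the power condition
  have hrmod : ∀ k : ℕ, y ^ (r ^ k) = (x ^ k)⁻¹ * y * x ^ k := by
    intro k
    have := hconj k 1
    simpa using this.symm
  have hmodp : ∀ p ∈ n.primeFactors, r ^ (n / p) % m = 1 % m := by
    intro p hp
    have hpp := Nat.prime_of_mem_primeFactors hp
    have hpd := Nat.dvd_of_mem_primeFactors hp
    haveI : Fact p.Prime := ⟨hpp⟩
    set w := x ^ (n / p) with hw
    have how : orderOf w = p := orderOf_pow_orderOf_div hnpos.ne' hpd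
    set s := r ^ (n / p) with hs
    have hpm : ¬ p ∣ m := fun h =>
      hpp.one_lt.ne' (Nat.dvd_one.mp (hcop2 ▸ Nat.dvd_gcd hpd h))
    have hsp : s ^ p % m = 1 % m := by
      have h1 : y ^ (s ^ p) = y := by
        have hxn : x ^ n = 1 := pow_orderOf_eq_one x
        rw [hs, ← pow_mul, Nat.div_mul_cancel hpd, hrmod, hxn]
        simp
      have h2 := pow_eq_pow_iff_modEq.mp (by rw [pow_one]; exact h1 : y ^ (s ^ p) = y ^ 1)
      exact h2
    apply nat_exponent_trivial m s p hmpos hpp hpm hsp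
    intro q hq hqm
    haveI : Fact q.Prime := ⟨hq⟩
    set a := y ^ (m / q) with ha
    have hoa : orderOf a = q := orderOf_pow_orderOf_div hmpos.ne' hqm
    have hconja : w⁻¹ * a * w = a ^ s := by
      rw [ha, ← pow_mul, mul_comm, hw]
      have := hconj (n / p) (m / q)
      rw [mul_comm] at this
      exact this
    have h1 : w⁻¹ * a * w⁻¹⁻¹ ∈ Subgroup.zpowers a := by
      rw [inv_inv, hconja]
      exact Subgroup.pow_mem _ (Subgroup.mem_zpowers _) s
    have h2 := hpq a w⁻¹ (by rw [hoa]; exact hq) (by rw [orderOf_inv, how]; exact hpp) h1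
    have h3 : a ^ s = a ^ 1 := by
      rw [← hconja, h2, pow_one]
      group
    have h4 := pow_eq_pow_iff_modEq.mp h3
    rw [hoa] at h4
    exact h4
  have hfinal : r ^ (n / ∏ p ∈ n.primeFactors, p) % m = 1 % m := by
    haveI : NeZero m := ⟨hmpos.ne'⟩
    have hu : ∀ k : ℕ, r ^ k % m = 1 % m → ((r : ZMod m)) ^ k = 1 := by
      intro k hk
      have := (ZMod.natCast_eq_natCast_iff' (r ^ k) 1 m).mpr hk
      simpa using this
    have hu' : ∀ k : ℕ, ((r : ZMod m)) ^ k = 1 → r ^ k % m = 1 % m := by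
      intro k hk
      apply (ZMod.natCast_eq_natCast_iff' (r ^ k) 1 m).mp
      simpa using hk
    apply hu'
    have hdn : orderOf (r : ZMod m) ∣ n := by
      apply orderOf_dvd_of_pow_eq_one
      apply hu
      have h1 : y ^ (r ^ n) = y ^ 1 := by
        have hxn : x ^ n = 1 := pow_orderOf_eq_one x
        rw [hrmod, hxn]
        simp
      exact pow_eq_pow_iff_modEq.mp h1
    have := nat_div_rad_dvd n (orderOf (r : ZMod m)) hnpos.ne' hdn (fun p hp =>
      orderOf_dvd_of_pow_eq_one (hu _ (hmodp p hp)))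
    exact orderOf_dvd_iff_pow_eq_one.mp this
  -- the isomorphism
  refine ⟨n, m, r, hnpos, hmpos, hcop3, hcop2, hrpos, hfinal, ?_⟩
  obtain ⟨hfin, hcard⟩ := zpg_card n m r hnpos hmpos
  have hval : ∀ w ∈ zRels n m r, FreeGroup.lift (![x, y]) w = 1 := by
    intro w hw
    rcases hw with rfl | rfl | rfl
    · simp [hn, pow_orderOf_eq_one]
    · simp [hm, pow_orderOf_eq_one]
    · simp [hymr]
  let φ : PresentedGroup (zRels n m r) →* C := PresentedGroup.toGroup hval
  have hφ0 : φ (PresentedGroup.of 0) = x := by simp [φ]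
  have hφ1 : φ (PresentedGroup.of 1) = y := by simp [φ]
  have hsurj : Function.Surjective φ := by
    rw [← MonoidHom.range_eq_top, eq_top_iff, ← hgen, Subgroup.closure_le]
    rintro a (rfl | rfl)
    · exact ⟨_, hφ0⟩
    · exact ⟨_, hφ1⟩
  have hbij : Function.Bijective φ := by
    rw [Nat.bijective_iff_surjective_and_card]
    refine ⟨hsurj, le_antisymm ?_ (Nat.card_le_card_of_surjective φ hsurj)⟩
    rw [← hcardC, mul_comm]
    exact hcard
  exact ⟨(MulEquiv.ofBijective φ hbij).symm⟩

end Cfsg.Agent.Lib.Struct.PF
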