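import Mathlib

/-!
A faithful action of `Aut(Q₈)` on four points.
-/

set_option autoImplicit false
set_option linter.unusedSectionVars false

namespace Cfsg.Agent.Lib.Struct.PF

open QuaternionGroup

/-- The quaternion group of order 8. -/
abbrev QEight := QuaternionGroup 2

/-- The central involution. -/
def qz : QEight := a 2

/-- generating pairs -/
def qgen (u v : QEight) : Prop := u * u = qz ∧ v * v = qz ∧ v ≠ u ∧ v ≠ qz * u

instance (u v : QEight) : Decidable (qgen u v) := by
  unfold qgen; infer_instance

/-- A vertex of the cube. -/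
def qface (u v : QEight) : Finset QEight := {u, v, u * v}

/-- A body diagonal of the cube. -/
def qpt (u v : QEight) : Finset (Finset QEight) := {qface u v, qface (qz * v) (qz * u)}

/-- All body diagonals. -/
def qOmega : Finset (Finset (Finset QEight)) :=
  ((Finset.univ : Finset (QEight × QEight)).filter (fun p => qgen p.1 p.2)).image
    (fun p => qpt p.1 p.2)

theorem qOmega_card : qOmega.card = 4 := by decide +kernel

theorem q_involution : ∀ x : QEight, x ≠ 1 → x * x = 1 → x = qz := by decide +kernel

theorem q_key : ∀ u v : QEight, qgen u v → qpt u v = qpt (a 1) (xa 0) →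
    qpt u (u * v) = qpt (a 1) (a 1 * xa 0) → qpt (u * v) v = qpt (a 1 * xa 0) (xa 0) →
    u = a 1 ∧ v = xa 0 := by decide +kernel

theorem q_gen_pow : ∀ g : QEight, ∃ s t : Fin 4, g = (a 1) ^ (s : ℕ) * (xa 0) ^ (t : ℕ) := by
  decide +kernel

theorem q_center : ∀ g : QEight, (∀ h : QEight, g * h = h * g) → g = 1 ∨ g = a 2 := by
  decide +kernel

theorem q_gen0 : qgen (a 1) (xa 0) := by decide +kernel
theorem q_gen1 : qgen (a 1) (a 1 * xa 0) := by decide +kernel
theorem q_gen2 : qgen (a 1 * xa 0) (xa 0) := by decide +kernel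

/-- The action on sets of sets. -/
def qact (θ : MulAut QEight) (S : Finset (Finset QEight)) : Finset (Finset QEight) :=
  S.image (Finset.image θ)

lemma q_fix_z (θ : MulAut QEight) : θ qz = qz := by
  apply q_involution
  · intro h
    have : qz = 1 := θ.injective (by rw [h, map_one])
    exact absurd this (by decide)
  · rw [← map_mul, show qz * qz = 1 by decide, map_one]

lemma qact_pt (θ : MulAut QEight) (u v : QEight) : qact θ (qpt u v) = qpt (θ u) (θ v) := by
  classical
  simp only [qact, qpt, qface, Finset.image_insert, Finset.image_singleton, map_mul, q_fix_z]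

lemma qgen_map (θ : MulAut QEight) {u v : QEight} (h : qgen u v) : qgen (θ u) (θ v) := by
  obtain ⟨h1, h2, h3, h4⟩ := h
  refine ⟨?_, ?_, ?_, ?_⟩
  · rw [← map_mul, h1, q_fix_z]
  · rw [← map_mul, h2, q_fix_z]
  · intro h
    exact h3 (θ.injective h)
  · intro h
    apply h4
    apply θ.injective
    rw [h, map_mul, q_fix_z]

lemma mem_qOmega {S : Finset (Finset QEight)} :
    S ∈ qOmega ↔ ∃ u v : QEight, qgen u v ∧ qpt u v = S := by
  simp only [qOmega, Finset.mem_image, Finset.mem_filter, Finset.mem_univ, true_and, Prod.exists]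

lemma qact_mem (θ : MulAut QEight) {S : Finset (Finset QEight)} (hS : S ∈ qOmega) :
    qact θ S ∈ qOmega := by
  obtain ⟨u, v, h, rfl⟩ := mem_qOmega.mp hS
  exact mem_qOmega.mpr ⟨θ u, θ v, qgen_map θ h, (qact_pt θ u v).symm⟩

lemma qact_one (S : Finset (Finset QEight)) : qact 1 S = S := by
  classical
  unfold qact
  have h : ∀ T : Finset QEight, Finset.image (⇑(1 : MulAut QEight)) T = T := fun T => by
    ext x
    simp
  ext T
  simp only [Finset.mem_image, h]
  simp

lemma qact_mul (θ φ : MulAut QEight) (S : Finset (Finset QEight)) :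
    qact (θ * φ) S = qact θ (qact φ S) := by
  classical
  simp only [qact, Finset.image_image]
  apply Finset.image_congr
  intro T _
  simp only [Function.comp, Finset.image_image]
  rfl

/-- `Aut(Q₈)` acts on the body diagonals. -/
def qPerm : MulAut QEight →* Equiv.Perm {S // S ∈ qOmega} where
  toFun θ :=
    { toFun := fun S => ⟨qact θ S.1, qact_mem θ S.2⟩
      invFun := fun S => ⟨qact θ⁻¹ S.1, qact_mem θ⁻¹ S.2⟩
      left_inv := fun S => by
        apply Subtype.ext
        show qact θ⁻¹ (qact θ S.1) = S.1
        rw [← qact_mul, inv_mul_cancel, qact_one]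
      right_inv := fun S => by
        apply Subtype.ext
        show qact θ (qact θ⁻¹ S.1) = S.1
        rw [← qact_mul, mul_inv_cancel, qact_one] }
  map_one' := by
    ext S : 2
    exact qact_one S.1
  map_mul' θ φ := by
    ext S : 2
    exact qact_mul θ φ S.1

lemma qPerm_injective : Function.Injective qPerm := by
  rw [injective_iff_map_eq_one]
  intro θ hθ
  have hfix : ∀ u v : QEight, qgen u v → qpt (θ u) (θ v) = qpt u v := by
    intro u v huv
    have h1 : qpt u v ∈ qOmega := mem_qOmega.mpr ⟨u, v, huv, rfl⟩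
    have h2 := congrArg (fun p : Equiv.Perm {S // S ∈ qOmega} => (p ⟨qpt u v, h1⟩ : {S // S ∈ qOmega}).1) hθ
    have h3 : qact θ (qpt u v) = qpt u v := h2
    rwa [qact_pt] at h3
  obtain ⟨h1, h2⟩ := q_key (θ (a 1)) (θ (xa 0)) (qgen_map θ q_gen0) (hfix _ _ q_gen0)
    (by rw [← map_mul]; exact hfix _ _ q_gen1) (by rw [← map_mul]; exact hfix _ _ q_gen2)
  ext g
  obtain ⟨s, t, rfl⟩ := q_gen_pow g
  rw [map_mul, map_pow, map_pow, h1, h2]
  rfl

/-- The action as a homomorphism into `S₄`. -/
noncomputable def qPermFour : MulAut QEight →* Equiv.Perm (Fin 4) :=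
  (Equiv.permCongrHom (Fintype.equivFinOfCardEq (by simpa using qOmega_card) :
    {S // S ∈ qOmega} ≃ Fin 4)).toMonoidHom.comp qPerm

lemma qPermFour_injective : Function.Injective qPermFour := by
  intro θ φ h
  apply qPerm_injective
  exact (Equiv.permCongrHom _).injective h

end Cfsg.Agent.Lib.Struct.PF
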