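import Mathlib
import Cfsg.Agent.Lib.Struct.PF5
import Cfsg.Agent.Lib.Struct.PF6
import Cfsg.Agent.Lib.Basic.Solv1

/-!
The map to `S₄`.
-/

set_option autoImplicit false
set_option linter.unusedSectionVars false

namespace Cfsg.Agent.Lib.Struct.PF

open QuaternionGroup Cfsg

/-- Odd-order automorphisms of cyclic 2-groups are trivial. -/
lemma odd_aut_cyclic {R : Type*} [Group R] [Finite R] [IsCyclic R] (h2 : IsPGroup 2 R)
    (θ : MulAut R) (k : ℕ) (hk : Odd k) (hθ : θ ^ k = 1) : θ = 1 := by
  obtain ⟨e, he⟩ := IsPGroup.iff_card.mp h2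
  have hc : Nat.card (MulAut R) = Nat.totient (Nat.card R) := IsCyclic.card_mulAut R
  have h3 : orderOf θ ∣ Nat.card (MulAut R) := orderOf_dvd_natCard θ
  have h4 : orderOf θ ∣ k := orderOf_dvd_of_pow_eq_one hθ
  have h5 : Nat.totient (Nat.card R) ∣ 2 ^ e := by
    rw [he]
    cases e with
    | zero => simp
    | succ e =>
      rw [Nat.totient_prime_pow_succ Nat.prime_two]
      simp only [Nat.add_one_sub_one, mul_one]
      exact ⟨2, by rw [pow_succ]⟩
  have h6 : Nat.Coprime k (2 ^ e) := Nat.Coprime.pow_right _ (Nat.coprime_two_right.mpr hk)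
  have h7 : orderOf θ = 1 := Nat.eq_one_of_dvd_coprimes h6 h4 (hc ▸ h3 |>.trans h5)
  exact orderOf_eq_one_iff.mp h7

/-- Odd-order automorphisms of generalized quaternion groups of order at least 16 are trivial. -/
lemma odd_aut_quat (m : ℕ) (hm : 2 ≤ m) (θ : MulAut (QuaternionGroup (2 ^ m))) (k : ℕ)
    (hk : Odd k) (hθ : θ ^ k = 1) : θ = 1 := by
  haveI hNZ : NeZero (2 ^ m) := ⟨by positivity⟩
  haveI hNZ2 : NeZero (2 * 2 ^ m) := ⟨by positivity⟩
  have hNbig : 4 ≤ 2 ^ m := by
    calc 4 = 2 ^ 2 := by norm_num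
      _ ≤ 2 ^ m := Nat.pow_le_pow_right (by norm_num) hm
  -- the image of `a 1`
  obtain ⟨c, hc⟩ : ∃ c, θ (a 1) = a c := by
    rcases hθa : θ (a 1) with c | i
    · exact ⟨c, rfl⟩
    · exfalso
      have h1 : orderOf (θ (a 1)) = orderOf (a 1 : QuaternionGroup (2 ^ m)) := MulEquiv.orderOf_eq θ _
      rw [hθa, orderOf_xa, orderOf_a_one] at h1
      omega
  have hapow : ∀ (c : ZMod (2 * 2 ^ m)) (n : ℕ), (a c : QuaternionGroup (2 ^ m)) ^ n = a (c * (n : ZMod (2 * 2 ^ m))) := by
    intro c n
    induction n with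
    | zero => rw [pow_zero, Nat.cast_zero, mul_zero, a_zero]
    | succ n ih =>
      rw [pow_succ, ih, a_mul_a]
      congr 1
      push_cast
      ring
  have hθs : ∀ s : ZMod (2 * 2 ^ m), θ (a s) = a (c * s) := by
    intro s
    have h1 : (a s : QuaternionGroup (2 ^ m)) = (a 1) ^ s.val := by
      rw [a_one_pow, ZMod.natCast_zmod_val]
    rw [h1, map_pow, hc, hapow, ZMod.natCast_zmod_val]
  have hθt : ∀ t : ℕ, (θ ^ t) (a 1) = a (c ^ t) := by
    intro t
    induction t with
    | zero => simp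
    | succ t ih =>
      rw [pow_succ', MulAut.mul_apply, ih, hθs, pow_succ']
  have hck : c ^ k = 1 := by
    have h1 := hθt k
    rw [hθ] at h1
    exact (a.inj h1).symm
  have hk0 : k ≠ 0 := by
    rintro rfl
    simp at hk
  have hc1 : c = 1 := by
    let u : (ZMod (2 * 2 ^ m))ˣ := Units.ofPowEqOne c k hck hk0
    have h1 : u ^ k = 1 := Units.pow_ofPowEqOne hck hk0
    have h2 : orderOf u ∣ k := orderOf_dvd_of_pow_eq_one h1
    have h3 : orderOf u ∣ Nat.card (ZMod (2 * 2 ^ m))ˣ := orderOf_dvd_natCard u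
    have h4 : Nat.card (ZMod (2 * 2 ^ m))ˣ = 2 ^ m := by
      rw [Nat.card_eq_fintype_card, ZMod.card_units_eq_totient, ← pow_succ',
        Nat.totient_prime_pow_succ Nat.prime_two]
      simp
    rw [h4] at h3
    have h6 : Nat.Coprime k (2 ^ m) := Nat.Coprime.pow_right _ (Nat.coprime_two_right.mpr hk)
    have h7 : orderOf u = 1 := Nat.eq_one_of_dvd_coprimes h6 h2 h3
    have h8 : u = 1 := orderOf_eq_one_iff.mp h7
    have h9 := congrArg Units.val h8
    simpa [u] using h9
  have hθa : ∀ s, θ (a s) = a s := by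
    intro s
    rw [hθs, hc1, one_mul]
  obtain ⟨l, hl⟩ : ∃ l, θ (xa 0) = xa l := by
    rcases hθx : θ (xa 0) with s | l
    · exfalso
      have h1 : θ (xa 0) = θ (a s) := by rw [hθx, hθa]
      have h2 := θ.injective h1
      cases h2
    · exact ⟨l, rfl⟩
  have hθx : ∀ s, θ (xa s) = xa (l + s) := by
    intro s
    have h1 : (xa s : QuaternionGroup (2 ^ m)) = xa 0 * a s := by
      rw [xa_mul_a, zero_add]
    rw [h1, map_mul, hl, hθa, xa_mul_a]
  have hθt' : ∀ t : ℕ, (θ ^ t) (xa 0) = xa ((t : ZMod (2 * 2 ^ m)) * l) := by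
    intro t
    induction t with
    | zero => simp
    | succ t ih =>
      rw [pow_succ', MulAut.mul_apply, ih, hθx]
      congr 1
      push_cast
      ring
  have hkl : (k : ZMod (2 * 2 ^ m)) * l = 0 := by
    have h1 := hθt' k
    rw [hθ] at h1
    exact (xa.inj h1).symm
  have hku : IsUnit (k : ZMod (2 * 2 ^ m)) := by
    rw [ZMod.isUnit_iff_coprime, ← pow_succ']
    exact Nat.Coprime.pow_right _ (Nat.coprime_two_right.mpr hk)
  have hl0 : l = 0 := (hku.mul_right_eq_zero).mp hkl
  ext g
  cases g with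
  | a s => simpa using hθa s
  | xa s =>
    have := hθx s
    rw [hl0, zero_add] at this
    simpa using this

/-- The map of generalized quaternion groups to a group of order 2 in `S₄`. -/
def quatSign (N : ℕ) : QuaternionGroup N →* Equiv.Perm (Fin 4) where
  toFun g := match g with
    | a _ => 1
    | xa _ => Equiv.swap 0 1
  map_one' := rfl
  map_mul' g h := by
    cases g <;> cases h <;> simp [a_mul_a, a_mul_xa, xa_mul_a, xa_mul_xa]

lemma quatSign_ker_mem (N : ℕ) [hN : NeZero N] {g : QuaternionGroup N} (h : quatSign N g = 1) :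
    g ∈ Subgroup.zpowers (a 1 : QuaternionGroup N) := by
  haveI : NeZero (2 * N) := ⟨by have := hN.out; omega⟩
  cases g with
  | a s =>
    have h1 : (a s : QuaternionGroup N) = (a 1) ^ s.val := by
      rw [a_one_pow, ZMod.natCast_zmod_val]
    rw [h1]
    exact Subgroup.npow_mem_zpowers _ _
  | xa s =>
    exfalso
    have : Equiv.swap (0 : Fin 4) 1 = 1 := h
    exact absurd this (by decide)

/-- Cyclicity from an embedding into a cyclic subgroup. -/
lemma isCyclic_of_hom_into_zpowers {T Q : Type*} [Group T] [Group Q] (ψ : T →* Q)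
    (hψ : Function.Injective ψ) (z : Q) (h : ∀ t, ψ t ∈ Subgroup.zpowers z) : IsCyclic T :=
  isCyclic_of_injective (ψ.codRestrict (Subgroup.zpowers z) h)
    (by
      intro x y hxy
      apply hψ
      exact congrArg Subtype.val hxy)

/-- The key lemma on `G / O_{2'}(G)`. -/
theorem two_quotient_S4 {E : Type*} [Group E] [Finite E] [Group.IsSolvable E]
    (hO : pPrimeCore 2 E = ⊥)
    (hZ : ∀ S : Subgroup E, IsPGroup 2 S → IsCyclic S ∨ ∃ n : ℕ, Nonempty (S ≃* QuaternionGroup (2 ^ n))) :
    ∃ f : E →* Equiv.Perm (Fin 4), ∀ T : Subgroup E, T ≤ f.ker → IsPGroup 2 T → IsCyclic T := by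
  classical
  by_cases h2 : IsPGroup 2 E
  · -- `E` is a 2-group
    rcases hZ ⊤ (h2.of_injective _ (Subgroup.subtype_injective _)) with hcyc | ⟨n, ⟨e⟩⟩
    · refine ⟨1, fun T _ _ => ?_⟩
      haveI : IsCyclic E := isCyclic_of_surjective (Subgroup.topEquiv : (⊤ : Subgroup E) ≃* E)
        (Subgroup.topEquiv : (⊤ : Subgroup E) ≃* E).surjective
      infer_instance
    · haveI : NeZero (2 ^ n) := ⟨by positivity⟩
      let ψ : E →* QuaternionGroup (2 ^ n) := e.toMonoidHom.comp (Subgroup.topEquiv (G := E)).symm.toMonoidHom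
      have hψ : Function.Injective ψ := e.injective.comp (Subgroup.topEquiv (G := E)).symm.injective
      refine ⟨(quatSign (2 ^ n)).comp ψ, fun T hT _ => ?_⟩
      refine isCyclic_of_hom_into_zpowers (ψ.comp T.subtype) (hψ.comp T.subtype_injective) (a 1) ?_
      intro t
      exact quatSign_ker_mem _ (hT t.2)
  · -- `E` is not a 2-group
    obtain ⟨g, k, hk, hgk, hg1⟩ : ∃ (g : E) (k : ℕ), Odd k ∧ g ^ k = 1 ∧ g ≠ 1 := by
      rw [isPGroup_iff_pow_pow_eq_one] at h2
      push Not at h2
      obtain ⟨x, hx⟩ := h2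
      obtain ⟨s, t, ht, hst⟩ := Nat.exists_eq_two_pow_mul_odd (orderOf_pos x).ne'
      refine ⟨x ^ 2 ^ s, t, ht, ?_, hx s⟩
      rw [← pow_mul, ← hst, pow_orderOf_eq_one]
    set R := pCore 2 E with hR
    haveI hRn : R.Normal := Cfsg.Agent.Lib.Basic.pCore_normal 2
    have hR2 : IsPGroup 2 R := Cfsg.Agent.Lib.Basic.pCore_isPGroup 2
    have hC : Subgroup.centralizer (R : Set E) ≤ R :=
      Cfsg.Agent.Lib.Basic.centralizer_pCore_le_of_pPrimeCore_eq_bot 2 hO
    have hgR : g ∉ R := by
      intro h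
      obtain ⟨j, hj⟩ := hR2 ⟨g, h⟩
      have hj' : g ^ 2 ^ j = 1 := by simpa using congrArg Subtype.val hj
      have h6 : Nat.Coprime k (2 ^ j) := Nat.Coprime.pow_right _ (Nat.coprime_two_right.mpr hk)
      have h7 : orderOf g = 1 := Nat.eq_one_of_dvd_coprimes h6 (orderOf_dvd_of_pow_eq_one hgk)
        (orderOf_dvd_of_pow_eq_one hj')
      exact hg1 (orderOf_eq_one_iff.mp h7)
    set θ : MulAut R := MulAut.conjNormal g with hθ
    have hθk : θ ^ k = 1 := by
      rw [hθ, ← map_pow, hgk, map_one]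
    have hθ1 : θ ≠ 1 := by
      intro h
      apply hgR
      apply hC
      rw [Subgroup.mem_centralizer_iff]
      intro r hr
      have h1 : θ ⟨r, hr⟩ = ⟨r, hr⟩ := by rw [h]; rfl
      have h2 : g * r * g⁻¹ = r := by
        have := congrArg Subtype.val h1
        simpa [hθ] using this
      calc r * g = (g * r * g⁻¹) * g := by rw [h2]
        _ = g * r := by group
    have hnotcyc : ¬ IsCyclic R := fun hc => hθ1 (odd_aut_cyclic hR2 θ k hk hθk)
    rcases hZ R hR2 with hcyc | ⟨n, ⟨e⟩⟩
    · exact absurd hcyc hnotcyc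
    · have hn1 : n = 1 := by
        by_contra hne
        rcases Nat.lt_or_ge n 2 with hlt | hge
        · have hn0 : n = 0 := by omega
          subst hn0
          haveI : IsCyclic (QuaternionGroup (2 ^ 0)) := QuaternionGroup.quaternionGroup_one_isCyclic
          exact hnotcyc (isCyclic_of_injective e.toMonoidHom e.injective)
        · have h3 := odd_aut_quat n hge (MulAut.congr e θ) k hk (by
            rw [← map_pow, hθk, map_one])
          exact hθ1 ((MulAut.congr e).injective (by rw [h3, map_one]))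
      subst hn1
      let e' : R ≃* QEight := e
      let f : E →* Equiv.Perm (Fin 4) :=
        qPermFour.comp ((MulAut.congr e').toMonoidHom.comp (MulAut.conjNormal : E →* MulAut R))
      refine ⟨f, fun T hT _ => ?_⟩
      have hker : ∀ x : E, x ∈ T → x ∈ R ∧ ∀ r ∈ R, x * r = r * x := by
        intro x hx
        have h1 : f x = 1 := hT hx
        have h2 : (MulAut.congr e') (MulAut.conjNormal x : MulAut R) = 1 :=
          qPermFour_injective (by rw [map_one]; exact h1)
        have h3 : (MulAut.conjNormal x : MulAut R) = 1 :=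
          (MulAut.congr e').injective (by rw [h2, map_one])
        have h4 : ∀ r ∈ R, x * r = r * x := by
          intro r hr
          have h5 : (MulAut.conjNormal x : MulAut R) ⟨r, hr⟩ = ⟨r, hr⟩ := by rw [h3]; rfl
          have h6 : x * r * x⁻¹ = r := by
            have := congrArg Subtype.val h5
            simpa using this
          calc x * r = x * r * x⁻¹ * x := by group
            _ = r * x := by rw [h6]
        refine ⟨hC ?_, h4⟩
        rw [Subgroup.mem_centralizer_iff]
        intro r hr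
        exact (h4 r hr).symm
      let ι : T →* R := (Subgroup.inclusion (fun x hx => (hker x hx).1 : T ≤ R))
      have hι : Function.Injective ι := Subgroup.inclusion_injective _
      refine isCyclic_of_hom_into_zpowers (e'.toMonoidHom.comp ι) (e'.injective.comp hι) (a 2) ?_
      intro t
      have hcent : ∀ h : QEight, (e' (ι t)) * h = h * (e' (ι t)) := by
        intro h
        obtain ⟨r, rfl⟩ := e'.surjective h
        rw [← map_mul, ← map_mul]
        congr 1
        apply Subtype.ext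
        exact (hker t.1 t.2).2 r.1 r.2
      rcases q_center _ hcent with h | h
      · show e' (ι t) ∈ _
        rw [h]
        exact Subgroup.one_mem _
      · show e' (ι t) ∈ _
        rw [h]
        exact Subgroup.mem_zpowers _

/-- Two-subgroups of `G / O` lift, for `O` of odd order. -/
theorem lift_two_subgroup {G : Type*} [Group G] [Finite G] (O : Subgroup G) [O.Normal]
    (hO : (Nat.card O).Coprime 2) (S : Subgroup (G ⧸ O)) (hS : IsPGroup 2 S) :
    ∃ S' : Subgroup G, IsPGroup 2 S' ∧ Nonempty (S' ≃* S) := by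
  classical
  let A : Subgroup G := S.comap (QuotientGroup.mk' O)
  let ψ : A →* S := (QuotientGroup.mk' O).subgroupComap S
  have hψ : Function.Surjective ψ :=
    MonoidHom.subgroupComap_surjective_of_surjective _ _ (QuotientGroup.mk'_surjective O)
  haveI : Fact (Nat.Prime 2) := ⟨Nat.prime_two⟩
  obtain ⟨P⟩ : Nonempty (Sylow 2 A) := inferInstance
  let Q : Sylow 2 S := P.mapSurjective hψ
  have hQ : (⊤ : Subgroup S) = Q :=
    Q.is_maximal' (hS.of_injective _ (Subgroup.subtype_injective _)) le_top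
  let φ : (P : Subgroup A) →* S := ψ.comp (P : Subgroup A).subtype
  have hφs : Function.Surjective φ := by
    intro s
    have h1 : s ∈ (Q : Subgroup S) := by rw [← hQ]; trivial
    have h2 : s ∈ (P : Subgroup A).map ψ := h1
    obtain ⟨x, hx, rfl⟩ := h2
    exact ⟨⟨x, hx⟩, rfl⟩
  have hφi : Function.Injective φ := by
    rw [injective_iff_map_eq_one]
    intro x hx
    have h1 : QuotientGroup.mk' O ((x : A) : G) = 1 := congrArg Subtype.val hx
    have h2 : ((x : A) : G) ∈ O := (QuotientGroup.eq_one_iff _).mp h1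
    obtain ⟨j, hj⟩ := P.isPGroup' x
    have hj' : ((x : A) : G) ^ 2 ^ j = 1 := by
      have := congrArg (fun y : (P : Subgroup A) => ((y : A) : G)) hj
      simpa using this
    have h3 : orderOf (⟨((x : A) : G), h2⟩ : O) ∣ Nat.card O := orderOf_dvd_natCard _
    have h4 : orderOf ((x : A) : G) ∣ Nat.card O := by
      have : orderOf (⟨((x : A) : G), h2⟩ : O) = orderOf ((x : A) : G) := Subgroup.orderOf_mk _ _
      rwa [this] at h3
    have h5 : Nat.Coprime (Nat.card O) (2 ^ j) := Nat.Coprime.pow_right _ hO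
    have h6 : orderOf ((x : A) : G) = 1 :=
      Nat.eq_one_of_dvd_coprimes h5 h4 (orderOf_dvd_of_pow_eq_one hj')
    have h7 : ((x : A) : G) = 1 := orderOf_eq_one_iff.mp h6
    exact Subtype.ext (Subtype.ext h7)
  let e1 : (P : Subgroup A) ≃* S := MulEquiv.ofBijective φ ⟨hφi, hφs⟩
  let e2 : (P : Subgroup A) ≃* (P : Subgroup A).map A.subtype :=
    (P : Subgroup A).equivMapOfInjective A.subtype A.subtype_injective
  exact ⟨(P : Subgroup A).map A.subtype, P.isPGroup'.map _, ⟨e2.symm.trans e1⟩⟩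

/-- The core of the structure theorem. -/
theorem solvable_structure_core {G : Type*} [Group G] [Finite G] (hsol : Group.IsSolvable G)
    (hZ1 : ∀ (p : ℕ) [Fact p.Prime] (T : Subgroup G), IsPGroup p T →
      IsCyclic T ∨ ∃ n : ℕ, Nonempty (T ≃* QuaternionGroup (2 ^ n)))
    (hpq : PQCond G) :
    ∃ G₀ : Subgroup G, G₀.Normal ∧
      (∃ f : G →* Equiv.Perm (Fin 4), f.ker = G₀) ∧
      (∀ (p : ℕ) [Fact p.Prime] (P : Sylow p G₀), IsCyclic P) ∧
      ∃ n m r : ℕ, 0 < n ∧ 0 < m ∧ Nat.Coprime (r - 1) m ∧ Nat.Coprime n m ∧ 1 ≤ r ∧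
        r ^ (n / ∏ p ∈ n.primeFactors, p) % m = 1 % m ∧
        Nonempty (G₀ ≃* PresentedGroup (zRels n m r)) := by
  classical
  haveI : Fact (Nat.Prime 2) := ⟨Nat.prime_two⟩
  set O := pPrimeCore 2 G with hOdef
  haveI hOn : O.Normal := Cfsg.Agent.Lib.Basic.pPrimeCore_normal 2
  have hOc : (Nat.card O).Coprime 2 := Cfsg.Agent.Lib.Basic.pPrimeCore_coprime 2
  have hEO : pPrimeCore 2 (G ⧸ O) = ⊥ := Cfsg.Agent.Lib.Basic.pPrimeCore_quotient_eq_bot 2
  have hZE : ∀ S : Subgroup (G ⧸ O), IsPGroup 2 S →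
      IsCyclic S ∨ ∃ n : ℕ, Nonempty (S ≃* QuaternionGroup (2 ^ n)) := by
    intro S hS
    obtain ⟨S', hS', ⟨e⟩⟩ := lift_two_subgroup O hOc S hS
    rcases hZ1 2 S' hS' with hc | ⟨n, ⟨e'⟩⟩
    · exact Or.inl (isCyclic_of_surjective e e.surjective)
    · exact Or.inr ⟨n, ⟨e.symm.trans e'⟩⟩
  obtain ⟨f, hf⟩ := two_quotient_S4 hEO hZE
  set f' : G →* Equiv.Perm (Fin 4) := f.comp (QuotientGroup.mk' O) with hf'
  -- two-subgroups in the kernel are cyclic
  have h2cyc : ∀ T : Subgroup G, T ≤ f'.ker → IsPGroup 2 T → IsCyclic T := by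
    intro T hT hT2
    set T' := T.map (QuotientGroup.mk' O) with hT'
    have hT'1 : T' ≤ f.ker := by
      rintro _ ⟨x, hx, rfl⟩
      exact hT hx
    have hT'2 : IsPGroup 2 T' := hT2.map _
    haveI hT'c := hf T' hT'1 hT'2
    have hinj : Function.Injective ((QuotientGroup.mk' O).comp T.subtype) := by
      rw [injective_iff_map_eq_one]
      intro x hx
      have h2 : (x : G) ∈ O := (QuotientGroup.eq_one_iff _).mp hx
      obtain ⟨j, hj⟩ := hT2 x
      have hj' : (x : G) ^ 2 ^ j = 1 := by
        have := congrArg Subtype.val hj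
        simpa using this
      have h3 : orderOf (⟨(x : G), h2⟩ : O) ∣ Nat.card O := orderOf_dvd_natCard _
      have h4 : orderOf (x : G) ∣ Nat.card O := by
        have : orderOf (⟨(x : G), h2⟩ : O) = orderOf (x : G) := Subgroup.orderOf_mk _ _
        rwa [this] at h3
      have h5 : Nat.Coprime (Nat.card O) (2 ^ j) := Nat.Coprime.pow_right _ hOc
      have h6 : orderOf (x : G) = 1 :=
        Nat.eq_one_of_dvd_coprimes h5 h4 (orderOf_dvd_of_pow_eq_one hj')
      exact Subtype.ext (orderOf_eq_one_iff.mp h6)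
    refine isCyclic_of_injective (((QuotientGroup.mk' O).comp T.subtype).codRestrict T' ?_) ?_
    · intro x
      exact ⟨x, x.2, rfl⟩
    · intro x y hxy
      apply hinj
      exact congrArg Subtype.val hxy
  refine ⟨f'.ker, inferInstance, ⟨f', rfl⟩, ?_⟩
  have hsyl : ∀ (p : ℕ) [Fact p.Prime] (P : Sylow p f'.ker), IsCyclic P := by
    intro p _ P
    set T : Subgroup G := (P : Subgroup f'.ker).map f'.ker.subtype with hT
    have hTp : IsPGroup p T := P.isPGroup'.map _
    have hTk : T ≤ f'.ker := Subgroup.map_subtype_le _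
    have e : (P : Subgroup f'.ker) ≃* T :=
      (P : Subgroup f'.ker).equivMapOfInjective f'.ker.subtype f'.ker.subtype_injective
    suffices hc : IsCyclic T from isCyclic_of_surjective e.symm e.symm.surjective
    by_cases hp2 : p = 2
    · subst hp2
      exact h2cyc T hTk hTp
    · rcases hZ1 p T hTp with hc | ⟨n, ⟨e'⟩⟩
      · exact hc
      · exfalso
        haveI : NeZero (2 ^ n) := ⟨by positivity⟩
        obtain ⟨k, hk⟩ := IsPGroup.iff_card.mp hTp
        have h1 : Nat.card T = 4 * 2 ^ n := by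
          rw [Nat.card_congr e'.toEquiv, Nat.card_eq_fintype_card, QuaternionGroup.card]
        have h2 : 2 ∣ p ^ k := by
          rw [← hk, h1]
          exact Dvd.dvd.mul_right (by norm_num) _
        have h3 : 2 ∣ p := (Nat.Prime.dvd_of_dvd_pow Nat.prime_two h2)
        have h4 : 2 = p := (Nat.prime_dvd_prime_iff_eq Nat.prime_two Fact.out).mp h3
        exact hp2 h4.symm
  refine ⟨hsyl, ?_⟩
  haveI : IsZGroup f'.ker := ⟨fun p hp P => by
    haveI : Fact p.Prime := ⟨hp⟩
    exact hsyl p P⟩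
  have hpq' : PQCond f'.ker := by
    intro a x ha hx h
    apply Subtype.ext
    refine hpq (a : G) (x : G) ?_ ?_ ?_
    · rwa [Subgroup.orderOf_coe]
    · rwa [Subgroup.orderOf_coe]
    · obtain ⟨k, hk⟩ := h
      exact ⟨k, by simpa using congrArg Subtype.val hk⟩
  exact zgroup_presentation hpq'

end Cfsg.Agent.Lib.Struct.PF
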