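import Mathlib

/-!
# The symmetric group of degree three acting on a group of order prime to six: group theory
-/

set_option autoImplicit false

namespace Cfsg.Agent.Lib.Struct.SymFix

open Subgroup

abbrev S3 := Equiv.Perm (Fin 3)

def a3 : S3 := finRotate 3

def IsRefl (r : S3) : Prop := r * r = 1 ∧ r ≠ 1

instance : DecidablePred IsRefl := fun r => by unfold IsRefl; infer_instance

theorem a3_cube : a3 * a3 * a3 = 1 := by decide
theorem a3_ne_one : a3 ≠ 1 := by decide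
theorem a3_inv : a3⁻¹ = a3 * a3 := by decide
theorem refl_conj : ∀ r : S3, IsRefl r → r * a3 = a3⁻¹ * r := by decide
theorem cases_S3 : ∀ α : S3, α = 1 ∨ α = a3 ∨ α = a3⁻¹ ∨ IsRefl α := by decide
theorem refl_mul : ∀ r r' : S3, IsRefl r → IsRefl r' → r ≠ r' → r * r' = a3 ∨ r * r' = a3⁻¹ := by decide
theorem exists_refl : ∃ r : S3, IsRefl r := by decide
theorem not_refl_one : ¬ IsRefl 1 := by decide
theorem not_refl_a : ¬ IsRefl a3 := by decide
theorem not_refl_a' : ¬ IsRefl a3⁻¹ := by decide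
theorem refl_conj' : ∀ r : S3, IsRefl r → a3 * r = r * a3⁻¹ := by decide
theorem refl_conj2 : ∀ r : S3, IsRefl r → a3 * r * a3⁻¹ * r = a3 * a3 := by decide
theorem a3_inv_ne_one : a3⁻¹ ≠ 1 := by decide
theorem a3_ne_inv : a3 ≠ a3⁻¹ := by decide
theorem all_of_a_r (P : S3 → Prop) (r : S3) (hr : IsRefl r) (h1 : P 1) (ha : P a3) (hr' : P r)
    (hm : ∀ x y, P x → P y → P (x * y)) : ∀ α, P α := by
  have ha2 : P a3⁻¹ := by rw [a3_inv]; exact hm _ _ ha ha
  intro α
  rcases cases_S3 α with rfl | rfl | rfl | hα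
  · exact h1
  · exact ha
  · exact ha2
  · by_cases he : α = r
    · rw [he]; exact hr'
    · rcases refl_mul r α hr hα (Ne.symm he) with h | h
      · have : α = r * a3 := by
          have h2 : r * (r * α) = r * a3 := by rw [h]
          rw [← mul_assoc, hr.1, one_mul] at h2
          exact h2
        rw [this]; exact hm _ _ hr' ha
      · have : α = r * a3⁻¹ := by
          have h2 : r * (r * α) = r * a3⁻¹ := by rw [h]
          rw [← mul_assoc, hr.1, one_mul] at h2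
          exact h2
        rw [this]; exact hm _ _ hr' ha2

/-- A self-map whose `p`-th iterate is the identity has a fixed point if `p` does not divide the
cardinality. -/
theorem exists_fixed_of_iterate {X : Type*} [Finite X] {p : ℕ} [hp : Fact p.Prime] (f : X → X)
    (hf : f^[p] = id) (hc : ¬ p ∣ Nat.card X) : ∃ x, f x = x := by
  classical
  haveI := Fintype.ofFinite X
  let f' : Function.End X := f
  have h1 : f' ^ p ^ 1 = 1 := by
    rw [pow_one]
    funext x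
    exact congrFun hf x
  have h2 := Equiv.Perm.card_fixedPoints_modEq (α := X) (f := f') (p := p) (n := 1) h1
  by_contra hcon
  push_neg at hcon
  have h3 : Fintype.card (Function.fixedPoints f') = 0 := by
    rw [Fintype.card_eq_zero_iff]
    exact ⟨fun x => hcon x.1 x.2⟩
  rw [h3] at h2
  apply hc
  rw [Nat.card_eq_fintype_card]
  exact (Nat.modEq_zero_iff_dvd).1 h2

variable {K : Type*} [Group K] [Finite K] [MulDistribMulAction S3 K]

theorem exists_fixed_coset {p : ℕ} [hp : Fact p.Prime] (α : S3) (hα : α ^ p = 1) (J : Subgroup K)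
    (hJ : ∀ j ∈ J, α • j ∈ J) (hc : ¬ p ∣ Nat.card J) (g : K) (hg : g⁻¹ * (α • g) ∈ J) :
    ∃ j ∈ J, α • (g * j) = g * j := by
  let f : J → J := fun j => ⟨g⁻¹ * (α • g) * (α • (j : K)), J.mul_mem hg (hJ _ j.2)⟩
  have hfg : ∀ j : J, g * (f j : K) = α • (g * (j : K)) := by
    intro j
    show g * (g⁻¹ * (α • g) * (α • (j : K))) = _
    rw [smul_mul']
    group
  have hit : ∀ (n : ℕ) (j : J), g * ((f^[n] j : J) : K) = α ^ n • (g * (j : K)) := by
    intro n
    induction n with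
    | zero => intro j; simp
    | succ n ih =>
      intro j
      rw [Function.iterate_succ_apply', hfg, ih, pow_succ', mul_smul]
  have hid : f^[p] = id := by
    funext j
    apply Subtype.ext
    have := hit p j
    rw [hα, one_smul] at this
    exact mul_left_cancel this
  obtain ⟨j, hj⟩ := exists_fixed_of_iterate f hid hc
  refine ⟨j, j.2, ?_⟩
  rw [← hfg, hj]

/-- The subgroup of elements fixed by `α`. -/
def fixSub (K : Type*) [Group K] [MulDistribMulAction S3 K] (α : S3) : Subgroup K where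
  carrier := {x | α • x = x}
  mul_mem' := by
    intro x y hx hy
    show α • (x * y) = _
    rw [smul_mul', show α • x = x from hx, show α • y = y from hy]
  one_mem' := smul_one α
  inv_mem' := by
    intro x hx
    show α • x⁻¹ = _
    rw [smul_inv', show α • x = x from hx]

theorem mem_fixSub {α : S3} {x : K} : x ∈ fixSub K α ↔ α • x = x := Iff.rfl

section fix

variable (hc : (Nat.card K).Coprime 6) (hfix : ∀ g : K, (∀ α : S3, α • g = g) → g = 1)

include hc in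
theorem not_two_dvd_of_sub (J : Subgroup K) : ¬ 2 ∣ Nat.card J := by
  intro h
  have h1 : 2 ∣ Nat.card K := h.trans (Subgroup.card_subgroup_dvd_card J)
  have h2 : 2 ∣ Nat.gcd (Nat.card K) 6 := Nat.dvd_gcd h1 (by norm_num)
  rw [hc] at h2
  norm_num at h2

include hc in
theorem not_three_dvd_of_sub (J : Subgroup K) : ¬ 3 ∣ Nat.card J := by
  intro h
  have h1 : 3 ∣ Nat.card K := h.trans (Subgroup.card_subgroup_dvd_card J)
  have h2 : 3 ∣ Nat.gcd (Nat.card K) 6 := Nat.dvd_gcd h1 (by norm_num)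
  rw [hc] at h2
  norm_num at h2

omit [Finite K] in
theorem a3_smul_inv (x : K) : a3⁻¹ • x = a3 • a3 • x := by
  rw [← mul_smul, a3_inv]

omit [Finite K] in
theorem a3_cube_smul (x : K) : a3 • a3 • a3 • x = x := by
  rw [← mul_smul, ← mul_smul, a3_cube, one_smul]

omit [Finite K] in
theorem refl_smul_smul {r : S3} (hr : IsRefl r) (x : K) : r • r • x = x := by
  rw [← mul_smul, hr.1, one_smul]

omit [Finite K] in
theorem refl_a_smul {r : S3} (hr : IsRefl r) (x : K) : r • a3 • x = a3⁻¹ • r • x := by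
  rw [← mul_smul, refl_conj r hr, mul_smul]

omit [Finite K] in
theorem a_refl_smul {r : S3} (hr : IsRefl r) (x : K) : a3 • r • x = r • a3⁻¹ • x := by
  rw [← mul_smul, refl_conj' r hr, mul_smul]

omit [Finite K] in
theorem a_inv_fix {x : K} (hx : a3 • x = x) : a3⁻¹ • x = x := by
  rw [a3_smul_inv, hx, hx]

omit [Finite K] in
include hfix in
theorem fixed_of_a_r {r : S3} (hr : IsRefl r) {g : K} (h1 : a3 • g = g) (h2 : r • g = g) : g = 1 := by
  apply hfix
  apply all_of_a_r (fun α => α • g = g) r hr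
  · exact one_smul _ _
  · exact h1
  · exact h2
  · intro x y hx hy
    show (x * y) • g = g
    rw [mul_smul, hy, hx]

include hc hfix in
/-- Fixed cosets contain fixed points: the form used throughout. -/
theorem mem_of_coset_fixed {r : S3} (hr : IsRefl r) (J : Subgroup K) (hJa : ∀ j ∈ J, a3 • j ∈ J)
    (hJr : ∀ j ∈ J, r • j ∈ J) (g : K) (h1 : g⁻¹ * (a3 • g) ∈ J) (h2 : g⁻¹ * (r • g) ∈ J) : g ∈ J := by
  haveI f3 : Fact (Nat.Prime 3) := ⟨Nat.prime_three⟩
  haveI f2 : Fact (Nat.Prime 2) := ⟨Nat.prime_two⟩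
  have ha3 : a3 ^ 3 = 1 := by decide
  obtain ⟨j, hj, hfj⟩ := exists_fixed_coset (p := 3) a3 ha3 J hJa (not_three_dvd_of_sub hc J) g h1
  have hr2 : r ^ 2 = 1 := by rw [pow_two]; exact hr.1
  let Ja : Subgroup K := J ⊓ fixSub K a3
  have hJar : ∀ i ∈ Ja, r • i ∈ Ja := by
    intro i hi
    refine ⟨hJr i hi.1, ?_⟩
    show a3 • r • i = r • i
    rw [a_refl_smul hr, a_inv_fix hi.2]
  have hg1 : (g * j)⁻¹ * (r • (g * j)) ∈ Ja := by
    refine ⟨?_, ?_⟩
    · have h3 : (g * j)⁻¹ * (r • (g * j)) = j⁻¹ * (g⁻¹ * (r • g)) * (r • j) := by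
        rw [smul_mul']; group
      rw [h3]
      exact J.mul_mem (J.mul_mem (J.inv_mem hj) h2) (hJr j hj)
    · show a3 • ((g * j)⁻¹ * (r • (g * j))) = _
      rw [smul_mul', smul_inv', hfj, a_refl_smul hr, a_inv_fix hfj]
  obtain ⟨j', hj', hfj'⟩ := exists_fixed_coset (p := 2) r hr2 Ja hJar (not_two_dvd_of_sub hc Ja) (g * j) hg1
  have h3 : g * j * j' = 1 := by
    apply fixed_of_a_r hfix hr
    · rw [smul_mul', hfj, show a3 • j' = j' from hj'.2]
    · exact hfj'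
  have h4 : g = (j * j')⁻¹ := by
    rw [eq_inv_iff_mul_eq_one, ← mul_assoc]
    exact h3
  rw [h4]
  exact J.inv_mem (J.mul_mem hj hj'.1)

include hc hfix in
/-- A reflection inverts every element fixed by the rotation. -/
theorem inv_of_a_fixed {r : S3} (hr : IsRefl r) {y : K} (hy : a3 • y = y) : r • y = y⁻¹ := by
  let Y := fixSub K a3
  have hYr : ∀ w ∈ Y, w⁻¹ * (r • w) ∈ Y := by
    intro w hw
    refine Y.mul_mem (Y.inv_mem hw) ?_
    show a3 • r • w = r • w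
    rw [a_refl_smul hr]
    congr 1
    exact (a_inv_fix hw)
  let φ : Y → Y := fun w => ⟨(w : K)⁻¹ * (r • (w : K)), hYr _ w.2⟩
  have hinj : Function.Injective φ := by
    intro w w' hww
    have h1 : (w : K)⁻¹ * (r • (w : K)) = (w' : K)⁻¹ * (r • (w' : K)) := congrArg Subtype.val hww
    have h2 : (w' : K) * (w : K)⁻¹ = 1 := by
      apply fixed_of_a_r hfix hr
      · rw [smul_mul', smul_inv', show a3 • (w : K) = w from w.2, show a3 • (w' : K) = w' from w'.2]
      · rw [smul_mul', smul_inv']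
        have h3 : (r • (w : K)) = (w : K) * ((w' : K)⁻¹ * (r • (w' : K))) := by
          rw [← h1]; group
        rw [h3]
        group
    have h3 : (w' : K) = w := by
      rw [mul_inv_eq_one] at h2
      exact h2
    exact Subtype.ext h3.symm
  have hsurj := Finite.surjective_of_injective hinj
  obtain ⟨w, hw⟩ := hsurj ⟨y, hy⟩
  have h1 : (w : K)⁻¹ * (r • (w : K)) = y := congrArg Subtype.val hw
  rw [← h1, smul_mul', smul_inv', refl_smul_smul hr]
  group

include hc hfix in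
theorem comm_of_a_fixed {x y : K} (hx : a3 • x = x) (hy : a3 • y = y) : x * y = y * x := by
  obtain ⟨r, hr⟩ := exists_refl
  have hxy : a3 • (x * y) = x * y := by rw [smul_mul', hx, hy]
  have h1 := inv_of_a_fixed hc hfix hr hxy
  rw [smul_mul', inv_of_a_fixed hc hfix hr hx, inv_of_a_fixed hc hfix hr hy] at h1
  have h2 : (x * y)⁻¹ = y⁻¹ * x⁻¹ := mul_inv_rev x y
  rw [h2] at h1
  have h3 : (y * x)⁻¹ = (x * y)⁻¹ := by
    rw [mul_inv_rev, mul_inv_rev]
    exact h1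
  exact (inv_injective h3).symm

end fix

/-- The rotated copies of a subgroup. -/
def rot (α : S3) (L : Subgroup K) : Subgroup K :=
  L.comap (MulDistribMulAction.toMonoidHom K α⁻¹)

omit [Finite K] in
theorem mem_rot {α : S3} {L : Subgroup K} {x : K} : x ∈ rot α L ↔ α⁻¹ • x ∈ L := Iff.rfl

instance rot_normal (α : S3) (L : Subgroup K) [L.Normal] : (rot α L).Normal :=
  Subgroup.Normal.comap inferInstance _

section principle

variable (hc : (Nat.card K).Coprime 6) (hfix : ∀ g : K, (∀ α : S3, α • g = g) → g = 1)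

include hc hfix in
/-- **The reflection principle.** If a reflection acts trivially on `K / L`, then `K / L` is
abelian. -/
theorem comm_mem_of_refl_trivial {r : S3} (hr : IsRefl r) (L : Subgroup K) [hL : L.Normal]
    (h : ∀ g : K, g⁻¹ * (r • g) ∈ L) (x y : K) : x * y * x⁻¹ * y⁻¹ ∈ L := by
  -- notation
  have hrL : ∀ g ∈ L, r • g ∈ L := by
    intro g hg
    have := L.mul_mem hg (h g)
    simpa using this
  let L₂ := rot a3 L
  let L₃ := rot a3⁻¹ L
  have mL₂ : ∀ {g : K}, g ∈ L₂ ↔ a3⁻¹ • g ∈ L := Iff.rfl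
  have mL₃ : ∀ {g : K}, g ∈ L₃ ↔ a3 • g ∈ L := by
    intro g
    show (a3⁻¹)⁻¹ • g ∈ L ↔ _
    rw [inv_inv]
  have a_L_L₂ : ∀ g ∈ L, a3 • g ∈ L₂ := by
    intro g hg
    rw [mL₂, inv_smul_smul]; exact hg
  have a_L₂_L₃ : ∀ g ∈ L₂, a3 • g ∈ L₃ := by
    intro g hg
    rw [mL₃, ← mul_smul]
    rw [mL₂] at hg
    have : (a3 * a3) • g = a3⁻¹ • g := by rw [a3_inv]
    rw [this]; exact hg
  have a_L₃_L : ∀ g ∈ L₃, a3 • g ∈ L := fun g hg => mL₃.1 hg
  have ai_L_L₃ : ∀ g ∈ L, a3⁻¹ • g ∈ L₃ := by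
    intro g hg
    rw [mL₃, smul_inv_smul]; exact hg
  have ai_L₃_L₂ : ∀ g ∈ L₃, a3⁻¹ • g ∈ L₂ := by
    intro g hg
    rw [mL₂]
    rw [mL₃] at hg
    have : a3⁻¹ • a3⁻¹ • g = a3 • g := by
      rw [← mul_smul]
      have : a3⁻¹ * a3⁻¹ = a3 := by decide
      rw [this]
    rw [this]; exact hg
  have ai_L₂_L : ∀ g ∈ L₂, a3⁻¹ • g ∈ L := fun g hg => mL₂.1 hg
  have r_L₂_L₃ : ∀ g ∈ L₂, r • g ∈ L₃ := by
    intro g hg
    rw [mL₃, a_refl_smul hr]
    exact hrL _ (mL₂.1 hg)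
  have r_L₃_L₂ : ∀ g ∈ L₃, r • g ∈ L₂ := by
    intro g hg
    rw [mL₂, ← mul_smul]
    have : a3⁻¹ * r = r * a3 := (refl_conj r hr).symm
    rw [this, mul_smul]
    exact hrL _ (mL₃.1 hg)
  -- the triple intersection
  let L₀ := L ⊓ L₂ ⊓ L₃
  have hL₀a : ∀ j ∈ L₀, a3 • j ∈ L₀ := by
    rintro j ⟨⟨h1, h2⟩, h3⟩
    exact ⟨⟨a_L₃_L _ h3, a_L_L₂ _ h1⟩, a_L₂_L₃ _ h2⟩
  have hL₀r : ∀ j ∈ L₀, r • j ∈ L₀ := by
    rintro j ⟨⟨h1, h2⟩, h3⟩
    exact ⟨⟨hrL _ h1, r_L₃_L₂ _ h3⟩, r_L₂_L₃ _ h2⟩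
  -- the intersection of two rotated copies lies in the third
  have hT : ∀ t ∈ L₂, t ∈ L₃ → t ∈ L := by
    intro t ht2 ht3
    let t₂ := a3 • t
    let t₃ := a3⁻¹ • t
    have h2L : t₂ ∈ L := a_L₃_L _ ht3
    have h2L₃ : t₂ ∈ L₃ := a_L₂_L₃ _ ht2
    have h3L : t₃ ∈ L := ai_L₂_L _ ht2
    have h3L₂ : t₃ ∈ L₂ := ai_L₃_L₂ _ ht3
    let z := t * t₂ * t₃
    have haz : a3 • z = t₂ * t₃ * t := by
      show a3 • (t * t₂ * t₃) = _
      rw [smul_mul', smul_mul']
      have : a3 • t₃ = t := smul_inv_smul a3 t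
      rw [this]
      have h5 : a3 • t₂ = t₃ := by
        show a3 • a3 • t = a3⁻¹ • t
        rw [a3_smul_inv]
      rw [h5]
    have hrt : r • t ∈ L₂ := r_L₃_L₂ _ ht3
    have hrt' : r • t ∈ L₃ := r_L₂_L₃ _ ht2
    have hu : t⁻¹ * (r • t) ∈ L₀ := ⟨⟨h t, L₂.mul_mem (L₂.inv_mem ht2) hrt⟩, L₃.mul_mem (L₃.inv_mem ht3) hrt'⟩
    have hrz : r • z = (r • t) * (a3⁻¹ • r • t) * (a3 • r • t) := by
      show r • (t * (a3 • t) * (a3⁻¹ • t)) = _
      rw [smul_mul', smul_mul', refl_a_smul hr]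
      congr 1
      rw [← mul_smul]
      have : r * a3⁻¹ = a3 * r := (refl_conj' r hr).symm
      rw [this, mul_smul]
    have modL : ∀ (L' : Subgroup K) [L'.Normal] {x y : K}, ((x : K ⧸ L') = y) → x⁻¹ * y ∈ L' :=
      fun L' _ x y hxy => QuotientGroup.eq.1 hxy
    have one1 : ∀ (L' : Subgroup K) [L'.Normal] {x : K}, x ∈ L' → ((x : K ⧸ L') = 1) :=
      fun L' _ x hx => (QuotientGroup.eq_one_iff x).2 hx
    have key1 : z⁻¹ * (a3 • z) ∈ L₀ := by
      rw [haz]
      refine ⟨⟨?_, ?_⟩, ?_⟩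
      · apply modL L
        show ((t * t₂ * t₃ : K) : K ⧸ L) = ((t₂ * t₃ * t : K) : K ⧸ L)
        simp only [QuotientGroup.mk_mul, one1 L h2L, one1 L h3L, mul_one, one_mul]
      · apply modL L₂
        show ((t * t₂ * t₃ : K) : K ⧸ L₂) = ((t₂ * t₃ * t : K) : K ⧸ L₂)
        simp only [QuotientGroup.mk_mul, one1 L₂ ht2, one1 L₂ h3L₂, mul_one, one_mul]
      · apply modL L₃
        show ((t * t₂ * t₃ : K) : K ⧸ L₃) = ((t₂ * t₃ * t : K) : K ⧸ L₃)
        simp only [QuotientGroup.mk_mul, one1 L₃ ht3, one1 L₃ h2L₃, mul_one, one_mul]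
    have key2 : z⁻¹ * (r • z) ∈ L₀ := by
      rw [hrz]
      obtain ⟨u, hu'⟩ : ∃ u, u = t⁻¹ * (r • t) := ⟨_, rfl⟩
      have hrtu : r • t = t * u := by rw [hu']; group
      rw [← hu'] at hu
      have hau : a3 • u ∈ L₀ := hL₀a _ hu
      have haiu : a3⁻¹ • u ∈ L₀ := by
        have h5 : a3⁻¹ • u = a3 • a3 • u := a3_smul_inv u
        rw [h5]; exact hL₀a _ hau
      rw [hrtu, smul_mul', smul_mul']
      have hE : t * u * (t₃ * a3⁻¹ • u) * (t₂ * a3 • u) = t * u * ((a3⁻¹ • t) * a3⁻¹ • u) * ((a3 • t) * a3 • u) := rfl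
      rw [← hE]
      refine ⟨⟨?_, ?_⟩, ?_⟩
      · apply modL L
        show ((t * t₂ * t₃ : K) : K ⧸ L) = ((t * u * (t₃ * a3⁻¹ • u) * (t₂ * a3 • u) : K) : K ⧸ L)
        simp only [QuotientGroup.mk_mul, one1 L h2L, one1 L h3L, one1 L hu.1.1, one1 L hau.1.1,
          one1 L haiu.1.1, mul_one, one_mul]
      · apply modL L₂
        show ((t * t₂ * t₃ : K) : K ⧸ L₂) = ((t * u * (t₃ * a3⁻¹ • u) * (t₂ * a3 • u) : K) : K ⧸ L₂)
        simp only [QuotientGroup.mk_mul, one1 L₂ ht2, one1 L₂ h3L₂, one1 L₂ hu.1.2, one1 L₂ hau.1.2,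
          one1 L₂ haiu.1.2, mul_one, one_mul]
      · apply modL L₃
        show ((t * t₂ * t₃ : K) : K ⧸ L₃) = ((t * u * (t₃ * a3⁻¹ • u) * (t₂ * a3 • u) : K) : K ⧸ L₃)
        simp only [QuotientGroup.mk_mul, one1 L₃ ht3, one1 L₃ h2L₃, one1 L₃ hu.2, one1 L₃ hau.2,
          one1 L₃ haiu.2, mul_one, one_mul]
    have hzL₀ : z ∈ L₀ := mem_of_coset_fixed hc hfix hr L₀ hL₀a hL₀r z key1 key2
    have hzL : z ∈ L := hzL₀.1.1
    have : t = z * t₃⁻¹ * t₂⁻¹ := by show t = t * t₂ * t₃ * t₃⁻¹ * t₂⁻¹; group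
    rw [this]
    exact L.mul_mem (L.mul_mem hzL (L.inv_mem h3L)) (L.inv_mem h2L)
  -- the join of the three copies is everything
  let J : Subgroup K := L ⊔ L₂ ⊔ L₃
  have hLJ : L ≤ J := le_trans le_sup_left le_sup_left
  have hL₂J : L₂ ≤ J := le_trans le_sup_right le_sup_left
  have hL₃J : L₃ ≤ J := le_sup_right
  have hJa : ∀ j ∈ J, a3 • j ∈ J := by
    have : J ≤ J.comap (MulDistribMulAction.toMonoidHom K a3) := by
      refine sup_le (sup_le ?_ ?_) ?_
      · intro l hl; exact hL₂J (a_L_L₂ l hl)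
      · intro l hl; exact hL₃J (a_L₂_L₃ l hl)
      · intro l hl; exact hLJ (a_L₃_L l hl)
    exact fun j hj => this hj
  have hJr : ∀ j ∈ J, r • j ∈ J := by
    have : J ≤ J.comap (MulDistribMulAction.toMonoidHom K r) := by
      refine sup_le (sup_le ?_ ?_) ?_
      · intro l hl; exact hLJ (hrL l hl)
      · intro l hl; exact hL₃J (r_L₂_L₃ l hl)
      · intro l hl; exact hL₂J (r_L₃_L₂ l hl)
    exact fun j hj => this hj
  have h2 : ∀ g : K, g⁻¹ * ((a3 * r * a3⁻¹) • g) ∈ L₂ := by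
    intro g
    rw [mL₂, smul_mul', smul_inv']
    have h3 := h (a3⁻¹ • g)
    have h4 : a3⁻¹ • (a3 * r * a3⁻¹) • g = r • a3⁻¹ • g := by
      rw [← mul_smul, ← mul_smul]
      congr 1
      group
    rw [h4]
    exact h3
  have ha2 : ∀ g : K, g⁻¹ * ((a3 * a3) • g) ∈ J := by
    intro g
    have h3 : (a3 * a3) • g = (a3 * r * a3⁻¹) • r • g := by
      rw [← mul_smul, refl_conj2 r hr]
    rw [h3]
    have h4 : g⁻¹ * (a3 * r * a3⁻¹) • r • g = (g⁻¹ * r • g) * ((r • g)⁻¹ * (a3 * r * a3⁻¹) • r • g) := by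
      group
    rw [h4]
    exact J.mul_mem (hLJ (h g)) (hL₂J (h2 _))
  have ha1 : ∀ g : K, g⁻¹ * (a3 • g) ∈ J := by
    intro g
    have h3 : a3 • g = (a3 * a3) • (a3 * a3) • g := by
      rw [← mul_smul]
      have : a3 * a3 * (a3 * a3) = a3 := by decide
      rw [this]
    rw [h3]
    have h4 : g⁻¹ * (a3 * a3) • (a3 * a3) • g =
        (g⁻¹ * (a3 * a3) • g) * (((a3 * a3) • g)⁻¹ * (a3 * a3) • (a3 * a3) • g) := by
      group
    rw [h4]
    exact J.mul_mem (ha2 g) (ha2 _)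
  have hJtop : ∀ g : K, g ∈ J := fun g =>
    mem_of_coset_fixed hc hfix hr J hJa hJr g (ha1 g) (hLJ (h g))
  -- conclusion in the quotient
  let q : K →* K ⧸ L := QuotientGroup.mk' L
  have hq : ∀ g : K, q (r • g) = q g := by
    intro g
    symm
    exact QuotientGroup.eq.2 (h g)
  have hS : J ≤ (L₂.map q).comap q := by
    refine sup_le (sup_le ?_ ?_) ?_
    · intro l hl
      show q l ∈ L₂.map q
      have : q l = 1 := (QuotientGroup.eq_one_iff l).2 hl
      rw [this]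
      exact one_mem _
    · intro l hl
      exact Subgroup.mem_map_of_mem q hl
    · intro l hl
      show q l ∈ L₂.map q
      rw [← hq l]
      exact Subgroup.mem_map_of_mem q (r_L₃_L₂ l hl)
  have hx := hS (hJtop x)
  have hy := hS (hJtop y)
  obtain ⟨u, hu, hux⟩ := hx
  obtain ⟨w, hw, hwy⟩ := hy
  have hrw : r • w ∈ L₃ := r_L₂_L₃ w hw
  have hcomm : u * (r • w) * u⁻¹ * (r • w)⁻¹ ∈ L := by
    apply hT
    · have : u * (r • w) * u⁻¹ ∈ L₂ → True := fun _ => trivial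
      have h5 : (r • w) * u⁻¹ * (r • w)⁻¹ ∈ L₂ :=
        (inferInstance : L₂.Normal).conj_mem _ (L₂.inv_mem hu) _
      have e : u * (r • w) * u⁻¹ * (r • w)⁻¹ = u * ((r • w) * u⁻¹ * (r • w)⁻¹) := by group
      rw [e]
      exact L₂.mul_mem hu h5
    · have h5 : u * (r • w) * u⁻¹ ∈ L₃ := (inferInstance : L₃.Normal).conj_mem _ hrw _
      exact L₃.mul_mem h5 (L₃.inv_mem hrw)
  have hqc : q (u * (r • w) * u⁻¹ * (r • w)⁻¹) = 1 := (QuotientGroup.eq_one_iff _).2 hcomm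
  rw [map_mul, map_mul, map_mul, map_inv, map_inv, hq w, hux, hwy] at hqc
  have : q (x * y * x⁻¹ * y⁻¹) = 1 := by
    rw [map_mul, map_mul, map_mul, map_inv, map_inv]
    exact hqc
  exact (QuotientGroup.eq_one_iff _).1 this

end principle

end Cfsg.Agent.Lib.Struct.SymFix
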