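import Mathlib
import Cfsg.Agent.Lib.Struct.SymFixA

/-!
# Fixed point free automorphisms of prime order: the coset norm identity
-/

set_option autoImplicit false

namespace Cfsg.Agent.Lib.Struct.PQFix

open Subgroup

/-- The (ordered) norm of an element under conjugation by `g`. -/
def nrm {L : Type*} [Group L] (g y : L) : ℕ → L
  | 0 => 1
  | n + 1 => nrm g y n * (g ^ n * y * (g ^ n)⁻¹)

/-- The (ordered) norm under an automorphism. -/
def nrmW {W : Type*} [Group W] (τ : MulAut W) (w : W) : ℕ → W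
  | 0 => 1
  | n + 1 => nrmW τ w n * ((τ ^ n) w)

section coset

variable {X : Type*} [Group X]

theorem exists_fixed_coset' {q : ℕ} (hq : q.Prime) (α : X →* X) (hα : ∀ x, α^[q] x = x)
    (J : Subgroup X) [Finite J] (hJ : ∀ j ∈ J, α j ∈ J) (hc : ¬ q ∣ Nat.card J) (g : X) (hg : g⁻¹ * α g ∈ J) :
    ∃ j ∈ J, α (g * j) = g * j := by
  haveI : Fact q.Prime := ⟨hq⟩
  let f : J → J := fun j => ⟨g⁻¹ * α g * α (j : X), J.mul_mem hg (hJ _ j.2)⟩
  have hfg : ∀ j : J, g * (f j : X) = α (g * (j : X)) := by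
    intro j
    show g * (g⁻¹ * α g * α (j : X)) = _
    rw [map_mul]
    group
  have hit : ∀ (n : ℕ) (j : J), g * ((f^[n] j : J) : X) = α^[n] (g * (j : X)) := by
    intro n
    induction n with
    | zero => intro j; simp
    | succ n ih =>
      intro j
      rw [Function.iterate_succ_apply', hfg, ih, Function.iterate_succ_apply']
  have hid : f^[q] = id := by
    funext j
    apply Subtype.ext
    have := hit q j
    rw [hα] at this
    exact mul_left_cancel this
  obtain ⟨j, hj⟩ := SymFix.exists_fixed_of_iterate f hid hc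
  refine ⟨j, j.2, ?_⟩
  rw [← hfg, hj]

end coset

section conj

variable {L : Type*} [Group L]

theorem conj_pow_mem {H : Subgroup L} {g : L} (h : ∀ y ∈ H, g * y * g⁻¹ ∈ H) (n : ℕ) :
    ∀ y ∈ H, g ^ n * y * (g ^ n)⁻¹ ∈ H := by
  induction n with
  | zero => intro y hy; simpa using hy
  | succ n ih =>
    intro y hy
    have h1 : g ^ (n + 1) * y * (g ^ (n + 1))⁻¹ = g * (g ^ n * y * (g ^ n)⁻¹) * g⁻¹ := by
      rw [pow_succ']; group
    rw [h1]
    exact h _ (ih y hy)

theorem conj_inv_mem_of_pow {H : Subgroup L} {g : L} {n : ℕ} (hn : 0 < n) (hg : g ^ n = 1)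
    (h : ∀ y ∈ H, g * y * g⁻¹ ∈ H) : ∀ y ∈ H, g⁻¹ * y * g ∈ H := by
  intro y hy
  have h1 : g⁻¹ = g ^ (n - 1) := by
    rw [inv_eq_iff_mul_eq_one]
    rw [← pow_succ']
    rw [Nat.sub_add_cancel hn, hg]
  have h2 := conj_pow_mem h (n - 1) y hy
  rw [← h1, inv_inv] at h2
  exact h2

theorem mem_normalizer_of_pow {H : Subgroup L} {g : L} {n : ℕ} (hn : 0 < n) (hg : g ^ n = 1)
    (h : ∀ y ∈ H, g * y * g⁻¹ ∈ H) : g ∈ normalizer (H : Set L) := by
  rw [Subgroup.mem_normalizer_iff]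
  intro y
  refine ⟨h y, fun hy => ?_⟩
  have := conj_inv_mem_of_pow hn hg h _ hy
  have h2 : g⁻¹ * (g * y * g⁻¹) * g = y := by group
  rwa [h2] at this

theorem mem_normalizer_of_finite [Finite L] {H : Subgroup L} {g : L}
    (h : ∀ y ∈ H, g * y * g⁻¹ ∈ H) : g ∈ normalizer (H : Set L) :=
  mem_normalizer_of_pow (orderOf_pos g) (pow_orderOf_eq_one g) h

/-- The conjugation endomorphism. -/
def cj (g : L) : L →* L := (MulAut.conj g).toMonoidHom

theorem cj_apply (g x : L) : cj g x = g * x * g⁻¹ := rfl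

theorem cj_iter (g x : L) (n : ℕ) : (cj g)^[n] x = g ^ n * x * (g ^ n)⁻¹ := by
  induction n with
  | zero => simp
  | succ n ih =>
    rw [Function.iterate_succ_apply', ih, cj_apply, pow_succ']
    group

/-- A conjugation by an element of prime order has fixed points in fixed cosets. -/
theorem exists_fixed_conj {q : ℕ} (hq : q.Prime) {g : L} (hg : g ^ q = 1) (J : Subgroup L) [Finite J]
    (hJ : ∀ j ∈ J, g * j * g⁻¹ ∈ J) (hc : ¬ q ∣ Nat.card J) (x : L) (hx : x⁻¹ * (g * x * g⁻¹) ∈ J) :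
    ∃ j ∈ J, g * (x * j) * g⁻¹ = x * j :=
  exists_fixed_coset' hq (cj g) (fun y => by rw [cj_iter, hg]; simp) J hJ hc x hx

/-- A section acted trivially: the classical coprime lemma, for one element. -/
theorem eq_one_of_section {s : ℕ} {x c : L} (hxc : x * c * x⁻¹ = c) {n : ℕ} (hc : c ^ s ^ n = 1)
    (hcop : (orderOf x).Coprime s) {y : L} (hy : x * y * x⁻¹ = y * c) : c = 1 := by
  have h1 : ∀ k : ℕ, x ^ k * y * (x ^ k)⁻¹ = y * c ^ k := by
    intro k
    induction k with
    | zero => simp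
    | succ k ih =>
      have h2 : x ^ (k + 1) * y * (x ^ (k + 1))⁻¹ = x * (x ^ k * y * (x ^ k)⁻¹) * x⁻¹ := by
        rw [pow_succ']; group
      rw [h2, ih]
      have h3 : x * (y * c ^ k) * x⁻¹ = (x * y * x⁻¹) * (x * c * x⁻¹) ^ k := by
        rw [conj_pow]; group
      rw [h3, hy, hxc, pow_succ']
      group
  have h2 := h1 (orderOf x)
  rw [pow_orderOf_eq_one] at h2
  have h3 : c ^ orderOf x = 1 := by
    have : y * c ^ orderOf x = y := by
      rw [← h2]; group
    exact mul_left_cancel (a := y) (by rw [this, mul_one])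
  have h4 : orderOf c ∣ orderOf x := orderOf_dvd_of_pow_eq_one h3
  have h5 : orderOf c ∣ s ^ n := orderOf_dvd_of_pow_eq_one hc
  have h6 : (orderOf x).Coprime (s ^ n) := Nat.Coprime.pow_right n hcop
  have h7 : orderOf c ∣ 1 := by
    have := Nat.dvd_gcd h4 h5
    rwa [h6] at this
  exact orderOf_eq_one_iff.1 (Nat.dvd_one.1 h7)

/-- If `x` centralizes `N` and acts trivially on `Y / N` then `x` centralizes `Y`, for `Y` a
`s`-group and `x` of order prime to `s`. -/
theorem comm_of_section {s : ℕ} {Y N : Subgroup L} (hY : IsPGroup s Y) (hNY : N ≤ Y) {x : L}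
    (hxN : ∀ n ∈ N, x * n * x⁻¹ = n) (hcop : (orderOf x).Coprime s)
    {y : L} (hyY : y ∈ Y) (h : y⁻¹ * (x * y * x⁻¹) ∈ N) : x * y * x⁻¹ = y := by
  obtain ⟨c, hc⟩ : ∃ c, c = y⁻¹ * (x * y * x⁻¹) := ⟨_, rfl⟩
  rw [← hc] at h
  obtain ⟨n, hn⟩ := hY ⟨c, hNY h⟩
  have hn' : c ^ s ^ n = 1 := congrArg Subtype.val hn
  have h1 := eq_one_of_section (s := s) (hxN c h) hn' hcop (y := y) (by rw [hc]; group)
  rw [h1] at hc
  exact (inv_mul_eq_one.1 hc.symm).symm

end conj

section lemF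

variable {R : Type*} [Ring R]

/-- **The coset norm identity.** -/
theorem sum_units_eq (X : Subgroup Rˣ) [Fintype X] (θ : Rˣ) (q : ℕ) (hq : q.Prime) (hθ : θ ^ q = 1)
    (hsum : ∑ i ∈ Finset.range q, (θ : R) ^ i = 0)
    (hXθ : ∀ x ∈ X, θ * x * θ⁻¹ ∈ X)
    (hfix : ∀ x ∈ X, θ * x * θ⁻¹ = x → x = 1) :
    ∑ x : X, (((x : Rˣ)) : R) = ((Fintype.card X : ℕ) : R) := by
  classical
  have hbet : ∀ j : ℕ, ∀ y ∈ X, θ ^ j * y * (θ ^ j)⁻¹ ∈ X := fun j => conj_pow_mem hXθ j
  let f : ℕ → X → X := fun j y => ⟨(y : Rˣ) * (θ ^ j * y * (θ ^ j)⁻¹)⁻¹, X.mul_mem y.2 (X.inv_mem (hbet j _ y.2))⟩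
  have hfc : ∀ j (y : X), ((f j y : X) : Rˣ) = (y : Rˣ) * (θ ^ j * (y : Rˣ)⁻¹ * (θ ^ j)⁻¹) := by
    intro j y
    show (y : Rˣ) * (θ ^ j * y * (θ ^ j)⁻¹)⁻¹ = _
    group
  have hfixj : ∀ j : ℕ, 0 < j → j < q → ∀ w ∈ X, θ ^ j * w * (θ ^ j)⁻¹ = w → w = 1 := by
    intro j hj0 hjq w hw h
    have hcop : Nat.Coprime j q := ((Nat.Prime.coprime_iff_not_dvd hq).2 (Nat.not_dvd_of_pos_of_lt hj0 hjq)).symm
    obtain ⟨m, hm⟩ : ∃ m : ℕ, j * m % q = 1 % q := by
      have h1 := Nat.exists_mul_mod_eq_one_of_coprime hcop hq.one_lt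
      obtain ⟨m, hm⟩ := h1
      exact ⟨m, by rw [hm.2, Nat.mod_eq_of_lt hq.one_lt]⟩
    have h1 : θ ^ (j * m) = θ := by
      have h2 : j * m = q * (j * m / q) + j * m % q := (Nat.div_add_mod _ _).symm
      rw [h2, pow_add, pow_mul, hθ, one_pow, one_mul, hm, Nat.mod_eq_of_lt hq.one_lt, pow_one]
    apply hfix w hw
    have h2 : ∀ n : ℕ, (θ ^ j) ^ n * w * ((θ ^ j) ^ n)⁻¹ = w := by
      intro n
      induction n with
      | zero => simp
      | succ n ih =>
        have h3 : (θ ^ j) ^ (n + 1) * w * ((θ ^ j) ^ (n + 1))⁻¹ = θ ^ j * ((θ ^ j) ^ n * w * ((θ ^ j) ^ n)⁻¹) * (θ ^ j)⁻¹ := by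
          rw [pow_succ']; group
        rw [h3, ih, h]
    have h3 := h2 m
    rwa [← pow_mul, h1] at h3
  have hinj : ∀ j : ℕ, 0 < j → j < q → Function.Injective (f j) := by
    intro j hj0 hjq y y' hyy
    have h1 : (y : Rˣ) * (θ ^ j * y * (θ ^ j)⁻¹)⁻¹ = (y' : Rˣ) * (θ ^ j * y' * (θ ^ j)⁻¹)⁻¹ :=
      congrArg Subtype.val hyy
    have h2 : (y' : Rˣ)⁻¹ * y ∈ X := X.mul_mem (X.inv_mem y'.2) y.2
    have h3 := hfixj j hj0 hjq _ h2 (by
      have h4 : θ ^ j * ((y' : Rˣ)⁻¹ * y) * (θ ^ j)⁻¹ = (θ ^ j * y' * (θ ^ j)⁻¹)⁻¹ * (θ ^ j * y * (θ ^ j)⁻¹) := by group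
      rw [h4]
      have h5 : (y : Rˣ) = (y' : Rˣ) * (θ ^ j * y' * (θ ^ j)⁻¹)⁻¹ * (θ ^ j * y * (θ ^ j)⁻¹) := by
        rw [← h1]; group
      have h6 : (y' : Rˣ)⁻¹ * y = (θ ^ j * y' * (θ ^ j)⁻¹)⁻¹ * (θ ^ j * y * (θ ^ j)⁻¹) := by
        nth_rewrite 1 [h5]
        group
      exact h6.symm)
    apply Subtype.ext
    have h4 : (y : Rˣ) = y' := by
      exact (inv_mul_eq_one.1 h3).symm
    exact h4
  have hbij : ∀ j : ℕ, 0 < j → j < q → ∑ y : X, (((f j y : X) : Rˣ) : R) = ∑ x : X, ((x : Rˣ) : R) := by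
    intro j hj0 hjq
    have hb : Function.Bijective (f j) := Finite.injective_iff_bijective.1 (hinj j hj0 hjq)
    exact Fintype.sum_bijective (f j) hb _ _ (fun _ => rfl)
  -- the identity for one element
  have hone : ∀ y : X, ∑ j ∈ Finset.range q, (((f j y : X) : Rˣ) : R) * (θ : R) ^ j = 0 := by
    intro y
    have h1 : ∀ j, (((f j y : X) : Rˣ) : R) * (θ : R) ^ j = ((y : Rˣ) : R) * (θ : R) ^ j * (((y : Rˣ)⁻¹ : Rˣ) : R) := by
      intro j
      have h2 : ((f j y : X) : Rˣ) * θ ^ j = (y : Rˣ) * θ ^ j * (y : Rˣ)⁻¹ := by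
        rw [hfc]; group
      have h3 := congrArg (Units.val) h2
      simpa using h3
    simp_rw [h1]
    rw [← Finset.sum_mul, ← Finset.mul_sum, hsum]
    simp
  have hall : ∑ y : X, ∑ j ∈ Finset.range q, (((f j y : X) : Rˣ) : R) * (θ : R) ^ j = 0 :=
    Finset.sum_eq_zero (fun y _ => hone y)
  rw [Finset.sum_comm] at hall
  simp_rw [← Finset.sum_mul] at hall
  obtain ⟨n, hn⟩ : ∃ n, q = n + 1 := ⟨q - 1, by have := hq.pos; omega⟩
  subst hn
  rw [Finset.sum_range_succ'] at hall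
  have h0 : ∑ y : X, (((f 0 y : X) : Rˣ) : R) = ((Fintype.card X : ℕ) : R) := by
    have : ∀ y : X, (((f 0 y : X) : Rˣ) : R) = 1 := by
      intro y
      rw [hfc]
      simp
    simp_rw [this]
    simp
  rw [h0] at hall
  have h1 : ∀ j ∈ Finset.range n, (∑ y : X, (((f (j + 1) y : X) : Rˣ) : R)) * (θ : R) ^ (j + 1) =
      (∑ x : X, ((x : Rˣ) : R)) * (θ : R) ^ (j + 1) := by
    intro j hj
    rw [hbij (j + 1) (Nat.succ_pos j) (by have := Finset.mem_range.1 hj; omega)]
  rw [Finset.sum_congr rfl h1, ← Finset.mul_sum] at hall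
  have h2 : ∑ j ∈ Finset.range n, (θ : R) ^ (j + 1) = -1 := by
    have := hsum
    rw [Finset.sum_range_succ'] at this
    simp only [pow_zero] at this
    exact eq_neg_of_add_eq_zero_left this
  rw [h2] at hall
  simp only [pow_zero, mul_one, mul_neg] at hall
  have h3 := neg_add_eq_zero.1 hall
  exact h3

/-- The corollary used: the group is trivial if its order is invertible. -/
theorem units_trivial (X : Subgroup Rˣ) [Finite X] (θ : Rˣ) (q : ℕ) (hq : q.Prime) (hθ : θ ^ q = 1)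
    (hsum : ∑ i ∈ Finset.range q, (θ : R) ^ i = 0)
    (hXθ : ∀ x ∈ X, θ * x * θ⁻¹ ∈ X)
    (hfix : ∀ x ∈ X, θ * x * θ⁻¹ = x → x = 1)
    (hunit : IsUnit ((Nat.card X : ℕ) : R)) (x : Rˣ) (hx : x ∈ X) : x = 1 := by
  classical
  haveI := Fintype.ofFinite X
  have h1 := sum_units_eq X θ q hq hθ hsum hXθ hfix
  rw [← Nat.card_eq_fintype_card] at h1
  have h2 : (x : R) * ∑ y : X, ((y : Rˣ) : R) = ∑ y : X, ((y : Rˣ) : R) := by
    rw [Finset.mul_sum]
    refine Fintype.sum_equiv (Equiv.mulLeft (⟨x, hx⟩ : X)) _ _ (fun y => ?_)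
    simp
  rw [h1] at h2
  obtain ⟨u, hu⟩ := hunit
  rw [← hu] at h2
  have h3 : (x : R) = 1 := by
    have := congrArg (fun z => z * ((u⁻¹ : Rˣ) : R)) h2
    simpa [mul_assoc] using this
  exact Units.ext h3

/-- The form for a homomorphism. -/
theorem F_triv {X : Type*} [Group X] [Finite X] (φ : X →* R) (α : X →* X) (θ : R) (q : ℕ) (hq : q.Prime)
    (hθ : θ ^ q = 1) (hα : ∀ x, α^[q] x = x)
    (hc : ∀ x, θ * φ x = φ (α x) * θ)
    (hsum : ∑ i ∈ Finset.range q, θ ^ i = 0)
    (hfix : ∀ x, α x = x → φ x = 1)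
    (hcop : (Nat.card X).Coprime q)
    (hunit : ∀ n : ℕ, n ∣ Nat.card X → IsUnit ((n : ℕ) : R)) (x : X) : φ x = 1 := by
  have hq1 : 1 ≤ q := hq.pos
  let θu : Rˣ :=
    { val := θ
      inv := θ ^ (q - 1)
      val_inv := by rw [← pow_succ', Nat.sub_add_cancel hq1, hθ]
      inv_val := by rw [← pow_succ, Nat.sub_add_cancel hq1, hθ] }
  have hθv : (θu : R) = θ := rfl
  let U : X →* Rˣ := φ.toHomUnits
  have hUv : ∀ y, ((U y : Rˣ) : R) = φ y := fun y => MonoidHom.coe_toHomUnits φ y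
  have hconj : ∀ y, θu * U y * θu⁻¹ = U (α y) := by
    intro y
    have h1 : θu * U y = U (α y) * θu := by
      apply Units.ext
      simp only [Units.val_mul, hUv, hθv]
      exact hc y
    rw [h1]
    group
  have hθu : θu ^ q = 1 := by
    apply Units.ext
    simp only [Units.val_pow_eq_pow_val, hθv, Units.val_one]
    exact hθ
  haveI : Finite U.range := Finite.of_surjective U.rangeRestrict U.rangeRestrict_surjective
  have hdvd : Nat.card U.range ∣ Nat.card X := Subgroup.card_range_dvd U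
  have h1 := units_trivial U.range θu q hq hθu hsum
    (by
      rintro _ ⟨y, rfl⟩
      rw [hconj]
      exact ⟨_, rfl⟩)
    (by
      rintro _ ⟨y, rfl⟩ h
      rw [hconj] at h
      -- lift
      have hker : y⁻¹ * α y ∈ U.ker := by
        rw [MonoidHom.mem_ker, map_mul, map_inv, h, inv_mul_cancel]
      have hJ : ∀ j ∈ U.ker, α j ∈ U.ker := by
        intro j hj
        rw [MonoidHom.mem_ker] at hj ⊢
        rw [← hconj, hj]
        group
      have hc' : ¬ q ∣ Nat.card U.ker := by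
        intro h2
        have h3 : q ∣ Nat.card X := h2.trans (Subgroup.card_subgroup_dvd_card _)
        have h4 := Nat.dvd_gcd h3 (dvd_refl q)
        rw [hcop] at h4
        exact hq.one_lt.ne' (Nat.dvd_one.1 h4)
      obtain ⟨j, hj, hfj⟩ := exists_fixed_coset' hq α hα U.ker hJ hc' y hker
      have h5 := hfix _ hfj
      have h6 : U y = 1 := by
        have h7 : U (y * j) = 1 := by
          apply Units.ext
          rw [hUv, h5]
          rfl
        rw [map_mul, MonoidHom.mem_ker.1 hj, mul_one] at h7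
        exact h7
      exact h6)
    (hunit _ hdvd) (U x) ⟨x, rfl⟩
  rw [← hUv, h1]
  rfl

end lemF

section aut

/-- **The form for an abelian group.** -/
theorem aut_trivial {W : Type*} [Group W] [Finite W] (hW : ∀ a b : W, a * b = b * a)
    {X : Type*} [Group X] [Finite X] (φ : X →* MulAut W) (α : X →* X) (τ : MulAut W) (q : ℕ) (hq : q.Prime)
    (hτ : τ ^ q = 1) (hα : ∀ x, α^[q] x = x) (hc : ∀ x, τ * φ x = φ (α x) * τ)
    (hnorm : ∀ w : W, nrmW τ w q = 1) (hfix : ∀ x, α x = x → φ x = 1)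
    (hcop : (Nat.card X).Coprime q) (hcop2 : (Nat.card X).Coprime (Nat.card W)) (x : X) : φ x = 1 := by
  letI cg : CommGroup W := { (inferInstance : Group W) with mul_comm := hW }
  let T : MulAut W →* AddMonoid.End (Additive W) :=
    { toFun := fun f => MonoidHom.toAdditive f.toMonoidHom
      map_one' := by
        ext w
        rfl
      map_mul' := by
        intro f g
        ext w
        rfl }
  have hTa : ∀ (f : MulAut W) (w : W), T f (Additive.ofMul w) = Additive.ofMul (f w) := fun _ _ => rfl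
  have hTinj : Function.Injective T := by
    intro f g hfg
    ext w
    have h1 := congrArg (fun t : AddMonoid.End (Additive W) => t (Additive.ofMul w)) hfg
    simp only [hTa] at h1
    exact Additive.ofMul.injective h1
  have hsum : ∑ i ∈ Finset.range q, (T τ) ^ i = 0 := by
    refine AddMonoidHom.ext (fun w' => ?_)
    obtain ⟨w, rfl⟩ := Additive.ofMul.surjective w'
    have h1 : ∀ n : ℕ, (∑ i ∈ Finset.range n, (T τ) ^ i) (Additive.ofMul w) = Additive.ofMul (nrmW τ w n) := by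
      intro n
      induction n with
      | zero =>
        simp only [Finset.range_zero, Finset.sum_empty]
        rfl
      | succ n ih =>
        rw [Finset.sum_range_succ]
        have h2 : ((∑ i ∈ Finset.range n, (T τ) ^ i) + (T τ) ^ n) (Additive.ofMul w) =
            (∑ i ∈ Finset.range n, (T τ) ^ i) (Additive.ofMul w) + ((T τ) ^ n) (Additive.ofMul w) := rfl
        rw [h2, ih, ← map_pow, hTa]
        rfl
    have h2 := h1 q
    rw [hnorm] at h2
    exact h2
  have hunit : ∀ n : ℕ, n ∣ Nat.card X → IsUnit ((n : ℕ) : AddMonoid.End (Additive W)) := by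
    intro n hn
    have hcd : (Nat.card W : ℕ) • (1 : AddMonoid.End (Additive W)) = 0 := by
      refine AddMonoidHom.ext (fun w' => ?_)
      obtain ⟨w, rfl⟩ := Additive.ofMul.surjective w'
      show (Nat.card W) • (Additive.ofMul w) = 0
      have : (Nat.card W) • (Additive.ofMul w) = Additive.ofMul (w ^ Nat.card W) := rfl
      rw [this, pow_card_eq_one']
      rfl
    have hcopn : n.Coprime (Nat.card W) := Nat.Coprime.coprime_dvd_left hn hcop2
    by_cases h1 : Nat.card W = 1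
    · haveI : Subsingleton W := (Nat.card_eq_one_iff_unique.1 h1).1
      haveI : Subsingleton (Additive W) := inferInstanceAs (Subsingleton W)
      have hss : Subsingleton (AddMonoid.End (Additive W)) := ⟨fun a b =>
        AddMonoidHom.ext (fun w => Subsingleton.elim _ _)⟩
      refine ⟨⟨_, 1, Subsingleton.elim _ _, Subsingleton.elim _ _⟩, rfl⟩
    · have hpos : 1 < Nat.card W := by
        have := Nat.card_pos (α := W)
        omega
      obtain ⟨m, hm⟩ := Nat.exists_mul_mod_eq_one_of_coprime hcopn hpos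
      have h2 : ((n * m : ℕ) : AddMonoid.End (Additive W)) = 1 := by
        have h3 : n * m = Nat.card W * (n * m / Nat.card W) + 1 := by
          have := (Nat.div_add_mod (n * m) (Nat.card W))
          rw [hm.2] at this
          exact this.symm
        rw [h3]
        push_cast
        have h4 : ((Nat.card W : ℕ) : AddMonoid.End (Additive W)) = 0 := by
          rw [← hcd, nsmul_eq_mul, mul_one]
        rw [h4, zero_mul, zero_add]
      push_cast at h2
      refine ⟨⟨_, (m : AddMonoid.End (Additive W)), h2, ?_⟩, rfl⟩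
      rw [← Nat.cast_comm]
      exact h2
  have h1 := F_triv (T.comp φ) α (T τ) q hq (by rw [← map_pow, hτ, map_one]) hα
    (by
      intro y
      show T τ * T (φ y) = T (φ (α y)) * T τ
      rw [← map_mul, ← map_mul, hc])
    hsum
    (by
      intro y hy
      show T (φ y) = 1
      rw [hfix y hy, map_one])
    hcop hunit x
  apply hTinj
  rw [map_one]
  exact h1

end aut

end Cfsg.Agent.Lib.Struct.PQFix
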