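import Mathlib
import Cfsg.Agent.Lib.Struct.PQFixA

/-!
# Abelian sections acted on by a fixed point free automorphism
-/

set_option autoImplicit false

namespace Cfsg.Agent.Lib.Struct.PQFix

open Subgroup

section sec

variable {L : Type*} [Group L]

/-- The subgroup of elements normalising both `Y` and `K`. -/
def PN (Y K : Subgroup L) : Subgroup L := normalizer (Y : Set L) ⊓ normalizer (K : Set L)

theorem mem_PN [Finite L] {Y K : Subgroup L} {c : L} (h1 : ∀ y ∈ Y, c * y * c⁻¹ ∈ Y)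
    (h2 : ∀ k ∈ K, c * k * c⁻¹ ∈ K) : c ∈ PN Y K :=
  ⟨mem_normalizer_of_finite h1, mem_normalizer_of_finite h2⟩

variable (Y K : Subgroup L)

/-- Conjugation on `Y`. -/
def secConj (c : ↥(PN Y K)) : ↥Y →* ↥Y where
  toFun y := ⟨(c : L) * y * (c : L)⁻¹, (Subgroup.mem_normalizer_iff.1 c.2.1 y).1 y.2⟩
  map_one' := by
    apply Subtype.ext
    simp
  map_mul' := by
    intro a b
    apply Subtype.ext
    simp only [Subgroup.coe_mul]
    group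

theorem secConj_coe (c : ↥(PN Y K)) (y : ↥Y) : ((secConj Y K c y : ↥Y) : L) = (c : L) * y * (c : L)⁻¹ := rfl

variable [hK : (K.subgroupOf Y).Normal]

/-- Conjugation on the section. -/
def secMap (c : ↥(PN Y K)) : (↥Y ⧸ K.subgroupOf Y) →* (↥Y ⧸ K.subgroupOf Y) :=
  QuotientGroup.map _ _ (secConj Y K c) (by
    intro y hy
    rw [Subgroup.mem_comap, Subgroup.mem_subgroupOf]
    rw [Subgroup.mem_subgroupOf] at hy
    exact (Subgroup.mem_normalizer_iff.1 c.2.2 y).1 hy)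

theorem secMap_mk (c : ↥(PN Y K)) (y : ↥Y) :
    secMap Y K c (y : ↥Y ⧸ K.subgroupOf Y) = ((secConj Y K c y : ↥Y) : ↥Y ⧸ K.subgroupOf Y) := rfl

theorem secMap_one : secMap Y K 1 = MonoidHom.id _ := by
  ext y
  show (((secConj Y K 1 y : ↥Y)) : ↥Y ⧸ K.subgroupOf Y) = y
  congr 1
  apply Subtype.ext
  simp [secConj_coe]

theorem secMap_mul (c d : ↥(PN Y K)) : secMap Y K (c * d) = (secMap Y K c).comp (secMap Y K d) := by
  ext y
  show (((secConj Y K (c * d) y : ↥Y)) : ↥Y ⧸ K.subgroupOf Y) = ((secConj Y K c (secConj Y K d y) : ↥Y) : ↥Y ⧸ K.subgroupOf Y)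
  congr 1
  apply Subtype.ext
  simp only [secConj_coe, Subgroup.coe_mul]
  group

/-- The action on the section. -/
def secHom : ↥(PN Y K) →* MulAut (↥Y ⧸ K.subgroupOf Y) where
  toFun c := MonoidHom.toMulEquiv (secMap Y K c) (secMap Y K c⁻¹)
    (by rw [← secMap_mul, inv_mul_cancel, secMap_one])
    (by rw [← secMap_mul, mul_inv_cancel, secMap_one])
  map_one' := by
    ext w
    show secMap Y K 1 w = w
    rw [secMap_one]
    rfl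
  map_mul' := by
    intro c d
    ext w
    show secMap Y K (c * d) w = secMap Y K c (secMap Y K d w)
    rw [secMap_mul]
    rfl

theorem secHom_mk (c : ↥(PN Y K)) (y : ↥Y) :
    secHom Y K c (y : ↥Y ⧸ K.subgroupOf Y) = ((secConj Y K c y : ↥Y) : ↥Y ⧸ K.subgroupOf Y) := rfl

theorem secHom_pow_mk (c : ↥(PN Y K)) (n : ℕ) (y : ↥Y) :
    ((secHom Y K c) ^ n) (y : ↥Y ⧸ K.subgroupOf Y) =
      ((⟨((c : L)) ^ n * y * (((c : L)) ^ n)⁻¹, (Subgroup.mem_normalizer_iff.1 (c ^ n).2.1 y).1 y.2⟩ : ↥Y) : ↥Y ⧸ K.subgroupOf Y) := by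
  rw [← map_pow, secHom_mk]
  rfl

theorem nrm_mem {g y : L} (hg : ∀ a ∈ Y, g * a * g⁻¹ ∈ Y) (hy : y ∈ Y) (n : ℕ) : nrm g y n ∈ Y := by
  induction n with
  | zero => exact Y.one_mem
  | succ n ih => exact Y.mul_mem ih (conj_pow_mem hg n y hy)

theorem nrmW_mk (c : ↥(PN Y K)) (y : ↥Y) (n : ℕ) (h : nrm (c : L) (y : L) n ∈ Y) :
    nrmW (secHom Y K c) (y : ↥Y ⧸ K.subgroupOf Y) n = ((⟨nrm (c : L) (y : L) n, h⟩ : ↥Y) : ↥Y ⧸ K.subgroupOf Y) := by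
  induction n with
  | zero =>
    show (1 : ↥Y ⧸ K.subgroupOf Y) = _
    symm
    apply (QuotientGroup.eq_one_iff _).2
    have : (⟨nrm (c : L) (y : L) 0, h⟩ : ↥Y) = 1 := rfl
    rw [this]
    exact Subgroup.one_mem _
  | succ n ih =>
    have hn : nrm (c : L) (y : L) n ∈ Y := by
      have h1 : nrm (c : L) (y : L) (n + 1) = nrm (c : L) (y : L) n * ((c : L) ^ n * y * ((c : L) ^ n)⁻¹) := rfl
      rw [h1] at h
      have h2 : (c : L) ^ n * y * ((c : L) ^ n)⁻¹ ∈ Y := (Subgroup.mem_normalizer_iff.1 (c ^ n).2.1 y).1 y.2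
      have h3 := (Subgroup.mul_mem_cancel_right Y h2).1 h
      exact h3
    show nrmW (secHom Y K c) (y : ↥Y ⧸ K.subgroupOf Y) n * ((secHom Y K c) ^ n) (y : ↥Y ⧸ K.subgroupOf Y) = _
    rw [ih hn, secHom_pow_mk]
    rfl

end sec

section main

variable {L : Type*} [Group L] [Finite L]

omit [Finite L] in
theorem sec_comm (Y K : Subgroup L) [hKnn : (K.subgroupOf Y).Normal]
    (hab : ∀ a ∈ Y, ∀ b ∈ Y, a * b * a⁻¹ * b⁻¹ ∈ K) (a b : ↥Y ⧸ K.subgroupOf Y) : a * b = b * a := by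
    obtain ⟨a, rfl⟩ := QuotientGroup.mk_surjective a
    obtain ⟨b, rfl⟩ := QuotientGroup.mk_surjective b
    rw [← QuotientGroup.mk_mul, ← QuotientGroup.mk_mul]
    apply QuotientGroup.eq.2
    rw [Subgroup.mem_subgroupOf]
    have h1 := hab _ b.2 _ a.2
    have h3 : (((a * b)⁻¹ * (b * a) : ↥Y) : L) = (b : L)⁻¹ * (a : L)⁻¹ * (b : L) * a := by
      simp only [Subgroup.coe_mul, Subgroup.coe_inv]
      group
    have h4 := hab _ (Y.inv_mem b.2) _ (Y.inv_mem a.2)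
    have h5 : (b : L)⁻¹ * (a : L)⁻¹ * (b : L) * a = (b : L)⁻¹ * (a : L)⁻¹ * ((b : L)⁻¹)⁻¹ * ((a : L)⁻¹)⁻¹ := by
      group
    rw [h3, h5]
    exact h4

theorem nrmW_fixed {W : Type*} [Group W] (hW : ∀ a b : W, a * b = b * a) (τ : MulAut W) (w : W) {q : ℕ}
    (hτ : τ ^ q = 1) : τ (nrmW τ w q) = nrmW τ w q := by
  have key : ∀ n : ℕ, τ (nrmW τ w n) * w = nrmW τ w n * ((τ ^ n) w) := by
    intro n
    induction n with
    | zero =>
      show τ 1 * w = 1 * w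
      simp
    | succ n ih =>
      show τ (nrmW τ w n * ((τ ^ n) w)) * w = (nrmW τ w n * ((τ ^ n) w)) * ((τ ^ (n + 1)) w)
      rw [map_mul, ← ih]
      have h1 : τ ((τ ^ n) w) = (τ ^ (n + 1)) w := by
        rw [pow_succ']
        rfl
      rw [h1, mul_assoc, hW _ w, mul_assoc]
  have h1 := key q
  rw [hτ] at h1
  exact mul_right_cancel h1

/-- **Lemma F for a section.** -/
theorem aut_sect (Y K X : Subgroup L) (g : L) (q : ℕ) (hq : q.Prime)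
    (hKY : K ≤ Y) (hKn : ∀ y ∈ Y, ∀ k ∈ K, y * k * y⁻¹ ∈ K)
    (hab : ∀ a ∈ Y, ∀ b ∈ Y, a * b * a⁻¹ * b⁻¹ ∈ K)
    (hXY : ∀ x ∈ X, ∀ y ∈ Y, x * y * x⁻¹ ∈ Y) (hXK : ∀ x ∈ X, ∀ k ∈ K, x * k * x⁻¹ ∈ K)
    (hgY : ∀ y ∈ Y, g * y * g⁻¹ ∈ Y) (hgK : ∀ k ∈ K, g * k * g⁻¹ ∈ K) (hgX : ∀ x ∈ X, g * x * g⁻¹ ∈ X)
    (hgq : g ^ q = 1) (hnorm : ∀ y ∈ Y, nrm g y q ∈ K)
    (hfix : ∀ x ∈ X, g * x * g⁻¹ = x → ∀ y ∈ Y, x * y * x⁻¹ * y⁻¹ ∈ K)
    (hcop : (Nat.card X).Coprime q) (hcop2 : (Nat.card X).Coprime (Nat.card Y)) :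
    ∀ x ∈ X, ∀ y ∈ Y, x * y * x⁻¹ * y⁻¹ ∈ K := by
  haveI hKnn : (K.subgroupOf Y).Normal := ⟨by
    intro k hk y
    rw [Subgroup.mem_subgroupOf] at hk ⊢
    exact hKn _ y.2 _ hk⟩
  have hW : ∀ a b : ↥Y ⧸ K.subgroupOf Y, a * b = b * a := sec_comm Y K hab
  have hXP : ∀ x ∈ X, x ∈ PN Y K := fun x hx => mem_PN (hXY x hx) (hXK x hx)
  have hgP : g ∈ PN Y K := mem_PN hgY hgK
  let gP : ↥(PN Y K) := ⟨g, hgP⟩
  let φ : ↥X →* MulAut (↥Y ⧸ K.subgroupOf Y) := (secHom Y K).comp (Subgroup.inclusion (fun x hx => hXP x hx))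
  have hφ : ∀ (x : ↥X) (y : ↥Y), φ x (y : ↥Y ⧸ K.subgroupOf Y) =
      ((⟨(x : L) * y * (x : L)⁻¹, hXY _ x.2 _ y.2⟩ : ↥Y) : ↥Y ⧸ K.subgroupOf Y) := fun _ _ => rfl
  let α : ↥X →* ↥X :=
    { toFun := fun x => ⟨g * x * g⁻¹, hgX _ x.2⟩
      map_one' := by
        apply Subtype.ext
        simp
      map_mul' := by
        intro a b
        apply Subtype.ext
        simp only [Subgroup.coe_mul]
        group }
  have hα : ∀ x : ↥X, α^[q] x = x := by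
    intro x
    have h1 : ∀ n : ℕ, ((α^[n] x : ↥X) : L) = g ^ n * x * (g ^ n)⁻¹ := by
      intro n
      induction n with
      | zero => simp
      | succ n ih =>
        rw [Function.iterate_succ_apply']
        show g * ((α^[n] x : ↥X) : L) * g⁻¹ = _
        rw [ih, pow_succ']
        group
    apply Subtype.ext
    rw [h1, hgq]
    simp
  have hτ : (secHom Y K gP) ^ q = 1 := by
    rw [← map_pow]
    have : gP ^ q = 1 := Subtype.ext hgq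
    rw [this, map_one]
  have hnorm' : ∀ w : ↥Y ⧸ K.subgroupOf Y, nrmW (secHom Y K gP) w q = 1 := by
    intro w
    obtain ⟨y, rfl⟩ := QuotientGroup.mk_surjective w
    rw [nrmW_mk Y K gP y q (nrm_mem Y hgY y.2 q)]
    apply (QuotientGroup.eq_one_iff _).2
    rw [Subgroup.mem_subgroupOf]
    exact hnorm _ y.2
  have hmain := aut_trivial hW φ α (secHom Y K gP) q hq hτ hα
    (by
      intro x
      show secHom Y K gP * secHom Y K _ = secHom Y K _ * secHom Y K gP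
      rw [← map_mul, ← map_mul]
      congr 1
      apply Subtype.ext
      show g * (x : L) = (g * x * g⁻¹) * g
      group)
    hnorm'
    (by
      intro x hx
      ext w
      obtain ⟨y, rfl⟩ := QuotientGroup.mk_surjective w
      show φ x (y : ↥Y ⧸ K.subgroupOf Y) = ((y : ↥Y) : ↥Y ⧸ K.subgroupOf Y)
      rw [hφ]
      apply QuotientGroup.eq.2
      rw [Subgroup.mem_subgroupOf]
      have h1 : g * (x : L) * g⁻¹ = x := congrArg Subtype.val hx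
      have h2 := hfix _ x.2 h1 _ y.2
      have h3 : ((⟨(x : L) * y * (x : L)⁻¹, hXY _ x.2 _ y.2⟩ : ↥Y)⁻¹ * y : ↥Y) =
          (⟨(x : L) * y⁻¹ * (x : L)⁻¹ * y, by
            exact Y.mul_mem (hXY _ x.2 _ (Y.inv_mem y.2)) y.2⟩ : ↥Y) := by
        apply Subtype.ext
        simp only [Subgroup.coe_mul, Subgroup.coe_inv]
        group
      rw [h3]
      have h4 := hfix _ x.2 h1 _ (Y.inv_mem y.2)
      simp only [inv_inv] at h4
      exact h4)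
    hcop
    (Nat.Coprime.coprime_dvd_right (Subgroup.card_quotient_dvd_card _) hcop2)
  intro x hx y hy
  have h1 := hmain ⟨x, hx⟩
  have h2 : φ ⟨x, hx⟩ ((⟨y, hy⟩ : ↥Y) : ↥Y ⧸ K.subgroupOf Y) = ((⟨y, hy⟩ : ↥Y) : ↥Y ⧸ K.subgroupOf Y) := by
    rw [h1]
    rfl
  rw [hφ] at h2
  have h3 := QuotientGroup.eq.1 h2.symm
  rw [Subgroup.mem_subgroupOf] at h3
  have h4 : (((⟨y, hy⟩ : ↥Y)⁻¹ * ⟨x * y * x⁻¹, hXY _ hx _ hy⟩ : ↥Y) : L) = y⁻¹ * (x * y * x⁻¹) := rfl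
  rw [h4] at h3
  have h5 := hKn _ hy _ h3
  have h6 : y * (y⁻¹ * (x * y * x⁻¹)) * y⁻¹ = x * y * x⁻¹ * y⁻¹ := by group
  rwa [h6] at h5

/-- The fixed point free form of `aut_sect`. -/
theorem aut_sect_fpf (Y K X : Subgroup L) (g : L) (q : ℕ) (hq : q.Prime)
    (hKY : K ≤ Y) (hKn : ∀ y ∈ Y, ∀ k ∈ K, y * k * y⁻¹ ∈ K)
    (hab : ∀ a ∈ Y, ∀ b ∈ Y, a * b * a⁻¹ * b⁻¹ ∈ K)
    (hXY : ∀ x ∈ X, ∀ y ∈ Y, x * y * x⁻¹ ∈ Y) (hXK : ∀ x ∈ X, ∀ k ∈ K, x * k * x⁻¹ ∈ K)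
    (hgY : ∀ y ∈ Y, g * y * g⁻¹ ∈ Y) (hgK : ∀ k ∈ K, g * k * g⁻¹ ∈ K) (hgX : ∀ x ∈ X, g * x * g⁻¹ ∈ X)
    (hgq : g ^ q = 1) (hfp : ∀ y ∈ Y, y⁻¹ * (g * y * g⁻¹) ∈ K → y ∈ K)
    (hfix : ∀ x ∈ X, g * x * g⁻¹ = x → ∀ y ∈ Y, x * y * x⁻¹ * y⁻¹ ∈ K)
    (hcop : (Nat.card X).Coprime q) (hcop2 : (Nat.card X).Coprime (Nat.card Y)) :
    ∀ x ∈ X, ∀ y ∈ Y, x * y * x⁻¹ * y⁻¹ ∈ K := by
  refine aut_sect Y K X g q hq hKY hKn hab hXY hXK hgY hgK hgX hgq ?_ hfix hcop hcop2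
  intro y hy
  haveI hKnn : (K.subgroupOf Y).Normal := ⟨by
    intro k hk y
    rw [Subgroup.mem_subgroupOf] at hk ⊢
    exact hKn _ y.2 _ hk⟩
  have hW : ∀ a b : ↥Y ⧸ K.subgroupOf Y, a * b = b * a := sec_comm Y K hab
  have hgP : g ∈ PN Y K := mem_PN hgY hgK
  let gP : ↥(PN Y K) := ⟨g, hgP⟩
  have hτ : (secHom Y K gP) ^ q = 1 := by
    rw [← map_pow]
    have : gP ^ q = 1 := Subtype.ext hgq
    rw [this, map_one]
  have h1 := nrmW_fixed hW (secHom Y K gP) ((⟨y, hy⟩ : ↥Y) : ↥Y ⧸ K.subgroupOf Y) hτ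
  rw [nrmW_mk Y K gP ⟨y, hy⟩ q (nrm_mem Y hgY hy q), secHom_mk] at h1
  have h2 := QuotientGroup.eq.1 h1.symm
  rw [Subgroup.mem_subgroupOf] at h2
  exact hfp _ (nrm_mem Y hgY hy q) h2

end main

end Cfsg.Agent.Lib.Struct.PQFix
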