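import Mathlib
import Cfsg.Agent.Lib.Struct.SymFixA

/-!
# Characters of a normal abelian subgroup and eigenspaces
-/

set_option autoImplicit false

namespace Cfsg.Agent.Lib.Struct.SymFix

open Subgroup

theorem sum_char_zero {G : Type*} [Group G] [Fintype G] {F : Type*} [Field F] (χ : G → F)
    (hmul : ∀ x y, χ (x * y) = χ x * χ y) (n₀ : G) (h : χ n₀ ≠ 1) : ∑ g, χ g = 0 := by
  have h1 : χ n₀ * ∑ g, χ g = ∑ g, χ g := by
    rw [Finset.mul_sum]
    simp_rw [← hmul]
    exact Fintype.sum_equiv (Equiv.mulLeft n₀) _ _ (fun _ => rfl)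
  have h2 : (χ n₀ - 1) * ∑ g, χ g = 0 := by
    rw [sub_mul, h1, one_mul, sub_self]
  rcases mul_eq_zero.1 h2 with h3 | h3
  · exact absurd (sub_eq_zero.1 h3) h
  · exact h3

/-- A common eigenvector for a finite commuting family of operators in an invariant subspace. -/
theorem exists_common_eigvec {F V : Type*} [Field F] [IsAlgClosed F] [AddCommGroup V] [Module F V]
    [FiniteDimensional F V] (s : Finset (Module.End F V))
    (hcomm : ∀ S ∈ s, ∀ T ∈ s, S * T = T * S) :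
    ∀ (W : Submodule F V), W ≠ ⊥ → (∀ T ∈ s, ∀ w ∈ W, T w ∈ W) →
      ∃ v ∈ W, v ≠ 0 ∧ ∀ T ∈ s, ∃ c : F, T v = c • v := by
  classical
  induction s using Finset.induction_on with
  | empty =>
    intro W hW _
    obtain ⟨v, hv, hv0⟩ := (Submodule.ne_bot_iff W).1 hW
    exact ⟨v, hv, hv0, fun T hT => absurd hT (Finset.notMem_empty T)⟩
  | insert T s hTs ih =>
    intro W hW hinv
    have hTW : ∀ w ∈ W, T w ∈ W := hinv T (Finset.mem_insert_self _ _)
    haveI : Nontrivial W := (Submodule.nontrivial_iff_ne_bot).2 hW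
    obtain ⟨c, hc⟩ := Module.End.exists_eigenvalue (T.restrict hTW)
    obtain ⟨w, hw⟩ := hc.exists_hasEigenvector
    let W' : Submodule F V := W ⊓ LinearMap.ker (T - c • (1 : Module.End F V))
    have hw1 : (w : V) ∈ W' := by
      refine ⟨w.2, ?_⟩
      have h1 : (T.restrict hTW) w = c • w := hw.apply_eq_smul
      have h2 : T (w : V) = c • (w : V) := congrArg Subtype.val h1
      simp [h2]
    have hW' : W' ≠ ⊥ := by
      intro h
      have h1 : (w : V) ∈ (⊥ : Submodule F V) := h ▸ hw1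
      have h2 : (w : V) = 0 := (Submodule.mem_bot F).1 h1
      exact hw.2 (Subtype.ext h2)
    have hinv' : ∀ S ∈ s, ∀ u ∈ W', S u ∈ W' := by
      intro S hS u hu
      refine ⟨hinv S (Finset.mem_insert_of_mem hS) u hu.1, ?_⟩
      have h1 : T u = c • u := by
        have := hu.2
        simpa [sub_eq_zero] using this
      have h2 : T (S u) = S (T u) := by
        have := hcomm T (Finset.mem_insert_self _ _) S (Finset.mem_insert_of_mem hS)
        exact congrArg (fun f : Module.End F V => f u) this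
      simp [h2, h1]
    have hcomm' : ∀ S ∈ s, ∀ T' ∈ s, S * T' = T' * S := fun S hS T' hT' =>
      hcomm S (Finset.mem_insert_of_mem hS) T' (Finset.mem_insert_of_mem hT')
    obtain ⟨v, hv, hv0, hvc⟩ := ih hcomm' W' hW' hinv'
    refine ⟨v, hv.1, hv0, ?_⟩
    intro S hS
    rcases Finset.mem_insert.1 hS with rfl | hS
    · refine ⟨c, ?_⟩
      have := hv.2
      simpa [sub_eq_zero] using this
    · exact hvc S hS

section eig

variable {K : Type*} [Group K] [Finite K] {F : Type*} [Field F] {V : Type*} [AddCommGroup V] [Module F V]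

/-- The common eigenspace of a character of a subgroup. -/
def eigS (ρ : K →* Module.End F V) {N : Subgroup K} (μ : ↥N →* Fˣ) : Submodule F V where
  carrier := {v | ∀ n : N, ρ n v = ((μ n : Fˣ) : F) • v}
  add_mem' := by
    intro a b ha hb n
    rw [map_add, ha n, hb n, smul_add]
  zero_mem' := by
    intro n
    simp
  smul_mem' := by
    intro c a ha n
    rw [map_smul, ha n, smul_comm]

omit [Finite K] in
theorem mem_eigS {ρ : K →* Module.End F V} {N : Subgroup K} {μ : ↥N →* Fˣ} {v : V} :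
    v ∈ eigS ρ μ ↔ ∀ n : N, ρ n v = ((μ n : Fˣ) : F) • v := Iff.rfl

/-- The action of the group by conjugation on characters of a normal subgroup. -/
def kAct (N : Subgroup K) [hN : N.Normal] (k : K) (μ : ↥N →* Fˣ) : ↥N →* Fˣ where
  toFun n := μ ⟨k⁻¹ * n * k, by
    have := hN.conj_mem n n.2 k⁻¹
    simpa using this⟩
  map_one' := by
    have : ∀ h, (⟨k⁻¹ * ((1 : N) : K) * k, h⟩ : N) = 1 := fun h => Subtype.ext (by simp)
    exact (congrArg μ (this _)).trans (map_one μ)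
  map_mul' := by
    intro x y
    rw [← map_mul]
    congr 1
    apply Subtype.ext
    simp [mul_assoc]

omit [Finite K] in
theorem kAct_apply (N : Subgroup K) [hN : N.Normal] (k : K) (μ : ↥N →* Fˣ) (n : N) (h : k⁻¹ * n * k ∈ N) :
    kAct N k μ n = μ ⟨k⁻¹ * n * k, h⟩ := rfl

instance kActInst (N : Subgroup K) [hN : N.Normal] : MulAction K (↥N →* Fˣ) where
  smul k μ := kAct N k μ
  one_smul μ := by
    ext n
    show ((μ ⟨(1 : K)⁻¹ * n * 1, _⟩ : Fˣ) : F) = _
    congr 2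
    apply Subtype.ext
    simp
  mul_smul k l μ := by
    ext n
    show ((μ ⟨(k * l)⁻¹ * n * (k * l), _⟩ : Fˣ) : F) = ((μ ⟨l⁻¹ * (k⁻¹ * n * k) * l, _⟩ : Fˣ) : F)
    congr 2
    apply Subtype.ext
    simp [mul_assoc]

omit [Finite K] in
theorem kSmul_apply (N : Subgroup K) [hN : N.Normal] (k : K) (μ : ↥N →* Fˣ) (n : N) (h : k⁻¹ * n * k ∈ N) :
    (k • μ) n = μ ⟨k⁻¹ * n * k, h⟩ := rfl

omit [Finite K] in
theorem rho_eig (ρ : K →* Module.End F V) (N : Subgroup K) [hN : N.Normal] (k : K) {μ : ↥N →* Fˣ} {v : V}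
    (hv : v ∈ eigS ρ μ) : ρ k v ∈ eigS ρ (k • μ) := by
  intro n
  have hm : k⁻¹ * n * k ∈ N := by
    have := hN.conj_mem n n.2 k⁻¹
    simpa using this
  have h1 : (n : K) * k = k * (k⁻¹ * n * k) := by group
  have h2 : ρ n (ρ k v) = ρ k (ρ (k⁻¹ * n * k) v) := by
    have : ρ n * ρ k = ρ k * ρ (k⁻¹ * n * k) := by
      rw [← map_mul, ← map_mul, h1]
    exact congrArg (fun f : Module.End F V => f v) this
  rw [h2]
  have h3 := hv ⟨_, hm⟩
  have h4 : ρ (k⁻¹ * n * k) v = ((μ ⟨_, hm⟩ : Fˣ) : F) • v := h3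
  rw [h4, map_smul]
  rfl

omit [Finite K] in
theorem rho_inv_apply (ρ : K →* Module.End F V) (k : K) (v : V) : ρ k⁻¹ (ρ k v) = v := by
  have : ρ k⁻¹ * ρ k = 1 := by rw [← map_mul, inv_mul_cancel, map_one]
  exact congrArg (fun f : Module.End F V => f v) this

omit [Finite K] in
theorem rho_apply_inv (ρ : K →* Module.End F V) (k : K) (v : V) : ρ k (ρ k⁻¹ v) = v := by
  have : ρ k * ρ k⁻¹ = 1 := by rw [← map_mul, mul_inv_cancel, map_one]
  exact congrArg (fun f : Module.End F V => f v) this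

omit [Finite K] in
theorem occ_k (ρ : K →* Module.End F V) (N : Subgroup K) [hN : N.Normal] (k : K) {μ : ↥N →* Fˣ}
    (h : eigS ρ μ ≠ ⊥) : eigS ρ (k • μ) ≠ ⊥ := by
  obtain ⟨v, hv, hv0⟩ := (Submodule.ne_bot_iff _).1 h
  refine (Submodule.ne_bot_iff _).2 ⟨ρ k v, rho_eig ρ N k hv, ?_⟩
  intro h0
  apply hv0
  have := rho_inv_apply ρ k v
  rw [h0, map_zero] at this
  exact this.symm

end eig

section act

variable {K : Type*} [Group K] [Finite K] [MulDistribMulAction S3 K]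
  {F : Type*} [Field F] {V : Type*} [AddCommGroup V] [Module F V]

/-- The action of `S3` on characters of an invariant subgroup. -/
def aAct {N : Subgroup K} (hNA : ∀ α : S3, ∀ n ∈ N, α • n ∈ N) (α : S3) (μ : ↥N →* Fˣ) : ↥N →* Fˣ where
  toFun n := μ ⟨α⁻¹ • (n : K), hNA _ _ n.2⟩
  map_one' := by
    have : ∀ h, (⟨α⁻¹ • ((1 : N) : K), h⟩ : N) = 1 := fun h => Subtype.ext (by simp)
    exact (congrArg μ (this _)).trans (map_one μ)
  map_mul' := by
    intro x y
    rw [← map_mul]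
    congr 1
    apply Subtype.ext
    simp [smul_mul']

omit [Finite K] in
theorem aAct_apply {N : Subgroup K} (hNA : ∀ α : S3, ∀ n ∈ N, α • n ∈ N) (α : S3) (μ : ↥N →* Fˣ) (n : N) :
    aAct hNA α μ n = μ ⟨α⁻¹ • (n : K), hNA _ _ n.2⟩ := rfl

omit [Finite K] in
theorem aAct_one {N : Subgroup K} (hNA : ∀ α : S3, ∀ n ∈ N, α • n ∈ N) (μ : ↥N →* Fˣ) :
    aAct hNA 1 μ = μ := by
  ext n
  rw [aAct_apply]
  congr 2
  apply Subtype.ext
  simp

omit [Finite K] in
theorem aAct_mul {N : Subgroup K} (hNA : ∀ α : S3, ∀ n ∈ N, α • n ∈ N) (α β : S3) (μ : ↥N →* Fˣ) :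
    aAct hNA (α * β) μ = aAct hNA α (aAct hNA β μ) := by
  ext n
  rw [aAct_apply, aAct_apply, aAct_apply]
  congr 2
  apply Subtype.ext
  simp [mul_smul]

omit [Finite K] in
/-- Compatibility of the two actions. -/
theorem aAct_kSmul {N : Subgroup K} [hN : N.Normal] (hNA : ∀ α : S3, ∀ n ∈ N, α • n ∈ N) (α : S3) (k : K)
    (μ : ↥N →* Fˣ) : aAct hNA α (k • μ) = (α • k) • aAct hNA α μ := by
  ext n
  rw [aAct_apply]
  have hm : k⁻¹ * (α⁻¹ • (n : K)) * k ∈ N := by
    have := hN.conj_mem _ (hNA α⁻¹ _ n.2) k⁻¹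
    simpa using this
  have hm2 : (α • k)⁻¹ * n * (α • k) ∈ N := by
    have := hN.conj_mem n n.2 (α • k)⁻¹
    simpa using this
  rw [kSmul_apply N k μ _ hm, kSmul_apply N (α • k) _ n hm2, aAct_apply]
  congr 2
  apply Subtype.ext
  simp [smul_mul', smul_inv']

omit [Finite K] in
theorem sig_eig (ρ : K →* Module.End F V) (σ : S3 →* Module.End F V)
    (hcomp : ∀ (α : S3) (g : K), σ α * ρ g = ρ (α • g) * σ α) {N : Subgroup K}
    (hNA : ∀ α : S3, ∀ n ∈ N, α • n ∈ N) (α : S3) {μ : ↥N →* Fˣ} {v : V} (hv : v ∈ eigS ρ μ) :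
    σ α v ∈ eigS ρ (aAct hNA α μ) := by
  intro n
  have h1 : ρ n * σ α = σ α * ρ (α⁻¹ • (n : K)) := by
    rw [hcomp, smul_inv_smul]
  have h2 : ρ n (σ α v) = σ α (ρ (α⁻¹ • (n : K)) v) := congrArg (fun f : Module.End F V => f v) h1
  rw [h2]
  have h3 : ρ (α⁻¹ • (n : K)) v = _ := hv ⟨_, hNA _ _ n.2⟩
  rw [h3, map_smul]
  rfl

theorem sig_inv_apply (σ : S3 →* Module.End F V) (α : S3) (v : V) : σ α⁻¹ (σ α v) = v := by
  have : σ α⁻¹ * σ α = 1 := by rw [← map_mul, inv_mul_cancel, map_one]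
  exact congrArg (fun f : Module.End F V => f v) this

omit [Finite K] in
open Classical in
/-- Separation: the sum over `S3` of a vector in an eigenspace splits along the orbit of the
character, hence the sum over its stabilizer vanishes. -/
theorem sum_stab_eq_zero (ρ : K →* Module.End F V) (σ : S3 →* Module.End F V)
    (hcomp : ∀ (α : S3) (g : K), σ α * ρ g = ρ (α • g) * σ α) (hN0 : ∑ α, σ α = 0) {N : Subgroup K} [Finite N]
    (hNA : ∀ α : S3, ∀ n ∈ N, α • n ∈ N) (hcard : ((Nat.card N : ℕ) : F) ≠ 0) {μ : ↥N →* Fˣ} {v : V}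
    (hv : v ∈ eigS ρ μ) :
    ∑ α ∈ Finset.univ.filter (fun α : S3 => aAct hNA α μ = μ), σ α v = 0 := by
  classical
  haveI := Fintype.ofFinite N
  let P : Module.End F V := ∑ n : N, (((μ n)⁻¹ : Fˣ) : F) • ρ n
  have hP : ∀ (ν : ↥N →* Fˣ) (w : V), w ∈ eigS ρ ν →
      P w = if ν = μ then ((Nat.card N : ℕ) : F) • w else 0 := by
    intro ν w hw
    have h1 : P w = (∑ n : N, (((μ n)⁻¹ : Fˣ) : F) * ((ν n : Fˣ) : F)) • w := by
      simp only [P, LinearMap.sum_apply, LinearMap.smul_apply, Finset.sum_smul, mul_smul]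
      refine Finset.sum_congr rfl (fun n _ => ?_)
      rw [hw n]
    rw [h1]
    split_ifs with h
    · subst h
      have h2 : ∑ n : N, (((ν n)⁻¹ : Fˣ) : F) * ((ν n : Fˣ) : F) = ((Nat.card N : ℕ) : F) := by
        have : ∀ n : N, (((ν n)⁻¹ : Fˣ) : F) * ((ν n : Fˣ) : F) = 1 := by
          intro n
          rw [← Units.val_mul, inv_mul_cancel, Units.val_one]
        simp [this, Nat.card_eq_fintype_card]
      rw [h2]
    · have hne : ∃ n₀ : N, ν n₀ ≠ μ n₀ := by
        by_contra hcon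
        push_neg at hcon
        exact h (MonoidHom.ext hcon)
      obtain ⟨n₀, hn₀⟩ := hne
      have h2 : ∑ n : N, (((μ n)⁻¹ : Fˣ) : F) * ((ν n : Fˣ) : F) = 0 := by
        apply sum_char_zero (fun n : N => (((μ n)⁻¹ : Fˣ) : F) * ((ν n : Fˣ) : F)) _ n₀
        · intro h3
          apply hn₀
          have h4 : (((μ n₀)⁻¹ * ν n₀ : Fˣ) : F) = 1 := by
            rw [Units.val_mul]; exact h3
          have h5 : (μ n₀)⁻¹ * ν n₀ = 1 := Units.ext h4
          rw [inv_mul_eq_one] at h5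
          exact h5.symm
        · intro x y
          simp only [map_mul, mul_inv, Units.val_mul]
          ring
      rw [h2, zero_smul]
  have h0 : P (∑ α, σ α v) = 0 := by
    have : ∑ α, σ α v = (∑ α, σ α) v := by simp
    rw [this, hN0]
    simp
  rw [map_sum] at h0
  have h1 : ∀ α : S3, P (σ α v) = if aAct hNA α μ = μ then ((Nat.card N : ℕ) : F) • σ α v else 0 :=
    fun α => hP _ _ (sig_eig ρ σ hcomp hNA α hv)
  simp_rw [h1] at h0
  rw [← Finset.sum_filter, ← Finset.smul_sum] at h0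
  convert (smul_eq_zero.1 h0).resolve_left hcard

end act

section common

variable {K : Type*} [Group K] [Finite K]
  {F : Type*} [Field F] [IsAlgClosed F] {V : Type*} [AddCommGroup V] [Module F V] [FiniteDimensional F V]

/-- An invariant subspace contains an eigenvector of every abelian subgroup. -/
theorem exists_eig_in (ρ : K →* Module.End F V) {N : Subgroup K}
    (hcN : ∀ x ∈ N, ∀ y ∈ N, x * y = y * x) (W : Submodule F V) (hW : W ≠ ⊥)
    (hinv : ∀ n ∈ N, ∀ w ∈ W, ρ n w ∈ W) : ∃ μ : ↥N →* Fˣ, ∃ v ∈ W, v ≠ 0 ∧ v ∈ eigS ρ μ := by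
  classical
  haveI := Fintype.ofFinite N
  let s : Finset (Module.End F V) := Finset.univ.image (fun n : N => ρ n)
  have hs : ∀ T ∈ s, ∃ n : N, ρ n = T := by
    intro T hT
    obtain ⟨n, -, h⟩ := Finset.mem_image.1 hT
    exact ⟨n, h⟩
  have hcomm : ∀ S ∈ s, ∀ T ∈ s, S * T = T * S := by
    intro S hS T hT
    obtain ⟨n, rfl⟩ := hs S hS
    obtain ⟨m, rfl⟩ := hs T hT
    rw [← map_mul, ← map_mul, hcN _ n.2 _ m.2]
  obtain ⟨v, hv, hv0, hvc⟩ := exists_common_eigvec s hcomm W hW (by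
    intro T hT w hw
    obtain ⟨n, rfl⟩ := hs T hT
    exact hinv _ n.2 w hw)
  have hc : ∀ n : N, ∃ c : F, ρ n v = c • v := fun n =>
    hvc _ (Finset.mem_image.2 ⟨n, Finset.mem_univ _, rfl⟩)
  choose c hc using hc
  have hc1 : c 1 = 1 := by
    have h1 := hc 1
    simp only [OneMemClass.coe_one, map_one, Module.End.one_apply] at h1
    have h2 : (c 1 - 1) • v = 0 := by
      rw [sub_smul, one_smul, ← h1, sub_self]
    exact sub_eq_zero.1 ((smul_eq_zero.1 h2).resolve_right hv0)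
  have hcm : ∀ x y : N, c (x * y) = c x * c y := by
    intro x y
    have h1 := hc (x * y)
    have h2 : ρ ((x * y : N) : K) v = ρ x (ρ y v) := by
      rw [Subgroup.coe_mul, map_mul]
      rfl
    rw [h2, hc y, map_smul, hc x, smul_smul] at h1
    have h3 : (c (x * y) - c y * c x) • v = 0 := by
      rw [sub_smul, ← h1, sub_self]
    have h4 := sub_eq_zero.1 ((smul_eq_zero.1 h3).resolve_right hv0)
    rw [h4, mul_comm]
  let f : ↥N →* F := { toFun := c, map_one' := hc1, map_mul' := hcm }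
  refine ⟨f.toHomUnits, v, hv, hv0, ?_⟩
  intro n
  rw [hc n]
  simp [f]

/-- A non-identity element of an abelian subgroup of order prime to the characteristic moves some
eigenspace. -/
theorem exists_eig_ne_one (ρ : K →* Module.End F V) {N : Subgroup K}
    (hcN : ∀ x ∈ N, ∀ y ∈ N, x * y = y * x) (hcard : ((Nat.card N : ℕ) : F) ≠ 0) (c₀ : N) (hc₀ : ρ c₀ ≠ 1) :
    ∃ μ : ↥N →* Fˣ, eigS ρ μ ≠ ⊥ ∧ μ c₀ ≠ 1 := by
  let T : Module.End F V := ρ c₀ - 1
  let W : Submodule F V := LinearMap.range T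
  have hW : W ≠ ⊥ := by
    intro h
    have h1 : T = 0 := LinearMap.range_eq_bot.1 h
    exact hc₀ (sub_eq_zero.1 h1)
  have hinv : ∀ n ∈ N, ∀ w ∈ W, ρ n w ∈ W := by
    rintro n hn w ⟨u, rfl⟩
    refine ⟨ρ n u, ?_⟩
    have h1 : T * ρ n = ρ n * T := by
      simp only [T, sub_mul, mul_sub, one_mul, mul_one]
      rw [← map_mul, ← map_mul, hcN _ c₀.2 _ hn]
    exact congrArg (fun f : Module.End F V => f u) h1
  obtain ⟨μ, v, ⟨u, hu⟩, hv0, hv⟩ := exists_eig_in ρ hcN W hW hinv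
  refine ⟨μ, (Submodule.ne_bot_iff _).2 ⟨v, hv, hv0⟩, ?_⟩
  intro h1
  have h2 : ρ c₀ v = v := by
    have := hv c₀
    rw [h1] at this
    simpa using this
  let o := orderOf c₀
  have ho : ((o : ℕ) : F) ≠ 0 := by
    intro h
    apply hcard
    have h3 : o ∣ Nat.card N := orderOf_dvd_natCard c₀
    obtain ⟨m, hm⟩ := h3
    rw [hm, Nat.cast_mul, h, zero_mul]
  let Sg : Module.End F V := ∑ i ∈ Finset.range o, (ρ c₀) ^ i
  have h3 : Sg * T = 0 := by
    have h4 : Sg * (ρ c₀ - 1) = (ρ c₀) ^ o - 1 := geom_sum_mul _ _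
    have h5 : (ρ c₀) ^ o = 1 := by
      rw [← map_pow]
      have h6 : (c₀ : K) ^ o = 1 := by
        have : c₀ ^ o = 1 := pow_orderOf_eq_one c₀
        exact congrArg Subtype.val this
      rw [h6, map_one]
    show Sg * (ρ c₀ - 1) = 0
    rw [h4, h5, sub_self]
  have h4 : Sg v = 0 := by
    rw [← hu]
    exact congrArg (fun f : Module.End F V => f u) h3
  have h5 : ∀ i : ℕ, ((ρ c₀) ^ i) v = v := by
    intro i
    induction i with
    | zero => simp
    | succ i ih =>
      rw [pow_succ, Module.End.mul_apply, h2, ih]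
  have h6 : Sg v = ((o : ℕ) : F) • v := by
    simp only [Sg, LinearMap.sum_apply, h5]
    rw [Finset.sum_const, Finset.card_range]
    exact (Nat.cast_smul_eq_nsmul F o v).symm
  rw [h6] at h4
  exact hv0 ((smul_eq_zero.1 h4).resolve_left ho)

end common

end Cfsg.Agent.Lib.Struct.SymFix
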