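import Mathlib
import Cfsg.Agent.Lib.Struct.SymFixB

/-!
# An order three operator normalising a nondegenerate twisted group algebra has eigenvalue one
-/

set_option autoImplicit false

namespace Cfsg.Agent.Lib.Struct.SymFix

open Subgroup

/-- Orbit representatives of an order three map with at most one fixed point. -/
theorem exists_orbit_reps {Q : Type*} [Fintype Q] [DecidableEq Q] (f : Q → Q) (h3 : ∀ q, f (f (f q)) = q)
    (q₀ : Q) (hfix : ∀ q, f q = q → q = q₀) :
    ∃ R : Finset Q, (∀ q, ∃ r ∈ R, q = r ∨ q = f r ∨ q = f (f r)) ∧ 3 * R.card ≤ Fintype.card Q + 2 := by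
  have key : ∀ S : Finset Q, (∀ q ∈ S, f q ∈ S) →
      ∃ R : Finset Q, (∀ q ∈ S, ∃ r ∈ R, q = r ∨ q = f r ∨ q = f (f r)) ∧
        3 * R.card ≤ S.card + (if q₀ ∈ S then 2 else 0) := by
    intro S
    induction S using Finset.strongInduction with
    | _ S ih =>
      intro hS
      by_cases hne : S.Nonempty
      · obtain ⟨x, hx⟩ := hne
        let T : Finset Q := {x, f x, f (f x)}
        have hTS : T ⊆ S := by
          intro q hq
          simp only [T, Finset.mem_insert, Finset.mem_singleton] at hq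
          rcases hq with rfl | rfl | rfl
          · exact hx
          · exact hS _ hx
          · exact hS _ (hS _ hx)
        have hTstable : ∀ q ∈ T, f q ∈ T := by
          intro q hq
          simp only [T, Finset.mem_insert, Finset.mem_singleton] at hq ⊢
          rcases hq with rfl | rfl | rfl
          · right; left; rfl
          · right; right; rfl
          · left; exact h3 x
        let S' := S \ T
        have hS'lt : S' ⊂ S := by
          refine Finset.sdiff_ssubset hTS ⟨x, ?_⟩
          simp [T]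
        have hS'st : ∀ q ∈ S', f q ∈ S' := by
          intro q hq
          rw [Finset.mem_sdiff] at hq ⊢
          refine ⟨hS _ hq.1, ?_⟩
          intro hf
          apply hq.2
          have h4 := hTstable _ (hTstable _ hf)
          rwa [h3] at h4
        obtain ⟨R', hR', hcard⟩ := ih S' hS'lt hS'st
        have hcardS : S.card = S'.card + T.card := by
          rw [Finset.card_sdiff_add_card_eq_card hTS]
        refine ⟨insert x R', ?_, ?_⟩
        · intro q hq
          by_cases hqT : q ∈ T
          · refine ⟨x, Finset.mem_insert_self _ _, ?_⟩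
            simpa only [T, Finset.mem_insert, Finset.mem_singleton] using hqT
          · obtain ⟨r, hr, h⟩ := hR' q (Finset.mem_sdiff.2 ⟨hq, hqT⟩)
            exact ⟨r, Finset.mem_insert_of_mem hr, h⟩
        · have h5 : (insert x R').card ≤ R'.card + 1 := Finset.card_insert_le _ _
          by_cases hfx : f x = x
          · -- the fixed point
            have hx0 : x = q₀ := hfix x hfx
            have h6 : q₀ ∈ S := hx0 ▸ hx
            have h7 : q₀ ∉ S' := by
              rw [Finset.mem_sdiff]
              intro h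
              apply h.2
              simp [T, hx0]
            have h8 : 1 ≤ T.card := Finset.card_pos.2 ⟨x, by simp [T]⟩
            rw [if_neg h7] at hcard
            rw [if_pos h6]
            omega
          · have hT3 : T.card = 3 := by
              have h1 : f (f x) ≠ x := by
                intro h
                apply hfx
                have h2 := h3 x
                rw [h] at h2
                exact h2
              have h2 : f (f x) ≠ f x := by
                intro h
                apply hfx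
                have h4 := h3 x
                rw [h, h] at h4
                exact h4
              have h4 : x ∉ ({f x, f (f x)} : Finset Q) := by
                simp only [Finset.mem_insert, Finset.mem_singleton, not_or]
                exact ⟨fun h => hfx h.symm, fun h => h1 h.symm⟩
              have h6 : f x ∉ ({f (f x)} : Finset Q) := by
                simp only [Finset.mem_singleton]
                exact fun h => h2 h.symm
              simp only [T]
              rw [Finset.card_insert_of_notMem h4, Finset.card_insert_of_notMem h6, Finset.card_singleton]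
            have h6 : (if q₀ ∈ S' then 2 else 0) ≤ (if q₀ ∈ S then 2 else 0) := by
              by_cases h7 : q₀ ∈ S'
              · rw [if_pos h7, if_pos (Finset.mem_sdiff.1 h7).1]
              · rw [if_neg h7]; exact Nat.zero_le _
            omega
      · rw [Finset.not_nonempty_iff_eq_empty] at hne
        subst hne
        exact ⟨∅, by simp, by simp⟩
  obtain ⟨R, hR, hc⟩ := key Finset.univ (fun _ _ => Finset.mem_univ _)
  refine ⟨R, fun q => hR q (Finset.mem_univ _), ?_⟩
  rw [if_pos (Finset.mem_univ _), Finset.card_univ] at hc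
  exact hc

section dim

variable {F : Type*} [Field F] [IsAlgClosed F] {W : Type*} [AddCommGroup W] [Module F W] [FiniteDimensional F W]

/-- The commutant of an operator. -/
def commOf (A : Module.End F W) : Submodule F (Module.End F W) where
  carrier := {Z | A * Z = Z * A}
  add_mem' := by
    intro a b ha hb
    show A * (a + b) = (a + b) * A
    rw [mul_add, add_mul, show A * a = a * A from ha, show A * b = b * A from hb]
  zero_mem' := by
    show A * 0 = 0 * A
    simp
  smul_mem' := by
    intro c a ha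
    show A * (c • a) = (c • a) * A
    rw [mul_smul_comm, smul_mul_assoc, show A * a = a * A from ha]

/-- An operator satisfying `A² + A + 1 = 0` has a commutant of at least half the dimension. -/
theorem finrank_comm_ge (h3 : (3 : F) ≠ 0) (A : Module.End F W) (hA : A * A + A + 1 = 0) :
    Module.finrank F W ^ 2 ≤ 2 * Module.finrank F (commOf A) := by
  classical
  obtain ⟨ω, hω⟩ : ∃ ω : F, ω * ω + ω + 1 = 0 := by
    have hp : (Polynomial.C (1 : F) * Polynomial.X ^ 2 + Polynomial.C 1 * Polynomial.X + Polynomial.C 1).degree ≠ 0 := by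
      rw [Polynomial.degree_quadratic one_ne_zero]
      norm_num
    obtain ⟨x, hx⟩ := IsAlgClosed.exists_root _ hp
    refine ⟨x, ?_⟩
    have := hx
    simp only [Polynomial.IsRoot, Polynomial.eval_add, Polynomial.eval_mul, Polynomial.eval_C,
      Polynomial.eval_pow, Polynomial.eval_X, one_mul] at this
    rw [← pow_two]
    exact this
  let ω' : F := -1 - ω
  have hne : ω - ω' ≠ 0 := by
    intro h
    apply h3
    have h1 : (2 : F) * ω + 1 = 0 := by
      have : ω - ω' = 2 * ω + 1 := by simp only [ω']; ring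
      rwa [this] at h
    have h2 : (2 * ω + 1) * (2 * ω + 1) = 0 := by rw [h1, zero_mul]
    have h4 : (3 : F) = 4 * (ω * ω + ω + 1) - (2 * ω + 1) * (2 * ω + 1) := by ring
    rw [h4, h2, hω]
    ring
  have hprod : ω * ω' = 1 := by
    simp only [ω']
    linear_combination -hω
  have hsum : ω + ω' = -1 := by simp only [ω']; ring
  have hfac : ∀ v : W, (A - ω • 1) ((A - ω' • 1) v) = 0 ∧ (A - ω' • 1) ((A - ω • 1) v) = 0 := by
    intro v
    have hgen : ∀ s t : F, (A - s • 1) * (A - t • 1) = A * A - (s + t) • A + (s * t) • 1 := by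
      intro s t
      simp only [sub_mul, mul_sub, smul_mul_assoc, mul_smul_comm, one_mul, mul_one, smul_sub, smul_smul, add_smul]
      rw [mul_comm t s]
      abel
    have h1 : (A - ω • 1) * (A - ω' • 1) = A * A + A + 1 := by
      rw [hgen, hsum, hprod, neg_smul, one_smul, one_smul, sub_neg_eq_add]
    have h2 : (A - ω' • 1) * (A - ω • 1) = A * A + A + 1 := by
      rw [hgen, add_comm ω', mul_comm ω', hsum, hprod, neg_smul, one_smul, one_smul, sub_neg_eq_add]
    rw [hA] at h1 h2
    exact ⟨congrArg (fun f : Module.End F W => f v) h1, congrArg (fun f : Module.End F W => f v) h2⟩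
  let W₁ : Submodule F W := LinearMap.ker (A - ω • 1)
  let W₂ : Submodule F W := LinearMap.ker (A - ω' • 1)
  have mW₁ : ∀ {v : W}, v ∈ W₁ ↔ A v = ω • v := by
    intro v
    simp [W₁, sub_eq_zero]
  have mW₂ : ∀ {v : W}, v ∈ W₂ ↔ A v = ω' • v := by
    intro v
    simp [W₂, sub_eq_zero]
  have hcompl : IsCompl W₁ W₂ := by
    constructor
    · rw [Submodule.disjoint_def]
      intro v h1 h2
      have h4 : (ω - ω') • v = 0 := by
        rw [sub_smul, ← mW₁.1 h1, ← mW₂.1 h2, sub_self]
      exact (smul_eq_zero.1 h4).resolve_left hne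
    · rw [codisjoint_iff, eq_top_iff]
      intro v _
      have hx : (ω - ω')⁻¹ • (A - ω' • 1) v ∈ W₁ := by
        refine Submodule.smul_mem _ _ ?_
        exact (hfac v).1
      have hy : (-(ω - ω')⁻¹) • (A - ω • 1) v ∈ W₂ := by
        refine Submodule.smul_mem _ _ ?_
        exact (hfac v).2
      have hv : v = (ω - ω')⁻¹ • (A - ω' • 1) v + (-(ω - ω')⁻¹) • (A - ω • 1) v := by
        rw [neg_smul, ← sub_eq_add_neg, ← smul_sub]
        have : (A - ω' • 1) v - (A - ω • 1) v = (ω - ω') • v := by
          simp [sub_smul]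
        rw [this, smul_smul, inv_mul_cancel₀ hne, one_smul]
      rw [hv]
      exact Submodule.add_mem _ (Submodule.mem_sup_left hx) (Submodule.mem_sup_right hy)
  let e : (W₁ × W₂) ≃ₗ[F] W := Submodule.prodEquivOfIsCompl W₁ W₂ hcompl
  have he : ∀ (x : W₁) (y : W₂), e (x, y) = (x : W) + y := fun x y => rfl
  -- the big commutant
  let J : (Module.End F W₁ × Module.End F W₂) →ₗ[F] Module.End F W :=
    (LinearEquiv.conj e).toLinearMap.comp (LinearMap.prodMapLinear F W₁ W₂ W₁ W₂ F)
  have hJapply : ∀ (Z : Module.End F W₁ × Module.End F W₂) (x : W₁) (y : W₂),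
      J Z ((x : W) + y) = (Z.1 x : W) + (Z.2 y : W) := by
    intro Z x y
    have h1 : e.symm ((x : W) + y) = (x, y) := by
      rw [← he, LinearEquiv.symm_apply_apply]
    show e ((LinearMap.prodMap Z.1 Z.2) (e.symm ((x : W) + y))) = _
    rw [h1]
    rfl
  have hJinj : Function.Injective J := by
    rw [← LinearMap.ker_eq_bot, LinearMap.ker_eq_bot']
    intro Z hZ
    have h1 : Z.1 = 0 := by
      ext x
      have h2 := hJapply Z x 0
      rw [hZ] at h2
      simp only [LinearMap.zero_apply, ZeroMemClass.coe_zero, add_zero, map_zero] at h2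
      exact h2.symm
    have h2 : Z.2 = 0 := by
      ext y
      have h2 := hJapply Z 0 y
      rw [hZ] at h2
      simp only [LinearMap.zero_apply, ZeroMemClass.coe_zero, zero_add, map_zero] at h2
      exact h2.symm
    exact Prod.ext h1 h2
  have hJcomm : ∀ Z, J Z ∈ commOf A := by
    intro Z
    show A * J Z = J Z * A
    ext v
    obtain ⟨⟨x, y⟩, rfl⟩ := e.surjective v
    rw [he]
    rw [Module.End.mul_apply, Module.End.mul_apply, hJapply, map_add, mW₁.1 (Z.1 x).2, mW₂.1 (Z.2 y).2,
      map_add, mW₁.1 x.2, mW₂.1 y.2]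
    have h1 : ω • (x : W) = ((ω • x : W₁) : W) := rfl
    have h2 : ω' • (y : W) = ((ω' • y : W₂) : W) := rfl
    rw [h1, h2, hJapply, map_smul, map_smul]
    rfl
  let J' : (Module.End F W₁ × Module.End F W₂) →ₗ[F] commOf A := J.codRestrict (commOf A) hJcomm
  have hJ'inj : Function.Injective J' := by
    intro a b hab
    apply hJinj
    exact congrArg Subtype.val hab
  have h1 := LinearMap.finrank_le_finrank_of_injective hJ'inj
  rw [Module.finrank_prod, Module.finrank_linearMap, Module.finrank_linearMap] at h1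
  have h2 : Module.finrank F W = Module.finrank F W₁ + Module.finrank F W₂ := by
    rw [← e.finrank_eq, Module.finrank_prod]
  rw [h2]
  nlinarith [sq_nonneg ((Module.finrank F W₁ : ℤ) - Module.finrank F W₂), Nat.zero_le (Module.finrank F W₁),
    sq_abs ((Module.finrank F W₁ : ℤ) - Module.finrank F W₂),
    (by
      rcases le_total (Module.finrank F W₁) (Module.finrank F W₂) with h | h
      · obtain ⟨d, hd⟩ := Nat.exists_eq_add_of_le h
        rw [hd]; nlinarith
      · obtain ⟨d, hd⟩ := Nat.exists_eq_add_of_le h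
        rw [hd]; nlinarith :
      2 * Module.finrank F W₁ * Module.finrank F W₂ ≤
        Module.finrank F W₁ * Module.finrank F W₁ + Module.finrank F W₂ * Module.finrank F W₂)]

end dim

section alemma

variable {K : Type*} [Group K] [Fintype K]
  {F : Type*} [Field F] {W : Type*} [AddCommGroup W] [Module F W]

/-- Averaging over the group by conjugation. -/
noncomputable def twirl (ρ : K →* Module.End F W) : Module.End F W →ₗ[F] Module.End F W :=
  ∑ h : K, (LinearMap.mulLeft F (ρ h)).comp (LinearMap.mulRight F (ρ h⁻¹))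

theorem twirl_apply (ρ : K →* Module.End F W) (X : Module.End F W) :
    twirl ρ X = ∑ h, ρ h * X * ρ h⁻¹ := by
  simp [twirl, mul_assoc]

/-- The coordinate maps. -/
noncomputable def pP (ρ : K →* Module.End F W) (g : K) : Module.End F W →ₗ[F] Module.End F W :=
  (twirl ρ).comp (LinearMap.mulLeft F (ρ g⁻¹))

theorem pP_apply (ρ : K →* Module.End F W) (g : K) (Z : Module.End F W) :
    pP ρ g Z = ∑ h, ρ h * (ρ g⁻¹ * Z) * ρ h⁻¹ := by
  simp [pP, twirl_apply]

theorem twirl_comm (ρ : K →* Module.End F W) (X : Module.End F W) (k : K) :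
    twirl ρ X * ρ k = ρ k * twirl ρ X := by
  rw [twirl_apply, Finset.sum_mul, Finset.mul_sum]
  refine Fintype.sum_equiv (Equiv.mulLeft k⁻¹) _ _ (fun h => ?_)
  simp only [Equiv.coe_mulLeft]
  have h1 : ρ k * ρ (k⁻¹ * h) = ρ h := by rw [← map_mul]; congr 1; group
  have h2 : ρ (k⁻¹ * h)⁻¹ = ρ h⁻¹ * ρ k := by rw [← map_mul]; congr 1; group
  rw [h2, ← mul_assoc, ← mul_assoc, ← mul_assoc, h1]

/-- The commutant of the representation. -/
def commRep (ρ : K →* Module.End F W) : Submodule F (Module.End F W) where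
  carrier := {Z | ∀ g, Z * ρ g = ρ g * Z}
  add_mem' := by
    intro a b ha hb g
    rw [add_mul, mul_add, ha g, hb g]
  zero_mem' := by
    intro g
    simp
  smul_mem' := by
    intro c a ha g
    rw [smul_mul_assoc, mul_smul_comm, ha g]

variable [Nontrivial W] (ρ : K →* Module.End F W) (M : Subgroup K)
  (χ : K → K → F) (hχ : ∀ g h, ρ g * ρ h = χ g h • (ρ h * ρ g))
  (μ : K → F) (hμ : ∀ m ∈ M, ρ m = μ m • 1)
  (hnd : ∀ h, h ∉ M → ∃ g, χ h g ≠ 1)

omit [Nontrivial W] in
theorem rho_mul_inv (g : K) : ρ g * ρ g⁻¹ = 1 := by rw [← map_mul, mul_inv_cancel, map_one]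

omit [Nontrivial W] in
theorem rho_inv_mul (g : K) : ρ g⁻¹ * ρ g = 1 := by rw [← map_mul, inv_mul_cancel, map_one]

theorem rho_ne_zero (g : K) : ρ g ≠ 0 := by
  intro h
  have h1 := rho_mul_inv ρ g
  rw [h, zero_mul] at h1
  exact zero_ne_one h1

include hχ in
omit [Nontrivial W] in
theorem conj_rho (g h : K) : ρ g * ρ h * ρ g⁻¹ = χ g h • ρ h := by
  rw [hχ, smul_mul_assoc, mul_assoc (ρ h), rho_mul_inv, mul_one]

include hχ in
theorem chi_mul (g g' h : K) : χ (g * g') h = χ g h * χ g' h := by
  have h1 := hχ (g * g') h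
  have h2 : ρ (g * g') * ρ h = (χ g h * χ g' h) • (ρ h * ρ (g * g')) := by
    rw [map_mul, mul_assoc, hχ g' h, mul_smul_comm, ← mul_assoc, hχ g h, smul_mul_assoc, smul_smul,
      mul_comm (χ g' h), mul_assoc (ρ h)]
  rw [h1] at h2
  have h3 : (χ (g * g') h - χ g h * χ g' h) • (ρ h * ρ (g * g')) = 0 := by
    rw [sub_smul, h2, sub_self]
  have h4 : ρ h * ρ (g * g') ≠ 0 := by
    rw [← map_mul]
    exact rho_ne_zero ρ _
  exact sub_eq_zero.1 ((smul_eq_zero.1 h3).resolve_right h4)

include hχ in
theorem chi_symm (g h : K) : χ g h * χ h g = 1 := by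
  have h1 := hχ g h
  have h2 := hχ h g
  rw [h2, smul_smul] at h1
  have h3 : (χ g h * χ h g - 1) • (ρ g * ρ h) = 0 := by
    rw [sub_smul, one_smul, ← h1, sub_self]
  have h4 : ρ g * ρ h ≠ 0 := by
    rw [← map_mul]
    exact rho_ne_zero ρ _
  exact sub_eq_zero.1 ((smul_eq_zero.1 h3).resolve_right h4)

include hχ hnd in
theorem sum_chi_of_not_mem {h : K} (hh : h ∉ M) : ∑ g, χ g h = 0 := by
  obtain ⟨g₀, hg₀⟩ := hnd h hh
  apply sum_char_zero (fun g => χ g h) (fun x y => chi_mul ρ χ hχ x y h) g₀
  intro h1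
  apply hg₀
  have h2 := chi_symm ρ χ hχ g₀ h
  have h1' : χ g₀ h = 1 := h1
  rw [h1', one_mul] at h2
  exact h2

include hχ hμ in
theorem chi_of_mem {h : K} (hh : h ∈ M) (g : K) : χ g h = 1 := by
  have h1 := hχ g h
  rw [hμ h hh, mul_smul_comm, smul_mul_assoc, smul_smul, mul_one, one_mul] at h1
  have h2 : (μ h - χ g h * μ h) • ρ g = 0 := by
    rw [sub_smul, ← h1, sub_self]
  have h3 := (smul_eq_zero.1 h2).resolve_right (rho_ne_zero ρ g)
  have h4 : μ h ≠ 0 := by
    intro h5
    apply rho_ne_zero ρ h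
    rw [hμ h hh, h5, zero_smul]
  have h5 : (1 - χ g h) * μ h = 0 := by linear_combination h3
  have h6 := (mul_eq_zero.1 h5).resolve_right h4
  exact (sub_eq_zero.1 h6).symm

include hμ in
omit [Nontrivial W] in
theorem conj_mem_eq {h : K} (hh : h ∈ M) (Z : Module.End F W) : ρ h * Z * ρ h⁻¹ = Z := by
  have h1 : μ h • ρ h⁻¹ = 1 := by
    have h2 := rho_mul_inv ρ h
    rw [hμ h hh, smul_mul_assoc, one_mul] at h2
    exact h2
  calc ρ h * Z * ρ h⁻¹ = (μ h • 1) * Z * ρ h⁻¹ := by rw [hμ h hh]
    _ = Z * (μ h • ρ h⁻¹) := by simp [smul_mul_assoc, mul_smul_comm]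
    _ = Z := by rw [h1, mul_one]

open Classical in
include hχ hμ hnd in
/-- The expansion formula. -/
theorem expansion (Z : Module.End F W) :
    ∑ g, ρ g * pP ρ g Z = ((Fintype.card K * (Finset.univ.filter (fun h => h ∈ M)).card : ℕ) : F) • Z := by
  have h1 : ∀ g, ρ g * pP ρ g Z = ∑ h, χ g h • (ρ h * Z * ρ h⁻¹) := by
    intro g
    rw [pP_apply, Finset.mul_sum]
    refine Finset.sum_congr rfl (fun h _ => ?_)
    have h2 : ρ g * (ρ h * (ρ g⁻¹ * Z) * ρ h⁻¹) = (ρ g * ρ h * ρ g⁻¹) * Z * ρ h⁻¹ := by
      simp only [mul_assoc]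
    rw [h2, conj_rho ρ χ hχ, smul_mul_assoc, smul_mul_assoc]
  simp_rw [h1]
  rw [Finset.sum_comm]
  have h2 : ∀ h : K, ∑ g, χ g h • (ρ h * Z * ρ h⁻¹) =
      if h ∈ M then (Fintype.card K : F) • Z else 0 := by
    intro h
    rw [← Finset.sum_smul]
    split_ifs with hh
    · rw [conj_mem_eq ρ M μ hμ hh]
      have : ∑ g, χ g h = (Fintype.card K : F) := by
        rw [Finset.sum_congr rfl (fun g _ => chi_of_mem ρ M χ hχ μ hμ hh g)]
        simp
      rw [this]
    · rw [sum_chi_of_not_mem ρ M χ hχ hnd hh, zero_smul]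
  simp_rw [h2]
  rw [← Finset.sum_filter, Finset.sum_const, ← Nat.cast_smul_eq_nsmul F, smul_smul]
  push_cast
  rw [mul_comm]

include hχ in
omit [Nontrivial W] in
/-- The coordinate of a term with coefficient in the commutant. -/
theorem pP_mul_comm (g₀ g : K) {Z : Module.End F W} (hZ : Z ∈ commRep ρ) :
    pP ρ g₀ (ρ g * Z) = (∑ h, χ h (g₀⁻¹ * g)) • (ρ (g₀⁻¹ * g) * Z) := by
  rw [pP_apply, Finset.sum_smul]
  refine Finset.sum_congr rfl (fun h _ => ?_)
  have h1 : ρ g₀⁻¹ * (ρ g * Z) = ρ (g₀⁻¹ * g) * Z := by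
    rw [← mul_assoc, ← map_mul]
  rw [h1, mul_assoc, mul_assoc, hZ h⁻¹, ← mul_assoc, ← mul_assoc, conj_rho ρ χ hχ, smul_mul_assoc]

end alemma

section final

variable {K : Type*} [Group K] [Fintype K]
  {F : Type*} [Field F] {W : Type*} [AddCommGroup W] [Module F W] [FiniteDimensional F W] [Nontrivial W]

variable (ρ : K →* Module.End F W) (M : Subgroup K) [hMn : M.Normal]
  (χ : K → K → F) (hχ : ∀ g h, ρ g * ρ h = χ g h • (ρ h * ρ g))
  (μ : K → F) (hμ : ∀ m ∈ M, ρ m = μ m • 1)
  (hnd : ∀ h, h ∉ M → ∃ g, χ h g ≠ 1)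

omit [FiniteDimensional F W] [Nontrivial W] hMn in
theorem pP_mem_comm (g : K) (Z : Module.End F W) : pP ρ g Z ∈ commRep ρ := fun k => twirl_comm ρ _ k

include hχ hμ hnd in
theorem index_mul_finrank_le (hK : ((Fintype.card K : ℕ) : F) ≠ 0) :
    M.index * Module.finrank F (commRep ρ) ≤ Module.finrank F (Module.End F W) := by
  classical
  haveI : Fintype (K ⧸ M) := Fintype.ofFinite _
  let Λ : ((K ⧸ M) → commRep ρ) →ₗ[F] Module.End F W :=
    { toFun := fun z => ∑ q : K ⧸ M, ρ q.out * (z q : Module.End F W)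
      map_add' := by
        intro x y
        simp [mul_add, Finset.sum_add_distrib]
      map_smul' := by
        intro c x
        simp [Finset.smul_sum, mul_smul_comm] }
  have hinj : Function.Injective Λ := by
    rw [← LinearMap.ker_eq_bot, LinearMap.ker_eq_bot']
    intro z hz
    funext q₀
    have h1 : ∑ q : K ⧸ M, ρ q.out * (z q : Module.End F W) = 0 := hz
    have h2 := congrArg (pP ρ q₀.out) h1
    rw [map_sum, map_zero] at h2
    have h3 : ∀ q : K ⧸ M, pP ρ q₀.out (ρ q.out * (z q : Module.End F W)) =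
        (∑ h, χ h (q₀.out⁻¹ * q.out)) • (ρ (q₀.out⁻¹ * q.out) * (z q : Module.End F W)) :=
      fun q => pP_mul_comm ρ χ hχ _ _ (z q).2
    simp_rw [h3] at h2
    rw [Finset.sum_eq_single q₀] at h2
    · rw [inv_mul_cancel, map_one, one_mul] at h2
      have h4 : ∑ h, χ h (1 : K) = (Fintype.card K : F) := by
        rw [Finset.sum_congr rfl (fun g _ => chi_of_mem ρ M χ hχ μ hμ M.one_mem g)]
        simp
      rw [h4] at h2
      have h5 := (smul_eq_zero.1 h2).resolve_left hK
      apply Subtype.ext
      rw [h5]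
      rfl
    · intro q _ hq
      have h6 : q₀.out⁻¹ * q.out ∉ M := by
        intro h
        apply hq
        have h7 : ((q₀.out : K) : K ⧸ M) = (q.out : K) := QuotientGroup.eq.2 h
        rw [QuotientGroup.out_eq', QuotientGroup.out_eq'] at h7
        exact h7.symm
      rw [sum_chi_of_not_mem ρ M χ hχ hnd h6, zero_smul]
    · intro h
      exact absurd (Finset.mem_univ _) h
  have h1 := LinearMap.finrank_le_finrank_of_injective hinj
  rw [Module.finrank_pi_fintype, Finset.sum_const, Finset.card_univ, smul_eq_mul] at h1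
  have h2 : Fintype.card (K ⧸ M) = M.index := by
    rw [Subgroup.index, Nat.card_eq_fintype_card]
  rw [h2] at h1
  exact h1

variable (α : K →* K) (hα3 : ∀ g, α (α (α g)) = g) (hαM : ∀ m ∈ M, α m ∈ M)
  (hfp : ∀ g, g⁻¹ * α g ∈ M → g ∈ M)
  (A : Module.End F W) (hA3 : A * A * A = 1) (hAρ : ∀ g, A * ρ g = ρ (α g) * A)

include hα3 hAρ in
omit [FiniteDimensional F W] [Nontrivial W] hMn in
theorem pP_alpha (g : K) {Z : Module.End F W} (hZ : Z ∈ commOf A) :
    pP ρ (α g) Z * A = A * pP ρ g Z := by
  rw [pP_apply, pP_apply, Finset.sum_mul, Finset.mul_sum]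
  let e : K ≃ K :=
    { toFun := α
      invFun := fun x => α (α x)
      left_inv := hα3
      right_inv := hα3 }
  refine (Fintype.sum_equiv e _ _ (fun h => ?_)).symm
  have h1 : A * ρ h = ρ (α h) * A := hAρ h
  have h2 : A * ρ g⁻¹ = ρ (α g)⁻¹ * A := by rw [hAρ, map_inv]
  have h3 : A * ρ h⁻¹ = ρ (α h)⁻¹ * A := by rw [hAρ, map_inv]
  have h4 : A * Z = Z * A := hZ
  show A * (ρ h * (ρ g⁻¹ * Z) * ρ h⁻¹) = ρ (α h) * (ρ (α g)⁻¹ * Z) * ρ (α h)⁻¹ * A
  calc A * (ρ h * (ρ g⁻¹ * Z) * ρ h⁻¹) = (A * ρ h) * ρ g⁻¹ * Z * ρ h⁻¹ := by simp only [mul_assoc]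
    _ = ρ (α h) * (A * ρ g⁻¹) * Z * ρ h⁻¹ := by rw [h1]; simp only [mul_assoc]
    _ = ρ (α h) * ρ (α g)⁻¹ * (A * Z) * ρ h⁻¹ := by rw [h2]; simp only [mul_assoc]
    _ = ρ (α h) * ρ (α g)⁻¹ * Z * (A * ρ h⁻¹) := by rw [h4]; simp only [mul_assoc]
    _ = _ := by rw [h3]; simp only [mul_assoc]

include hα3 hAρ hA3 in
omit [FiniteDimensional F W] [Nontrivial W] hMn in
theorem pP_alpha_zero {g : K} {Z : Module.End F W} (hZ : Z ∈ commOf A) (h : pP ρ g Z = 0) :
    pP ρ (α g) Z = 0 := by
  have h1 := pP_alpha ρ α hα3 A hAρ g hZ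
  rw [h, mul_zero] at h1
  have h2 : pP ρ (α g) Z * (A * A * A) = 0 := by
    rw [← mul_assoc, ← mul_assoc, h1, zero_mul, zero_mul]
  rwa [hA3, mul_one] at h2

include hμ in
omit [FiniteDimensional F W] [Nontrivial W] hMn in
theorem pP_mul_zero {g m : K} (hm : m ∈ M) {Z : Module.End F W} (h : pP ρ g Z = 0) :
    pP ρ (g * m) Z = 0 := by
  have h1 : pP ρ (g * m) Z = μ m⁻¹ • pP ρ g Z := by
    rw [pP_apply, pP_apply, Finset.smul_sum]
    refine Finset.sum_congr rfl (fun h _ => ?_)
    have h2 : ρ (g * m)⁻¹ = μ m⁻¹ • ρ g⁻¹ := by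
      rw [mul_inv_rev, map_mul, hμ _ (M.inv_mem hm), smul_mul_assoc, one_mul]
    rw [h2]
    simp only [smul_mul_assoc, mul_smul_comm]
  rw [h1, h, smul_zero]

include hχ hμ hnd hα3 hαM hA3 hAρ in
theorem finrank_commOf_le (hK : ((Fintype.card K : ℕ) : F) ≠ 0) (R : Finset (K ⧸ M))
    (hR : ∀ q : K ⧸ M, ∃ r ∈ R, q = r ∨
      q = QuotientGroup.map M M α (fun m hm => hαM m hm) r ∨
      q = QuotientGroup.map M M α (fun m hm => hαM m hm) (QuotientGroup.map M M α (fun m hm => hαM m hm) r)) :
    Module.finrank F (commOf A) ≤ R.card * Module.finrank F (commRep ρ) := by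
  classical
  let Ξ : commOf A →ₗ[F] (R → commRep ρ) :=
    { toFun := fun Z r => ⟨pP ρ (r.1.out) (Z : Module.End F W), pP_mem_comm ρ _ _⟩
      map_add' := by
        intro x y
        funext r
        apply Subtype.ext
        simp
      map_smul' := by
        intro c x
        funext r
        apply Subtype.ext
        simp }
  have hinj : Function.Injective Ξ := by
    rw [← LinearMap.ker_eq_bot, LinearMap.ker_eq_bot']
    intro Z hZ
    have h0 : ∀ r ∈ R, pP ρ r.out (Z : Module.End F W) = 0 := by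
      intro r hr
      have h1 := congrFun hZ ⟨r, hr⟩
      exact congrArg Subtype.val h1
    have hall : ∀ g : K, pP ρ g (Z : Module.End F W) = 0 := by
      intro g
      obtain ⟨r, hr, h⟩ := hR (g : K ⧸ M)
      have hz0 := h0 r hr
      have hr' : ((r.out : K) : K ⧸ M) = r := QuotientGroup.out_eq' r
      rw [← hr'] at h
      have hmap : ∀ x : K, QuotientGroup.map M M α (fun m hm => hαM m hm) (x : K ⧸ M) = ((α x : K) : K ⧸ M) := fun x => rfl
      rw [hmap, hmap] at h
      rcases h with h | h | h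
      · have h1 : (r.out)⁻¹ * g ∈ M := QuotientGroup.eq.1 h.symm
        have h2 : g = r.out * ((r.out)⁻¹ * g) := by group
        rw [h2]
        exact pP_mul_zero ρ M μ hμ h1 hz0
      · have h1 : (α r.out)⁻¹ * g ∈ M := QuotientGroup.eq.1 h.symm
        have h2 : g = α r.out * ((α r.out)⁻¹ * g) := by group
        rw [h2]
        exact pP_mul_zero ρ M μ hμ h1 (pP_alpha_zero ρ α hα3 A hA3 hAρ Z.2 hz0)
      · have h1 : (α (α r.out))⁻¹ * g ∈ M := QuotientGroup.eq.1 h.symm
        have h2 : g = α (α r.out) * ((α (α r.out))⁻¹ * g) := by group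
        rw [h2]
        exact pP_mul_zero ρ M μ hμ h1
          (pP_alpha_zero ρ α hα3 A hA3 hAρ Z.2 (pP_alpha_zero ρ α hα3 A hA3 hAρ Z.2 hz0))
    have h1 := expansion ρ M χ hχ μ hμ hnd (Z : Module.End F W)
    simp_rw [hall, mul_zero, Finset.sum_const_zero] at h1
    have hcard : (Finset.univ.filter (fun h => h ∈ M)).card = Nat.card M := by
      rw [Nat.card_eq_fintype_card, Fintype.card_subtype]
    have h2 : ((Fintype.card K * (Finset.univ.filter (fun h => h ∈ M)).card : ℕ) : F) ≠ 0 := by
      rw [hcard]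
      push_cast
      refine mul_ne_zero hK ?_
      intro h
      apply hK
      have h3 := Subgroup.card_mul_index M
      rw [Nat.card_eq_fintype_card (α := K)] at h3
      rw [← h3]
      push_cast
      rw [h, zero_mul]
    have h3 := (smul_eq_zero.1 h1.symm).resolve_left h2
    exact Subtype.ext h3
  have h1 := LinearMap.finrank_le_finrank_of_injective hinj
  rw [Module.finrank_pi_fintype, Finset.sum_const, Finset.card_univ, smul_eq_mul] at h1
  simpa using h1

include hχ hμ hnd hα3 hfp hA3 hAρ in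
/-- **The main dimension count.** -/
theorem no_fixfree_three [IsAlgClosed F] (h3 : (3 : F) ≠ 0) (hK : ((Fintype.card K : ℕ) : F) ≠ 0)
    (hαM : ∀ m ∈ M, α m ∈ M) (he : 4 < M.index) (h0 : A * A + A + 1 = 0) : False := by
  classical
  haveI : Fintype (K ⧸ M) := Fintype.ofFinite _
  let f : K ⧸ M → K ⧸ M := QuotientGroup.map M M α (fun m hm => hαM m hm)
  have hf3 : ∀ q, f (f (f q)) = q := by
    intro q
    obtain ⟨g, rfl⟩ := QuotientGroup.mk_surjective q
    show ((α (α (α g)) : K) : K ⧸ M) = g
    rw [hα3]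
  have hffix : ∀ q, f q = q → q = 1 := by
    intro q hq
    obtain ⟨g, rfl⟩ := QuotientGroup.mk_surjective q
    have hq' : ((α g : K) : K ⧸ M) = g := hq
    have h1 : (α g)⁻¹ * g ∈ M := QuotientGroup.eq.1 hq'
    have h2 : g⁻¹ * α g ∈ M := by
      have := M.inv_mem h1
      simpa using this
    exact (QuotientGroup.eq_one_iff g).2 (hfp g h2)
  obtain ⟨R, hR, hRc⟩ := exists_orbit_reps f hf3 1 hffix
  have h1 := index_mul_finrank_le ρ M χ hχ μ hμ hnd hK
  have h2 := finrank_comm_ge h3 A h0
  have h4 := finrank_commOf_le ρ M χ hχ μ hμ hnd α hα3 hαM A hA3 hAρ hK R hR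
  have hc : 0 < Module.finrank F (commRep ρ) := by
    rw [Module.finrank_pos_iff_exists_ne_zero]
    refine ⟨⟨1, fun g => by simp⟩, ?_⟩
    intro h
    have h5 : (1 : Module.End F W) = 0 := congrArg Subtype.val h
    exact one_ne_zero h5
  have h5 : Module.finrank F (Module.End F W) = Module.finrank F W ^ 2 := by
    rw [Module.finrank_linearMap, pow_two]
  have h6 : Fintype.card (K ⧸ M) = M.index := by
    rw [Subgroup.index, Nat.card_eq_fintype_card]
  rw [h6] at hRc
  rw [h5] at h1
  have h7 : M.index * Module.finrank F (commRep ρ) ≤ (2 * R.card) * Module.finrank F (commRep ρ) := by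
    calc M.index * Module.finrank F (commRep ρ) ≤ Module.finrank F W ^ 2 := h1
      _ ≤ 2 * Module.finrank F (commOf A) := h2
      _ ≤ 2 * (R.card * Module.finrank F (commRep ρ)) := Nat.mul_le_mul_left _ h4
      _ = _ := by ring
  have h8 : M.index ≤ 2 * R.card := Nat.le_of_mul_le_mul_right h7 hc
  omega

end final

end Cfsg.Agent.Lib.Struct.SymFix
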