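import Mathlib
import Cfsg.Agent.Lib.Struct.SymFixD
import Cfsg.Agent.Lib.Struct.PQFixB

/-!
# The dimension count for an operator of prime order normalising a twisted group algebra
-/

set_option autoImplicit false

namespace Cfsg.Agent.Lib.Struct.PQFix

open Subgroup SymFix

/-- Orbit representatives of a map of prime order. -/
theorem exists_reps {Q : Type*} [Fintype Q] [DecidableEq Q] (f : Q → Q) {n : ℕ} (hn : n.Prime)
    (hf : ∀ q, f^[n] q = q) :
    ∃ R : Finset Q, (∀ q, ∃ r ∈ R, ∃ i < n, q = f^[i] r) ∧
      (∀ r ∈ R, ∀ r' ∈ R, ∀ i < n, r' = f^[i] r → r' = r) ∧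
      n * R.card ≤ Fintype.card Q + (n - 1) * (Finset.univ.filter (fun q => f q = q)).card := by
  obtain ⟨m, rfl⟩ : ∃ m, n = m + 1 := ⟨n - 1, by have := hn.pos; omega⟩
  simp only [Nat.add_sub_cancel]
  have hback : ∀ (x : Q) (i : ℕ), i < m + 1 → x = f^[m + 1 - i] (f^[i] x) := by
    intro x i hi
    rw [← Function.iterate_add_apply, Nat.sub_add_cancel (by omega), hf]
  have key : ∀ S : Finset Q, (∀ q ∈ S, f q ∈ S) →
      ∃ R : Finset Q, R ⊆ S ∧ (∀ q ∈ S, ∃ r ∈ R, ∃ i < m + 1, q = f^[i] r) ∧
        (∀ r ∈ R, ∀ r' ∈ R, ∀ i < m + 1, r' = f^[i] r → r' = r) ∧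
        (m + 1) * R.card ≤ S.card + m * (S.filter (fun q => f q = q)).card := by
    intro S
    induction S using Finset.strongInduction with
    | _ S ih =>
      intro hS
      by_cases hne : S.Nonempty
      · obtain ⟨x, hx⟩ := hne
        let T : Finset Q := (Finset.range (m + 1)).image (fun i => f^[i] x)
        have hTmem : ∀ q, q ∈ T ↔ ∃ i < m + 1, q = f^[i] x := by
          intro q
          simp only [T, Finset.mem_image, Finset.mem_range]
          constructor
          · rintro ⟨i, hi, rfl⟩
            exact ⟨i, hi, rfl⟩
          · rintro ⟨i, hi, rfl⟩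
            exact ⟨i, hi, rfl⟩
        have hiter : ∀ (i : ℕ) (q : Q), q ∈ S → f^[i] q ∈ S := by
          intro i
          induction i with
          | zero => intro q hq; exact hq
          | succ i ih' =>
            intro q hq
            rw [Function.iterate_succ_apply']
            exact hS _ (ih' q hq)
        have hTS : T ⊆ S := by
          intro q hq
          obtain ⟨i, _, rfl⟩ := (hTmem q).1 hq
          exact hiter i x hx
        have hTstable : ∀ q ∈ T, f q ∈ T := by
          intro q hq
          obtain ⟨i, hi, rfl⟩ := (hTmem q).1 hq
          rw [hTmem, ← Function.iterate_succ_apply' f i x]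
          by_cases h : i + 1 < m + 1
          · exact ⟨i + 1, h, rfl⟩
          · have h1 : i + 1 = m + 1 := by omega
            refine ⟨0, by omega, ?_⟩
            show f^[i + 1] x = x
            rw [h1, hf]
        have hTiter : ∀ (i : ℕ) (q : Q), q ∈ T → f^[i] q ∈ T := by
          intro i
          induction i with
          | zero => intro q hq; exact hq
          | succ i ih' =>
            intro q hq
            rw [Function.iterate_succ_apply']
            exact hTstable _ (ih' q hq)
        have hxT : x ∈ T := (hTmem x).2 ⟨0, by omega, rfl⟩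
        let S' := S \ T
        have hS'lt : S' ⊂ S := Finset.sdiff_ssubset hTS ⟨x, hxT⟩
        have hS'st : ∀ q ∈ S', f q ∈ S' := by
          intro q hq
          rw [Finset.mem_sdiff] at hq ⊢
          refine ⟨hS _ hq.1, ?_⟩
          intro hf'
          apply hq.2
          have h4 := hTiter m _ hf'
          rw [← Function.iterate_succ_apply, hf] at h4
          exact h4
        obtain ⟨R', hR'S, hR', hdis, hcard⟩ := ih S' hS'lt hS'st
        have hcardS : S.card = S'.card + T.card := by
          rw [Finset.card_sdiff_add_card_eq_card hTS]
        have hxR' : x ∉ R' := fun h => (Finset.mem_sdiff.1 (hR'S h)).2 hxT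
        refine ⟨insert x R', ?_, ?_, ?_, ?_⟩
        · intro q hq
          rcases Finset.mem_insert.1 hq with rfl | hq
          · exact hx
          · exact (Finset.mem_sdiff.1 (hR'S hq)).1
        · intro q hq
          by_cases hqT : q ∈ T
          · obtain ⟨i, hi, h⟩ := (hTmem q).1 hqT
            exact ⟨x, Finset.mem_insert_self _ _, i, hi, h⟩
          · obtain ⟨r, hr, h⟩ := hR' q (Finset.mem_sdiff.2 ⟨hq, hqT⟩)
            exact ⟨r, Finset.mem_insert_of_mem hr, h⟩
        · intro r hr r' hr' i hi h
          rcases Finset.mem_insert.1 hr with hrx | hr1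
          · rcases Finset.mem_insert.1 hr' with hrx' | hr2
            · rw [hrx, hrx']
            · exfalso
              rw [hrx] at h
              exact (Finset.mem_sdiff.1 (hR'S hr2)).2 ((hTmem r').2 ⟨i, hi, h⟩)
          · rcases Finset.mem_insert.1 hr' with hrx' | hr2
            · exfalso
              rw [hrx'] at h
              have h1 := hback r i hi
              rw [← h] at h1
              exact (Finset.mem_sdiff.1 (hR'S hr1)).2 (by rw [h1]; exact hTiter _ _ hxT)
            · exact hdis r hr1 r' hr2 i hi h
        · have h5 : (insert x R').card = R'.card + 1 := Finset.card_insert_of_notMem hxR'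
          rw [h5]
          by_cases hfx : f x = x
          · have hTx : T.card = 1 := by
              have : T = {x} := by
                ext q
                rw [hTmem, Finset.mem_singleton]
                constructor
                · rintro ⟨i, _, rfl⟩
                  exact Function.iterate_fixed hfx i
                · rintro rfl
                  exact ⟨0, by omega, rfl⟩
              rw [this, Finset.card_singleton]
            have h6 : (S.filter (fun q => f q = q)).card = (S'.filter (fun q => f q = q)).card + 1 := by
              have h7 : S.filter (fun q => f q = q) = insert x (S'.filter (fun q => f q = q)) := by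
                ext q
                simp only [Finset.mem_filter, Finset.mem_insert, S', Finset.mem_sdiff]
                constructor
                · rintro ⟨h1, h2⟩
                  by_cases h3 : q ∈ T
                  · left
                    obtain ⟨i, _, rfl⟩ := (hTmem q).1 h3
                    exact Function.iterate_fixed hfx i
                  · right
                    exact ⟨⟨h1, h3⟩, h2⟩
                · rintro (rfl | ⟨⟨h1, _⟩, h2⟩)
                  · exact ⟨hx, hfx⟩
                  · exact ⟨h1, h2⟩
              rw [h7, Finset.card_insert_of_notMem]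
              intro h
              exact (Finset.mem_sdiff.1 (Finset.mem_filter.1 h).1).2 hxT
            rw [hcardS, hTx, h6]
            nlinarith
          · have hTn : T.card = m + 1 := by
              simp only [T]
              rw [Finset.card_image_of_injOn, Finset.card_range]
              have hinj : ∀ i j : ℕ, i < j → j < m + 1 → f^[i] x = f^[j] x → False := by
                intro i j hij hj h
                apply hfx
                have h1 : f^[j - i] x = x := by
                  have h2 := congrArg (f^[m + 1 - j]) h
                  rw [← hback x j hj, ← Function.iterate_add_apply] at h2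
                  have h3 : m + 1 - j + i = m + 1 - (j - i) := by omega
                  rw [h3] at h2
                  have h4 := congrArg (f^[j - i]) h2
                  have h8 : j - i + (m + 1 - (j - i)) = m + 1 := by omega
                  rw [← Function.iterate_add_apply, h8, hf] at h4
                  exact h4.symm
                have hp1 : Function.IsPeriodicPt f (j - i) x := h1
                have hp2 : Function.IsPeriodicPt f (m + 1) x := hf x
                have hp3 := hp1.gcd hp2
                have hg : Nat.gcd (j - i) (m + 1) = 1 := by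
                  rw [Nat.gcd_comm]
                  exact (Nat.Prime.coprime_iff_not_dvd hn).2 (Nat.not_dvd_of_pos_of_lt (by omega) (by omega))
                rw [hg] at hp3
                exact hp3
              intro i hi j hj hij
              have hi' : i < m + 1 := by simpa using hi
              have hj' : j < m + 1 := by simpa using hj
              rcases lt_trichotomy i j with h | h | h
              · exact (hinj i j h hj' hij).elim
              · exact h
              · exact (hinj j i h hi' hij.symm).elim
            have h6 : S.filter (fun q => f q = q) = S'.filter (fun q => f q = q) := by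
              ext q
              simp only [Finset.mem_filter, S', Finset.mem_sdiff]
              constructor
              · rintro ⟨h1, h2⟩
                refine ⟨⟨h1, ?_⟩, h2⟩
                intro h3
                obtain ⟨i, hi, rfl⟩ := (hTmem q).1 h3
                apply hfx
                have h4 := hback x i hi
                rw [Function.iterate_fixed h2] at h4
                rw [h4]
                exact h2
              · rintro ⟨⟨h1, _⟩, h2⟩
                exact ⟨h1, h2⟩
            rw [hcardS, hTn, h6]
            nlinarith
      · rw [Finset.not_nonempty_iff_eq_empty] at hne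
        subst hne
        exact ⟨∅, by simp, by simp, by simp, by simp⟩
  obtain ⟨R, _, hR, hdis, hc⟩ := key Finset.univ (fun _ _ => Finset.mem_univ _)
  exact ⟨R, fun q => hR q (Finset.mem_univ _), hdis, by rwa [Finset.card_univ] at hc⟩

section dim

variable {F : Type*} [Field F] [IsAlgClosed F] {W : Type*} [AddCommGroup W] [Module F W] [FiniteDimensional F W]

/-- An operator of prime order without eigenvalue one has a large commutant. -/
theorem finrank_comm_ge' {n : ℕ} (hn : n.Prime) (hn0 : (n : F) ≠ 0) (A : Module.End F W) (hA : A ^ n = 1)
    (h0 : ∑ i ∈ Finset.range n, A ^ i = 0) :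
    Module.finrank F W ^ 2 ≤ (n - 1) * Module.finrank F (commOf A) := by
  classical
  have hnpos : 0 < n := hn.pos
  -- semisimplicity
  have hss : A.IsSemisimple := by
    apply Module.End.isSemisimple_of_squarefree_aeval_eq_zero (p := Polynomial.X ^ n - Polynomial.C 1)
    · exact (Polynomial.separable_X_pow_sub_C (1 : F) hn0 one_ne_zero).squarefree
    · simp [hA]
  have htop := hss.iSup_eigenspace_eq_top
  let E : Finset F := (Polynomial.nthRoots n (1 : F)).toFinset.erase 1
  have hEc : E.card ≤ n - 1 := by
    have h1 : ((Polynomial.nthRoots n (1 : F)).toFinset).card ≤ n :=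
      (Multiset.toFinset_card_le _).trans (Polynomial.card_nthRoots n 1)
    have h2 : (1 : F) ∈ (Polynomial.nthRoots n (1 : F)).toFinset := by
      rw [Multiset.mem_toFinset, Polynomial.mem_nthRoots hnpos, one_pow]
    rw [Finset.card_erase_of_mem h2]
    omega
  have hev : ∀ (μ : F) (v : W), v ≠ 0 → A v = μ • v → μ ∈ E := by
    intro μ v hv hAv
    have hpow : ∀ i : ℕ, (A ^ i) v = μ ^ i • v := by
      intro i
      induction i with
      | zero => simp
      | succ i ih =>
        rw [pow_succ', Module.End.mul_apply, ih, map_smul, hAv, smul_smul, pow_succ']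
        congr 1
        ring
    have h1 : μ ^ n = 1 := by
      have h2 := hpow n
      rw [hA, Module.End.one_apply] at h2
      have h3 : (μ ^ n - 1) • v = 0 := by
        rw [sub_smul, one_smul, ← h2, sub_self]
      exact sub_eq_zero.1 ((smul_eq_zero.1 h3).resolve_right hv)
    have h2 : μ ≠ 1 := by
      rintro rfl
      have h3 : (∑ i ∈ Finset.range n, A ^ i) v = 0 := by rw [h0]; rfl
      rw [LinearMap.sum_apply] at h3
      simp_rw [hpow, one_pow, one_smul] at h3
      rw [Finset.sum_const, Finset.card_range, ← Nat.cast_smul_eq_nsmul F] at h3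
      exact hv ((smul_eq_zero.1 h3).resolve_left hn0)
    rw [Finset.mem_erase, Multiset.mem_toFinset, Polynomial.mem_nthRoots hnpos]
    exact ⟨h2, h1⟩
  let ι := ↥E
  let Wi : ι → Submodule F W := fun i => A.eigenspace (i : F)
  have hmem : ∀ (i : ι) (v : W), v ∈ Wi i ↔ A v = (i : F) • v := fun i v => Module.End.mem_eigenspace_iff
  have htop' : ⨆ i : ι, Wi i = ⊤ := by
    rw [eq_top_iff, ← htop]
    refine iSup_le (fun μ => ?_)
    by_cases hμ : μ ∈ E
    · exact le_iSup Wi ⟨μ, hμ⟩
    · intro v hv
      have h1 : A v = μ • v := Module.End.mem_eigenspace_iff.1 hv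
      by_cases hv0 : v = 0
      · rw [hv0]; exact Submodule.zero_mem _
      · exact absurd (hev μ v hv0 h1) hμ
  have hind : iSupIndep Wi := (Module.End.eigenspaces_iSupIndep A).comp Subtype.val_injective
  -- the sum map
  let Φ : (∀ i : ι, Wi i) →ₗ[F] W :=
    { toFun := fun x => ∑ i, (x i : W)
      map_add' := by
        intro x y
        simp [Finset.sum_add_distrib]
      map_smul' := by
        intro c x
        simp [Finset.smul_sum] }
  have hΦa : ∀ x, Φ x = ∑ i, (x i : W) := fun _ => rfl
  have hΦinj : Function.Injective Φ := by
    rw [← LinearMap.ker_eq_bot, LinearMap.ker_eq_bot']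
    intro x hx
    funext i
    have h1 : (x i : W) = - ∑ j ∈ Finset.univ.erase i, (x j : W) := by
      have h2 : ∑ j, (x j : W) = 0 := hx
      rw [← Finset.add_sum_erase _ _ (Finset.mem_univ i)] at h2
      exact eq_neg_of_add_eq_zero_left h2
    have h2 : (x i : W) ∈ ⨆ j, ⨆ (_ : j ≠ i), Wi j := by
      rw [h1]
      apply Submodule.neg_mem
      apply Submodule.sum_mem
      intro j hj
      have hj' : j ≠ i := Finset.ne_of_mem_erase hj
      exact Submodule.mem_iSup_of_mem j (Submodule.mem_iSup_of_mem hj' (x j).2)
    have h3 := Submodule.disjoint_def.1 (hind i) _ (x i).2 h2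
    exact Subtype.ext h3
  have hΦsurj : Function.Surjective Φ := by
    rw [← LinearMap.range_eq_top, eq_top_iff, ← htop']
    refine iSup_le (fun i v hv => ?_)
    refine ⟨fun j => if h : j = i then ⟨v, h ▸ hv⟩ else 0, ?_⟩
    rw [hΦa, Finset.sum_eq_single i]
    · simp
    · intro j _ hj
      simp [hj]
    · intro h
      exact absurd (Finset.mem_univ i) h
  let e : (∀ i : ι, Wi i) ≃ₗ[F] W := LinearEquiv.ofBijective Φ ⟨hΦinj, hΦsurj⟩
  have hea : ∀ x, e x = ∑ i, (x i : W) := fun _ => rfl
  have hAe : ∀ x, A (e x) = e (fun i => ((i : F)) • x i) := by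
    intro x
    rw [hea, hea, map_sum]
    refine Finset.sum_congr rfl (fun i _ => ?_)
    exact (hmem i _).1 (x i).2
  -- the blocks
  let J : (∀ i : ι, Module.End F (Wi i)) →ₗ[F] Module.End F W :=
    { toFun := fun Z => e.toLinearMap ∘ₗ (LinearMap.pi (fun i => (Z i) ∘ₗ (LinearMap.proj i))) ∘ₗ e.symm.toLinearMap
      map_add' := by
        intro Z Z'
        ext v
        simp only [LinearMap.comp_apply, LinearMap.add_apply]
        rw [← map_add]
        congr 1
      map_smul' := by
        intro c Z
        ext v
        simp only [LinearMap.comp_apply, LinearMap.smul_apply, RingHom.id_apply]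
        rw [← map_smul]
        congr 1 }
  have hJa : ∀ (Z : ∀ i : ι, Module.End F (Wi i)) (x : ∀ i : ι, Wi i), J Z (e x) = e (fun i => Z i (x i)) := by
    intro Z x
    show e (fun i => Z i ((e.symm (e x)) i)) = _
    rw [LinearEquiv.symm_apply_apply]
  have hJinj : Function.Injective J := by
    rw [← LinearMap.ker_eq_bot, LinearMap.ker_eq_bot']
    intro Z hZ
    funext i
    ext v
    have h1 := hJa Z (fun j => if h : j = i then ⟨v, h ▸ v.2⟩ else 0)
    rw [hZ] at h1
    have h2 : e (fun j => Z j ((fun j => if h : j = i then (⟨v, h ▸ v.2⟩ : Wi j) else 0) j)) = 0 := h1.symm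
    have h3 := e.map_eq_zero_iff.1 h2
    have h4 := congrFun h3 i
    simp only [dif_pos] at h4
    have h5 : (⟨v, v.2⟩ : Wi i) = v := rfl
    rw [h5] at h4
    rw [h4]
    rfl
  have hJc : ∀ Z, J Z ∈ commOf A := by
    intro Z
    show A * J Z = J Z * A
    ext v
    obtain ⟨x, rfl⟩ := e.surjective v
    rw [Module.End.mul_apply, Module.End.mul_apply, hJa, hAe, hAe, hJa]
    congr 1
    funext i
    rw [map_smul]
  let J' : (∀ i : ι, Module.End F (Wi i)) →ₗ[F] commOf A := J.codRestrict (commOf A) hJc
  have hJ'inj : Function.Injective J' := by
    intro a b hab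
    apply hJinj
    exact congrArg Subtype.val hab
  have h1 := LinearMap.finrank_le_finrank_of_injective hJ'inj
  rw [Module.finrank_pi_fintype] at h1
  simp_rw [Module.finrank_linearMap] at h1
  have h2 : Module.finrank F W = ∑ i : ι, Module.finrank F (Wi i) := by
    rw [← e.finrank_eq, Module.finrank_pi_fintype]
  rw [h2]
  have h3 : (∑ i : ι, Module.finrank F (Wi i)) ^ 2 ≤ Fintype.card ι * ∑ i : ι, Module.finrank F (Wi i) ^ 2 := by
    have h4 := sq_sum_le_card_mul_sum_sq (s := (Finset.univ : Finset ι)) (f := fun i => (Module.finrank F (Wi i) : ℕ))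
    exact h4
  have h5 : Fintype.card ι = E.card := Fintype.card_coe E
  rw [h5] at h3
  calc _ ≤ E.card * ∑ i : ι, Module.finrank F (Wi i) ^ 2 := h3
    _ ≤ (n - 1) * ∑ i : ι, Module.finrank F (Wi i) ^ 2 := Nat.mul_le_mul_right _ hEc
    _ ≤ (n - 1) * Module.finrank F (commOf A) := by
      apply Nat.mul_le_mul_left
      simp_rw [pow_two]
      exact h1

end dim

end Cfsg.Agent.Lib.Struct.PQFix
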