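import Mathlib
import Cfsg.Agent.Lib.Struct.PQFixC

/-!
# The bound of Glauberman–Isaacs type
-/

set_option autoImplicit false

namespace Cfsg.Agent.Lib.Struct.PQFix

open Subgroup SymFix

section gi

variable {K : Type*} [Group K] [Fintype K]
  {F : Type*} [Field F] {W : Type*} [AddCommGroup W] [Module F W] [FiniteDimensional F W] [Nontrivial W]

variable (ρ : K →* Module.End F W) (M : Subgroup K) [hMn : M.Normal]
  (χ : K → K → F) (hχ : ∀ g h, ρ g * ρ h = χ g h • (ρ h * ρ g))
  (μ : K → F) (hμ : ∀ m ∈ M, ρ m = μ m • 1)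
  (hnd : ∀ h, h ∉ M → ∃ g, χ h g ≠ 1)

variable (α : K →* K) (n : ℕ) (hn : 0 < n) (hαn : ∀ g, α^[n] g = g) (hαM : ∀ m ∈ M, α m ∈ M)
  (A : Module.End F W) (hAn : A ^ n = 1) (hAρ : ∀ g, A * ρ g = ρ (α g) * A)

include hn hαn hAρ in
omit [FiniteDimensional F W] [Nontrivial W] hMn in
theorem pP_alpha' (g : K) {Z : Module.End F W} (hZ : Z ∈ commOf A) :
    pP ρ (α g) Z * A = A * pP ρ g Z := by
  rw [pP_apply, pP_apply, Finset.sum_mul, Finset.mul_sum]
  obtain ⟨m, rfl⟩ : ∃ m, n = m + 1 := ⟨n - 1, by omega⟩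
  let e : K ≃ K :=
    { toFun := α
      invFun := fun x => α^[m] x
      left_inv := fun x => by
        show α^[m] (α x) = x
        have := hαn x
        rwa [Function.iterate_succ_apply] at this
      right_inv := fun x => by
        show α (α^[m] x) = x
        have := hαn x
        rwa [Function.iterate_succ_apply'] at this }
  refine (Fintype.sum_equiv e _ _ (fun h => ?_)).symm
  have h1 : A * ρ h = ρ (α h) * A := hAρ h
  have h2 : A * ρ g⁻¹ = ρ (α g)⁻¹ * A := by rw [hAρ, map_inv]
  have h3 : A * ρ h⁻¹ = ρ (α h)⁻¹ * A := by rw [hAρ, map_inv]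
  have h4 : A * Z = Z * A := hZ
  show A * (ρ h * (ρ g⁻¹ * Z) * ρ h⁻¹) = ρ (α h) * (ρ (α g)⁻¹ * Z) * ρ (α h)⁻¹ * A
  calc A * (ρ h * (ρ g⁻¹ * Z) * ρ h⁻¹) = (A * ρ h) * ρ g⁻¹ * Z * ρ h⁻¹ := by simp only [mul_assoc]
    _ = ρ (α h) * (A * ρ g⁻¹) * Z * ρ h⁻¹ := by rw [h1]; simp only [mul_assoc]
    _ = ρ (α h) * ρ (α g)⁻¹ * (A * Z) * ρ h⁻¹ := by rw [h2]; simp only [mul_assoc]
    _ = ρ (α h) * ρ (α g)⁻¹ * Z * (A * ρ h⁻¹) := by rw [h4]; simp only [mul_assoc]
    _ = _ := by rw [h3]; simp only [mul_assoc]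

include hn hαn hAρ hAn in
omit [FiniteDimensional F W] [Nontrivial W] hMn in
theorem pP_alpha_zero' {g : K} {Z : Module.End F W} (hZ : Z ∈ commOf A) (h : pP ρ g Z = 0) :
    pP ρ (α g) Z = 0 := by
  have h1 := pP_alpha' ρ α n hn hαn A hAρ g hZ
  rw [h, mul_zero] at h1
  obtain ⟨m, rfl⟩ : ∃ m, n = m + 1 := ⟨n - 1, by omega⟩
  have h2 : pP ρ (α g) Z * (A * A ^ m) = 0 := by
    rw [← mul_assoc, h1, zero_mul]
  rwa [← pow_succ', hAn, mul_one] at h2

include hn hαn hAρ hAn in
omit [FiniteDimensional F W] [Nontrivial W] hMn in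
theorem pP_alpha_iter_zero {g : K} {Z : Module.End F W} (hZ : Z ∈ commOf A) (h : pP ρ g Z = 0) (i : ℕ) :
    pP ρ (α^[i] g) Z = 0 := by
  induction i with
  | zero => exact h
  | succ i ih =>
    rw [Function.iterate_succ_apply']
    exact pP_alpha_zero' ρ α n hn hαn A hAn hAρ hZ ih

include hχ hμ hnd hn hαn hAn hAρ hαM in
theorem finrank_commOf_le' (hK : ((Fintype.card K : ℕ) : F) ≠ 0) (R : Finset (K ⧸ M))
    (hR : ∀ q : K ⧸ M, ∃ r ∈ R, ∃ i < n, q = (QuotientGroup.map M M α (fun m hm => hαM m hm))^[i] r) :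
    Module.finrank F (commOf A) ≤ R.card * Module.finrank F (commRep ρ) := by
  classical
  let Ξ : commOf A →ₗ[F] (R → commRep ρ) :=
    { toFun := fun Z r => ⟨pP ρ (r.1.out) (Z : Module.End F W), pP_mem_comm ρ _ _⟩
      map_add' := by
        intro x y
        funext r
        apply Subtype.ext
        simp
      map_smul' := by
        intro c x
        funext r
        apply Subtype.ext
        simp }
  have hinj : Function.Injective Ξ := by
    rw [← LinearMap.ker_eq_bot, LinearMap.ker_eq_bot']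
    intro Z hZ
    have h0 : ∀ r ∈ R, pP ρ r.out (Z : Module.End F W) = 0 := by
      intro r hr
      have h1 := congrFun hZ ⟨r, hr⟩
      exact congrArg Subtype.val h1
    have hall : ∀ g : K, pP ρ g (Z : Module.End F W) = 0 := by
      intro g
      obtain ⟨r, hr, i, _, h⟩ := hR (g : K ⧸ M)
      have hz0 := h0 r hr
      have hr' : ((r.out : K) : K ⧸ M) = r := QuotientGroup.out_eq' r
      have hmap : ∀ (i : ℕ) (x : K), (QuotientGroup.map M M α (fun m hm => hαM m hm))^[i] (x : K ⧸ M) = ((α^[i] x : K) : K ⧸ M) := by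
        intro i x
        induction i with
        | zero => rfl
        | succ i ih =>
          rw [Function.iterate_succ_apply', ih, Function.iterate_succ_apply']
          rfl
      rw [← hr', hmap] at h
      have h1 : (α^[i] r.out)⁻¹ * g ∈ M := QuotientGroup.eq.1 h.symm
      have h2 : g = α^[i] r.out * ((α^[i] r.out)⁻¹ * g) := by group
      rw [h2]
      exact pP_mul_zero ρ M μ hμ h1 (pP_alpha_iter_zero ρ α n hn hαn A hAn hAρ Z.2 hz0 i)
    have h1 := expansion ρ M χ hχ μ hμ hnd (Z : Module.End F W)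
    simp_rw [hall, mul_zero, Finset.sum_const_zero] at h1
    have hcard : (Finset.univ.filter (fun h => h ∈ M)).card = Nat.card M := by
      rw [Nat.card_eq_fintype_card, Fintype.card_subtype]
    have h2 : ((Fintype.card K * (Finset.univ.filter (fun h => h ∈ M)).card : ℕ) : F) ≠ 0 := by
      rw [hcard]
      push_cast
      refine mul_ne_zero hK ?_
      intro h
      apply hK
      have h3 := Subgroup.card_mul_index M
      rw [Nat.card_eq_fintype_card (α := K)] at h3
      rw [← h3]
      push_cast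
      rw [h, zero_mul]
    have h3 := (smul_eq_zero.1 h1.symm).resolve_left h2
    exact Subtype.ext h3
  have h1 := LinearMap.finrank_le_finrank_of_injective hinj
  rw [Module.finrank_pi_fintype, Finset.sum_const, Finset.card_univ, smul_eq_mul] at h1
  simpa using h1

include hχ hμ hnd hAn hAρ in
/-- **The main dimension count.** -/
theorem gi_bound [IsAlgClosed F] (hnp : n.Prime) (hαn : ∀ g, α^[n] g = g) (hn0 : (n : F) ≠ 0)
    (hK : ((Fintype.card K : ℕ) : F) ≠ 0) (hαM : ∀ m ∈ M, α m ∈ M)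
    (h0 : ∑ i ∈ Finset.range n, A ^ i = 0) :
    M.index ≤ (n - 1) ^ 2 *
      Nat.card {q : K ⧸ M // QuotientGroup.map M M α (fun m hm => hαM m hm) q = q} := by
  classical
  haveI : Fintype (K ⧸ M) := Fintype.ofFinite _
  let f : K ⧸ M → K ⧸ M := QuotientGroup.map M M α (fun m hm => hαM m hm)
  have hfiter : ∀ (i : ℕ) (x : K), f^[i] (x : K ⧸ M) = ((α^[i] x : K) : K ⧸ M) := by
    intro i x
    induction i with
    | zero => rfl
    | succ i ih =>
      rw [Function.iterate_succ_apply', ih, Function.iterate_succ_apply']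
      rfl
  have hfn : ∀ q, f^[n] q = q := by
    intro q
    obtain ⟨g, rfl⟩ := QuotientGroup.mk_surjective q
    rw [hfiter, hαn]
  obtain ⟨R, hR, -, hRc⟩ := exists_reps f hnp hfn
  have h1 := index_mul_finrank_le ρ M χ hχ μ hμ hnd hK
  have h2 := finrank_comm_ge' hnp hn0 A hAn h0
  have h4 := finrank_commOf_le' ρ M χ hχ μ hμ hnd α n hnp.pos hαn hαM A hAn hAρ hK R hR
  have hc : 0 < Module.finrank F (commRep ρ) := by
    rw [Module.finrank_pos_iff_exists_ne_zero]
    refine ⟨⟨1, fun g => by simp⟩, ?_⟩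
    intro h
    have h5 : (1 : Module.End F W) = 0 := congrArg Subtype.val h
    exact one_ne_zero h5
  have h5 : Module.finrank F (Module.End F W) = Module.finrank F W ^ 2 := by
    rw [Module.finrank_linearMap, pow_two]
  have h6 : Fintype.card (K ⧸ M) = M.index := by
    rw [Subgroup.index, Nat.card_eq_fintype_card]
  rw [h6] at hRc
  rw [h5] at h1
  have h7 : M.index * Module.finrank F (commRep ρ) ≤ ((n - 1) * R.card) * Module.finrank F (commRep ρ) := by
    calc M.index * Module.finrank F (commRep ρ) ≤ Module.finrank F W ^ 2 := h1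
      _ ≤ (n - 1) * Module.finrank F (commOf A) := h2
      _ ≤ (n - 1) * (R.card * Module.finrank F (commRep ρ)) := Nat.mul_le_mul_left _ h4
      _ = _ := by ring
  have h8 : M.index ≤ (n - 1) * R.card := Nat.le_of_mul_le_mul_right h7 hc
  have h9 : (Finset.univ.filter (fun q => f q = q)).card =
      Nat.card {q : K ⧸ M // QuotientGroup.map M M α (fun m hm => hαM m hm) q = q} := by
    rw [Nat.card_eq_fintype_card, Fintype.card_subtype]
  rw [h9] at hRc
  obtain ⟨m, rfl⟩ : ∃ m, n = m + 1 := ⟨n - 1, by have := hnp.pos; omega⟩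
  simp only [Nat.add_sub_cancel] at hRc h8 ⊢
  generalize Nat.card {q : K ⧸ M // QuotientGroup.map M M α (fun m hm => hαM m hm) q = q} = c at hRc ⊢
  generalize M.index = I at *
  generalize R.card = r at *
  nlinarith [Nat.mul_le_mul_left m hRc, Nat.mul_le_mul_left (m + 1) h8]

omit hMn in
/-- The reverse inequality. -/
theorem finrank_le_index_mul (hχ : ∀ g h, ρ g * ρ h = χ g h • (ρ h * ρ g))
    (hμ : ∀ m ∈ M, ρ m = μ m • 1) (hnd : ∀ h, h ∉ M → ∃ g, χ h g ≠ 1)
    (hK : ((Fintype.card K : ℕ) : F) ≠ 0) :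
    Module.finrank F (Module.End F W) ≤ M.index * Module.finrank F (commRep ρ) := by
  classical
  haveI : Fintype (K ⧸ M) := Fintype.ofFinite _
  let Λ : ((K ⧸ M) → commRep ρ) →ₗ[F] Module.End F W :=
    { toFun := fun z => ∑ q : K ⧸ M, ρ q.out * (z q : Module.End F W)
      map_add' := by
        intro x y
        simp [mul_add, Finset.sum_add_distrib]
      map_smul' := by
        intro c x
        simp [Finset.smul_sum, mul_smul_comm] }
  have hΛs : ∀ (q : K ⧸ M) (z : commRep ρ), Λ (Function.update 0 q z) = ρ q.out * (z : Module.End F W) := by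
    intro q z
    show ∑ q' : K ⧸ M, ρ q'.out * ((Function.update (0 : (K ⧸ M) → commRep ρ) q z q' : commRep ρ) : Module.End F W) = _
    rw [Finset.sum_eq_single q]
    · simp
    · intro b _ hb
      rw [Function.update_of_ne hb]
      simp
    · intro h
      exact absurd (Finset.mem_univ q) h
  have hsurj : Function.Surjective Λ := by
    rw [← LinearMap.range_eq_top, eq_top_iff]
    intro Z _
    have hcardM : ((Nat.card M : ℕ) : F) ≠ 0 := by
      intro h
      apply hK
      have h3 := Subgroup.card_mul_index M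
      rw [Nat.card_eq_fintype_card (α := K)] at h3
      rw [← h3]
      push_cast
      rw [h, zero_mul]
    have h1 := expansion ρ M χ hχ μ hμ hnd Z
    have hcard : (Finset.univ.filter (fun h => h ∈ M)).card = Nat.card M := by
      rw [Nat.card_eq_fintype_card, Fintype.card_subtype]
    rw [hcard] at h1
    have h2 : ((Fintype.card K * Nat.card M : ℕ) : F) ≠ 0 := by
      push_cast
      exact mul_ne_zero hK hcardM
    have h3 : Z = ((Fintype.card K * Nat.card M : ℕ) : F)⁻¹ • ∑ g, ρ g * pP ρ g Z := by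
      rw [h1, smul_smul, inv_mul_cancel₀ h2, one_smul]
    rw [h3]
    apply Submodule.smul_mem
    apply Submodule.sum_mem
    intro g _
    -- write `g` through its coset representative
    obtain ⟨q, hq⟩ : ∃ q : K ⧸ M, q = (g : K ⧸ M) := ⟨_, rfl⟩
    have hm : (q.out)⁻¹ * g ∈ M := by
      apply QuotientGroup.eq.1
      rw [QuotientGroup.out_eq', hq]
    have hmi : ((q.out)⁻¹ * g)⁻¹ ∈ M := M.inv_mem hm
    obtain ⟨m, hm'⟩ : ∃ m, m = (q.out)⁻¹ * g := ⟨_, rfl⟩
    rw [← hm'] at hm hmi
    have hg : g = q.out * m := by rw [hm']; group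
    have h4 : pP ρ g Z = μ m⁻¹ • pP ρ q.out Z := by
      rw [hg, pP_apply, pP_apply, Finset.smul_sum]
      refine Finset.sum_congr rfl (fun h _ => ?_)
      have h5 : ρ (q.out * m)⁻¹ = μ m⁻¹ • ρ (q.out)⁻¹ := by
        rw [mul_inv_rev, map_mul, hμ _ hmi, smul_mul_assoc, one_mul]
      rw [h5]
      simp only [smul_mul_assoc, mul_smul_comm]
    refine ⟨Function.update 0 q ⟨ρ m * pP ρ g Z, ?_⟩, ?_⟩
    · rw [h4, hμ m hm]
      simp only [smul_mul_assoc, one_mul]
      exact Submodule.smul_mem _ _ (Submodule.smul_mem _ _ (pP_mem_comm ρ _ _))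
    · rw [hΛs]
      show ρ q.out * (ρ m * pP ρ g Z) = ρ g * pP ρ g Z
      have h6 : ρ g = ρ q.out * ρ m := by rw [← map_mul, ← hg]
      rw [h6, mul_assoc]
  have h1 := LinearMap.finrank_le_finrank_of_surjective hsurj
  rw [Module.finrank_pi_fintype, Finset.sum_const, Finset.card_univ, smul_eq_mul] at h1
  have h2 : Fintype.card (K ⧸ M) = M.index := by
    rw [Subgroup.index, Nat.card_eq_fintype_card]
  rwa [h2] at h1

end gi

section square

variable {K : Type*} [Group K] [Fintype K]
  {F : Type*} [Field F] [IsAlgClosed F] {W : Type*} [AddCommGroup W] [Module F W] [FiniteDimensional F W] [Nontrivial W]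

/-- Minimal invariant subspaces exist. -/
theorem exists_min_inv (ρ : K →* Module.End F W) :
    ∃ U : Submodule F W, U ≠ ⊥ ∧ (∀ g, ∀ v ∈ U, ρ g v ∈ U) ∧
      ∀ U' : Submodule F W, U' ≠ ⊥ → U' ≤ U → (∀ g, ∀ v ∈ U', ρ g v ∈ U') → U' = U := by
  classical
  let P : ℕ → Prop := fun k => ∃ U : Submodule F W, U ≠ ⊥ ∧ (∀ g, ∀ v ∈ U, ρ g v ∈ U) ∧ Module.finrank F U = k
  have hP : ∃ k, P k := ⟨_, ⊤, top_ne_bot, fun _ _ _ => Submodule.mem_top, rfl⟩
  obtain ⟨U, hU, hinv, hk⟩ := Nat.find_spec hP
  refine ⟨U, hU, hinv, fun U' hU' hle hinv' => ?_⟩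
  have h1 : Nat.find hP ≤ Module.finrank F U' := Nat.find_min' hP ⟨U', hU', hinv', rfl⟩
  exact Submodule.eq_of_le_of_finrank_le hle (by omega)

omit [Fintype K] [Nontrivial W] in
/-- Schur's lemma. -/
theorem finrank_commRep_one [Nontrivial W] (ρ : K →* Module.End F W)
    (hirr : ∀ U : Submodule F W, U ≠ ⊥ → (∀ g, ∀ v ∈ U, ρ g v ∈ U) → U = ⊤) :
    Module.finrank F (commRep ρ) = 1 := by
  apply le_antisymm
  · have hspan : ∀ Z : commRep ρ, ∃ c : F, c • (⟨1, fun g => by simp⟩ : commRep ρ) = Z := by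
      intro Z
      obtain ⟨c, hc⟩ := Module.End.exists_eigenvalue (Z : Module.End F W)
      obtain ⟨w, hw⟩ := hc.exists_hasEigenvector
      refine ⟨c, ?_⟩
      let E : Submodule F W := LinearMap.ker ((Z : Module.End F W) - c • 1)
      have hEmem : ∀ x : W, x ∈ E ↔ (Z : Module.End F W) x = c • x := by
        intro x
        simp [E, sub_eq_zero]
      have hE : E = ⊤ := by
        apply hirr
        · intro h
          have h1 : w ∈ E := (hEmem w).2 hw.apply_eq_smul
          rw [h, Submodule.mem_bot] at h1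
          exact hw.2 h1
        · intro g x hx
          have hx' := (hEmem x).1 hx
          rw [hEmem]
          have hcomm := Z.2 g
          have h5 : (Z : Module.End F W) (ρ g x) = ρ g ((Z : Module.End F W) x) :=
            congrArg (fun f : Module.End F W => f x) hcomm
          rw [h5, hx', map_smul]
      apply Subtype.ext
      ext x
      have hx : x ∈ E := by rw [hE]; exact Submodule.mem_top
      have h5 := (hEmem x).1 hx
      rw [h5]
      rfl
    exact finrank_le_one _ hspan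
  · have : 0 < Module.finrank F (commRep ρ) := by
      rw [Module.finrank_pos_iff_exists_ne_zero]
      refine ⟨⟨1, fun g => by simp⟩, ?_⟩
      intro h
      have h5 : (1 : Module.End F W) = 0 := congrArg Subtype.val h
      exact one_ne_zero h5
    exact this

/-- A twisted group algebra which is nondegenerate has square index. -/
theorem index_eq_square (ρ : K →* Module.End F W) (M : Subgroup K) [M.Normal]
    (χ : K → K → F) (hχ : ∀ g h, ρ g * ρ h = χ g h • (ρ h * ρ g))
    (μ : K → F) (hμ : ∀ m ∈ M, ρ m = μ m • 1)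
    (hnd : ∀ h, h ∉ M → ∃ g, χ h g ≠ 1) (hK : ((Fintype.card K : ℕ) : F) ≠ 0) :
    ∃ D : ℕ, M.index = D ^ 2 := by
  obtain ⟨U, hU, hinv, hmin⟩ := exists_min_inv ρ
  haveI hUnt : Nontrivial U := (Submodule.nontrivial_iff_ne_bot).2 hU
  let ρ' : K →* Module.End F U :=
    { toFun := fun g => (ρ g).restrict (hinv g)
      map_one' := by
        ext v
        simp
      map_mul' := by
        intro g h
        ext v
        simp }
  have hρ' : ∀ (g : K) (v : U), ((ρ' g v : U) : W) = ρ g v := fun _ _ => rfl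
  have hχ' : ∀ g h, ρ' g * ρ' h = χ g h • (ρ' h * ρ' g) := by
    intro g h
    ext v
    exact congrArg (fun f : Module.End F W => f (v : W)) (hχ g h)
  have hμ' : ∀ m ∈ M, ρ' m = μ m • 1 := by
    intro m hm
    ext v
    exact congrArg (fun f : Module.End F W => f (v : W)) (hμ m hm)
  have h1 := index_mul_finrank_le ρ' M χ hχ' μ hμ' hnd hK
  have h2 := finrank_le_index_mul ρ' M χ μ hχ' hμ' hnd hK
  have h3 : Module.finrank F (commRep ρ') = 1 := by
    apply finrank_commRep_one
    intro U' hU' hinv'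
    have h4 := hmin (U'.map U.subtype)
      (by
        intro h
        apply hU'
        rw [eq_bot_iff]
        intro x hx
        have h1 : (x : W) ∈ U'.map U.subtype := ⟨x, hx, rfl⟩
        rw [h, Submodule.mem_bot] at h1
        exact (Submodule.mem_bot F).2 (Subtype.ext h1))
      (Submodule.map_subtype_le _ _)
      (by
        rintro g _ ⟨x, hx, rfl⟩
        exact ⟨ρ' g x, hinv' g x hx, rfl⟩)
    rw [eq_top_iff]
    rintro x -
    have hx : (x : W) ∈ U'.map U.subtype := by rw [h4]; exact x.2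
    obtain ⟨y, hy, hyx⟩ := hx
    have hyx' : y = x := Subtype.ext hyx
    rwa [← hyx']
  rw [h3, mul_one] at h1 h2
  rw [Module.finrank_linearMap, ← pow_two] at h1 h2
  exact ⟨Module.finrank F U, le_antisymm h1 h2⟩

end square

section fixed

variable {K : Type*} [Group K] [Fintype K]
  {F : Type*} [Field F] {W : Type*} [AddCommGroup W] [Module F W] [Nontrivial W]

/-- Norm under a hom in an abelian quotient. -/
def nrmK (α : K →* K) (h : K) : ℕ → K
  | 0 => 1
  | n + 1 => nrmK α h n * α^[n] h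

/-- The fixed points on a section are not of prime order. -/
theorem fixed_not_prime (ρ : K →* Module.End F W) (M : Subgroup K) [hMn : M.Normal]
    (χ : K → K → F) (hχ : ∀ g h, ρ g * ρ h = χ g h • (ρ h * ρ g))
    (μ : K → F) (hμ : ∀ m ∈ M, ρ m = μ m • 1)
    (hnd : ∀ h, h ∉ M → ∃ g, χ h g ≠ 1)
    (hab : ∀ a b : K, a * b * a⁻¹ * b⁻¹ ∈ M)
    (α : K →* K) (n : ℕ) (hn : 0 < n) (hαn : ∀ g, α^[n] g = g) (hαM : ∀ m ∈ M, α m ∈ M)
    (A : Module.End F W) (hAn : A ^ n = 1) (hAρ : ∀ g, A * ρ g = ρ (α g) * A)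
    (s : ℕ) (hsn : n.Coprime s) (hs : ∀ g : K, g ^ s ∈ M)
    (C : Subgroup (K ⧸ M)) (hC : ∀ q, q ∈ C ↔ QuotientGroup.map M M α (fun m hm => hαM m hm) q = q)
    (hprime : (Nat.card C).Prime) : False := by
  classical
  haveI hFact : Fact (Nat.card C).Prime := ⟨hprime⟩
  -- a nontrivial element of `C`
  haveI : Nontrivial C := by
    apply Finite.one_lt_card_iff_nontrivial.1
    exact hprime.one_lt
  obtain ⟨w, hw⟩ := exists_ne (1 : C)
  obtain ⟨g, hg⟩ := QuotientGroup.mk_surjective (w : K ⧸ M)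
  have hgM : g ∉ M := by
    intro h
    apply hw
    apply Subtype.ext
    rw [← hg]
    exact (QuotientGroup.eq_one_iff g).2 h
  have hgfix : (α g)⁻¹ * g ∈ M := by
    have h1 := (hC (w : K ⧸ M)).1 w.2
    rw [← hg] at h1
    exact QuotientGroup.eq.1 h1
  obtain ⟨h, hh⟩ := hnd g hgM
  -- properties of `χ`
  have hne : ∀ a b, ρ a * ρ b ≠ 0 := by
    intro a b
    rw [← map_mul]
    exact rho_ne_zero ρ _
  have hsymm := chi_symm ρ χ hχ
  have hmulL := chi_mul ρ χ hχ
  have hmemR : ∀ {m : K}, m ∈ M → ∀ a, χ a m = 1 := fun hm a => chi_of_mem ρ M χ hχ μ hμ hm a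
  have hmemL : ∀ {m : K}, m ∈ M → ∀ a, χ m a = 1 := by
    intro m hm a
    have h1 := hsymm m a
    rw [hmemR hm a, mul_one] at h1
    exact h1
  have hmulR : ∀ a b c, χ a (b * c) = χ a b * χ a c := by
    intro a b c
    have h1 := hsymm a (b * c)
    rw [hmulL] at h1
    have h2 := hsymm a b
    have h3 := hsymm a c
    have h4 : χ b a ≠ 0 := by
      intro h5
      rw [h5, mul_zero] at h2
      exact zero_ne_one h2
    have h5 : χ c a ≠ 0 := by
      intro h6
      rw [h6, mul_zero] at h3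
      exact zero_ne_one h3
    have h6 : χ a (b * c) * (χ b a * χ c a) = (χ a b * χ a c) * (χ b a * χ c a) := by
      rw [h1]
      calc 1 = (χ a b * χ b a) * (χ a c * χ c a) := by rw [h2, h3, one_mul]
        _ = _ := by ring
    exact mul_right_cancel₀ (mul_ne_zero h4 h5) h6
  have hself : ∀ a, χ a a = 1 := by
    intro a
    have h1 := hχ a a
    have h2 : (χ a a - 1) • (ρ a * ρ a) = 0 := by
      rw [sub_smul, one_smul, ← h1, sub_self]
    exact sub_eq_zero.1 ((smul_eq_zero.1 h2).resolve_right (hne a a))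
  -- invariance under `α`
  have hAunit : ∀ a b, χ (α a) (α b) = χ a b := by
    intro a b
    have h1 : A * (ρ a * ρ b) = (ρ (α a) * ρ (α b)) * A := by
      rw [← mul_assoc, hAρ, mul_assoc, hAρ, mul_assoc]
    have h2 : A * (ρ b * ρ a) = (ρ (α b) * ρ (α a)) * A := by
      rw [← mul_assoc, hAρ, mul_assoc, hAρ, mul_assoc]
    have h3 := hχ a b
    have h4 := hχ (α a) (α b)
    have h5 : (ρ (α a) * ρ (α b)) * A = χ a b • ((ρ (α b) * ρ (α a)) * A) := by
      rw [← h1, h3, mul_smul_comm, h2]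
    rw [h4, smul_mul_assoc] at h5
    have h6 : (χ (α a) (α b) - χ a b) • ((ρ (α b) * ρ (α a)) * A) = 0 := by
      rw [sub_smul, h5, sub_self]
    have h7 : (ρ (α b) * ρ (α a)) * A ≠ 0 := by
      intro h8
      obtain ⟨m, rfl⟩ : ∃ m, n = m + 1 := ⟨n - 1, by omega⟩
      have h9 : (ρ (α b) * ρ (α a)) * (A * A ^ m) = 0 := by
        rw [← mul_assoc, h8, zero_mul]
      rw [← pow_succ', hAn, mul_one] at h9
      exact hne _ _ h9
    exact sub_eq_zero.1 ((smul_eq_zero.1 h6).resolve_right h7)
  have hAiter : ∀ (i : ℕ) (a b : K), χ (α^[i] a) (α^[i] b) = χ a b := by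
    intro i
    induction i with
    | zero => intro a b; rfl
    | succ i ih =>
      intro a b
      rw [Function.iterate_succ_apply', Function.iterate_succ_apply', hAunit, ih]
  have hgiter : ∀ i : ℕ, (α^[i] g)⁻¹ * g ∈ M := by
    intro i
    induction i with
    | zero => simpa using M.one_mem
    | succ i ih =>
      rw [Function.iterate_succ_apply']
      have h1 := hαM _ ih
      rw [map_mul, map_inv] at h1
      have h2 : (α (α^[i] g))⁻¹ * g = ((α (α^[i] g))⁻¹ * α g) * ((α g)⁻¹ * g) := by group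
      rw [h2]
      exact M.mul_mem h1 hgfix
  -- the value of the form on the norm
  have hval : ∀ k : ℕ, k ≤ n → χ g (nrmK α h k) = χ g h ^ k := by
    intro k
    induction k with
    | zero =>
      intro _
      rw [pow_zero]
      exact hmemR M.one_mem g
    | succ k ih =>
      intro hk
      show χ g (nrmK α h k * α^[k] h) = _
      rw [hmulR, ih (by omega), pow_succ]
      congr 1
      have h1 : χ g (α^[k] h) = χ (α^[n - k] g) h := by
        have h2 := hAiter k (α^[n - k] g) h
        have h3 : α^[k] (α^[n - k] g) = g := by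
          rw [← Function.iterate_add_apply, Nat.add_sub_cancel' (by omega), hαn]
        rwa [h3] at h2
      rw [h1]
      have h3 : α^[n - k] g = g * ((g⁻¹ * α^[n - k] g)) := by group
      rw [h3, hmulL]
      have h4 : g⁻¹ * α^[n - k] g ∈ M := by
        have := M.inv_mem (hgiter (n - k))
        simpa using this
      rw [hmemL h4, mul_one]
  -- the norm lies in `C`
  have hcomm : ∀ a b : K ⧸ M, a * b = b * a := by
    intro a b
    obtain ⟨a, rfl⟩ := QuotientGroup.mk_surjective a
    obtain ⟨b, rfl⟩ := QuotientGroup.mk_surjective b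
    rw [← QuotientGroup.mk_mul, ← QuotientGroup.mk_mul]
    apply QuotientGroup.eq.2
    have h1 := hab b⁻¹ a⁻¹
    have h2 : (a * b)⁻¹ * (b * a) = b⁻¹ * a⁻¹ * b⁻¹⁻¹ * a⁻¹⁻¹ := by group
    rw [h2]
    exact h1
  let f : K ⧸ M →* K ⧸ M := QuotientGroup.map M M α (fun m hm => hαM m hm)
  have hfmk : ∀ x : K, f (x : K ⧸ M) = ((α x : K) : K ⧸ M) := fun _ => rfl
  have hN : f ((nrmK α h n : K) : K ⧸ M) = ((nrmK α h n : K) : K ⧸ M) := by
    have key : ∀ k : ℕ, f ((nrmK α h k : K) : K ⧸ M) * (h : K ⧸ M) = ((nrmK α h k : K) : K ⧸ M) * ((α^[k] h : K) : K ⧸ M) := by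
      intro k
      induction k with
      | zero =>
        show f (((1 : K)) : K ⧸ M) * (h : K ⧸ M) = (((1 : K)) : K ⧸ M) * (h : K ⧸ M)
        rw [QuotientGroup.mk_one, map_one]
      | succ k ih =>
        show f ((nrmK α h k * α^[k] h : K) : K ⧸ M) * (h : K ⧸ M) = ((nrmK α h k * α^[k] h : K) : K ⧸ M) * ((α^[k + 1] h : K) : K ⧸ M)
        rw [QuotientGroup.mk_mul, map_mul, hfmk (α^[k] h)]
        rw [mul_assoc, hcomm _ (h : K ⧸ M), ← mul_assoc, ih, Function.iterate_succ_apply']
    have h1 := key n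
    rw [hαn] at h1
    exact mul_right_cancel h1
  have hNC : ((nrmK α h n : K) : K ⧸ M) ∈ C := (hC _).2 hN
  -- `C` is generated by `w`
  have hgen : (⟨_, hNC⟩ : C) ∈ zpowers w := by
    have h1 : zpowers w = ⊤ := by
      have h2 : Nat.card (zpowers w) ∣ Nat.card C := Subgroup.card_subgroup_dvd_card _
      rcases (Nat.dvd_prime hprime).1 h2 with h3 | h3
      · exfalso
        apply hw
        have h4 := Subgroup.eq_bot_of_card_eq _ h3
        exact Subgroup.zpowers_eq_bot.1 h4
      · exact Subgroup.eq_top_of_card_eq _ h3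
    rw [h1]
    trivial
  obtain ⟨k, hk⟩ := mem_zpowers_iff.1 hgen
  have hk' : ((g ^ k : K) : K ⧸ M) = ((nrmK α h n : K) : K ⧸ M) := by
    have h1 := congrArg Subtype.val hk
    simp only [Subgroup.coe_zpow] at h1
    rw [QuotientGroup.mk_zpow, hg]
    exact h1
  have hm : (g ^ k)⁻¹ * nrmK α h n ∈ M := QuotientGroup.eq.1 hk'
  have hzpow : ∀ k : ℤ, χ g (g ^ k) = 1 := by
    intro k
    have hself' : ∀ k : ℕ, χ g (g ^ k) = 1 := by
      intro k
      induction k with
      | zero =>
        rw [pow_zero]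
        exact hmemR M.one_mem g
      | succ k ih =>
        rw [pow_succ, hmulR, ih, hself, one_mul]
    rcases Int.eq_nat_or_neg k with ⟨m, rfl | rfl⟩
    · rw [zpow_natCast]
      exact hself' m
    · rw [zpow_neg, zpow_natCast]
      have h1 : χ g (g ^ m * (g ^ m)⁻¹) = 1 := by
        rw [mul_inv_cancel]
        exact hmemR M.one_mem g
      rw [hmulR, hself', one_mul] at h1
      exact h1
  have hval1 : χ g (nrmK α h n) = 1 := by
    have h2 : nrmK α h n = g ^ k * ((g ^ k)⁻¹ * nrmK α h n) := by group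
    rw [h2, hmulR, hzpow, hmemR hm, one_mul]
  rw [hval n le_rfl] at hval1
  -- also an `s`-th root of one
  have hpows : χ g h ^ s = 1 := by
    have h1 : ∀ k : ℕ, χ (g ^ k) h = χ g h ^ k := by
      intro k
      induction k with
      | zero =>
        rw [pow_zero, pow_zero]
        exact hmemL M.one_mem h
      | succ k ih =>
        rw [pow_succ, hmulL, ih, pow_succ]
    rw [← h1]
    exact hmemL (hs g) h
  have hfin := pow_gcd_eq_one.2 ⟨hval1, hpows⟩
  rw [hsn, pow_one] at hfin
  exact hh hfin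

end fixed

end Cfsg.Agent.Lib.Struct.PQFix
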