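import Mathlib
import Cfsg.Agent.Lib.Struct.PQFixD
import Cfsg.Agent.Lib.Struct.SymFixB

/-!
# Frobenius groups with abelian kernel: the complement acts almost freely
-/

set_option autoImplicit false

namespace Cfsg.Agent.Lib.Struct.PQFix

open Subgroup SymFix

/-- The fixed points of an operator. -/
def fixS {K D : Type*} [Field K] [AddCommGroup D] [Module K D] (θ : Module.End K D) : Submodule K D :=
  LinearMap.ker (θ - 1)

theorem mem_fixS {K D : Type*} [Field K] [AddCommGroup D] [Module K D] {θ : Module.End K D} {v : D} :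
    v ∈ fixS θ ↔ θ v = v := by
  simp [fixS, sub_eq_zero]

section inj

variable {K D : Type*} [Field K] [AddCommGroup D] [Module K D] [FiniteDimensional K D]

/-- An imprimitivity argument. -/
theorem card_fix_le_of_idem {p : ℕ} (hp : 0 < p) (θ e : Module.End K D) (hθ : θ ^ p = 1) (he : e * e = e)
    (hO1 : ∀ k, 0 < k → k < p → e * θ ^ k * e = 0)
    (hO2 : ∑ i ∈ Finset.range p, θ ^ (p - i) * e * θ ^ i = 1) :
    p * Module.finrank K (fixS θ) ≤ Module.finrank K D := by
  classical
  let Ψ : (Fin p → fixS θ) →ₗ[K] D :=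
    { toFun := fun v => ∑ i : Fin p, (θ ^ (p - (i : ℕ)) * e) (v i : D)
      map_add' := by
        intro x y
        simp [Finset.sum_add_distrib]
      map_smul' := by
        intro c x
        simp [Finset.smul_sum] }
  have hΨ : ∀ v, Ψ v = ∑ i : Fin p, (θ ^ (p - (i : ℕ)) * e) (v i : D) := fun _ => rfl
  have hpowfix : ∀ (v : fixS θ) (i : ℕ), (θ ^ i) (v : D) = v := by
    intro v i
    induction i with
    | zero => rfl
    | succ i ih =>
      rw [pow_succ, Module.End.mul_apply, mem_fixS.1 v.2, ih]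
  have hinj : Function.Injective Ψ := by
    rw [← LinearMap.ker_eq_bot, LinearMap.ker_eq_bot']
    intro v hv
    have hev : ∀ j : Fin p, e (v j : D) = 0 := by
      intro j
      have h1 : (e * θ ^ (j : ℕ)) (Ψ v) = 0 := by rw [hv, map_zero]
      rw [hΨ, map_sum, Finset.sum_eq_single j] at h1
      · have h2 : (e * θ ^ (j : ℕ)) ((θ ^ (p - (j : ℕ)) * e) (v j : D)) = (e * (θ ^ (j : ℕ) * θ ^ (p - (j : ℕ))) * e) (v j : D) := rfl
        rw [h2, ← pow_add, Nat.add_sub_cancel' j.2.le, hθ, mul_one, he] at h1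
        exact h1
      · intro i _ hij
        have h2 : (e * θ ^ (j : ℕ)) ((θ ^ (p - (i : ℕ)) * e) (v i : D)) = (e * (θ ^ (j : ℕ) * θ ^ (p - (i : ℕ))) * e) (v i : D) := rfl
        rw [h2, ← pow_add]
        have hne : (i : ℕ) ≠ j := fun h => hij (Fin.ext h)
        -- reduce modulo `p`
        have hi := i.2
        have hj := j.2
        obtain ⟨k, hk0, hkp, hk⟩ : ∃ k, 0 < k ∧ k < p ∧ θ ^ ((j : ℕ) + (p - (i : ℕ))) = θ ^ k := by
          by_cases hlt : (j : ℕ) < i
          · exact ⟨j + (p - i), by omega, by omega, rfl⟩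
          · refine ⟨j - i, by omega, by omega, ?_⟩
            have h3 : (j : ℕ) + (p - (i : ℕ)) = p + ((j : ℕ) - i) := by omega
            rw [h3, pow_add, hθ, one_mul]
        rw [hk, hO1 k hk0 hkp]
        rfl
      · intro h
        exact absurd (Finset.mem_univ j) h
    funext j
    apply Subtype.ext
    have h1 : (∑ i ∈ Finset.range p, θ ^ (p - i) * e * θ ^ i) (v j : D) = (v j : D) := by
      rw [hO2]
      rfl
    rw [LinearMap.sum_apply] at h1
    have h2 : ∀ i ∈ Finset.range p, (θ ^ (p - i) * e * θ ^ i) (v j : D) = 0 := by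
      intro i _
      show (θ ^ (p - i)) (e ((θ ^ i) (v j : D))) = 0
      rw [hpowfix, hev, map_zero]
    rw [Finset.sum_eq_zero h2] at h1
    exact h1.symm
  have h1 := LinearMap.finrank_le_finrank_of_injective hinj
  rw [Module.finrank_pi_fintype, Finset.sum_const, Finset.card_univ, smul_eq_mul, Fintype.card_fin] at h1
  exact h1

end inj

section free

variable {K D : Type*} [Field K] [IsAlgClosed K] [AddCommGroup D] [Module K D] [FiniteDimensional K D]
  {Z : Type*} [CommGroup Z] [Fintype Z]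

/-- The idempotent of a character. -/
noncomputable def PP (ρ : Z →* Module.End K D) (μ : Z →* Kˣ) : Module.End K D :=
  ((Fintype.card Z : ℕ) : K)⁻¹ • ∑ z, (((μ z)⁻¹ : Kˣ) : K) • ρ z

omit [IsAlgClosed K] [FiniteDimensional K D] in
theorem PP_rho (ρ : Z →* Module.End K D) (μ : Z →* Kˣ) (w : Z) :
    ρ w * PP ρ μ = ((μ w : Kˣ) : K) • PP ρ μ := by
  unfold PP
  rw [mul_smul_comm, smul_comm]
  congr 1
  rw [Finset.mul_sum, Finset.smul_sum]
  refine Fintype.sum_equiv (Equiv.mulLeft w) _ _ (fun z => ?_)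
  rw [Equiv.coe_mulLeft, map_mul μ, map_mul ρ, mul_smul_comm, smul_smul]
  congr 1
  rw [← Units.val_mul]
  congr 1
  rw [mul_inv, ← mul_assoc, mul_inv_cancel, one_mul]

omit [IsAlgClosed K] [FiniteDimensional K D] in
open Classical in
theorem PP_mul (hcard : ((Fintype.card Z : ℕ) : K) ≠ 0) (ρ : Z →* Module.End K D) (ν μ : Z →* Kˣ) :
    PP ρ ν * PP ρ μ = if ν = μ then PP ρ μ else 0 := by
  classical
  have h1 : PP ρ ν * PP ρ μ = ((Fintype.card Z : ℕ) : K)⁻¹ • (∑ z, (((ν z)⁻¹ : Kˣ) : K) * ((μ z : Kˣ) : K)) • PP ρ μ := by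
    conv_lhs => rw [PP]
    rw [smul_mul_assoc, Finset.sum_mul]
    congr 1
    rw [Finset.sum_smul]
    refine Finset.sum_congr rfl (fun z _ => ?_)
    rw [smul_mul_assoc, PP_rho, smul_smul]
  rw [h1]
  split_ifs with h
  · subst h
    have h2 : ∀ z : Z, (((ν z)⁻¹ : Kˣ) : K) * ((ν z : Kˣ) : K) = 1 := by
      intro z
      rw [← Units.val_mul, inv_mul_cancel, Units.val_one]
    simp_rw [h2]
    rw [Finset.sum_const, Finset.card_univ, smul_smul, nsmul_eq_mul, mul_one, inv_mul_cancel₀ hcard, one_smul]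
  · obtain ⟨z₀, hz₀⟩ : ∃ z₀, ν z₀ ≠ μ z₀ := by
      by_contra hcon
      push_neg at hcon
      exact h (MonoidHom.ext hcon)
    have h2 : ∑ z, (((ν z)⁻¹ : Kˣ) : K) * ((μ z : Kˣ) : K) = 0 := by
      apply sum_char_zero (fun z : Z => (((ν z)⁻¹ : Kˣ) : K) * ((μ z : Kˣ) : K)) _ z₀
      · intro h3
        apply hz₀
        have h4 : (((ν z₀)⁻¹ * μ z₀ : Kˣ) : K) = 1 := by
          rw [Units.val_mul]; exact h3
        have h5 : (ν z₀)⁻¹ * μ z₀ = 1 := Units.ext h4
        rw [inv_mul_eq_one] at h5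
        exact h5
      · intro x y
        simp only [map_mul, mul_inv, Units.val_mul]
        ring
    rw [h2, zero_smul, smul_zero]

theorem PP_sum (hcard : ((Fintype.card Z : ℕ) : K) ≠ 0) (ρ : Z →* Module.End K D) [Fintype (Z →* Kˣ)] :
    ∑ μ : Z →* Kˣ, PP ρ μ = 1 := by
  classical
  haveI hexp : NeZero ((Monoid.exponent Z : ℕ) : K) := by
    constructor
    intro h
    apply hcard
    have h1 : Monoid.exponent Z ∣ Fintype.card Z := by
      rw [← Nat.card_eq_fintype_card]
      exact Group.exponent_dvd_nat_card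
    obtain ⟨m, hm⟩ := h1
    rw [hm, Nat.cast_mul, h, zero_mul]
  haveI : HasEnoughRootsOfUnity K (Monoid.exponent Z) := inferInstance
  have hC : Fintype.card (Z →* Kˣ) = Fintype.card Z := by
    rw [← Nat.card_eq_fintype_card, ← Nat.card_eq_fintype_card]
    exact CommGroup.card_monoidHom_of_hasEnoughRootsOfUnity Z K
  have hsum : ∀ z : Z, ∑ μ : Z →* Kˣ, (((μ z)⁻¹ : Kˣ) : K) = if z = 1 then ((Fintype.card Z : ℕ) : K) else 0 := by
    intro z
    split_ifs with h
    · subst h
      simp [hC]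
    · obtain ⟨μ₀, hμ₀⟩ := CommGroup.exists_apply_ne_one_of_hasEnoughRootsOfUnity Z K h
      apply sum_char_zero (fun μ : Z →* Kˣ => (((μ z)⁻¹ : Kˣ) : K)) _ μ₀
      · intro h3
        apply hμ₀
        have h4 : (μ₀ z)⁻¹ = 1 := Units.ext h3
        exact inv_eq_one.1 h4
      · intro x y
        simp only [MonoidHom.mul_apply, mul_inv, Units.val_mul]
  unfold PP
  rw [← Finset.smul_sum]
  have h1 : ∑ μ : Z →* Kˣ, ∑ z, (((μ z)⁻¹ : Kˣ) : K) • ρ z = ∑ z, (∑ μ : Z →* Kˣ, (((μ z)⁻¹ : Kˣ) : K)) • ρ z := by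
    rw [Finset.sum_comm]
    refine Finset.sum_congr rfl (fun z _ => ?_)
    rw [Finset.sum_smul]
  rw [h1]
  simp_rw [hsum]
  rw [Finset.sum_eq_single 1]
  · rw [if_pos rfl, map_one, smul_smul, inv_mul_cancel₀ hcard, one_smul]
  · intro b _ hb
    rw [if_neg hb, zero_smul]
  · intro h
    exact absurd (Finset.mem_univ _) h

omit [IsAlgClosed K] [FiniteDimensional K D] in
theorem PP_theta (ρ : Z →* Module.End K D) (α : Z →* Z) (hα : Function.Bijective α) (θ : Module.End K D)
    (hc : ∀ z, θ * ρ z = ρ (α z) * θ) (μ : Z →* Kˣ) : θ * PP ρ (μ.comp α) = PP ρ μ * θ := by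
  unfold PP
  rw [mul_smul_comm, smul_mul_assoc]
  congr 1
  rw [Finset.mul_sum, Finset.sum_mul]
  refine Fintype.sum_bijective α hα _ _ (fun z => ?_)
  rw [mul_smul_comm, hc, smul_mul_assoc]
  rfl

omit [IsAlgClosed K] [FiniteDimensional K D] in
theorem PP_one_eq_zero (hcard : ((Fintype.card Z : ℕ) : K) ≠ 0) (ρ : Z →* Module.End K D)
    (hno : ∀ v : D, (∀ z, ρ z v = v) → v = 0) : PP ρ 1 = 0 := by
  ext v
  apply hno
  intro z
  have h1 := PP_rho ρ 1 z
  have h2 := congrArg (fun T : Module.End K D => T v) h1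
  simpa using h2

/-- The main bound. -/
theorem free_bound (ρ : Z →* Module.End K D) (α : Z →* Z) {p : ℕ} (hp : p.Prime) (hα : ∀ z, α^[p] z = z)
    (hfix : ∀ z, α z = z → z = 1) (θ : Module.End K D) (hθ : θ ^ p = 1) (hc : ∀ z, θ * ρ z = ρ (α z) * θ)
    (hcard : ((Fintype.card Z : ℕ) : K) ≠ 0) (hno : ∀ v : D, (∀ z, ρ z v = v) → v = 0) :
    p * Module.finrank K (fixS θ) ≤ Module.finrank K D := by
  classical
  haveI hexp : NeZero ((Monoid.exponent Z : ℕ) : K) := by
    constructor
    intro h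
    apply hcard
    have h1 : Monoid.exponent Z ∣ Fintype.card Z := by
      rw [← Nat.card_eq_fintype_card]
      exact Group.exponent_dvd_nat_card
    obtain ⟨m, hm⟩ := h1
    rw [hm, Nat.cast_mul, h, zero_mul]
  haveI hfinC : Finite (Z →* Kˣ) := by
    obtain ⟨e⟩ := CommGroup.monoidHom_mulEquiv_of_hasEnoughRootsOfUnity Z K
    exact Finite.of_equiv _ e.symm.toEquiv
  haveI hfC : Fintype (Z →* Kˣ) := Fintype.ofFinite _
  have hαbij : Function.Bijective α := by
    refine Finite.injective_iff_bijective.1 ?_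
    intro x y hxy
    have h1 : α^[p] x = α^[p] y := by
      obtain ⟨m, hm⟩ : ∃ m, p = m + 1 := ⟨p - 1, by have := hp.pos; omega⟩
      rw [hm, Function.iterate_succ_apply, Function.iterate_succ_apply, hxy]
    rwa [hα, hα] at h1
  let f : (Z →* Kˣ) → (Z →* Kˣ) := fun μ => μ.comp α
  have hfiter : ∀ (i : ℕ) (μ : Z →* Kˣ) (z : Z), (f^[i] μ) z = μ (α^[i] z) := by
    intro i
    induction i with
    | zero => intro μ z; rfl
    | succ i ih =>
      intro μ z
      rw [Function.iterate_succ_apply', Function.iterate_succ_apply']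
      show (f^[i] μ) (α z) = μ (α (α^[i] z))
      rw [ih, ← Function.iterate_succ_apply α i z, Function.iterate_succ_apply']
  have hfp : ∀ μ, f^[p] μ = μ := by
    intro μ
    ext z
    rw [hfiter, hα]
  have hf1 : ∀ μ : Z →* Kˣ, f μ = μ → μ = 1 := by
    intro μ hμ
    have hinj : Function.Injective (fun z : Z => z⁻¹ * α z) := by
      intro x y hxy
      have h1 : x⁻¹ * α x = y⁻¹ * α y := hxy
      have h2 : α (y * x⁻¹) = y * x⁻¹ := by
        rw [map_mul, map_inv]
        have h3 : α y = y * x⁻¹ * α x := by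
          calc α y = y * (y⁻¹ * α y) := by group
            _ = y * (x⁻¹ * α x) := by rw [h1]
            _ = y * x⁻¹ * α x := by group
        rw [h3]
        group
      have h4 := hfix _ h2
      have h5 : y = x := by
        rwa [mul_inv_eq_one] at h4
      exact h5.symm
    have hsurj := Finite.surjective_of_injective hinj
    ext z
    obtain ⟨y, rfl⟩ := hsurj z
    have h1 : μ (α y) = μ y := congrFun (congrArg DFunLike.coe hμ) y
    simp only [map_mul, map_inv, h1]
    simp
  have hfree : ∀ (μ : Z →* Kˣ) (k : ℕ), 0 < k → k < p → f^[k] μ = μ → μ = 1 := by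
    intro μ k hk0 hkp h
    apply hf1
    have hp1 : Function.IsPeriodicPt f k μ := h
    have hp2 : Function.IsPeriodicPt f p μ := hfp μ
    have hp3 := hp1.gcd hp2
    have hg : Nat.gcd k p = 1 := by
      rw [Nat.gcd_comm]
      exact (Nat.Prime.coprime_iff_not_dvd hp).2 (Nat.not_dvd_of_pos_of_lt hk0 hkp)
    rw [hg] at hp3
    exact hp3
  have h1P : PP ρ (1 : Z →* Kˣ) = 0 := PP_one_eq_zero hcard ρ hno
  have hPθ : ∀ (i : ℕ) (μ : Z →* Kˣ), PP ρ μ * θ ^ i = θ ^ i * PP ρ (f^[i] μ) := by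
    intro i
    induction i with
    | zero => intro μ; simp
    | succ i ih =>
      intro μ
      rw [pow_succ, ← mul_assoc, ih, mul_assoc, ← PP_theta ρ α hαbij θ hc, ← mul_assoc, ← pow_succ,
        Function.iterate_succ_apply']
  obtain ⟨R, hR, hdis, -⟩ := exists_reps f hp hfp
  let e : Module.End K D := ∑ μ ∈ R, PP ρ μ
  have he : e * e = e := by
    show (∑ μ ∈ R, PP ρ μ) * (∑ μ ∈ R, PP ρ μ) = ∑ μ ∈ R, PP ρ μ
    rw [Finset.sum_mul]
    refine Finset.sum_congr rfl (fun μ hμ => ?_)
    rw [Finset.mul_sum, Finset.sum_eq_single μ]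
    · rw [PP_mul hcard, if_pos rfl]
    · intro ν _ hν
      rw [PP_mul hcard, if_neg (Ne.symm hν)]
    · intro h
      exact absurd hμ h
  have hO1 : ∀ k, 0 < k → k < p → e * θ ^ k * e = 0 := by
    intro k hk0 hkp
    show (∑ μ ∈ R, PP ρ μ) * θ ^ k * (∑ μ ∈ R, PP ρ μ) = 0
    rw [Finset.sum_mul, Finset.sum_mul]
    refine Finset.sum_eq_zero (fun μ' hμ' => ?_)
    rw [hPθ, Finset.mul_sum]
    refine Finset.sum_eq_zero (fun μ hμ => ?_)
    rw [mul_assoc, PP_mul hcard]
    split_ifs with h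
    · have h2 : μ = μ' := hdis μ' hμ' μ hμ k hkp h.symm
      have h3 : μ' = 1 := hfree μ' k hk0 hkp (by rw [h, h2])
      rw [h2, h3, h1P, mul_zero]
    · rw [mul_zero]
  have hfinj : Function.Injective f := by
    intro x y hxy
    have h1 : f^[p] x = f^[p] y := by
      obtain ⟨m, hm⟩ : ∃ m, p = m + 1 := ⟨p - 1, by have := hp.pos; omega⟩
      rw [hm, Function.iterate_succ_apply, Function.iterate_succ_apply, hxy]
    rwa [hfp, hfp] at h1
  have hf11 : f 1 = 1 := MonoidHom.one_comp α
  have hfi1 : ∀ i, f^[i] 1 = 1 := fun i => Function.iterate_fixed hf11 i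
  have hO2 : ∑ i ∈ Finset.range p, θ ^ (p - i) * e * θ ^ i = 1 := by
    have h2 : ∀ i ∈ Finset.range p, θ ^ (p - i) * e * θ ^ i = ∑ μ ∈ R, PP ρ (f^[i] μ) := by
      intro i hi
      show θ ^ (p - i) * (∑ μ ∈ R, PP ρ μ) * θ ^ i = _
      rw [Finset.mul_sum, Finset.sum_mul]
      refine Finset.sum_congr rfl (fun μ _ => ?_)
      rw [mul_assoc, hPθ, ← mul_assoc, ← pow_add, Nat.sub_add_cancel (le_of_lt (Finset.mem_range.1 hi)), hθ, one_mul]
    rw [Finset.sum_congr rfl h2, ← Finset.sum_product' (Finset.range p) R (fun i μ => PP ρ (f^[i] μ))]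
    rw [← Finset.sum_filter_of_ne (p := fun x : ℕ × (Z →* Kˣ) => x.2 ≠ 1)]
    · have h3 := PP_sum hcard ρ (K := K)
      rw [← Finset.add_sum_erase _ _ (Finset.mem_univ (1 : Z →* Kˣ)), h1P, zero_add] at h3
      rw [← h3]
      refine Finset.sum_bij (fun x _ => f^[x.1] x.2) ?_ ?_ ?_ (fun _ _ => rfl)
      · rintro ⟨i, μ⟩ hx
        simp only [Finset.mem_filter, Finset.mem_product, Finset.mem_range] at hx
        rw [Finset.mem_erase]
        refine ⟨?_, Finset.mem_univ _⟩
        intro h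
        apply hx.2
        have h4 : f^[i] μ = f^[i] 1 := by
          rw [hfi1]
          exact h
        exact hfinj.iterate i h4
      · rintro ⟨i, μ⟩ hx ⟨j, μ'⟩ hy h
        simp only [Finset.mem_filter, Finset.mem_product, Finset.mem_range] at hx hy
        obtain ⟨⟨hi, hμ⟩, hμ1⟩ := hx
        obtain ⟨⟨hj, hμ'⟩, hμ1'⟩ := hy
        have h' : f^[i] μ = f^[j] μ' := h
        rcases le_total i j with hij | hij
        · obtain ⟨d, rfl⟩ := Nat.exists_eq_add_of_le hij
          rw [Function.iterate_add_apply] at h'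
          have h4 : μ = f^[d] μ' := hfinj.iterate i h'
          have h5 : μ = μ' := hdis μ' hμ' μ hμ d (by omega) h4
          subst h5
          have hd : d = 0 := by
            by_contra hd
            exact hμ1 (hfree μ d (by omega) (by omega) h4.symm)
          subst hd
          rfl
        · obtain ⟨d, rfl⟩ := Nat.exists_eq_add_of_le hij
          rw [Function.iterate_add_apply] at h'
          have h4 : f^[d] μ = μ' := hfinj.iterate j h'
          have h5 : μ' = μ := hdis μ hμ μ' hμ' d (by omega) h4.symm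
          subst h5
          have hd : d = 0 := by
            by_contra hd
            exact hμ1 (hfree μ' d (by omega) (by omega) h4)
          subst hd
          rfl
      · intro ν hν
        obtain ⟨r, hr, i, hi, h⟩ := hR ν
        refine ⟨(i, r), ?_, h.symm⟩
        simp only [Finset.mem_filter, Finset.mem_product, Finset.mem_range]
        refine ⟨⟨hi, hr⟩, ?_⟩
        rintro rfl
        apply (Finset.mem_erase.1 hν).1
        rw [h, hfi1]
    · rintro ⟨i, μ⟩ _ h
      rintro rfl
      apply h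
      show PP ρ (f^[i] 1) = 0
      rw [hfi1, h1P]
  exact card_fix_le_of_idem hp.pos θ e hθ he hO1 hO2

end free

section freeE

variable {E K W : Type*} [Field E] [Field K] [Algebra E K] [IsAlgClosed K] [AddCommGroup W] [Module E W]
  [FiniteDimensional E W] {Z : Type*} [CommGroup Z] [Fintype Z]

/-- Precomposition. -/
def preC (E K : Type*) {W : Type*} [Field E] [Field K] [Algebra E K] [AddCommGroup W] [Module E W]
    (T : Module.End E W) : Module.End K (W →ₗ[E] K) where
  toFun f := f ∘ₗ T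
  map_add' := by
    intro f g
    rfl
  map_smul' := by
    intro c f
    rfl

omit [IsAlgClosed K] [FiniteDimensional E W] in
theorem preC_apply (T : Module.End E W) (f : W →ₗ[E] K) (v : W) : preC E K T f v = f (T v) := rfl

omit [IsAlgClosed K] [FiniteDimensional E W] in
theorem preC_mul (S T : Module.End E W) : preC E K (S * T) = preC E K T * preC E K S := rfl

omit [IsAlgClosed K] [FiniteDimensional E W] in
theorem preC_one : preC E K (1 : Module.End E W) = 1 := rfl

omit [IsAlgClosed K] [FiniteDimensional E W] in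
theorem preC_pow (T : Module.End E W) (n : ℕ) : preC E K (T ^ n) = (preC E K T) ^ n := by
  induction n with
  | zero => rfl
  | succ n ih =>
    rw [pow_succ, preC_mul, ih, pow_succ']

/-- The bound over a small field. -/
theorem free_bound_E (φ : Z →* Module.End E W) (α : Z →* Z) {p : ℕ} (hp : p.Prime) (hα : ∀ z, α^[p] z = z)
    (hfix : ∀ z, α z = z → z = 1) (τ : Module.End E W) (hτ : τ ^ p = 1) (hc : ∀ z, τ * φ z = φ (α z) * τ)
    (hcard : ((Fintype.card Z : ℕ) : K) ≠ 0) (hp0 : (p : E) ≠ 0) (hno : ∀ v : W, (∀ z, φ z v = v) → v = 0) :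
    p * Module.finrank E (fixS τ) ≤ Module.finrank E W := by
  classical
  have hq1 : 1 ≤ p := hp.pos
  let τ' : Module.End E W := τ ^ (p - 1)
  have hττ' : τ * τ' = 1 := by
    show τ * τ ^ (p - 1) = 1
    rw [← pow_succ', Nat.sub_add_cancel hq1, hτ]
  have hτ'τ : τ' * τ = 1 := by
    show τ ^ (p - 1) * τ = 1
    rw [← pow_succ, Nat.sub_add_cancel hq1, hτ]
  let ρD : Z →* Module.End K (W →ₗ[E] K) :=
    { toFun := fun z => preC E K (φ z⁻¹)
      map_one' := by
        rw [inv_one, map_one, preC_one]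
      map_mul' := by
        intro x y
        rw [← preC_mul, ← map_mul]
        congr 2
        rw [mul_inv_rev] }
  have hρD : ∀ z (f : W →ₗ[E] K) (v : W), ρD z f v = f (φ z⁻¹ v) := fun _ _ _ => rfl
  let θD : Module.End K (W →ₗ[E] K) := preC E K τ'
  have hθD : θD ^ p = 1 := by
    show (preC E K τ') ^ p = 1
    rw [← preC_pow]
    have : τ' ^ p = 1 := by
      show (τ ^ (p - 1)) ^ p = 1
      rw [← pow_mul, mul_comm, pow_mul, hτ, one_pow]
    rw [this, preC_one]
  have hcD : ∀ z, θD * ρD z = ρD (α z) * θD := by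
    intro z
    show preC E K τ' * preC E K (φ z⁻¹) = preC E K (φ (α z)⁻¹) * preC E K τ'
    rw [← preC_mul, ← preC_mul]
    congr 1
    have h1 : τ * φ z⁻¹ = φ (α z)⁻¹ * τ := by
      rw [hc, map_inv]
    calc φ z⁻¹ * τ' = (τ' * τ) * φ z⁻¹ * τ' := by rw [hτ'τ, one_mul]
      _ = τ' * (τ * φ z⁻¹) * τ' := by simp only [mul_assoc]
      _ = τ' * (φ (α z)⁻¹ * τ) * τ' := by rw [h1]
      _ = τ' * φ (α z)⁻¹ * (τ * τ') := by simp only [mul_assoc]
      _ = τ' * φ (α z)⁻¹ := by rw [hττ', mul_one]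
  have hnoD : ∀ f : W →ₗ[E] K, (∀ z, ρD z f = f) → f = 0 := by
    intro f hf
    ext w
    have h1 : ∑ z, φ z w = 0 := by
      apply hno
      intro y
      rw [map_sum]
      refine Fintype.sum_equiv (Equiv.mulLeft y) _ _ (fun z => ?_)
      rw [Equiv.coe_mulLeft, map_mul]
      rfl
    have h2 : ∀ z, f (φ z w) = f w := by
      intro z
      have h3 := congrArg (fun g : W →ₗ[E] K => g w) (hf z⁻¹)
      simp only [hρD, inv_inv] at h3
      exact h3
    have h3 := congrArg f h1
    rw [map_sum, map_zero] at h3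
    simp_rw [h2] at h3
    rw [Finset.sum_const, Finset.card_univ, nsmul_eq_mul] at h3
    exact (mul_eq_zero.1 h3).resolve_left hcard
  have h1 := free_bound ρD α hp hα hfix θD hθD hcD hcard hnoD
  rw [Module.finrank_linearMap_self] at h1
  -- the fixed points
  let π₀ : Module.End E W := (p : E)⁻¹ • ∑ i ∈ Finset.range p, τ ^ i
  have hsumshift : τ * ∑ i ∈ Finset.range p, τ ^ i = ∑ i ∈ Finset.range p, τ ^ i := by
    obtain ⟨m, hm⟩ : ∃ m, p = m + 1 := ⟨p - 1, by omega⟩
    rw [Finset.mul_sum]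
    simp_rw [← pow_succ']
    rw [hm, Finset.sum_range_succ, Finset.sum_range_succ']
    rw [← hm, hτ, pow_zero, add_comm]
  have hsumshift' : (∑ i ∈ Finset.range p, τ ^ i) * τ = ∑ i ∈ Finset.range p, τ ^ i := by
    rw [Finset.sum_mul]
    simp_rw [← pow_succ]
    rw [← hsumshift, Finset.mul_sum]
    simp_rw [← pow_succ']
  have hπτ : τ * π₀ = π₀ := by
    show τ * ((p : E)⁻¹ • ∑ i ∈ Finset.range p, τ ^ i) = _
    rw [mul_smul_comm, hsumshift]
  have hπτ' : π₀ * τ = π₀ := by
    show ((p : E)⁻¹ • ∑ i ∈ Finset.range p, τ ^ i) * τ = _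
    rw [smul_mul_assoc, hsumshift']
  have hπτ'' : π₀ * τ' = π₀ := by
    calc π₀ * τ' = (π₀ * τ) * τ' := by rw [hπτ']
      _ = π₀ := by rw [mul_assoc, hττ', mul_one]
  have hπv : ∀ v ∈ fixS τ, π₀ v = v := by
    intro v hv
    have hv' := mem_fixS.1 hv
    have hpow : ∀ i : ℕ, (τ ^ i) v = v := by
      intro i
      induction i with
      | zero => rfl
      | succ i ih =>
        rw [pow_succ, Module.End.mul_apply, hv', ih]
    show ((p : E)⁻¹ • ∑ i ∈ Finset.range p, τ ^ i) v = v
    rw [LinearMap.smul_apply, LinearMap.sum_apply]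
    simp_rw [hpow]
    rw [Finset.sum_const, Finset.card_range, ← Nat.cast_smul_eq_nsmul E, smul_smul, inv_mul_cancel₀ hp0, one_smul]
  have hπmem : ∀ v, π₀ v ∈ fixS τ := by
    intro v
    rw [mem_fixS]
    exact congrArg (fun T : Module.End E W => T v) hπτ
  let π : W →ₗ[E] fixS τ := LinearMap.codRestrict (fixS τ) π₀ hπmem
  have hπa : ∀ v, ((π v : fixS τ) : W) = π₀ v := fun _ => rfl
  let Ψ : (fixS τ →ₗ[E] K) →ₗ[K] fixS θD :=
    { toFun := fun g => ⟨g ∘ₗ π, by
        rw [mem_fixS]
        ext v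
        show g (π (τ' v)) = g (π v)
        congr 1
        apply Subtype.ext
        rw [hπa, hπa]
        exact congrArg (fun T : Module.End E W => T v) hπτ''⟩
      map_add' := by
        intro x y
        rfl
      map_smul' := by
        intro c x
        rfl }
  have hΨinj : Function.Injective Ψ := by
    intro g g' hg
    ext v
    have h2 : (Ψ g : W →ₗ[E] K) = (Ψ g' : W →ₗ[E] K) := congrArg Subtype.val hg
    have h3 : g (π (v : W)) = g' (π (v : W)) := congrArg (fun f : W →ₗ[E] K => f (v : W)) h2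
    have h4 : π (v : W) = v := Subtype.ext (hπv _ v.2)
    rw [h4] at h3
    exact h3
  have h5 := LinearMap.finrank_le_finrank_of_injective hΨinj
  rw [Module.finrank_linearMap_self] at h5
  calc p * Module.finrank E (fixS τ) ≤ p * Module.finrank K (fixS θD) := Nat.mul_le_mul_left _ h5
    _ ≤ _ := h1

end freeE

section freeGroup

theorem free_card_aux {W : Type*} [CommGroup W] [Finite W] {s r p : ℕ} [hsf : Fact s.Prime]
    [Module (ZMod s) (Additive W)] (hr : r.Prime) (hp : p.Prime) (hps : p ≠ s) (hrs : r ≠ s)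
    (X : Subgroup (MulAut W)) (hXr : IsPGroup r X) (hXnt : X ≠ ⊥) (τ : MulAut W) (hτ : τ ^ p = 1)
    (hXτ : ∀ x ∈ X, τ * x * τ⁻¹ ∈ X) (hfix : ∀ x ∈ X, τ * x * τ⁻¹ = x → x = 1)
    (hirr : ∀ W' : Subgroup W, (∀ x ∈ X, ∀ w ∈ W', x w ∈ W') → (∀ w ∈ W', τ w ∈ W') → W' = ⊥ ∨ W' = ⊤) :
    (Nat.card {w : W // τ w = w}) ^ p ≤ Nat.card W := by
  classical
  haveI hfa : Finite (Additive W) := inferInstanceAs (Finite W)
  haveI hfd : Module.Finite (ZMod s) (Additive W) := Module.Finite.of_finite
  let T : MulAut W →* Module.End (ZMod s) (Additive W) :=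
    { toFun := fun f => AddMonoidHom.toZModLinearMap s (MonoidHom.toAdditive f.toMonoidHom)
      map_one' := by
        apply LinearMap.ext
        intro x
        rfl
      map_mul' := by
        intro f g
        apply LinearMap.ext
        intro x
        rfl }
  have hTa : ∀ (f : MulAut W) (w : W), T f (Additive.ofMul w) = Additive.ofMul (f w) := fun _ _ => rfl
  let Z₀ : Subgroup (MulAut W) := X ⊓ centralizer (X : Set (MulAut W))
  have hZ₀comm : ∀ a ∈ Z₀, ∀ b ∈ Z₀, a * b = b * a := by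
    intro a ha b hb
    exact (Subgroup.mem_centralizer_iff.1 hb.2 a ha.1)
  letI cZ : CommGroup ↥Z₀ := { (inferInstance : Group ↥Z₀) with mul_comm := fun a b => Subtype.ext (hZ₀comm _ a.2 _ b.2) }
  haveI fZ : Fintype ↥Z₀ := Fintype.ofFinite _
  have hZτ : ∀ z ∈ Z₀, τ * z * τ⁻¹ ∈ Z₀ := by
    intro z hz
    refine ⟨hXτ z hz.1, ?_⟩
    refine Subgroup.mem_centralizer_iff.2 ?_
    intro x hx
    have h1 : τ⁻¹ * x * τ ∈ X := conj_inv_mem_of_pow hp.pos hτ hXτ x hx
    have h2 := Subgroup.mem_centralizer_iff.1 hz.2 _ h1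
    calc x * (τ * z * τ⁻¹) = τ * ((τ⁻¹ * x * τ) * z) * τ⁻¹ := by group
      _ = τ * (z * (τ⁻¹ * x * τ)) * τ⁻¹ := by rw [h2]
      _ = _ := by group
  let α : ↥Z₀ →* ↥Z₀ :=
    { toFun := fun z => ⟨τ * z * τ⁻¹, hZτ _ z.2⟩
      map_one' := by
        apply Subtype.ext
        simp
      map_mul' := by
        intro a b
        apply Subtype.ext
        simp only [Subgroup.coe_mul]
        group }
  have hα : ∀ z : ↥Z₀, α^[p] z = z := by
    intro z
    have h1 : ∀ n : ℕ, ((α^[n] z : ↥Z₀) : MulAut W) = τ ^ n * z * (τ ^ n)⁻¹ := by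
      intro n
      induction n with
      | zero => simp
      | succ n ih =>
        rw [Function.iterate_succ_apply']
        show τ * ((α^[n] z : ↥Z₀) : MulAut W) * τ⁻¹ = _
        rw [ih, pow_succ']
        group
    apply Subtype.ext
    rw [h1, hτ]
    simp
  have hαfix : ∀ z : ↥Z₀, α z = z → z = 1 := by
    intro z hz
    apply Subtype.ext
    exact hfix _ z.2.1 (congrArg Subtype.val hz)
  have hZnt : ∃ z ∈ Z₀, z ≠ 1 := by
    haveI hXf : Fact r.Prime := ⟨hr⟩
    haveI : Nontrivial ↥X := (Subgroup.nontrivial_iff_ne_bot X).2 hXnt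
    haveI := hXr.center_nontrivial
    obtain ⟨c, hc⟩ := exists_ne (1 : Subgroup.center ↥X)
    refine ⟨((c : ↥X) : MulAut W), ⟨(c : ↥X).2, ?_⟩, ?_⟩
    · refine Subgroup.mem_centralizer_iff.2 ?_
      intro x hx
      have h1 := Subgroup.mem_center_iff.1 c.2 ⟨x, hx⟩
      exact congrArg Subtype.val h1
    · intro h
      exact hc (Subtype.ext (Subtype.ext h))
  have hno : ∀ v : Additive W, (∀ z : ↥Z₀, (T.comp Z₀.subtype) z v = v) → v = 0 := by
    intro v hv
    let C : Subgroup W :=
      { carrier := {w | ∀ z ∈ Z₀, z w = w}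
        mul_mem' := by
          intro a b ha hb z hz
          rw [map_mul, ha z hz, hb z hz]
        one_mem' := by
          intro z _
          exact map_one z
        inv_mem' := by
          intro a ha z hz
          rw [map_inv, ha z hz] }
    have hC := hirr C
      (by
        intro x hx w hw z hz
        have h1 : z * x = x * z := (Subgroup.mem_centralizer_iff.1 hz.2 x hx).symm
        have h2 : z (x w) = (z * x) w := rfl
        rw [h2, h1]
        show x (z w) = x w
        rw [hw z hz])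
      (by
        intro w hw z hz
        have h1 : τ⁻¹ * z * τ ∈ Z₀ := conj_inv_mem_of_pow hp.pos hτ hZτ z hz
        have h2 := hw _ h1
        have h3 : z (τ w) = τ ((τ⁻¹ * z * τ) w) := by
          show z (τ w) = (τ * (τ⁻¹ * z * τ)) w
          have : τ * (τ⁻¹ * z * τ) = z * τ := by group
          rw [this]
          rfl
        rw [h3, h2])
    rcases hC with hC | hC
    · have hw : Additive.toMul v ∈ C := by
        intro z hz
        have h1 := hv ⟨z, hz⟩
        exact congrArg Additive.toMul h1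
      rw [hC, Subgroup.mem_bot] at hw
      exact congrArg Additive.ofMul hw
    · exfalso
      obtain ⟨z, hz, hz1⟩ := hZnt
      apply hz1
      ext w
      have : w ∈ C := by rw [hC]; exact Subgroup.mem_top w
      exact this z hz
  have hcard : ((Fintype.card ↥Z₀ : ℕ) : AlgebraicClosure (ZMod s)) ≠ 0 := by
    intro h
    rw [CharP.cast_eq_zero_iff (AlgebraicClosure (ZMod s)) s] at h
    have hZr : IsPGroup r ↥Z₀ := hXr.to_le inf_le_left
    haveI : Fact r.Prime := ⟨hr⟩
    obtain ⟨k, hk⟩ := IsPGroup.iff_card.1 hZr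
    rw [← Nat.card_eq_fintype_card, hk] at h
    have h2 := (Nat.Prime.dvd_of_dvd_pow hsf.out h)
    exact hrs ((Nat.prime_dvd_prime_iff_eq hsf.out hr).1 h2).symm
  have hp0 : ((p : ℕ) : ZMod s) ≠ 0 := by
    intro h
    rw [ZMod.natCast_eq_zero_iff] at h
    exact hps ((Nat.prime_dvd_prime_iff_eq hsf.out hp).1 h).symm
  have hmain := free_bound_E (K := AlgebraicClosure (ZMod s)) (T.comp Z₀.subtype) α hp hα hαfix (T τ)
    (by rw [← map_pow, hτ, map_one])
    (by
      intro z
      show T τ * T z = T (τ * z * τ⁻¹) * T τ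
      rw [← map_mul, ← map_mul]
      congr 1
      group)
    hcard hp0 hno
  -- cardinalities
  have hW1 : Nat.card W = s ^ Module.finrank (ZMod s) (Additive W) := by
    have := Module.natCard_eq_pow_finrank (K := ZMod s) (V := Additive W)
    rw [Nat.card_zmod] at this
    exact this
  have hW2 : Nat.card {w : W // τ w = w} = s ^ Module.finrank (ZMod s) (fixS (T τ)) := by
    have := Module.natCard_eq_pow_finrank (K := ZMod s) (V := fixS (T τ))
    rw [Nat.card_zmod] at this
    rw [← this]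
    apply Nat.card_congr
    exact
      { toFun := fun w => ⟨Additive.ofMul w.1, mem_fixS.2 (by rw [hTa, w.2])⟩
        invFun := fun v => ⟨Additive.toMul (v : Additive W), by
          have := mem_fixS.1 v.2
          exact congrArg Additive.toMul this⟩
        left_inv := fun _ => rfl
        right_inv := fun _ => rfl }
  rw [hW1, hW2, ← pow_mul, mul_comm]
  exact Nat.pow_le_pow_right hsf.out.pos hmain

/-- The bound in the form used. -/
theorem free_card {W : Type*} [Group W] [Finite W] (hW : ∀ a b : W, a * b = b * a) {s r p : ℕ} (hs : s.Prime)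
    (hr : r.Prime) (hp : p.Prime) (hexp : ∀ w : W, w ^ s = 1) (hps : p ≠ s) (hrs : r ≠ s)
    (X : Subgroup (MulAut W)) (hXr : IsPGroup r X) (hXnt : X ≠ ⊥) (τ : MulAut W) (hτ : τ ^ p = 1)
    (hXτ : ∀ x ∈ X, τ * x * τ⁻¹ ∈ X) (hfix : ∀ x ∈ X, τ * x * τ⁻¹ = x → x = 1)
    (hirr : ∀ W' : Subgroup W, (∀ x ∈ X, ∀ w ∈ W', x w ∈ W') → (∀ w ∈ W', τ w ∈ W') → W' = ⊥ ∨ W' = ⊤) :
    (Nat.card {w : W // τ w = w}) ^ p ≤ Nat.card W := by
  letI cg : CommGroup W := { (inferInstance : Group W) with mul_comm := hW }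
  haveI hsf : Fact s.Prime := ⟨hs⟩
  have hm : ∀ x : Additive W, s • x = 0 := by
    intro x
    have h1 : s • x = Additive.ofMul ((Additive.toMul x) ^ s) := rfl
    rw [h1, hexp]
    rfl
  exact @free_card_aux W cg _ s r p hsf (AddCommGroup.zmodModule hm) hr hp hps hrs X hXr hXnt τ hτ hXτ hfix hirr

end freeGroup

end Cfsg.Agent.Lib.Struct.PQFix
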