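import Mathlib
import Cfsg.Agent.Lib.Struct.PQFixE
import Cfsg.Agent.Lib.Struct.SymFixB

/-!
# Weights, moved weights and the structure of minimal counterexamples
-/

set_option autoImplicit false

namespace Cfsg.Agent.Lib.Struct.PQFix

open Subgroup SymFix

section wt

variable {L : Type*} [Group L] {F : Type*} [Field F] {V : Type*} [AddCommGroup V] [Module F V]

open Classical in
/-- Separation of weights. -/
theorem sum_wt_zero (ρ : L →* Module.End F V) {N : Subgroup L} [Finite N]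
    (hcard : ((Nat.card N : ℕ) : F) ≠ 0) {ι : Type*} (s : Finset ι) (ν : ι → (↥N →* Fˣ)) (f : ι → V)
    (hf : ∀ i ∈ s, f i ∈ eigS ρ (ν i)) (h0 : ∑ i ∈ s, f i = 0) (μ : ↥N →* Fˣ) :
    ∑ i ∈ s.filter (fun i => ν i = μ), f i = 0 := by
  classical
  haveI := Fintype.ofFinite N
  let P : Module.End F V := ∑ n : N, (((μ n)⁻¹ : Fˣ) : F) • ρ n
  have hP : ∀ (ν : ↥N →* Fˣ) (w : V), w ∈ eigS ρ ν →
      P w = if ν = μ then ((Nat.card N : ℕ) : F) • w else 0 := by
    intro ν w hw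
    have h1 : P w = (∑ n : N, (((μ n)⁻¹ : Fˣ) : F) * ((ν n : Fˣ) : F)) • w := by
      simp only [P, LinearMap.sum_apply, LinearMap.smul_apply, Finset.sum_smul, mul_smul]
      refine Finset.sum_congr rfl (fun n _ => ?_)
      rw [hw n]
    rw [h1]
    split_ifs with h
    · subst h
      have h2 : ∑ n : N, (((ν n)⁻¹ : Fˣ) : F) * ((ν n : Fˣ) : F) = ((Nat.card N : ℕ) : F) := by
        have : ∀ n : N, (((ν n)⁻¹ : Fˣ) : F) * ((ν n : Fˣ) : F) = 1 := by
          intro n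
          rw [← Units.val_mul, inv_mul_cancel, Units.val_one]
        simp [this, Nat.card_eq_fintype_card]
      rw [h2]
    · have hne : ∃ n₀ : N, ν n₀ ≠ μ n₀ := by
        by_contra hcon
        push_neg at hcon
        exact h (MonoidHom.ext hcon)
      obtain ⟨n₀, hn₀⟩ := hne
      have h2 : ∑ n : N, (((μ n)⁻¹ : Fˣ) : F) * ((ν n : Fˣ) : F) = 0 := by
        apply sum_char_zero (fun n : N => (((μ n)⁻¹ : Fˣ) : F) * ((ν n : Fˣ) : F)) _ n₀
        · intro h3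
          apply hn₀
          have h4 : (((μ n₀)⁻¹ * ν n₀ : Fˣ) : F) = 1 := by
            rw [Units.val_mul]; exact h3
          have h5 : (μ n₀)⁻¹ * ν n₀ = 1 := Units.ext h4
          rw [inv_mul_eq_one] at h5
          exact h5.symm
        · intro x y
          simp only [map_mul, mul_inv, Units.val_mul]
          ring
      rw [h2, zero_smul]
  have h1 : P (∑ i ∈ s, f i) = 0 := by rw [h0, map_zero]
  rw [map_sum] at h1
  have h2 : ∀ i ∈ s, P (f i) = if ν i = μ then ((Nat.card N : ℕ) : F) • f i else 0 :=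
    fun i hi => hP _ _ (hf i hi)
  rw [Finset.sum_congr rfl h2, ← Finset.sum_filter, ← Finset.smul_sum] at h1
  convert (smul_eq_zero.1 h1).resolve_left hcard

theorem pow_mem_prime {H : Subgroup L} {b : L} {n i : ℕ} (hn : n.Prime) (hb : b ^ n = 1) (hi0 : 0 < i)
    (hin : i < n) (h : b ^ i ∈ H) : b ∈ H := by
  have hcop : Nat.Coprime i n := ((Nat.Prime.coprime_iff_not_dvd hn).2 (Nat.not_dvd_of_pos_of_lt hi0 hin)).symm
  obtain ⟨m, hm⟩ := Nat.exists_mul_mod_eq_one_of_coprime hcop hn.one_lt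
  have h1 : b ^ (i * m) = b := by
    have h2 : i * m = n * (i * m / n) + i * m % n := (Nat.div_add_mod _ _).symm
    rw [h2, pow_add, pow_mul, hb, one_pow, one_mul, hm.2, pow_one]
  rw [← h1, pow_mul]
  exact H.pow_mem h m

theorem rho_pow_apply (ρ : L →* Module.End F V) (b : L) (i : ℕ) (v : V) : ((ρ b) ^ i) v = ρ (b ^ i) v := by
  rw [map_pow]

/-- A character fixed by `k` takes equal values on `k`-conjugates. -/
theorem fix_val_k {N : Subgroup L} [hN : N.Normal] {k : L} {μ : ↥N →* Fˣ} (h : k • μ = μ) (n : ↥N)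
    (hm : k * n * k⁻¹ ∈ N) : μ ⟨k * n * k⁻¹, hm⟩ = μ n := by
  have h1 : k⁻¹ • μ = μ := by
    rw [inv_smul_eq_iff, h]
  have h2 := DFunLike.congr_fun h1 n
  have hm' : k⁻¹⁻¹ * n * k⁻¹ ∈ N := by
    rw [inv_inv]; exact hm
  rw [kSmul_apply N k⁻¹ μ n hm'] at h2
  rw [← h2]
  congr 1
  apply Subtype.ext
  simp

/-- A character fixed by `k` takes equal values on `k`-conjugates. -/
theorem fix_val_k' {N : Subgroup L} [hN : N.Normal] {k : L} {μ : ↥N →* Fˣ} (h : k • μ = μ) (n : ↥N)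
    (hm : k⁻¹ * n * k ∈ N) : μ ⟨k⁻¹ * n * k, hm⟩ = μ n := by
  have h2 := DFunLike.congr_fun h n
  rw [kSmul_apply N k μ n hm] at h2
  exact h2

/-- **A moved weight has a regular orbit**: `b` fixes all weights if its powers sum to zero. -/
theorem kl_fix (ρ : L →* Module.End F V) (M : Subgroup L) [M.Normal] [Finite M]
    (hcard : ((Nat.card M : ℕ) : F) ≠ 0) {b : L} {n : ℕ} (hn : n.Prime) (hb : b ^ n = 1)
    (U : Submodule F V) (hU : ∀ v ∈ U, ∑ i ∈ Finset.range n, ((ρ b) ^ i) v = 0) {μ : ↥M →* Fˣ}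
    {v : V} (hv0 : v ≠ 0) (hvU : v ∈ U) (hv : v ∈ eigS ρ μ) : b • μ = μ := by
  classical
  by_contra hne
  have hi : ∀ i ∈ Finset.range n, ((ρ b) ^ i) v ∈ eigS ρ ((b ^ i) • μ) := by
    intro i _
    rw [rho_pow_apply]
    exact rho_eig ρ M _ hv
  have h1 := sum_wt_zero ρ hcard (Finset.range n) (fun i => (b ^ i) • μ) (fun i => ((ρ b) ^ i) v) hi (hU v hvU) μ
  have hf : (Finset.range n).filter (fun i => (b ^ i) • μ = μ) = {0} := by
    ext i
    simp only [Finset.mem_filter, Finset.mem_range, Finset.mem_singleton]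
    constructor
    · rintro ⟨hin, hi⟩
      by_contra hi0
      have hib : b ^ i ∈ MulAction.stabilizer L μ := hi
      exact hne (pow_mem_prime hn hb (Nat.pos_of_ne_zero hi0) hin hib)
    · rintro rfl
      exact ⟨hn.pos, by simp⟩
  convert hv0 (by simpa [hf] using h1)

/-- **Moved weights**, the form for operators. -/
theorem kl_comm [Finite L] [FiniteDimensional F V] [IsAlgClosed F] (ρ : L →* Module.End F V) (M : Subgroup L) [M.Normal]
    (hMc : ∀ x ∈ M, ∀ y ∈ M, x * y = y * x)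
    (hcard : ((Nat.card M : ℕ) : F) ≠ 0) {b : L} {n : ℕ} (hn : n.Prime) (hb : b ^ n = 1)
    (hU : ∀ v, ∑ i ∈ Finset.range n, ((ρ b) ^ i) v = 0) (m : L) (hm : m ∈ M) :
    ρ (b * m * b⁻¹) = ρ m := by
  obtain ⟨hcm, hc⟩ : ∃ h : b * m * b⁻¹ * m⁻¹ ∈ M, (⟨b * m * b⁻¹ * m⁻¹, h⟩ : M) = ⟨b * m * b⁻¹ * m⁻¹, h⟩ :=
    ⟨M.mul_mem (Subgroup.Normal.conj_mem inferInstance m hm b) (M.inv_mem hm), rfl⟩
  by_cases h1 : ρ ((⟨b * m * b⁻¹ * m⁻¹, hcm⟩ : M) : L) = 1
  · have h2 : b * m * b⁻¹ = (b * m * b⁻¹ * m⁻¹) * m := by group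
    rw [h2, map_mul]
    have h3 : ρ (b * m * b⁻¹ * m⁻¹) = 1 := h1
    rw [h3, one_mul]
  · exfalso
    obtain ⟨μ, hocc, hμ⟩ := exists_eig_ne_one ρ hMc hcard _ h1
    obtain ⟨v, hv, hv0⟩ := (Submodule.ne_bot_iff _).1 hocc
    have hfx := kl_fix ρ M hcard hn hb ⊤ (fun v _ => hU v) hv0 trivial hv
    apply hμ
    have h3 : (⟨b * m * b⁻¹ * m⁻¹, hcm⟩ : M) = ⟨b * m * b⁻¹, Subgroup.Normal.conj_mem inferInstance m hm b⟩ * (⟨m, hm⟩ : M)⁻¹ := rfl
    rw [h3, map_mul, map_inv, fix_val_k hfx ⟨m, hm⟩, mul_inv_cancel]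

end wt

section str

variable {L : Type*} [Group L]

/-- The centre of a subgroup, as a subgroup of the ambient group. -/
def CZ (Y : Subgroup L) : Subgroup L := Y ⊓ centralizer (Y : Set L)

theorem mem_CZ {Y : Subgroup L} {z : L} : z ∈ CZ Y ↔ z ∈ Y ∧ ∀ y ∈ Y, y * z = z * y := by
  show z ∈ Y ⊓ centralizer (Y : Set L) ↔ _
  rw [Subgroup.mem_inf, Subgroup.mem_centralizer_iff]
  rfl

instance CZ_normal (Y : Subgroup L) [hY : Y.Normal] : (CZ Y).Normal := ⟨by
  intro z hz g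
  obtain ⟨h1, h2⟩ := mem_CZ.1 hz
  refine mem_CZ.2 ⟨hY.conj_mem z h1 g, ?_⟩
  intro y hy
  have h3 : g⁻¹ * y * g ∈ Y := by
    have := hY.conj_mem y hy g⁻¹
    simpa using this
  have h4 := h2 _ h3
  calc y * (g * z * g⁻¹) = g * ((g⁻¹ * y * g) * z) * g⁻¹ := by group
    _ = g * (z * (g⁻¹ * y * g)) * g⁻¹ := by rw [h4]
    _ = _ := by group⟩

variable [Finite L] (Y X : Subgroup L) [hYn : Y.Normal] (S : Set L) {s : ℕ} [hsf : Fact s.Prime]
  (hY : IsPGroup s Y) (hXS : ∀ x ∈ X, x ∈ S) (hSX : ∀ g ∈ S, ∀ x ∈ X, g * x * g⁻¹ ∈ X)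
  (hcop : (Nat.card X).Coprime s)
  (hmin : ∀ N : Subgroup L, N ≤ Y → N ≠ Y → (∀ g ∈ S, ∀ n ∈ N, g * n * g⁻¹ ∈ N) → ∀ x ∈ X, ∀ n ∈ N, x * n * x⁻¹ = n)
  (hnc : ¬ ∀ x ∈ X, ∀ y ∈ Y, x * y * x⁻¹ = y)

/-- The subgroup generated by the commutators. -/
def DD : Subgroup L := closure {c | ∃ y ∈ Y, ∃ x ∈ X, c = y⁻¹ * (x * y * x⁻¹)}

include hY hSX hcop hmin hnc in
theorem DD_eq : DD Y X = Y := by
  by_contra hne
  have hle : DD Y X ≤ Y := by
    rw [DD, closure_le]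
    rintro _ ⟨y, hy, x, hx, rfl⟩
    exact Y.mul_mem (Y.inv_mem hy) (hYn.conj_mem y (hy) x)
  have hinv : ∀ g ∈ S, ∀ n ∈ DD Y X, g * n * g⁻¹ ∈ DD Y X := by
    intro g hg n hn
    have h1 : DD Y X ≤ (DD Y X).comap (MulAut.conj g).toMonoidHom := by
      rw [DD, closure_le]
      rintro _ ⟨y, hy, x, hx, rfl⟩
      apply Subgroup.subset_closure
      refine ⟨g * y * g⁻¹, hYn.conj_mem y hy g, g * x * g⁻¹, hSX g hg x hx, ?_⟩
      show g * (y⁻¹ * (x * y * x⁻¹)) * g⁻¹ = _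
      group
    exact h1 hn
  have hcent := hmin _ hle hne hinv
  apply hnc
  intro x hx y hy
  refine comm_of_section hY hle (hcent x hx) ?_ hy (Subgroup.subset_closure ⟨y, hy, x, hx, rfl⟩)
  exact Nat.Coprime.coprime_dvd_left (Subgroup.orderOf_dvd_natCard X hx) hcop

include hY hSX hcop hmin hnc in
/-- **Proper invariant normal subgroups are central.** -/
theorem str_center (N : Subgroup L) (hNY : N ≤ Y) (hNe : N ≠ Y) (hNS : ∀ g ∈ S, ∀ n ∈ N, g * n * g⁻¹ ∈ N)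
    (hNn : ∀ y ∈ Y, ∀ n ∈ N, y * n * y⁻¹ ∈ N) : N ≤ CZ Y := by
  have hcent := hmin _ hNY hNe hNS
  intro n hn
  refine mem_CZ.2 ⟨hNY hn, ?_⟩
  have hD : DD Y X ≤ centralizer {n} := by
    rw [DD, closure_le]
    rintro _ ⟨y, hy, x, hx, rfl⟩
    show _ ∈ centralizer {n}
    rw [Subgroup.mem_centralizer_singleton_iff]
    have h1 := hcent x hx n hn
    have h2 := hcent x hx _ (hNn y hy n hn)
    have hnx : x⁻¹ * n = n * x⁻¹ := by
      calc x⁻¹ * n = x⁻¹ * (x * n * x⁻¹) := by rw [h1]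
        _ = n * x⁻¹ := by group
    have hcomm : y⁻¹ * (x * y * x⁻¹) * n = n * (y⁻¹ * (x * y * x⁻¹)) := by
      calc y⁻¹ * (x * y * x⁻¹) * n = y⁻¹ * x * y * (x⁻¹ * n) := by group
        _ = y⁻¹ * x * y * (n * x⁻¹) := by rw [hnx]
        _ = y⁻¹ * (x * (y * n * y⁻¹) * x⁻¹) * (x * y * x⁻¹) := by group
        _ = y⁻¹ * (y * n * y⁻¹) * (x * y * x⁻¹) := by rw [h2]
        _ = _ := by group
    exact hcomm
  rw [DD_eq Y X S hY hSX hcop hmin hnc] at hD
  intro y hy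
  have := hD hy
  rw [Subgroup.mem_centralizer_singleton_iff] at this
  exact this

include hY in
/-- The derived subgroup of a nontrivial `s`-group is proper. -/
theorem comm_ne (hne : Y ≠ ⊥) : ⁅Y, Y⁆ ≠ Y := by
  intro h
  haveI : Group.IsNilpotent ↥Y := hY.isNilpotent
  haveI : Nontrivial ↥Y := (Subgroup.nontrivial_iff_ne_bot Y).2 hne
  have h1 := IsSolvable.commutator_lt_top_of_nontrivial ↥Y
  apply ne_of_lt h1
  have h2 : (_root_.commutator ↥Y).map Y.subtype = ⁅Y, Y⁆ := Subgroup.map_subtype_commutator Y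
  rw [eq_top_iff]
  intro y _
  have h3 : (y : L) ∈ ⁅Y, Y⁆ := by rw [h]; exact y.2
  rw [← h2] at h3
  obtain ⟨z, hz, hzy⟩ := h3
  have : z = y := Subtype.ext hzy
  rw [← this]
  exact hz

include hY hSX hcop hmin hnc in
theorem str_ne_bot : Y ≠ ⊥ := by
  rintro rfl
  apply hnc
  intro x _ y hy
  rw [mem_bot] at hy
  rw [hy]
  group

include hY hSX hcop hmin hnc in
/-- The section is abelian. -/
theorem str_der (a b : L) (ha : a ∈ Y) (hb : b ∈ Y) : a * b * a⁻¹ * b⁻¹ ∈ CZ Y := by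
  have hne := comm_ne Y hY (str_ne_bot Y X S hY hSX hcop hmin hnc)
  have hnor : (⁅Y, Y⁆).Normal := inferInstance
  have h1 := str_center Y X S hY hSX hcop hmin hnc ⁅Y, Y⁆ (Subgroup.commutator_le_left Y Y) hne
    (fun g _ n hn => hnor.conj_mem n hn g) (fun g _ n hn => hnor.conj_mem n hn g)
  apply h1
  have := Subgroup.commutator_mem_commutator ha hb
  rwa [commutatorElement_def] at this

include hY hSX hcop hmin hnc in
/-- The section has exponent `s`. -/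
theorem str_pow (y : L) (hy : y ∈ Y) : y ^ s ∈ CZ Y := by
  let q : L →* L ⧸ CZ Y := QuotientGroup.mk' (CZ Y)
  have hq : ∀ a, q a = 1 ↔ a ∈ CZ Y := fun a => QuotientGroup.eq_one_iff a
  have hab : ∀ a ∈ Y, ∀ b ∈ Y, q a * q b = q b * q a := by
    intro a ha b hb
    have h1 := (hq _).2 (str_der Y X S hY hSX hcop hmin hnc a b ha hb)
    rw [map_mul, map_mul, map_mul, map_inv, map_inv] at h1
    have h2 : q a * q b * (q a)⁻¹ = q b := by
      rwa [mul_inv_eq_one] at h1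
    calc q a * q b = q a * q b * (q a)⁻¹ * q a := by group
      _ = q b * q a := by rw [h2]
  let P : Subgroup L :=
    { carrier := {g | g ∈ Y ∧ g ^ s ∈ CZ Y}
      mul_mem' := by
        rintro a b ⟨ha, ha'⟩ ⟨hb, hb'⟩
        refine ⟨Y.mul_mem ha hb, ?_⟩
        apply (hq _).1
        have hc : Commute (q a) (q b) := hab a ha b hb
        rw [map_pow, map_mul, hc.mul_pow, ← map_pow, ← map_pow, (hq _).2 ha', (hq _).2 hb', one_mul]
      one_mem' := ⟨Y.one_mem, by rw [one_pow]; exact one_mem _⟩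
      inv_mem' := by
        rintro a ⟨ha, ha'⟩
        refine ⟨Y.inv_mem ha, ?_⟩
        rw [inv_pow]
        exact Subgroup.inv_mem _ ha' }
  by_cases hP : P = Y
  · have : y ∈ P := by rw [hP]; exact hy
    exact this.2
  exfalso
  have hPn : P.Normal := ⟨by
    rintro a ⟨ha, ha'⟩ g
    refine ⟨hYn.conj_mem a ha g, ?_⟩
    rw [conj_pow]
    exact (CZ_normal Y).conj_mem _ ha' g⟩
  have hPZ := str_center Y X S hY hSX hcop hmin hnc P (fun a ha => ha.1) hP
    (fun g _ n hn => hPn.conj_mem n hn g) (fun g _ n hn => hPn.conj_mem n hn g)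
  have hall : ∀ n : ℕ, ∀ a ∈ Y, a ^ s ^ n ∈ CZ Y → a ∈ CZ Y := by
    intro n
    induction n with
    | zero =>
      intro a _ h
      simpa using h
    | succ n ih =>
      intro a ha h
      apply ih a ha
      apply hPZ
      refine ⟨Y.pow_mem ha _, ?_⟩
      rw [← pow_mul, ← pow_succ]
      exact h
  apply hP
  apply le_antisymm (fun a ha => ha.1)
  intro a ha
  obtain ⟨n, hn⟩ := hY ⟨a, ha⟩
  have h1 : a ^ s ^ n = 1 := congrArg Subtype.val hn
  have h2 : a ∈ CZ Y := hall n a ha (by rw [h1]; exact one_mem _)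
  refine ⟨ha, ?_⟩
  exact Subgroup.pow_mem _ h2 _

end str

end Cfsg.Agent.Lib.Struct.PQFix
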