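import Mathlib
import Cfsg.Agent.Lib.Struct.PQFixF

/-!
# Extraspecial sections: the bounds coming from an operator of prime order
-/

set_option autoImplicit false

namespace Cfsg.Agent.Lib.Struct.PQFix

open Subgroup SymFix

section secb

variable {L : Type*} [Group L] [Finite L] {F : Type*} [Field F] [IsAlgClosed F] {V : Type*} [AddCommGroup V]
  [Module F V] [FiniteDimensional F V]

/-- **The bounds for an operator on a section.** -/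
theorem sec_bounds (ρ : L →* Module.End F V) (Y : Subgroup L) [hYn : Y.Normal] (S : Set L)
    {b : L} {n : ℕ} (hn : n.Prime) (hb : b ^ n = 1)
    (hU : ∀ v, ∑ i ∈ Finset.range n, ((ρ b) ^ i) v = 0)
    (hbZ : ∀ z ∈ CZ Y, b * z * b⁻¹ = z)
    (hinj : ∀ z ∈ CZ Y, ρ z = 1 → z = 1)
    (hcard : ((Nat.card Y : ℕ) : F) ≠ 0) (hn0 : ((n : ℕ) : F) ≠ 0)
    (hstr : ∀ N : Subgroup L, N ≤ Y → N ≠ Y → (∀ g ∈ S, ∀ k ∈ N, g * k * g⁻¹ ∈ N) →
      (∀ y ∈ Y, ∀ k ∈ N, y * k * y⁻¹ ∈ N) → N ≤ CZ Y)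
    (hSZ : ∀ g ∈ S, ∀ z ∈ CZ Y, g * z * g⁻¹ = z)
    (hab : ∀ a ∈ Y, ∀ b ∈ Y, a * b * a⁻¹ * b⁻¹ ∈ CZ Y)
    (g₀ h₀ : L) (hg₀ : g₀ ∈ Y) (hh₀ : h₀ ∈ Y) (hne : g₀ * h₀ ≠ h₀ * g₀)
    (hbP : b ∈ PN Y (CZ Y)) :
    ((CZ Y).subgroupOf Y).index ≤ (n - 1) ^ 2 *
      Nat.card {w : ↥Y ⧸ (CZ Y).subgroupOf Y // secHom Y (CZ Y) ⟨b, hbP⟩ w = w} ∧
    (∃ D : ℕ, ((CZ Y).subgroupOf Y).index = D ^ 2) ∧
    ∀ s : ℕ, n.Coprime s → (∀ y ∈ Y, y ^ s ∈ CZ Y) → ∀ C : Subgroup (↥Y ⧸ (CZ Y).subgroupOf Y),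
      (∀ w, w ∈ C ↔ secHom Y (CZ Y) ⟨b, hbP⟩ w = w) → ¬ (Nat.card C).Prime := by
  classical
  haveI hKf : Fintype ↥Y := Fintype.ofFinite _
  have hZc : ∀ x ∈ CZ Y, ∀ y ∈ CZ Y, x * y = y * x := by
    intro x hx y hy
    exact (mem_CZ.1 hy).2 x (mem_CZ.1 hx).1
  have hZY : CZ Y ≤ Y := fun z hz => (mem_CZ.1 hz).1
  have hZcent : ∀ y ∈ Y, ∀ z ∈ CZ Y, y * z * y⁻¹ = z := by
    intro y hy z hz
    rw [(mem_CZ.1 hz).2 y hy]
    group
  have hZcard : ((Nat.card (CZ Y) : ℕ) : F) ≠ 0 := by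
    intro h
    apply hcard
    have h1 : Nat.card (CZ Y) ∣ Nat.card Y := Subgroup.card_dvd_of_le hZY
    obtain ⟨m, hm⟩ := h1
    rw [hm, Nat.cast_mul, h, zero_mul]
  have hc₀ : g₀ * h₀ * g₀⁻¹ * h₀⁻¹ ∈ CZ Y := hab _ hg₀ _ hh₀
  have hc₀1 : ρ ((⟨_, hc₀⟩ : CZ Y) : L) ≠ 1 := by
    intro h
    have h1 := hinj _ hc₀ h
    apply hne
    have h2 : g₀ * h₀ * g₀⁻¹ = h₀ := mul_inv_eq_one.1 h1
    calc g₀ * h₀ = g₀ * h₀ * g₀⁻¹ * g₀ := by group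
      _ = h₀ * g₀ := by rw [h2]
  obtain ⟨μ, hocc, hμ⟩ := exists_eig_ne_one ρ hZc hZcard ⟨_, hc₀⟩ hc₀1
  -- the radical
  let R : Subgroup L :=
    { carrier := {y | ∃ hy : y ∈ Y, ∀ (w : L) (hw : w ∈ Y), μ ⟨y * w * y⁻¹ * w⁻¹, hab y hy w hw⟩ = 1}
      mul_mem' := by
        rintro x y ⟨hx, hx'⟩ ⟨hy, hy'⟩
        refine ⟨Y.mul_mem hx hy, fun w hw => ?_⟩
        have h1 : (⟨(x * y) * w * (x * y)⁻¹ * w⁻¹, hab _ (Y.mul_mem hx hy) w hw⟩ : CZ Y) =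
            ⟨y * w * y⁻¹ * w⁻¹, hab y hy w hw⟩ * ⟨x * w * x⁻¹ * w⁻¹, hab x hx w hw⟩ := by
          apply Subtype.ext
          show (x * y) * w * (x * y)⁻¹ * w⁻¹ = (y * w * y⁻¹ * w⁻¹) * (x * w * x⁻¹ * w⁻¹)
          have h2 := hZcent x hx _ (hab y hy w hw)
          calc (x * y) * w * (x * y)⁻¹ * w⁻¹ = (x * (y * w * y⁻¹ * w⁻¹) * x⁻¹) * (x * w * x⁻¹ * w⁻¹) := by group
            _ = _ := by rw [h2]
        rw [h1, map_mul, hx' w hw, hy' w hw, one_mul]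
      one_mem' := by
        refine ⟨Y.one_mem, fun w hw => ?_⟩
        have h1 : (⟨1 * w * 1⁻¹ * w⁻¹, hab 1 Y.one_mem w hw⟩ : CZ Y) = 1 := by
          apply Subtype.ext
          show 1 * w * 1⁻¹ * w⁻¹ = 1
          group
        rw [h1, map_one]
      inv_mem' := by
        rintro x ⟨hx, hx'⟩
        refine ⟨Y.inv_mem hx, fun w hw => ?_⟩
        have h1 : (⟨x⁻¹ * w * x⁻¹⁻¹ * w⁻¹, hab _ (Y.inv_mem hx) w hw⟩ : CZ Y) = (⟨x * w * x⁻¹ * w⁻¹, hab x hx w hw⟩ : CZ Y)⁻¹ := by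
          apply Subtype.ext
          show x⁻¹ * w * x⁻¹⁻¹ * w⁻¹ = (x * w * x⁻¹ * w⁻¹)⁻¹
          have h2 := hZcent x⁻¹ (Y.inv_mem hx) _ (hab x hx w hw)
          have h4 : x⁻¹ * (x * w * x⁻¹ * w⁻¹) * x = (x * w * x⁻¹ * w⁻¹) := by
            simpa using h2
          calc x⁻¹ * w * x⁻¹⁻¹ * w⁻¹ = (x⁻¹ * (x * w * x⁻¹ * w⁻¹) * x)⁻¹ := by group
            _ = _ := by rw [h4]
        rw [h1, map_inv, hx' w hw, inv_one] }
  have hRconj : ∀ g : L, (∀ z ∈ CZ Y, g * z * g⁻¹ = z) → ∀ k ∈ R, g * k * g⁻¹ ∈ R := by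
    rintro g hg k ⟨hk, hk'⟩
    refine ⟨hYn.conj_mem k hk g, fun w hw => ?_⟩
    have hw' : g⁻¹ * w * g ∈ Y := by
      have := hYn.conj_mem w hw g⁻¹
      simpa using this
    have h1 := hk' _ hw'
    rw [← h1]
    congr 1
    apply Subtype.ext
    show (g * k * g⁻¹) * w * (g * k * g⁻¹)⁻¹ * w⁻¹ = k * (g⁻¹ * w * g) * k⁻¹ * (g⁻¹ * w * g)⁻¹
    have h2 := hg _ (hab k hk _ hw')
    rw [← h2]
    group
  have hRle : R ≤ CZ Y := by
    apply hstr R (fun y hy => hy.1)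
    · intro h
      have h1 : g₀ ∈ R := h ▸ hg₀
      obtain ⟨_, h2⟩ := h1
      exact hμ (h2 h₀ hh₀)
    · exact fun g hg => hRconj g (hSZ g hg)
    · exact fun y hy => hRconj y (hZcent y hy)
  -- the eigenspace
  have hcW : ∀ g : L, (∀ z ∈ CZ Y, g * z * g⁻¹ = z) → ∀ v ∈ eigS ρ μ, ρ g v ∈ eigS ρ μ := by
    intro g hg v hv z
    have h1 : ρ (z : L) * ρ g = ρ g * ρ (z : L) := by
      rw [← map_mul, ← map_mul]
      congr 1
      have := hg _ z.2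
      calc (z : L) * g = (g * z * g⁻¹) * g := by rw [this]
        _ = g * z := by group
    have h2 : ρ (z : L) (ρ g v) = ρ g (ρ (z : L) v) := congrArg (fun f : Module.End F V => f v) h1
    rw [h2, hv z, map_smul]
  have hρW : ∀ (g : ↥Y), ∀ v ∈ eigS ρ μ, ρ (g : L) v ∈ eigS ρ μ := fun g => hcW _ (hZcent _ g.2)
  have hbW : ∀ v ∈ eigS ρ μ, ρ b v ∈ eigS ρ μ := hcW b hbZ
  haveI hWnt : Nontrivial (eigS ρ μ) := (Submodule.nontrivial_iff_ne_bot).2 hocc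
  let ρW : ↥Y →* Module.End F (eigS ρ μ) :=
    { toFun := fun g => (ρ (g : L)).restrict (hρW g)
      map_one' := by
        ext v
        simp
      map_mul' := by
        intro g h
        ext v
        simp }
  have hρWa : ∀ (g : ↥Y) (v : eigS ρ μ), ((ρW g v : eigS ρ μ) : V) = ρ (g : L) v := fun _ _ => rfl
  let A : Module.End F (eigS ρ μ) := (ρ b).restrict hbW
  have hAa : ∀ (v : eigS ρ μ), ((A v : eigS ρ μ) : V) = ρ b v := fun _ => rfl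
  have hApow : ∀ (i : ℕ) (v : eigS ρ μ), (((A ^ i) v : eigS ρ μ) : V) = ((ρ b) ^ i) (v : V) := by
    intro i v
    induction i with
    | zero => rfl
    | succ i ih =>
      rw [pow_succ', pow_succ', Module.End.mul_apply, Module.End.mul_apply, hAa, ih]
  let χ : ↥Y → ↥Y → F := fun g h => ((μ ⟨(g : L) * h * (g : L)⁻¹ * (h : L)⁻¹, hab _ g.2 _ h.2⟩ : Fˣ) : F)
  have hχ : ∀ g h, ρW g * ρW h = χ g h • (ρW h * ρW g) := by
    intro g h
    ext v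
    have h1 : (g : L) * h = ((g : L) * h * (g : L)⁻¹ * (h : L)⁻¹) * ((h : L) * g) := by group
    have h2 : ρ (g : L) (ρ (h : L) (v : V)) = ρ ((g : L) * h * (g : L)⁻¹ * (h : L)⁻¹) (ρ (h : L) (ρ (g : L) (v : V))) := by
      have h3 : ρ (g : L) * ρ (h : L) = ρ ((g : L) * h * (g : L)⁻¹ * (h : L)⁻¹) * (ρ (h : L) * ρ (g : L)) := by
        rw [← map_mul, ← map_mul, ← map_mul, ← h1]
      exact congrArg (fun f : Module.End F V => f (v : V)) h3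
    have h4 : ρ (h : L) (ρ (g : L) (v : V)) ∈ eigS ρ μ := hρW h _ (hρW g _ v.2)
    show ρ (g : L) (ρ (h : L) (v : V)) = χ g h • (ρ (h : L) (ρ (g : L) (v : V)))
    rw [h2]
    exact h4 ⟨_, hab _ g.2 _ h.2⟩
  let M : Subgroup ↥Y := (CZ Y).subgroupOf Y
  let μ' : ↥Y → F := fun m => if h : (m : L) ∈ CZ Y then ((μ ⟨m, h⟩ : Fˣ) : F) else 0
  have hμ' : ∀ m ∈ M, ρW m = μ' m • 1 := by
    intro m hm
    have hm' : (m : L) ∈ CZ Y := Subgroup.mem_subgroupOf.1 hm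
    ext v
    show ρ (m : L) (v : V) = μ' m • (v : V)
    simp only [μ', dif_pos hm']
    exact v.2 ⟨m, hm'⟩
  have hnd : ∀ h, h ∉ M → ∃ g, χ h g ≠ 1 := by
    intro h hh
    have h1 : (h : L) ∉ R := fun hr => hh (Subgroup.mem_subgroupOf.2 (hRle hr))
    by_contra hcon
    push_neg at hcon
    apply h1
    refine ⟨h.2, fun w hw => ?_⟩
    have h2 := hcon ⟨w, hw⟩
    exact Units.ext h2
  let α : ↥Y →* ↥Y := secConj Y (CZ Y) ⟨b, hbP⟩
  have hαa : ∀ g : ↥Y, ((α g : ↥Y) : L) = b * g * b⁻¹ := fun _ => rfl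
  have hαn : ∀ g, α^[n] g = g := by
    intro g
    have h1 : ∀ i : ℕ, ((α^[i] g : ↥Y) : L) = b ^ i * g * (b ^ i)⁻¹ := by
      intro i
      induction i with
      | zero => simp
      | succ i ih =>
        rw [Function.iterate_succ_apply', hαa, ih, pow_succ']
        group
    apply Subtype.ext
    rw [h1, hb]
    simp
  have hαM : ∀ m ∈ M, α m ∈ M := by
    intro m hm
    have hm' : (m : L) ∈ CZ Y := Subgroup.mem_subgroupOf.1 hm
    apply Subgroup.mem_subgroupOf.2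
    rw [hαa, hbZ _ hm']
    exact hm'
  have hAn : A ^ n = 1 := by
    ext v
    rw [hApow, ← map_pow, hb, map_one]
    rfl
  have hAρ : ∀ g, A * ρW g = ρW (α g) * A := by
    intro g
    ext v
    show ρ b (ρ (g : L) (v : V)) = ρ (b * g * b⁻¹) (ρ b (v : V))
    have h1 : ρ b * ρ (g : L) = ρ (b * g * b⁻¹) * ρ b := by
      rw [← map_mul, ← map_mul]
      congr 1
      group
    exact congrArg (fun f : Module.End F V => f (v : V)) h1
  have h0 : ∑ i ∈ Finset.range n, A ^ i = 0 := by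
    ext v
    have h1 := hU (v : V)
    simp only [LinearMap.sum_apply, LinearMap.zero_apply]
    rw [Submodule.coe_sum]
    simp only [hApow]
    exact h1
  have hK : ((Fintype.card ↥Y : ℕ) : F) ≠ 0 := by
    rw [← Nat.card_eq_fintype_card]
    exact hcard
  refine ⟨?_, ?_, ?_⟩
  · exact gi_bound ρW M χ hχ μ' hμ' hnd α n A hAn hAρ hn hαn hn0 hK hαM h0
  · exact index_eq_square ρW M χ hχ μ' hμ' hnd hK
  · intro s hsn hs C hC hprime
    refine fixed_not_prime ρW M χ hχ μ' hμ' hnd ?_ α n hn.pos hαn hαM A hAn hAρ s hsn ?_ C ?_ hprime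
    · intro a b'
      exact Subgroup.mem_subgroupOf.2 (hab _ a.2 _ b'.2)
    · intro g
      exact Subgroup.mem_subgroupOf.2 (hs _ g.2)
    · intro q
      exact hC q

end secb

end Cfsg.Agent.Lib.Struct.PQFix
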