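import Mathlib
import Cfsg.Agent.Lib.Struct.PQFixG

/-!
# Frobenius groups acting: the minimal case
-/

set_option autoImplicit false

namespace Cfsg.Agent.Lib.Struct.PQFix

open Subgroup SymFix

section twist

variable {L : Type*} [Group L]

/-- Every element of a group with a fixed point free conjugation is a twisted commutator. -/
theorem exists_twist (X : Subgroup L) [Finite X] (b : L) (hbX : ∀ x ∈ X, b * x * b⁻¹ ∈ X)
    (hfix : ∀ x ∈ X, b * x * b⁻¹ = x → x = 1) (x : L) (hx : x ∈ X) :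
    ∃ w ∈ X, x = w⁻¹ * (b * w * b⁻¹) := by
  let f : ↥X → ↥X := fun w => ⟨(w : L)⁻¹ * (b * w * b⁻¹), X.mul_mem (X.inv_mem w.2) (hbX _ w.2)⟩
  have hinj : Function.Injective f := by
    intro w w' h
    have h1 : (w : L)⁻¹ * (b * w * b⁻¹) = (w' : L)⁻¹ * (b * w' * b⁻¹) := congrArg Subtype.val h
    have h2 : b * ((w' : L) * (w : L)⁻¹) * b⁻¹ = (w' : L) * (w : L)⁻¹ := by
      have h3 : (b * w' * b⁻¹) = (w' : L) * ((w : L)⁻¹ * (b * w * b⁻¹)) := by
        rw [h1]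
        group
      calc b * ((w' : L) * (w : L)⁻¹) * b⁻¹ = (b * w' * b⁻¹) * (b * w * b⁻¹)⁻¹ := by group
        _ = _ := by
          rw [h3]
          group
    have h3 := hfix _ (X.mul_mem w'.2 (X.inv_mem w.2)) h2
    apply Subtype.ext
    exact (mul_inv_eq_one.1 h3).symm
  obtain ⟨w, hw⟩ := (Finite.injective_iff_surjective.1 hinj) ⟨x, hx⟩
  exact ⟨w, w.2, (congrArg Subtype.val hw).symm⟩

theorem pow_gt_sq (k : ℕ) (hk : 1 ≤ k) : k ^ 2 < 4 ^ k := by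
  induction k, hk using Nat.le_induction with
  | base => norm_num
  | succ k hk ih =>
    rw [pow_succ 4]
    nlinarith

end twist

section lemH

variable {L : Type*} [Group L] [Finite L] {F : Type*} [Field F] [IsAlgClosed F] {V : Type*} [AddCommGroup V]
  [Module F V] [FiniteDimensional F V]

/-- **The minimal case of the Frobenius lemma.** -/
theorem lemH_min (ρ : L →* Module.End F V) (hinj : Function.Injective ρ) (Y X : Subgroup L) [hYn : Y.Normal]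
    (b : L) {p r s : ℕ} [hsf : Fact s.Prime] (hp : p.Prime) (hr : r.Prime) (hb : b ^ p = 1)
    (hU : ∀ v, ∑ i ∈ Finset.range p, ((ρ b) ^ i) v = 0)
    (hY : IsPGroup s Y) (hX : IsPGroup r X)
    (hbX : ∀ x ∈ X, b * x * b⁻¹ ∈ X) (hfix : ∀ x ∈ X, b * x * b⁻¹ = x → x = 1)
    (hps : p ≠ s) (hrs : r ≠ s) (hpr : p ≠ r)
    (hs0 : ((s : ℕ) : F) ≠ 0) (hp0 : ((p : ℕ) : F) ≠ 0)
    (hmin : ∀ N : Subgroup L, N ≤ Y → N ≠ Y → (∀ g ∈ {g | g ∈ X ∨ g = b}, ∀ n ∈ N, g * n * g⁻¹ ∈ N) →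
      ∀ x ∈ X, ∀ n ∈ N, x * n * x⁻¹ = n)
    (hnc : ¬ ∀ x ∈ X, ∀ y ∈ Y, x * y * x⁻¹ = y) : False := by
  classical
  let S : Set L := {g | g ∈ X ∨ g = b}
  have hSX : ∀ g ∈ S, ∀ x ∈ X, g * x * g⁻¹ ∈ X := by
    rintro g (hg | rfl) x hx
    · exact X.mul_mem (X.mul_mem hg hx) (X.inv_mem hg)
    · exact hbX x hx
  haveI hrf : Fact r.Prime := ⟨hr⟩
  have hcop : (Nat.card X).Coprime s := by
    obtain ⟨k, hk⟩ := IsPGroup.iff_card.1 hX
    rw [hk]
    exact Nat.Coprime.pow_left k ((Nat.coprime_primes hr hsf.out).2 hrs)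
  have hcopp : (Nat.card X).Coprime p := by
    obtain ⟨k, hk⟩ := IsPGroup.iff_card.1 hX
    rw [hk]
    exact Nat.Coprime.pow_left k ((Nat.coprime_primes hr hp).2 hpr.symm)
  have hcardY : ((Nat.card Y : ℕ) : F) ≠ 0 := by
    obtain ⟨k, hk⟩ := IsPGroup.iff_card.1 hY
    rw [hk, Nat.cast_pow]
    exact pow_ne_zero k hs0
  have hcopY : (Nat.card X).Coprime (Nat.card Y) := by
    obtain ⟨k, hk⟩ := IsPGroup.iff_card.1 hY
    rw [hk]
    exact Nat.Coprime.pow_right k hcop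
  by_cases hab : ∀ a ∈ Y, ∀ c ∈ Y, a * c = c * a
  · -- the abelian case
    apply hnc
    have hbY : ∀ y ∈ Y, b * y * b⁻¹ = y := fun y hy =>
      hinj (kl_comm ρ Y hab hcardY hp hb hU y hy)
    intro x hx y hy
    obtain ⟨w, hw, rfl⟩ := exists_twist X b hbX hfix x hx
    have h1 : b⁻¹ * y * b = y := by
      calc b⁻¹ * y * b = b⁻¹ * (b * y * b⁻¹) * b := by rw [hbY y hy]
        _ = y := by group
    have hwy : w * y * w⁻¹ ∈ Y := hYn.conj_mem y hy w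
    have h2 := hbY _ hwy
    calc w⁻¹ * (b * w * b⁻¹) * y * (w⁻¹ * (b * w * b⁻¹))⁻¹
        = w⁻¹ * (b * (w * (b⁻¹ * y * b) * w⁻¹) * b⁻¹) * w := by group
      _ = w⁻¹ * (b * (w * y * w⁻¹) * b⁻¹) * w := by rw [h1]
      _ = w⁻¹ * (w * y * w⁻¹) * w := by rw [h2]
      _ = y := by group
  -- the nonabelian case
  push_neg at hab
  obtain ⟨g₀, hg₀, h₀, hh₀, hne⟩ := hab
  have hZY : CZ Y ≤ Y := fun z hz => (mem_CZ.1 hz).1
  have hZne : CZ Y ≠ Y := by
    intro h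
    have h1 : h₀ ∈ CZ Y := by rw [h]; exact hh₀
    exact hne ((mem_CZ.1 h1).2 g₀ hg₀)
  have hZc : ∀ x ∈ CZ Y, ∀ y ∈ CZ Y, x * y = y * x := by
    intro x hx y hy
    exact (mem_CZ.1 hy).2 x (mem_CZ.1 hx).1
  have hZcard : ((Nat.card (CZ Y) : ℕ) : F) ≠ 0 := by
    intro h
    apply hcardY
    have h1 : Nat.card (CZ Y) ∣ Nat.card Y := Subgroup.card_dvd_of_le hZY
    obtain ⟨m, hm⟩ := h1
    rw [hm, Nat.cast_mul, h, zero_mul]
  have hbZ : ∀ z ∈ CZ Y, b * z * b⁻¹ = z := fun z hz =>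
    hinj (kl_comm ρ (CZ Y) hZc hZcard hp hb hU z hz)
  have hZnor : (CZ Y).Normal := inferInstance
  have hXZ : ∀ x ∈ X, ∀ z ∈ CZ Y, x * z * x⁻¹ = z :=
    hmin _ hZY hZne (fun g _ n hn => hZnor.conj_mem n hn g)
  have hSZ : ∀ g ∈ S, ∀ z ∈ CZ Y, g * z * g⁻¹ = z := by
    rintro g (hg | rfl) z hz
    · exact hXZ g hg z hz
    · exact hbZ z hz
  have hstr := str_center Y X S hY hSX hcop hmin hnc
  have hder := str_der Y X S hY hSX hcop hmin hnc
  have hpow := str_pow Y X S hY hSX hcop hmin hnc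
  have hab' : ∀ a ∈ Y, ∀ c ∈ Y, a * c * a⁻¹ * c⁻¹ ∈ CZ Y := fun a ha c hc => hder a c ha hc
  have hbP : b ∈ PN Y (CZ Y) := mem_PN (fun y hy => hYn.conj_mem y hy b) (fun z hz => by rw [hbZ z hz]; exact hz)
  obtain ⟨hbd, -, hnp⟩ := sec_bounds ρ Y S hp hb hU hbZ (fun z _ h => hinj (by rw [h, map_one])) hcardY hp0 hstr hSZ hab'
    g₀ h₀ hg₀ hh₀ hne hbP
  -- the section
  let bP : ↥(PN Y (CZ Y)) := ⟨b, hbP⟩
  let τ : MulAut (↥Y ⧸ (CZ Y).subgroupOf Y) := secHom Y (CZ Y) bP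
  have hW : ∀ a c : ↥Y ⧸ (CZ Y).subgroupOf Y, a * c = c * a := sec_comm Y (CZ Y) hab'
  have hτp : τ ^ p = 1 := by
    show (secHom Y (CZ Y) bP) ^ p = 1
    rw [← map_pow]
    have : bP ^ p = 1 := Subtype.ext hb
    rw [this, map_one]
  have hexp : ∀ w : ↥Y ⧸ (CZ Y).subgroupOf Y, w ^ s = 1 := by
    intro w
    obtain ⟨y, rfl⟩ := QuotientGroup.mk_surjective w
    rw [← QuotientGroup.mk_pow]
    apply (QuotientGroup.eq_one_iff _).2
    exact Subgroup.mem_subgroupOf.2 (hpow _ y.2)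
  -- the action of `X`
  have hXP : ∀ x ∈ X, x ∈ PN Y (CZ Y) := fun x hx =>
    mem_PN (fun y hy => hYn.conj_mem y hy x) (fun z hz => by rw [hXZ x hx z hz]; exact hz)
  let φ : ↥X →* MulAut (↥Y ⧸ (CZ Y).subgroupOf Y) :=
    (secHom Y (CZ Y)).comp (Subgroup.inclusion (fun x hx => hXP x hx))
  have hφ : ∀ (x : ↥X) (y : ↥Y), φ x (y : ↥Y ⧸ (CZ Y).subgroupOf Y) =
      ((⟨(x : L) * y * (x : L)⁻¹, hYn.conj_mem _ y.2 _⟩ : ↥Y) : ↥Y ⧸ (CZ Y).subgroupOf Y) := fun _ _ => rfl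
  have hτa : ∀ (y : ↥Y), τ (y : ↥Y ⧸ (CZ Y).subgroupOf Y) =
      ((⟨b * y * b⁻¹, hYn.conj_mem _ y.2 _⟩ : ↥Y) : ↥Y ⧸ (CZ Y).subgroupOf Y) := fun _ => rfl
  let α : ↥X →* ↥X :=
    { toFun := fun x => ⟨b * x * b⁻¹, hbX _ x.2⟩
      map_one' := by
        apply Subtype.ext
        simp
      map_mul' := by
        intro a c
        apply Subtype.ext
        simp only [Subgroup.coe_mul]
        group }
  have hαa : ∀ x : ↥X, ((α x : ↥X) : L) = b * x * b⁻¹ := fun _ => rfl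
  have hαp : ∀ x : ↥X, α^[p] x = x := by
    intro x
    have h1 : ∀ n : ℕ, ((α^[n] x : ↥X) : L) = b ^ n * x * (b ^ n)⁻¹ := by
      intro n
      induction n with
      | zero => simp
      | succ n ih =>
        rw [Function.iterate_succ_apply', hαa, ih, pow_succ']
        group
    apply Subtype.ext
    rw [h1, hb]
    simp
  have hτφ : ∀ x, τ * φ x = φ (α x) * τ := by
    intro x
    show secHom Y (CZ Y) bP * secHom Y (CZ Y) _ = secHom Y (CZ Y) _ * secHom Y (CZ Y) bP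
    rw [← map_mul, ← map_mul]
    congr 1
    apply Subtype.ext
    show b * (x : L) = (b * x * b⁻¹) * b
    group
  have hφfix : ∀ x, α x = x → φ x = 1 := by
    intro x hx
    have h1 := hfix _ x.2 (congrArg Subtype.val hx)
    have h2 : x = 1 := Subtype.ext h1
    rw [h2, map_one]
  have hcopW : (Nat.card X).Coprime (Nat.card (↥Y ⧸ (CZ Y).subgroupOf Y)) :=
    Nat.Coprime.coprime_dvd_right (Subgroup.card_quotient_dvd_card _) hcopY
  have hXnt : φ.range ≠ ⊥ := by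
    intro h
    apply hnc
    intro x hx y hy
    have h1 : φ ⟨x, hx⟩ = 1 := by
      have h2 : φ ⟨x, hx⟩ ∈ φ.range := ⟨_, rfl⟩
      rw [h, mem_bot] at h2
      exact h2
    have h2 := hφ ⟨x, hx⟩ ⟨y, hy⟩
    rw [h1] at h2
    have h3 := QuotientGroup.eq.1 h2
    rw [Subgroup.mem_subgroupOf] at h3
    refine comm_of_section hY hZY (hXZ x hx) ?_ hy h3
    exact Nat.Coprime.coprime_dvd_left (Subgroup.orderOf_dvd_natCard X hx) hcop
  have hXτ : ∀ x ∈ φ.range, τ * x * τ⁻¹ ∈ φ.range := by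
    rintro _ ⟨x, rfl⟩
    rw [hτφ]
    refine ⟨α x, ?_⟩
    group
  have hcp : ¬ p ∣ Nat.card φ.ker := by
    intro h2
    have h3 : p ∣ Nat.card X := h2.trans (Subgroup.card_subgroup_dvd_card _)
    have h4 := Nat.dvd_gcd h3 (dvd_refl p)
    rw [hcopp] at h4
    exact hp.one_lt.ne' (Nat.dvd_one.1 h4)
  have hfixt : ∀ x ∈ φ.range, τ * x * τ⁻¹ = x → x = 1 := by
    rintro _ ⟨x, rfl⟩ h
    rw [hτφ] at h
    have h1 : φ (α x) = φ x := by
      rw [← h]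
      group
    have hker : x⁻¹ * α x ∈ φ.ker := by
      rw [MonoidHom.mem_ker, map_mul, map_inv, h1, inv_mul_cancel]
    have hJ : ∀ j ∈ φ.ker, α j ∈ φ.ker := by
      intro j hj
      rw [MonoidHom.mem_ker] at hj ⊢
      have h2 := hτφ j
      rw [hj, mul_one] at h2
      have h3 : φ (α j) * τ = 1 * τ := by rw [one_mul]; exact h2.symm
      exact mul_right_cancel h3
    obtain ⟨j, hj, hfj⟩ := exists_fixed_coset' hp α hαp φ.ker hJ hcp x hker
    have h5 := hφfix _ hfj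
    rw [map_mul, MonoidHom.mem_ker.1 hj, mul_one] at h5
    exact h5
  have hirr : ∀ W' : Subgroup (↥Y ⧸ (CZ Y).subgroupOf Y), (∀ x ∈ φ.range, ∀ w ∈ W', x w ∈ W') →
      (∀ w ∈ W', τ w ∈ W') → W' = ⊥ ∨ W' = ⊤ := by
    intro W' h1 h2
    let P : Subgroup L := (W'.comap (QuotientGroup.mk' ((CZ Y).subgroupOf Y))).map Y.subtype
    have hP : ∀ g, g ∈ P ↔ ∃ hg : g ∈ Y, ((⟨g, hg⟩ : ↥Y) : ↥Y ⧸ (CZ Y).subgroupOf Y) ∈ W' := by
      intro g
      constructor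
      · rintro ⟨y, hy, rfl⟩
        exact ⟨y.2, hy⟩
      · rintro ⟨hg, hg'⟩
        exact ⟨⟨g, hg⟩, hg', rfl⟩
    have hPY : P ≤ Y := fun g hg => ((hP g).1 hg).1
    by_cases hPe : P = Y
    · right
      rw [eq_top_iff]
      intro w _
      obtain ⟨y, rfl⟩ := QuotientGroup.mk_surjective w
      have h3 : (y : L) ∈ P := by rw [hPe]; exact y.2
      exact ((hP _).1 h3).2
    · left
      have hPS : ∀ g ∈ S, ∀ n ∈ P, g * n * g⁻¹ ∈ P := by
        rintro g (hg | rfl) n hn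
        · obtain ⟨hn1, hn2⟩ := (hP n).1 hn
          refine (hP _).2 ⟨hYn.conj_mem n hn1 g, ?_⟩
          have h3 := h1 _ ⟨⟨g, hg⟩, rfl⟩ _ hn2
          rw [hφ] at h3
          exact h3
        · obtain ⟨hn1, hn2⟩ := (hP n).1 hn
          refine (hP _).2 ⟨hYn.conj_mem n hn1 g, ?_⟩
          have h3 := h2 _ hn2
          rw [hτa] at h3
          exact h3
      have hPn : ∀ y ∈ Y, ∀ n ∈ P, y * n * y⁻¹ ∈ P := by
        intro y hy n hn
        obtain ⟨hn1, hn2⟩ := (hP n).1 hn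
        refine (hP _).2 ⟨hYn.conj_mem n hn1 y, ?_⟩
        have h3 : ((⟨y * n * y⁻¹, hYn.conj_mem n hn1 y⟩ : ↥Y) : ↥Y ⧸ (CZ Y).subgroupOf Y) = ((⟨n, hn1⟩ : ↥Y) : ↥Y ⧸ (CZ Y).subgroupOf Y) := by
          have h4 : (⟨y * n * y⁻¹, hYn.conj_mem n hn1 y⟩ : ↥Y) = (⟨y, hy⟩ : ↥Y) * ⟨n, hn1⟩ * (⟨y, hy⟩ : ↥Y)⁻¹ := rfl
          rw [h4, QuotientGroup.mk_mul, QuotientGroup.mk_mul, QuotientGroup.mk_inv, hW]
          group
        rw [h3]
        exact hn2
      have hPZ := hstr P hPY hPe hPS hPn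
      rw [eq_bot_iff]
      intro w hw
      obtain ⟨y, rfl⟩ := QuotientGroup.mk_surjective w
      have h3 : (y : L) ∈ P := (hP _).2 ⟨y.2, hw⟩
      have h4 := hPZ h3
      rw [mem_bot]
      exact (QuotientGroup.eq_one_iff _).2 (Subgroup.mem_subgroupOf.2 h4)
  have hfree := free_card hW hsf.out hr hp hexp hps hrs φ.range (hX.of_surjective φ.rangeRestrict φ.rangeRestrict_surjective) hXnt τ hτp hXτ hfixt hirr
  -- the fixed points
  obtain ⟨c, hc⟩ : ∃ c, c = Nat.card {w : ↥Y ⧸ (CZ Y).subgroupOf Y // τ w = w} := ⟨_, rfl⟩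
  rw [← hc] at hfree
  have hbd' : ((CZ Y).subgroupOf Y).index ≤ (p - 1) ^ 2 * c := by
    rw [hc]
    exact hbd
  let C : Subgroup (↥Y ⧸ (CZ Y).subgroupOf Y) :=
    { carrier := {w | τ w = w}
      mul_mem' := by
        intro a c' ha hc'
        show τ (a * c') = a * c'
        rw [map_mul, show τ a = a from ha, show τ c' = c' from hc']
      one_mem' := map_one τ
      inv_mem' := by
        intro a ha
        show τ a⁻¹ = a⁻¹
        rw [map_inv, show τ a = a from ha] }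
  have hcC : Nat.card C = c := by
    rw [hc]
    rfl
  have hnp' := hnp s ((Nat.coprime_primes hp hsf.out).2 hps) hpow C (fun w => Iff.rfl)
  rw [hcC] at hnp'
  have hc1 : c ≠ 1 := by
    intro h1
    rw [h1] at hc
    have hsub : Subsingleton {w : ↥Y ⧸ (CZ Y).subgroupOf Y // τ w = w} := by
      haveI := (Nat.card_eq_one_iff_unique.1 hc.symm).1
      infer_instance
    have hnorm : ∀ w, nrmW τ w p = 1 := by
      intro w
      have h2 := nrmW_fixed hW τ w hτp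
      have h3 : (⟨nrmW τ w p, h2⟩ : {w : ↥Y ⧸ (CZ Y).subgroupOf Y // τ w = w}) = ⟨1, map_one τ⟩ :=
        Subsingleton.elim _ _
      exact congrArg Subtype.val h3
    have h4 := aut_trivial hW φ α τ p hp hτp hαp hτφ hnorm hφfix hcopp hcopW
    apply hXnt
    rw [eq_bot_iff]
    rintro _ ⟨x, rfl⟩
    rw [mem_bot]
    exact h4 x
  have hc0 : 0 < c := by
    rw [hc]
    have : Nonempty {w : ↥Y ⧸ (CZ Y).subgroupOf Y // τ w = w} := ⟨⟨1, map_one τ⟩⟩
    exact Nat.card_pos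
  have hc4 : 4 ≤ c := by
    by_contra h
    have h2 : c = 2 ∨ c = 3 := by omega
    rcases h2 with h2 | h2
    · rw [h2] at hnp'
      exact hnp' Nat.prime_two
    · rw [h2] at hnp'
      exact hnp' Nat.prime_three
  have hind : Nat.card (↥Y ⧸ (CZ Y).subgroupOf Y) = ((CZ Y).subgroupOf Y).index := rfl
  rw [hind] at hfree
  have h5 : c ^ p ≤ (p - 1) ^ 2 * c := hfree.trans hbd'
  obtain ⟨k, hk⟩ : ∃ k, p = k + 1 := ⟨p - 1, by have := hp.pos; omega⟩
  have hk1 : 1 ≤ k := by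
    have := hp.two_le
    omega
  rw [hk, Nat.add_sub_cancel, pow_succ] at h5
  have h6 : c ^ k ≤ k ^ 2 := Nat.le_of_mul_le_mul_right h5 hc0
  have h7 := pow_gt_sq k hk1
  have h8 : 4 ^ k ≤ c ^ k := Nat.pow_le_pow_left hc4 k
  omega

end lemH

end Cfsg.Agent.Lib.Struct.PQFix
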