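import Mathlib
import Cfsg.Agent.Lib.Struct.PQFixH

/-!
# Cyclic groups of prime order acting: the minimal case, and the general forms
-/

set_option autoImplicit false

namespace Cfsg.Agent.Lib.Struct.PQFix

open Subgroup SymFix

section count

/-- A free action of prime order gives a congruence. -/
theorem card_modEq_of_fixed {W : Type*} [Group W] [Finite W] (τ : MulAut W) {q : ℕ} (hq : q.Prime)
    (hτ : τ ^ q = 1) (hfix : ∀ w, τ w = w → w = 1) : Nat.card W ≡ 1 [MOD q] := by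
  haveI : Fact q.Prime := ⟨hq⟩
  have hP : IsPGroup q ↥(zpowers τ) := by
    intro g
    refine ⟨1, ?_⟩
    obtain ⟨i, hi⟩ := mem_zpowers_iff.1 g.2
    apply Subtype.ext
    show ((g : MulAut W)) ^ q ^ 1 = 1
    rw [pow_one, ← hi, ← zpow_natCast, ← zpow_mul, mul_comm, zpow_mul, zpow_natCast, hτ, one_zpow]
  have h1 := hP.card_modEq_card_fixedPoints W
  have h2 : Nat.card (MulAction.fixedPoints ↥(zpowers τ) W) = 1 := by
    apply Nat.card_eq_one_iff_unique.2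
    refine ⟨⟨?_⟩, ⟨⟨1, ?_⟩⟩⟩
    · intro a b
      apply Subtype.ext
      have h3 : ∀ a : MulAction.fixedPoints ↥(zpowers τ) W, (a : W) = 1 := by
        intro a
        apply hfix
        exact a.2 ⟨τ, mem_zpowers τ⟩
      rw [h3, h3]
    · intro g
      exact map_one _
  rwa [h2] at h1

theorem comap_pgroup {L K : Type*} [Group L] [Group K] {p : ℕ} {H : Subgroup L} (h : IsPGroup p H)
    (f : K →* L) (hf : Function.Injective f) : IsPGroup p (H.comap f) :=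
  h.comap_of_injective f hf

end count

section lemG

variable {L : Type*} [Group L] [Finite L] {F : Type*} [Field F] [IsAlgClosed F] {V : Type*} [AddCommGroup V]
  [Module F V] [FiniteDimensional F V]

/-- **The minimal case of the lemma on elements of prime order.** -/
theorem lemG_min (ρ : L →* Module.End F V) (hinj : Function.Injective ρ) (Y : Subgroup L) [hYn : Y.Normal]
    (u : L) {p q s : ℕ} [hsf : Fact s.Prime] (hp : p.Prime) (hq : q.Prime) (hpq : p ∣ q - 1) (hu : u ^ q = 1)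
    (hU : ∀ v, ∑ i ∈ Finset.range q, ((ρ u) ^ i) v = 0)
    (hY : IsPGroup s Y) (hqs : q ≠ s) (hps : p ≠ s)
    (hs0 : ((s : ℕ) : F) ≠ 0) (hq0 : ((q : ℕ) : F) ≠ 0)
    (hmin : ∀ N : Subgroup L, N ≤ Y → N ≠ Y → (∀ n ∈ N, u * n * u⁻¹ ∈ N) → ∀ n ∈ N, u * n * u⁻¹ = n)
    (hnc : ¬ ∀ y ∈ Y, u * y * u⁻¹ = y) : False := by
  classical
  have hcardY : ((Nat.card Y : ℕ) : F) ≠ 0 := by
    obtain ⟨k, hk⟩ := IsPGroup.iff_card.1 hY
    rw [hk, Nat.cast_pow]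
    exact pow_ne_zero k hs0
  by_cases hab : ∀ a ∈ Y, ∀ c ∈ Y, a * c = c * a
  · exact hnc (fun y hy => hinj (kl_comm ρ Y hab hcardY hq hu hU y hy))
  push_neg at hab
  obtain ⟨g₀, hg₀, h₀, hh₀, hne⟩ := hab
  -- the structure
  let X : Subgroup L := zpowers u
  let S : Set L := (X : Set L)
  have hXcent : ∀ n : L, u * n * u⁻¹ = n → ∀ x ∈ X, x * n * x⁻¹ = n := by
    intro n hn x hx
    have h1 : zpowers u ≤ centralizer {n} := by
      rw [zpowers_le, Subgroup.mem_centralizer_singleton_iff]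
      calc u * n = (u * n * u⁻¹) * u := by group
        _ = n * u := by rw [hn]
    have h2 := h1 hx
    rw [Subgroup.mem_centralizer_singleton_iff] at h2
    rw [h2]
    group
  have hSX : ∀ g ∈ S, ∀ x ∈ X, g * x * g⁻¹ ∈ X := fun g hg x hx => X.mul_mem (X.mul_mem hg hx) (X.inv_mem hg)
  have huX : u ∈ X := mem_zpowers u
  have hcop : (Nat.card X).Coprime s := by
    have h1 : Nat.card X ∣ q := by
      show Nat.card (zpowers u) ∣ q
      rw [Nat.card_zpowers]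
      exact orderOf_dvd_of_pow_eq_one hu
    exact Nat.Coprime.coprime_dvd_left h1 ((Nat.coprime_primes hq hsf.out).2 hqs)
  have hminX : ∀ N : Subgroup L, N ≤ Y → N ≠ Y → (∀ g ∈ S, ∀ n ∈ N, g * n * g⁻¹ ∈ N) →
      ∀ x ∈ X, ∀ n ∈ N, x * n * x⁻¹ = n := by
    intro N h1 h2 h3 x hx n hn
    exact hXcent n (hmin N h1 h2 (h3 u huX) n hn) x hx
  have hncX : ¬ ∀ x ∈ X, ∀ y ∈ Y, x * y * x⁻¹ = y := fun h => hnc (h u huX)
  have hZY : CZ Y ≤ Y := fun z hz => (mem_CZ.1 hz).1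
  have hZne : CZ Y ≠ Y := by
    intro h
    have h1 : h₀ ∈ CZ Y := by rw [h]; exact hh₀
    exact hne ((mem_CZ.1 h1).2 g₀ hg₀)
  have hZc : ∀ x ∈ CZ Y, ∀ y ∈ CZ Y, x * y = y * x := by
    intro x hx y hy
    exact (mem_CZ.1 hy).2 x (mem_CZ.1 hx).1
  have hZcard : ((Nat.card (CZ Y) : ℕ) : F) ≠ 0 := by
    intro h
    apply hcardY
    have h1 : Nat.card (CZ Y) ∣ Nat.card Y := Subgroup.card_dvd_of_le hZY
    obtain ⟨m, hm⟩ := h1
    rw [hm, Nat.cast_mul, h, zero_mul]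
  have huZ : ∀ z ∈ CZ Y, u * z * u⁻¹ = z := fun z hz =>
    hinj (kl_comm ρ (CZ Y) hZc hZcard hq hu hU z hz)
  have hSZ : ∀ g ∈ S, ∀ z ∈ CZ Y, g * z * g⁻¹ = z := fun g hg z hz => hXcent z (huZ z hz) g hg
  have hstr := str_center Y X S hY hSX hcop hminX hncX
  have hder := str_der Y X S hY hSX hcop hminX hncX
  have hab' : ∀ a ∈ Y, ∀ c ∈ Y, a * c * a⁻¹ * c⁻¹ ∈ CZ Y := fun a ha c hc => hder a c ha hc
  have huP : u ∈ PN Y (CZ Y) := mem_PN (fun y hy => hYn.conj_mem y hy u) (fun z hz => by rw [huZ z hz]; exact hz)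
  obtain ⟨hbd, ⟨D, hD⟩, -⟩ := sec_bounds ρ Y S hq hu hU huZ (fun z _ h => hinj (by rw [h, map_one])) hcardY hq0 hstr hSZ hab'
    g₀ h₀ hg₀ hh₀ hne huP
  let uP : ↥(PN Y (CZ Y)) := ⟨u, huP⟩
  let τ : MulAut (↥Y ⧸ (CZ Y).subgroupOf Y) := secHom Y (CZ Y) uP
  have hW : ∀ a c : ↥Y ⧸ (CZ Y).subgroupOf Y, a * c = c * a := sec_comm Y (CZ Y) hab'
  have hτq : τ ^ q = 1 := by
    show (secHom Y (CZ Y) uP) ^ q = 1
    rw [← map_pow]
    have : uP ^ q = 1 := Subtype.ext hu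
    rw [this, map_one]
  have hτa : ∀ (y : ↥Y), τ (y : ↥Y ⧸ (CZ Y).subgroupOf Y) =
      ((⟨u * y * u⁻¹, hYn.conj_mem _ y.2 _⟩ : ↥Y) : ↥Y ⧸ (CZ Y).subgroupOf Y) := fun _ => rfl
  -- no fixed points on the section
  have hfp : ∀ w, τ w = w → w = 1 := by
    intro w hw
    let P : Subgroup L :=
      { carrier := {g | ∃ hg : g ∈ Y, τ ((⟨g, hg⟩ : ↥Y) : ↥Y ⧸ (CZ Y).subgroupOf Y) = ((⟨g, hg⟩ : ↥Y) : ↥Y ⧸ (CZ Y).subgroupOf Y)}
        mul_mem' := by
          rintro a c ⟨ha, ha'⟩ ⟨hc, hc'⟩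
          refine ⟨Y.mul_mem ha hc, ?_⟩
          have h1 : ((⟨a * c, Y.mul_mem ha hc⟩ : ↥Y) : ↥Y ⧸ (CZ Y).subgroupOf Y) =
              ((⟨a, ha⟩ : ↥Y) : ↥Y ⧸ (CZ Y).subgroupOf Y) * ((⟨c, hc⟩ : ↥Y) : ↥Y ⧸ (CZ Y).subgroupOf Y) := rfl
          rw [h1, map_mul, ha', hc']
        one_mem' := ⟨Y.one_mem, map_one τ⟩
        inv_mem' := by
          rintro a ⟨ha, ha'⟩
          refine ⟨Y.inv_mem ha, ?_⟩
          have h1 : ((⟨a⁻¹, Y.inv_mem ha⟩ : ↥Y) : ↥Y ⧸ (CZ Y).subgroupOf Y) =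
              ((⟨a, ha⟩ : ↥Y) : ↥Y ⧸ (CZ Y).subgroupOf Y)⁻¹ := rfl
          rw [h1, map_inv, ha'] }
    have hPY : P ≤ Y := fun g hg => hg.1
    have hPe : P ≠ Y := by
      intro h
      apply hnc
      intro y hy
      have h1 : y ∈ P := by rw [h]; exact hy
      obtain ⟨_, h2⟩ := h1
      rw [hτa] at h2
      have h3 := QuotientGroup.eq.1 h2.symm
      rw [Subgroup.mem_subgroupOf] at h3
      refine comm_of_section hY hZY (huZ) ?_ hy h3
      have h4 : orderOf u ∣ q := orderOf_dvd_of_pow_eq_one hu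
      exact Nat.Coprime.coprime_dvd_left h4 ((Nat.coprime_primes hq hsf.out).2 hqs)
    have hPS : ∀ g ∈ S, ∀ n ∈ P, g * n * g⁻¹ ∈ P := by
      intro g hg n hn
      obtain ⟨hn1, hn2⟩ := hn
      have hgP : g ∈ PN Y (CZ Y) := mem_PN (fun y hy => hYn.conj_mem y hy g) (fun z hz => by rw [hSZ g hg z hz]; exact hz)
      refine ⟨hYn.conj_mem n hn1 g, ?_⟩
      -- `g` is a power of `u`
      have hcomm : ∀ c : ↥(PN Y (CZ Y)), (c : L) ∈ X → τ * secHom Y (CZ Y) c = secHom Y (CZ Y) c * τ := by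
        intro c hc
        show secHom Y (CZ Y) uP * secHom Y (CZ Y) c = secHom Y (CZ Y) c * secHom Y (CZ Y) uP
        rw [← map_mul, ← map_mul]
        congr 1
        apply Subtype.ext
        obtain ⟨i, hi⟩ := mem_zpowers_iff.1 hc
        show u * (c : L) = (c : L) * u
        rw [← hi]
        exact (Commute.zpow_right (Commute.refl u) i).eq
      have h1 := hcomm ⟨g, hgP⟩ hg
      have h2 : secHom Y (CZ Y) ⟨g, hgP⟩ ((⟨n, hn1⟩ : ↥Y) : ↥Y ⧸ (CZ Y).subgroupOf Y) = ((⟨g * n * g⁻¹, hYn.conj_mem n hn1 g⟩ : ↥Y) : ↥Y ⧸ (CZ Y).subgroupOf Y) := rfl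
      rw [← h2]
      have h3 := congrArg (fun f : MulAut (↥Y ⧸ (CZ Y).subgroupOf Y) => f ((⟨n, hn1⟩ : ↥Y) : ↥Y ⧸ (CZ Y).subgroupOf Y)) h1
      have h4 : τ (secHom Y (CZ Y) ⟨g, hgP⟩ ((⟨n, hn1⟩ : ↥Y) : ↥Y ⧸ (CZ Y).subgroupOf Y)) = secHom Y (CZ Y) ⟨g, hgP⟩ (τ ((⟨n, hn1⟩ : ↥Y) : ↥Y ⧸ (CZ Y).subgroupOf Y)) := h3
      rw [h4, hn2]
    have hPn : ∀ y ∈ Y, ∀ n ∈ P, y * n * y⁻¹ ∈ P := by
      intro y hy n hn
      obtain ⟨hn1, hn2⟩ := hn
      refine ⟨hYn.conj_mem n hn1 y, ?_⟩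
      have h3 : ((⟨y * n * y⁻¹, hYn.conj_mem n hn1 y⟩ : ↥Y) : ↥Y ⧸ (CZ Y).subgroupOf Y) = ((⟨n, hn1⟩ : ↥Y) : ↥Y ⧸ (CZ Y).subgroupOf Y) := by
        have h4 : (⟨y * n * y⁻¹, hYn.conj_mem n hn1 y⟩ : ↥Y) = (⟨y, hy⟩ : ↥Y) * ⟨n, hn1⟩ * (⟨y, hy⟩ : ↥Y)⁻¹ := rfl
        rw [h4, QuotientGroup.mk_mul, QuotientGroup.mk_mul, QuotientGroup.mk_inv, hW]
        group
      rw [h3]
      exact hn2
    have hPZ := hstr P hPY hPe hPS hPn
    obtain ⟨y, rfl⟩ := QuotientGroup.mk_surjective w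
    have h3 : (y : L) ∈ P := ⟨y.2, hw⟩
    have h4 := hPZ h3
    exact (QuotientGroup.eq_one_iff _).2 (Subgroup.mem_subgroupOf.2 h4)
  -- the count
  have hc1 : Nat.card {w : ↥Y ⧸ (CZ Y).subgroupOf Y // τ w = w} = 1 := by
    apply Nat.card_eq_one_iff_unique.2
    refine ⟨⟨?_⟩, ⟨⟨1, map_one τ⟩⟩⟩
    intro a c
    apply Subtype.ext
    rw [hfp _ a.2, hfp _ c.2]
  have hbd' : ((CZ Y).subgroupOf Y).index ≤ (q - 1) ^ 2 * 1 := by
    have := hbd
    rw [show Nat.card {w : ↥Y ⧸ (CZ Y).subgroupOf Y // secHom Y (CZ Y) ⟨u, huP⟩ w = w} = 1 from hc1] at this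
    exact this
  rw [mul_one, hD] at hbd'
  have hDle : D ≤ q - 1 := by
    by_contra h
    push_neg at h
    have : (q - 1) ^ 2 < D ^ 2 := Nat.pow_lt_pow_left h (by norm_num)
    omega
  have hm := card_modEq_of_fixed τ hq hτq hfp
  have hind : Nat.card (↥Y ⧸ (CZ Y).subgroupOf Y) = ((CZ Y).subgroupOf Y).index := rfl
  rw [hind, hD] at hm
  have hD0 : 0 < D := by
    rcases Nat.eq_zero_or_pos D with h | h
    · exfalso
      rw [h] at hD
      have h1 : ((CZ Y).subgroupOf Y).index ≠ 0 := Subgroup.index_ne_zero_of_finite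
      rw [hD] at h1
      exact h1 (by norm_num)
    · exact h
  have hq2 : q ∣ (D - 1) * (D + 1) := by
    have h1 : (D - 1) * (D + 1) = D ^ 2 - 1 := by
      obtain ⟨d, rfl⟩ : ∃ d, D = d + 1 := ⟨D - 1, by omega⟩
      simp only [Nat.add_sub_cancel]
      have : (d + 1) ^ 2 = d * (d + 1 + 1) + 1 := by ring
      rw [this]
      simp
    rw [h1]
    exact (Nat.modEq_iff_dvd' (Nat.one_le_pow _ _ hD0)).1 hm.symm
  rcases (Nat.Prime.dvd_mul hq).1 hq2 with h | h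
  · -- `D = 1`
    have hD1 : D - 1 = 0 := by
      by_contra h1
      have := Nat.le_of_dvd (Nat.pos_of_ne_zero h1) h
      have := hq.pos
      omega
    have hD2 : D = 1 := by omega
    rw [hD2, one_pow] at hD
    have h1 : (CZ Y).subgroupOf Y = ⊤ := Subgroup.index_eq_one.1 hD
    apply hZne
    apply le_antisymm hZY
    intro y hy
    have h2 : (⟨y, hy⟩ : ↥Y) ∈ (CZ Y).subgroupOf Y := by rw [h1]; exact Subgroup.mem_top _
    exact Subgroup.mem_subgroupOf.1 h2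
  · -- `D = q - 1`
    have hD2 : D + 1 = q := by
      have h1 := Nat.le_of_dvd (by omega) h
      have := hq.pos
      omega
    have hpD : p ∣ D := by
      have : q - 1 = D := by omega
      rwa [this] at hpq
    have hQp : IsPGroup s (↥Y ⧸ (CZ Y).subgroupOf Y) := hY.to_quotient _
    obtain ⟨k, hk⟩ := IsPGroup.iff_card.1 hQp
    rw [hind, hD] at hk
    have h1 : p ∣ s ^ k := by
      rw [← hk]
      exact hpD.trans (dvd_pow_self D (by norm_num))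
    exact hps ((Nat.prime_dvd_prime_iff_eq hp hsf.out).1 (hp.dvd_of_dvd_pow h1))

end lemG

end Cfsg.Agent.Lib.Struct.PQFix
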