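import Mathlib
import Cfsg.Agent.Lib.Struct.PQFixI

/-!
# General forms of the two lemmas: subgroups which are not normal, and subspaces
-/

set_option autoImplicit false

namespace Cfsg.Agent.Lib.Struct.PQFix

open Subgroup SymFix

section inj

variable {L : Type*} [Group L] [Finite L] {F : Type*} [Field F] [IsAlgClosed F] {V : Type*} [AddCommGroup V]
  [Module F V] [FiniteDimensional F V]

/-- A subgroup of the normalizer, mapped down, stays proper. -/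
theorem map_ne_of_ne {Y₁ : Subgroup L} {N' : Subgroup ↥(normalizer (Y₁ : Set L))}
    (h : N' ≠ Y₁.subgroupOf (normalizer (Y₁ : Set L))) : N'.map (normalizer (Y₁ : Set L)).subtype ≠ Y₁ := by
  intro h1
  apply h
  have h2 := Subgroup.comap_map_eq_self_of_injective (normalizer (Y₁ : Set L)).subtype_injective N'
  rw [h1] at h2
  exact h2.symm

theorem map_le_of_le {Y₁ : Subgroup L} {N' : Subgroup ↥(normalizer (Y₁ : Set L))}
    (h : N' ≤ Y₁.subgroupOf (normalizer (Y₁ : Set L))) : N'.map (normalizer (Y₁ : Set L)).subtype ≤ Y₁ := by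
  rintro _ ⟨n, hn, rfl⟩
  exact Subgroup.mem_subgroupOf.1 (h hn)

/-- **The Frobenius lemma for a faithful module.** -/
theorem lemH_inj (ρ : L →* Module.End F V) (hinj : Function.Injective ρ) (Y X : Subgroup L)
    (b : L) {p r s : ℕ} [hsf : Fact s.Prime] (hp : p.Prime) (hr : r.Prime) (hb : b ^ p = 1)
    (hU : ∀ v, ∑ i ∈ Finset.range p, ((ρ b) ^ i) v = 0)
    (hY : IsPGroup s Y) (hX : IsPGroup r X) (hXY : ∀ x ∈ X, ∀ y ∈ Y, x * y * x⁻¹ ∈ Y)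
    (hbY : ∀ y ∈ Y, b * y * b⁻¹ ∈ Y)
    (hbX : ∀ x ∈ X, b * x * b⁻¹ ∈ X) (hfix : ∀ x ∈ X, b * x * b⁻¹ = x → x = 1)
    (hps : p ≠ s) (hrs : r ≠ s) (hpr : p ≠ r)
    (hs0 : ((s : ℕ) : F) ≠ 0) (hp0 : ((p : ℕ) : F) ≠ 0) : ∀ x ∈ X, ∀ y ∈ Y, x * y * x⁻¹ = y := by
  classical
  by_contra hnc
  let Pd : Subgroup L → Prop := fun N => N ≤ Y ∧ (∀ g ∈ {g | g ∈ X ∨ g = b}, ∀ n ∈ N, g * n * g⁻¹ ∈ N) ∧
    ¬ ∀ x ∈ X, ∀ y ∈ N, x * y * x⁻¹ = y
  have hne : (setOf Pd).Nonempty := by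
    refine ⟨Y, le_rfl, ?_, hnc⟩
    rintro g (hg | rfl) n hn
    · exact hXY g hg n hn
    · exact hbY n hn
  obtain ⟨Y₁, hY₁⟩ := (Set.toFinite (setOf Pd)).exists_minimal hne
  obtain ⟨hY₁Y, hY₁S, hY₁c⟩ := hY₁.prop
  have hmin₁ : ∀ N : Subgroup L, N ≤ Y₁ → N ≠ Y₁ → (∀ g ∈ {g | g ∈ X ∨ g = b}, ∀ n ∈ N, g * n * g⁻¹ ∈ N) →
      ∀ x ∈ X, ∀ n ∈ N, x * n * x⁻¹ = n := by
    intro N h1 h2 h3
    by_contra h4
    exact h2 (le_antisymm h1 (hY₁.le_of_le ⟨h1.trans hY₁Y, h3, h4⟩ h1))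
  have hbN : b ∈ normalizer (Y₁ : Set L) := mem_normalizer_of_finite (hY₁S b (Or.inr rfl))
  have hXN : ∀ x ∈ X, x ∈ normalizer (Y₁ : Set L) := fun x hx => mem_normalizer_of_finite (hY₁S x (Or.inl hx))
  haveI hnor : (Y₁.subgroupOf (normalizer (Y₁ : Set L))).Normal := Subgroup.normal_in_normalizer
  let N₁ := normalizer (Y₁ : Set L)
  refine lemH_min (ρ.comp N₁.subtype) (hinj.comp N₁.subtype_injective) (Y₁.subgroupOf N₁) (X.subgroupOf N₁)
    ⟨b, hbN⟩ hp hr (Subtype.ext hb) ?_ ?_ ?_ ?_ ?_ hps hrs hpr hs0 hp0 ?_ ?_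
  · intro v
    exact hU v
  · exact comap_pgroup (hY.to_le hY₁Y) _ N₁.subtype_injective
  · exact comap_pgroup hX _ N₁.subtype_injective
  · intro x hx
    exact hbX _ (Subgroup.mem_subgroupOf.1 hx)
  · intro x hx h
    apply Subtype.ext
    exact hfix _ (Subgroup.mem_subgroupOf.1 hx) (congrArg Subtype.val h)
  · intro N' hN'1 hN'2 hN'3 x hx n hn
    apply Subtype.ext
    refine hmin₁ (N'.map N₁.subtype) (map_le_of_le hN'1) (map_ne_of_ne hN'2) ?_ _ (Subgroup.mem_subgroupOf.1 hx) _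
      (Subgroup.mem_map_of_mem _ hn)
    rintro g hg _ ⟨n', hn', rfl⟩
    rcases hg with hg | rfl
    · exact ⟨_, hN'3 ⟨g, hXN g hg⟩ (Or.inl (Subgroup.mem_subgroupOf.2 hg)) n' hn', rfl⟩
    · exact ⟨_, hN'3 ⟨g, hbN⟩ (Or.inr rfl) n' hn', rfl⟩
  · intro h
    apply hY₁c
    intro x hx y hy
    have hyN : y ∈ N₁ := Subgroup.le_normalizer hy
    have h1 := h ⟨x, hXN x hx⟩ (Subgroup.mem_subgroupOf.2 hx) ⟨y, hyN⟩ (Subgroup.mem_subgroupOf.2 hy)
    exact congrArg Subtype.val h1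

/-- **The lemma on elements of prime order, for a faithful module.** -/
theorem lemG_inj (ρ : L →* Module.End F V) (hinj : Function.Injective ρ) (Y : Subgroup L)
    (u : L) {p q s : ℕ} [hsf : Fact s.Prime] (hp : p.Prime) (hq : q.Prime) (hpq : p ∣ q - 1) (hu : u ^ q = 1)
    (hU : ∀ v, ∑ i ∈ Finset.range q, ((ρ u) ^ i) v = 0)
    (hY : IsPGroup s Y) (huY : ∀ y ∈ Y, u * y * u⁻¹ ∈ Y) (hqs : q ≠ s) (hps : p ≠ s)
    (hs0 : ((s : ℕ) : F) ≠ 0) (hq0 : ((q : ℕ) : F) ≠ 0) : ∀ y ∈ Y, u * y * u⁻¹ = y := by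
  classical
  by_contra hnc
  let Pd : Subgroup L → Prop := fun N => N ≤ Y ∧ (∀ n ∈ N, u * n * u⁻¹ ∈ N) ∧ ¬ ∀ y ∈ N, u * y * u⁻¹ = y
  have hne : (setOf Pd).Nonempty := ⟨Y, le_rfl, huY, hnc⟩
  obtain ⟨Y₁, hY₁⟩ := (Set.toFinite (setOf Pd)).exists_minimal hne
  obtain ⟨hY₁Y, hY₁S, hY₁c⟩ := hY₁.prop
  have hmin₁ : ∀ N : Subgroup L, N ≤ Y₁ → N ≠ Y₁ → (∀ n ∈ N, u * n * u⁻¹ ∈ N) → ∀ n ∈ N, u * n * u⁻¹ = n := by
    intro N h1 h2 h3
    by_contra h4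
    exact h2 (le_antisymm h1 (hY₁.le_of_le ⟨h1.trans hY₁Y, h3, h4⟩ h1))
  have huN : u ∈ normalizer (Y₁ : Set L) := mem_normalizer_of_finite hY₁S
  haveI hnor : (Y₁.subgroupOf (normalizer (Y₁ : Set L))).Normal := Subgroup.normal_in_normalizer
  let N₁ := normalizer (Y₁ : Set L)
  refine lemG_min (ρ.comp N₁.subtype) (hinj.comp N₁.subtype_injective) (Y₁.subgroupOf N₁)
    ⟨u, huN⟩ hp hq hpq (Subtype.ext hu) ?_ ?_ hqs hps hs0 hq0 ?_ ?_
  · intro v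
    exact hU v
  · exact comap_pgroup (hY.to_le hY₁Y) _ N₁.subtype_injective
  · intro N' hN'1 hN'2 hN'3 n hn
    apply Subtype.ext
    refine hmin₁ (N'.map N₁.subtype) (map_le_of_le hN'1) (map_ne_of_ne hN'2) ?_ _ (Subgroup.mem_map_of_mem _ hn)
    rintro _ ⟨n', hn', rfl⟩
    exact ⟨_, hN'3 n' hn', rfl⟩
  · intro h
    apply hY₁c
    intro y hy
    have hyN : y ∈ N₁ := Subgroup.le_normalizer hy
    have h1 := h ⟨y, hyN⟩ (Subgroup.mem_subgroupOf.2 hy)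
    exact congrArg Subtype.val h1

end inj

section sub

universe u₁

variable {L : Type u₁} [Group L] {F : Type*} [Field F] {V : Type*} [AddCommGroup V] [Module F V]

/-- The stabilizer of a subspace. -/
def stabSub (ρ : L →* Module.End F V) (U : Submodule F V) : Subgroup L where
  carrier := {g | (∀ v ∈ U, ρ g v ∈ U) ∧ (∀ v ∈ U, ρ g⁻¹ v ∈ U)}
  mul_mem' := by
    rintro a c ⟨ha, ha'⟩ ⟨hc, hc'⟩
    refine ⟨fun v hv => ?_, fun v hv => ?_⟩
    · rw [map_mul]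
      exact ha _ (hc v hv)
    · rw [mul_inv_rev, map_mul]
      exact hc' _ (ha' v hv)
  one_mem' := by
    refine ⟨fun v hv => ?_, fun v hv => ?_⟩
    · rw [map_one]
      exact hv
    · rw [inv_one, map_one]
      exact hv
  inv_mem' := by
    rintro a ⟨ha, ha'⟩
    refine ⟨ha', ?_⟩
    rw [inv_inv]
    exact ha

theorem mem_stabSub_of_subgroup {ρ : L →* Module.End F V} {U : Submodule F V} {Y : Subgroup L}
    (h : ∀ y ∈ Y, ∀ v ∈ U, ρ y v ∈ U) {y : L} (hy : y ∈ Y) : y ∈ stabSub ρ U :=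
  ⟨h y hy, h y⁻¹ (Y.inv_mem hy)⟩

theorem mem_stabSub_of_pow {ρ : L →* Module.End F V} {U : Submodule F V} {b : L} {n : ℕ} (hn : 0 < n) (hb : b ^ n = 1)
    (h : ∀ v ∈ U, ρ b v ∈ U) : b ∈ stabSub ρ U := by
  have h1 : ∀ i : ℕ, ∀ v ∈ U, ρ (b ^ i) v ∈ U := by
    intro i
    induction i with
    | zero =>
      intro v hv
      rw [pow_zero, map_one]
      exact hv
    | succ i ih =>
      intro v hv
      rw [pow_succ, map_mul]
      exact ih _ (h v hv)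
  refine ⟨h, fun v hv => ?_⟩
  have h2 : b⁻¹ = b ^ (n - 1) := by
    rw [inv_eq_iff_mul_eq_one, ← pow_succ', Nat.sub_add_cancel hn, hb]
  rw [h2]
  exact h1 _ v hv

/-- The action of the stabilizer. -/
def stabRep (ρ : L →* Module.End F V) (U : Submodule F V) : ↥(stabSub ρ U) →* Module.End F U where
  toFun g := (ρ (g : L)).restrict g.2.1
  map_one' := by
    ext v
    simp
  map_mul' := by
    intro g h
    ext v
    simp

theorem stabRep_apply (ρ : L →* Module.End F V) (U : Submodule F V) (g : ↥(stabSub ρ U)) (v : U) :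
    ((stabRep ρ U g v : U) : V) = ρ (g : L) (v : V) := rfl

theorem stabRep_pow_apply (ρ : L →* Module.End F V) (U : Submodule F V) (g : ↥(stabSub ρ U)) (v : U) (i : ℕ) :
    (((stabRep ρ U g) ^ i) v : V) = ((ρ (g : L)) ^ i) (v : V) := by
  induction i with
  | zero => rfl
  | succ i ih =>
    rw [pow_succ', pow_succ', Module.End.mul_apply, Module.End.mul_apply, stabRep_apply, ih]

end sub

section subforms

universe u₁

variable {L : Type u₁} [Group L] [Finite L] {F : Type*} [Field F] [IsAlgClosed F] {V : Type*} [AddCommGroup V]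
  [Module F V] [FiniteDimensional F V]

/-- The faithful quotient. -/
theorem exists_faithful {P : Type u₁} [Group P] [Finite P] {A : Type*} [Monoid A] (f : P →* A) :
    ∃ (L₂ : Type u₁) (_ : Group L₂) (_ : Finite L₂) (π : P →* L₂) (ρ₂ : L₂ →* A),
      Function.Injective ρ₂ ∧ ∀ g, ρ₂ (π g) = f g :=
    by
  haveI hker : f.ker.Normal := by
    constructor
    intro n hn g
    rw [MonoidHom.mem_ker] at hn ⊢
    rw [map_mul, map_mul, hn, mul_one, ← map_mul, mul_inv_cancel, map_one]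
  refine ⟨P ⧸ f.ker, QuotientGroup.Quotient.group _, inferInstance, QuotientGroup.mk' f.ker,
    QuotientGroup.lift f.ker f (fun x hx => hx), ?_, fun _ => rfl⟩
  intro a c hac
  obtain ⟨a, rfl⟩ := QuotientGroup.mk_surjective a
  obtain ⟨c, rfl⟩ := QuotientGroup.mk_surjective c
  apply QuotientGroup.eq.2
  have h1 : f a = f c := hac
  rw [MonoidHom.mem_ker, map_mul, ← h1, ← map_mul, inv_mul_cancel, map_one]

/-- **The Frobenius lemma on a subspace.** -/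
theorem lemH_sub (ρ : L →* Module.End F V) (U : Submodule F V) (Y X : Subgroup L)
    (b : L) {p r s : ℕ} [hsf : Fact s.Prime] (hp : p.Prime) (hr : r.Prime) (hb : b ^ p = 1)
    (hU : ∀ v ∈ U, ∑ i ∈ Finset.range p, ((ρ b) ^ i) v = 0)
    (hYU : ∀ y ∈ Y, ∀ v ∈ U, ρ y v ∈ U) (hXU : ∀ x ∈ X, ∀ v ∈ U, ρ x v ∈ U) (hbU : ∀ v ∈ U, ρ b v ∈ U)
    (hY : IsPGroup s Y) (hX : IsPGroup r X) (hXY : ∀ x ∈ X, ∀ y ∈ Y, x * y * x⁻¹ ∈ Y)
    (hbY : ∀ y ∈ Y, b * y * b⁻¹ ∈ Y)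
    (hbX : ∀ x ∈ X, b * x * b⁻¹ ∈ X) (hfix : ∀ x ∈ X, b * x * b⁻¹ = x → x = 1)
    (hps : p ≠ s) (hrs : r ≠ s) (hpr : p ≠ r)
    (hs0 : ((s : ℕ) : F) ≠ 0) (hp0 : ((p : ℕ) : F) ≠ 0) :
    ∀ x ∈ X, ∀ y ∈ Y, ∀ v ∈ U, ρ (x * y * x⁻¹) v = ρ y v := by
  classical
  have hYP : ∀ y ∈ Y, y ∈ stabSub ρ U := fun y hy => mem_stabSub_of_subgroup hYU hy
  have hXP : ∀ x ∈ X, x ∈ stabSub ρ U := fun x hx => mem_stabSub_of_subgroup hXU hx
  have hbP : b ∈ stabSub ρ U := mem_stabSub_of_pow hp.pos hb hbU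
  obtain ⟨L₂, _, _, π, ρ₂, hρinj, hρ₂⟩ := exists_faithful (stabRep ρ U)
  -- fixed points
  let αX : ↥X →* ↥X :=
    { toFun := fun x => ⟨b * x * b⁻¹, hbX _ x.2⟩
      map_one' := by
        apply Subtype.ext
        simp
      map_mul' := by
        intro a c
        apply Subtype.ext
        simp only [Subgroup.coe_mul]
        group }
  have hαa : ∀ x : ↥X, ((αX x : ↥X) : L) = b * x * b⁻¹ := fun _ => rfl
  have hαp : ∀ x : ↥X, αX^[p] x = x := by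
    intro x
    have h1 : ∀ n : ℕ, ((αX^[n] x : ↥X) : L) = b ^ n * x * (b ^ n)⁻¹ := by
      intro n
      induction n with
      | zero => simp
      | succ n ih =>
        rw [Function.iterate_succ_apply', hαa, ih, pow_succ']
        group
    apply Subtype.ext
    rw [h1, hb]
    simp
  let ψ : ↥X →* L₂ := π.comp (Subgroup.inclusion (fun x hx => hXP x hx))
  have hψv : ∀ x : ↥X, ψ x = π ⟨x, hXP _ x.2⟩ := fun _ => rfl
  have hψa : ∀ x : ↥X, ψ (αX x) = π ⟨b, hbP⟩ * ψ x * (π ⟨b, hbP⟩)⁻¹ := by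
    intro x
    rw [hψv, hψv, ← map_inv, ← map_mul, ← map_mul]
    rfl
  haveI hrf : Fact r.Prime := ⟨hr⟩
  have hcopp : ¬ p ∣ Nat.card ψ.ker := by
    intro h2
    have h3 : p ∣ Nat.card X := h2.trans (Subgroup.card_subgroup_dvd_card _)
    obtain ⟨k, hk⟩ := IsPGroup.iff_card.1 hX
    rw [hk] at h3
    exact hpr ((Nat.prime_dvd_prime_iff_eq hp hr).1 (hp.dvd_of_dvd_pow h3))
  have hinjf := lemH_inj ρ₂ hρinj ((Y.subgroupOf (stabSub ρ U)).map π) ((X.subgroupOf (stabSub ρ U)).map π)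
    (π ⟨b, hbP⟩) hp hr
    (by
      rw [← map_pow]
      have : (⟨b, hbP⟩ : ↥(stabSub ρ U)) ^ p = 1 := Subtype.ext hb
      rw [this, map_one])
    (by
      intro v
      apply Subtype.ext
      have h1 : ((∑ i ∈ Finset.range p, ((ρ₂ (π ⟨b, hbP⟩)) ^ i) v : U) : V) = ∑ i ∈ Finset.range p, ((ρ b) ^ i) (v : V) := by
        rw [Submodule.coe_sum, hρ₂]
        refine Finset.sum_congr rfl (fun i _ => ?_)
        exact stabRep_pow_apply ρ U ⟨b, hbP⟩ v i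
      rw [h1]
      exact hU _ v.2)
    ((comap_pgroup hY _ (stabSub ρ U).subtype_injective).map π)
    ((comap_pgroup hX _ (stabSub ρ U).subtype_injective).map π)
    (by
      rintro _ ⟨x, hx, rfl⟩ _ ⟨y, hy, rfl⟩
      refine ⟨x * y * x⁻¹, Subgroup.mem_subgroupOf.2 ?_, ?_⟩
      · exact hXY _ (Subgroup.mem_subgroupOf.1 hx) _ (Subgroup.mem_subgroupOf.1 hy)
      · rw [map_mul, map_mul, map_inv])
    (by
      rintro _ ⟨y, hy, rfl⟩
      refine ⟨⟨b, hbP⟩ * y * (⟨b, hbP⟩ : ↥(stabSub ρ U))⁻¹, Subgroup.mem_subgroupOf.2 ?_, ?_⟩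
      · exact hbY _ (Subgroup.mem_subgroupOf.1 hy)
      · rw [map_mul, map_mul, map_inv])
    (by
      rintro _ ⟨x, hx, rfl⟩
      refine ⟨⟨b, hbP⟩ * x * (⟨b, hbP⟩ : ↥(stabSub ρ U))⁻¹, Subgroup.mem_subgroupOf.2 ?_, ?_⟩
      · exact hbX _ (Subgroup.mem_subgroupOf.1 hx)
      · rw [map_mul, map_mul, map_inv])
    (by
      rintro _ ⟨x, hx, rfl⟩ h
      have hx' : (x : L) ∈ X := Subgroup.mem_subgroupOf.1 hx
      have h1 : ψ (αX ⟨x, hx'⟩) = ψ ⟨x, hx'⟩ := by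
        rw [hψa]
        exact h
      have hker : (⟨x, hx'⟩ : ↥X)⁻¹ * αX ⟨x, hx'⟩ ∈ ψ.ker := by
        rw [MonoidHom.mem_ker, map_mul, map_inv, h1, inv_mul_cancel]
      have hJ : ∀ j ∈ ψ.ker, αX j ∈ ψ.ker := by
        intro j hj
        rw [MonoidHom.mem_ker] at hj ⊢
        rw [hψa, hj]
        group
      obtain ⟨j, hj, hfj⟩ := exists_fixed_coset' hp αX hαp ψ.ker hJ hcopp ⟨x, hx'⟩ hker
      have h5 := hfix _ ((⟨x, hx'⟩ : ↥X) * j).2 (congrArg Subtype.val hfj)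
      have h6 : (⟨x, hx'⟩ : ↥X) * j = 1 := Subtype.ext h5
      have h7 : ψ ((⟨x, hx'⟩ : ↥X) * j) = 1 := by rw [h6, map_one]
      rw [map_mul, MonoidHom.mem_ker.1 hj, mul_one] at h7
      exact h7)
    hps hrs hpr hs0 hp0
  intro x hx y hy v hv
  have hY2 : π ⟨y, hYP y hy⟩ ∈ (Y.subgroupOf (stabSub ρ U)).map π := ⟨_, Subgroup.mem_subgroupOf.2 hy, rfl⟩
  have hX2 : π ⟨x, hXP x hx⟩ ∈ (X.subgroupOf (stabSub ρ U)).map π := ⟨_, Subgroup.mem_subgroupOf.2 hx, rfl⟩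
  have h1 := hinjf _ hX2 _ hY2
  rw [← map_inv, ← map_mul, ← map_mul] at h1
  have h2 := congrArg ρ₂ h1
  rw [hρ₂, hρ₂] at h2
  have h3 := congrArg (fun f : Module.End F U => ((f ⟨v, hv⟩ : U) : V)) h2
  exact h3

/-- **The lemma on elements of prime order on a subspace.** -/
theorem lemG_sub (ρ : L →* Module.End F V) (U : Submodule F V) (Y : Subgroup L)
    (u : L) {p q s : ℕ} [hsf : Fact s.Prime] (hp : p.Prime) (hq : q.Prime) (hpq : p ∣ q - 1) (hu : u ^ q = 1)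
    (hU : ∀ v ∈ U, ∑ i ∈ Finset.range q, ((ρ u) ^ i) v = 0)
    (hYU : ∀ y ∈ Y, ∀ v ∈ U, ρ y v ∈ U) (huU : ∀ v ∈ U, ρ u v ∈ U)
    (hY : IsPGroup s Y) (huY : ∀ y ∈ Y, u * y * u⁻¹ ∈ Y) (hqs : q ≠ s) (hps : p ≠ s)
    (hs0 : ((s : ℕ) : F) ≠ 0) (hq0 : ((q : ℕ) : F) ≠ 0) :
    ∀ y ∈ Y, ∀ v ∈ U, ρ (u * y * u⁻¹) v = ρ y v := by
  classical
  have hYP : ∀ y ∈ Y, y ∈ stabSub ρ U := fun y hy => mem_stabSub_of_subgroup hYU hy
  have huP : u ∈ stabSub ρ U := mem_stabSub_of_pow hq.pos hu huU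
  obtain ⟨L₂, _, _, π, ρ₂, hρinj, hρ₂⟩ := exists_faithful (stabRep ρ U)
  have hinjf := lemG_inj ρ₂ hρinj ((Y.subgroupOf (stabSub ρ U)).map π) (π ⟨u, huP⟩) hp hq hpq
    (by
      rw [← map_pow]
      have : (⟨u, huP⟩ : ↥(stabSub ρ U)) ^ q = 1 := Subtype.ext hu
      rw [this, map_one])
    (by
      intro v
      apply Subtype.ext
      have h1 : ((∑ i ∈ Finset.range q, ((ρ₂ (π ⟨u, huP⟩)) ^ i) v : U) : V) = ∑ i ∈ Finset.range q, ((ρ u) ^ i) (v : V) := by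
        rw [Submodule.coe_sum, hρ₂]
        refine Finset.sum_congr rfl (fun i _ => ?_)
        exact stabRep_pow_apply ρ U ⟨u, huP⟩ v i
      rw [h1]
      exact hU _ v.2)
    ((comap_pgroup hY _ (stabSub ρ U).subtype_injective).map π)
    (by
      rintro _ ⟨y, hy, rfl⟩
      refine ⟨⟨u, huP⟩ * y * (⟨u, huP⟩ : ↥(stabSub ρ U))⁻¹, Subgroup.mem_subgroupOf.2 ?_, ?_⟩
      · exact huY _ (Subgroup.mem_subgroupOf.1 hy)
      · rw [map_mul, map_mul, map_inv])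
    hqs hps hs0 hq0
  intro y hy v hv
  have hY2 : π ⟨y, hYP y hy⟩ ∈ (Y.subgroupOf (stabSub ρ U)).map π := ⟨_, Subgroup.mem_subgroupOf.2 hy, rfl⟩
  have h1 := hinjf _ hY2
  rw [← map_inv, ← map_mul, ← map_mul] at h1
  have h2 := congrArg ρ₂ h1
  rw [hρ₂, hρ₂] at h2
  have h3 := congrArg (fun f : Module.End F U => ((f ⟨v, hv⟩ : U) : V)) h2
  exact h3

end subforms

end Cfsg.Agent.Lib.Struct.PQFix
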