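import Mathlib
import Cfsg.Agent.Lib.Struct.PQFixJ

/-!
# Nonabelian groups of order `pq` acting on sections
-/

set_option autoImplicit false

namespace Cfsg.Agent.Lib.Struct.PQFix

open Subgroup SymFix

/-- A nonabelian subgroup of order `pq`, presented element-wise. -/
structure PQ {L : Type*} [Group L] (A : Subgroup L) (p q : ℕ) (u : L) : Prop where
  hp : p.Prime
  hq : q.Prime
  hpq : p ∣ q - 1
  huA : u ∈ A
  huq : u ^ q = 1
  hu1 : u ≠ 1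
  hnorm : ∀ a ∈ A, a * u * a⁻¹ ∈ zpowers u
  hcomp : ∀ a ∈ A, a ∉ zpowers u → a ^ p = 1
  hcard : Nat.card A = p * q

namespace PQ

variable {L : Type*} [Group L] {A : Subgroup L} {p q : ℕ} {u : L} (h : PQ A p q u)

include h

theorem p_lt_q : p < q := by
  have h1 := Nat.le_of_dvd (by have := h.hq.two_le; omega) h.hpq
  have h2 := h.hq.two_le
  omega

theorem p_ne_q : p ≠ q := (h.p_lt_q).ne

theorem orderOf_u : orderOf u = q := by
  haveI : Fact q.Prime := ⟨h.hq⟩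
  exact orderOf_eq_prime h.huq h.hu1

theorem Q_le : zpowers u ≤ A := by
  rw [zpowers_le]
  exact h.huA

theorem conj_Q {a c : L} (ha : a ∈ A) (hc : c ∈ zpowers u) : a * c * a⁻¹ ∈ zpowers u := by
  obtain ⟨i, rfl⟩ := mem_zpowers_iff.1 hc
  rw [← conj_zpow]
  exact Subgroup.zpow_mem _ (h.hnorm a ha) i

theorem conj_Q' {a c : L} (ha : a ∈ A) (hc : c ∈ zpowers u) : a⁻¹ * c * a ∈ zpowers u := by
  have := h.conj_Q (A.inv_mem ha) hc
  simpa using this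

variable [Finite L]

theorem exists_not_Q : ∃ a ∈ A, a ∉ zpowers u := by
  by_contra hc
  push_neg at hc
  have h1 : Nat.card A ≤ Nat.card (zpowers u) := Subgroup.card_le_of_le hc
  rw [h.hcard, Nat.card_zpowers, h.orderOf_u] at h1
  have h2 := h.hp.two_le
  have h3 := h.hq.pos
  nlinarith

/-- Every nontrivial element of a proper subgroup generates it. -/
theorem gen_of_proper {B : Subgroup L} (hBA : B ≤ A) (hne : B ≠ A) {c : L} (hc : c ∈ B) (hc1 : c ≠ 1) :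
    B ≤ zpowers c := by
  have hd : Nat.card B ∣ p * q := by
    rw [← h.hcard]
    exact Subgroup.card_dvd_of_le hBA
  have hne2 : Nat.card B ≠ p * q := by
    intro h1
    apply hne
    exact Subgroup.eq_of_le_of_card_ge hBA (by rw [h.hcard, h1])
  have hne1 : Nat.card B ≠ 1 := by
    intro h1
    haveI := (Nat.card_eq_one_iff_unique.1 h1).1
    have : (⟨c, hc⟩ : ↥B) = 1 := Subsingleton.elim _ _
    exact hc1 (congrArg Subtype.val this)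
  have hpr : (Nat.card B).Prime := by
    obtain ⟨k₁, k₂, h1, h2, h3⟩ := (Nat.dvd_mul).1 hd
    rcases (Nat.dvd_prime h.hp).1 h1 with rfl | rfl <;> rcases (Nat.dvd_prime h.hq).1 h2 with rfl | rfl
    · exact absurd h3.symm (by simpa using hne1)
    · rw [← h3, one_mul]; exact h.hq
    · rw [← h3, mul_one]; exact h.hp
    · exact absurd h3.symm hne2
  haveI : Fact (Nat.card B).Prime := ⟨hpr⟩
  intro x hx
  have h1 : (⟨x, hx⟩ : ↥B) ∈ zpowers (⟨c, hc⟩ : ↥B) := by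
    apply mem_zpowers_of_prime_card rfl
    intro h2
    exact hc1 (congrArg Subtype.val h2)
  obtain ⟨i, hi⟩ := mem_zpowers_iff.1 h1
  refine mem_zpowers_iff.2 ⟨i, ?_⟩
  have := congrArg Subtype.val hi
  simpa using this

theorem Q_ne : zpowers u ≠ A := by
  intro h1
  obtain ⟨a, ha, ha'⟩ := h.exists_not_Q
  exact ha' (h1 ▸ ha)

/-- A nontrivial element of `Q` generates it. -/
theorem u_mem_of_Q {c : L} (hc : c ∈ zpowers u) (hc1 : c ≠ 1) : u ∈ zpowers c :=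
  h.gen_of_proper h.Q_le h.Q_ne hc hc1 (mem_zpowers u)

/-- `u` and an element off `Q` generate `A`. -/
theorem mem_of_gens {B : Subgroup L} (hu : u ∈ B) {a : L} (ha : a ∈ B) (haA : a ∈ A) (haQ : a ∉ zpowers u) :
    ∀ g ∈ A, g ∈ B := by
  by_contra hc
  push_neg at hc
  obtain ⟨g, hg, hgB⟩ := hc
  have hne : B ⊓ A ≠ A := by
    intro h1
    have : g ∈ B ⊓ A := by rw [h1]; exact hg
    exact hgB this.1
  have h1 := h.gen_of_proper inf_le_right hne (⟨hu, h.huA⟩ : u ∈ B ⊓ A) h.hu1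
  exact haQ (h1 ⟨ha, haA⟩)

theorem ne_one_of_not_Q {a : L} (ha : a ∉ zpowers u) : a ≠ 1 := by
  rintro rfl
  exact ha (one_mem _)

end PQ

section sections

variable {L : Type*} [Group L] [Finite L]

/-- **The section step for an element of order `q`.** -/
theorem sec_R (Y T K' : Subgroup L) (u : L) (q : ℕ) (hq : q.Prime) (hKY : K' ≤ Y)
    (hKn : ∀ y ∈ Y, ∀ k ∈ K', y * k * y⁻¹ ∈ K') (hab : ∀ a ∈ Y, ∀ b ∈ Y, a * b * a⁻¹ * b⁻¹ ∈ K')
    (hTY : ∀ x ∈ T, ∀ y ∈ Y, x * y * x⁻¹ ∈ Y) (hTK : ∀ x ∈ T, ∀ k ∈ K', x * k * x⁻¹ ∈ K')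
    (huY : ∀ y ∈ Y, u * y * u⁻¹ ∈ Y) (huK : ∀ k ∈ K', u * k * u⁻¹ ∈ K') (huT : ∀ x ∈ T, u * x * u⁻¹ ∈ T)
    (hu : u ^ q = 1) (hC : ∀ y ∈ Y, u * y * u⁻¹ = y → y ∈ K')
    (hT₀ : ∀ x ∈ T, u * x * u⁻¹ = x → ∀ y ∈ Y, x * y * x⁻¹ * y⁻¹ ∈ K')
    (hcop : (Nat.card T).Coprime q) (hcop2 : (Nat.card T).Coprime (Nat.card Y)) (hqK : ¬ q ∣ Nat.card K') :
    ∀ x ∈ T, ∀ y ∈ Y, x * y * x⁻¹ * y⁻¹ ∈ K' := by
  refine aut_sect_fpf Y K' T u q hq hKY hKn hab hTY hTK huY huK huT hu ?_ hT₀ hcop hcop2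
  intro y hy h
  obtain ⟨j, hj, hfj⟩ := exists_fixed_conj hq hu K' huK hqK y h
  have h1 := hC _ (Y.mul_mem hy (hKY hj)) hfj
  have h2 : y = y * j * j⁻¹ := by group
  rw [h2]
  exact K'.mul_mem h1 (K'.inv_mem hj)

/-- **The section step for an element acting trivially.** -/
theorem sec_Q (Y T K' A : Subgroup L) {p q : ℕ} {u : L} (hPQ : PQ A p q u) (hKY : K' ≤ Y)
    (hKn : ∀ y ∈ Y, ∀ k ∈ K', y * k * y⁻¹ ∈ K') (hab : ∀ a ∈ Y, ∀ b ∈ Y, a * b * a⁻¹ * b⁻¹ ∈ K')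
    (hTY : ∀ x ∈ T, ∀ y ∈ Y, x * y * x⁻¹ ∈ Y) (hTK : ∀ x ∈ T, ∀ k ∈ K', x * k * x⁻¹ ∈ K')
    (hAY : ∀ g ∈ A, ∀ y ∈ Y, g * y * g⁻¹ ∈ Y) (hAK : ∀ g ∈ A, ∀ k ∈ K', g * k * g⁻¹ ∈ K')
    (hAT : ∀ g ∈ A, ∀ x ∈ T, g * x * g⁻¹ ∈ T)
    (hfixY : ∀ y ∈ Y, (∀ g ∈ A, g * y * g⁻¹ = y) → y = 1)
    (hfixT : ∀ x ∈ T, (∀ g ∈ A, g * x * g⁻¹ = x) → x = 1)
    (huS : ∀ y ∈ Y, y⁻¹ * (u * y * u⁻¹) ∈ K')
    (hcopq : (Nat.card T).Coprime q) (hcopp : (Nat.card T).Coprime p)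
    (hcop2 : (Nat.card T).Coprime (Nat.card Y)) (hqK : (Nat.card K').Coprime q) (hpK : (Nat.card K').Coprime p) :
    ∀ x ∈ T, ∀ y ∈ Y, x * y * x⁻¹ * y⁻¹ ∈ K' := by
  classical
  obtain ⟨a, haA, haQ⟩ := hPQ.exists_not_Q
  have hap : a ^ p = 1 := hPQ.hcomp a haA haQ
  have huA := hPQ.huA
  have hq := hPQ.hq
  have hp := hPQ.hp
  have hnd : ∀ {m n : ℕ}, n.Prime → m.Coprime n → ¬ n ∣ m := by
    intro m n hn hc hd
    have := Nat.dvd_gcd hd (dvd_refl n)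
    rw [hc] at this
    exact hn.one_lt.ne' (Nat.dvd_one.1 this)
  have hfix2 : ∀ (w : L), u * w * u⁻¹ = w → a * w * a⁻¹ = w → ∀ g ∈ A, g * w * g⁻¹ = w := by
    intro w h1 h2 g hg
    have h3 : ∀ g ∈ A, g ∈ centralizer {w} := by
      apply hPQ.mem_of_gens _ _ haA haQ
      · rw [Subgroup.mem_centralizer_singleton_iff]
        calc u * w = (u * w * u⁻¹) * u := by group
          _ = w * u := by rw [h1]
      · rw [Subgroup.mem_centralizer_singleton_iff]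
        calc a * w = (a * w * a⁻¹) * a := by group
          _ = w * a := by rw [h2]
    have h4 := h3 g hg
    rw [Subgroup.mem_centralizer_singleton_iff] at h4
    rw [h4]
    group
  have hQcomm : ∀ (w : L), u * w * u⁻¹ = w → ∀ c ∈ zpowers u, c * w * c⁻¹ = w := by
    intro w h1 c hc
    have h3 : zpowers u ≤ centralizer {w} := by
      rw [zpowers_le, Subgroup.mem_centralizer_singleton_iff]
      calc u * w = (u * w * u⁻¹) * u := by group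
        _ = w * u := by rw [h1]
    have h4 := h3 hc
    rw [Subgroup.mem_centralizer_singleton_iff] at h4
    rw [h4]
    group
  -- `a` normalizes the fixed points of `u`
  have haFix : ∀ (w : L), u * w * u⁻¹ = w → u * (a * w * a⁻¹) * u⁻¹ = a * w * a⁻¹ := by
    intro w h1
    have h2 := hQcomm w h1 _ (hPQ.conj_Q' haA (mem_zpowers u))
    calc u * (a * w * a⁻¹) * u⁻¹ = a * ((a⁻¹ * u * a) * w * (a⁻¹ * u * a)⁻¹) * a⁻¹ := by group
      _ = a * w * a⁻¹ := by rw [h2]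
  let T₀ : Subgroup L := T ⊓ centralizer {u}
  have hT₀m : ∀ x, x ∈ T₀ ↔ x ∈ T ∧ u * x * u⁻¹ = x := by
    intro x
    show x ∈ T ⊓ centralizer {u} ↔ _
    rw [Subgroup.mem_inf, Subgroup.mem_centralizer_singleton_iff]
    constructor
    · rintro ⟨h1, h2⟩
      refine ⟨h1, ?_⟩
      rw [← h2]
      group
    · rintro ⟨h1, h2⟩
      refine ⟨h1, ?_⟩
      calc x * u = (u * x * u⁻¹) * u := by rw [h2]
        _ = u * x := by group
  have hstep1 : ∀ x ∈ T₀, ∀ y ∈ Y, x * y * x⁻¹ * y⁻¹ ∈ K' := by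
    refine aut_sect_fpf Y K' T₀ a p hp hKY hKn hab (fun x hx => hTY x ((hT₀m x).1 hx).1)
      (fun x hx => hTK x ((hT₀m x).1 hx).1) (hAY a haA) (hAK a haA) ?_ hap ?_ ?_ ?_ ?_
    · intro x hx
      obtain ⟨h1, h2⟩ := (hT₀m x).1 hx
      exact (hT₀m _).2 ⟨hAT a haA x h1, haFix x h2⟩
    · intro y hy h
      obtain ⟨j₁, hj₁, hfj₁⟩ := exists_fixed_conj hq hPQ.huq K' (hAK u huA) (hnd hq hqK) y (huS y hy)
      obtain ⟨y₁, hy₁⟩ : ∃ y₁, y₁ = y * j₁ := ⟨_, rfl⟩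
      rw [← hy₁] at hfj₁
      have hy₁Y : y₁ ∈ Y := by
        rw [hy₁]
        exact Y.mul_mem hy (hKY hj₁)
      let N₁ : Subgroup L := K' ⊓ centralizer {u}
      have hN₁m : ∀ x, x ∈ N₁ ↔ x ∈ K' ∧ u * x * u⁻¹ = x := by
        intro x
        show x ∈ K' ⊓ centralizer {u} ↔ _
        rw [Subgroup.mem_inf, Subgroup.mem_centralizer_singleton_iff]
        constructor
        · rintro ⟨h1, h2⟩
          refine ⟨h1, ?_⟩
          rw [← h2]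
          group
        · rintro ⟨h1, h2⟩
          refine ⟨h1, ?_⟩
          calc x * u = (u * x * u⁻¹) * u := by rw [h2]
            _ = u * x := by group
      have hN₁a : ∀ j ∈ N₁, a * j * a⁻¹ ∈ N₁ := by
        intro j hj
        obtain ⟨h1, h2⟩ := (hN₁m j).1 hj
        exact (hN₁m _).2 ⟨hAK a haA j h1, haFix j h2⟩
      have hcN : ¬ p ∣ Nat.card N₁ := by
        intro h1
        have h2 : Nat.card N₁ ∣ Nat.card K' := Subgroup.card_dvd_of_le inf_le_left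
        exact hnd hp hpK (h1.trans h2)
      have hmem : y₁⁻¹ * (a * y₁ * a⁻¹) ∈ N₁ := by
        refine (hN₁m _).2 ⟨?_, ?_⟩
        · have h1 : y₁⁻¹ * (a * y₁ * a⁻¹) = j₁⁻¹ * (y⁻¹ * (a * y * a⁻¹)) * (a * j₁ * a⁻¹) := by
            rw [hy₁]
            group
          rw [h1]
          exact K'.mul_mem (K'.mul_mem (K'.inv_mem hj₁) h) (hAK a haA j₁ hj₁)
        · have h1 := haFix y₁ hfj₁
          have h2 : u * (y₁⁻¹ * (a * y₁ * a⁻¹)) * u⁻¹ = (u * y₁ * u⁻¹)⁻¹ * (u * (a * y₁ * a⁻¹) * u⁻¹) := by group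
          rw [h2, h1, hfj₁]
      obtain ⟨j₂, hj₂, hfj₂⟩ := exists_fixed_conj hp hap N₁ hN₁a hcN y₁ hmem
      obtain ⟨hj₂K, hj₂u⟩ := (hN₁m j₂).1 hj₂
      have hu2 : u * (y₁ * j₂) * u⁻¹ = y₁ * j₂ := by
        have h2 : u * (y₁ * j₂) * u⁻¹ = (u * y₁ * u⁻¹) * (u * j₂ * u⁻¹) := by group
        rw [h2, hfj₁, hj₂u]
      have h1 := hfixY _ (Y.mul_mem hy₁Y (hKY hj₂K)) (hfix2 _ hu2 hfj₂)
      have h2 : y = (y₁ * j₂) * j₂⁻¹ * j₁⁻¹ := by
        rw [hy₁]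
        group
      rw [h2, h1, one_mul]
      exact K'.mul_mem (K'.inv_mem hj₂K) (K'.inv_mem hj₁)
    · intro x hx h y hy
      obtain ⟨h1, h2⟩ := (hT₀m x).1 hx
      have h3 := hfixT x h1 (hfix2 x h2 h)
      rw [h3]
      have : (1 : L) * y * 1⁻¹ * y⁻¹ = 1 := by group
      rw [this]
      exact K'.one_mem
    · have h1 : Nat.card T₀ ∣ Nat.card T := Subgroup.card_dvd_of_le inf_le_left
      exact Nat.Coprime.coprime_dvd_left h1 hcopp
    · have h1 : Nat.card T₀ ∣ Nat.card T := Subgroup.card_dvd_of_le inf_le_left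
      exact Nat.Coprime.coprime_dvd_left h1 hcop2
  -- the lifting
  haveI hKnn : (K'.subgroupOf Y).Normal := ⟨by
    intro k hk y
    rw [Subgroup.mem_subgroupOf] at hk ⊢
    exact hKn _ y.2 _ hk⟩
  have hTP : ∀ x ∈ T, x ∈ PN Y K' := fun x hx => mem_PN (hTY x hx) (hTK x hx)
  have huP : u ∈ PN Y K' := mem_PN (hAY u huA) (hAK u huA)
  let ψ : ↥T →* MulAut (↥Y ⧸ K'.subgroupOf Y) := (secHom Y K').comp (Subgroup.inclusion (fun x hx => hTP x hx))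
  have hψv : ∀ (x : ↥T) (y : ↥Y), ψ x (y : ↥Y ⧸ K'.subgroupOf Y) =
      ((⟨(x : L) * y * (x : L)⁻¹, hTY _ x.2 _ y.2⟩ : ↥Y) : ↥Y ⧸ K'.subgroupOf Y) := fun _ _ => rfl
  have huτ : secHom Y K' ⟨u, huP⟩ = 1 := by
    ext w
    obtain ⟨y, rfl⟩ := QuotientGroup.mk_surjective w
    show ((⟨u * y * u⁻¹, hAY u huA _ y.2⟩ : ↥Y) : ↥Y ⧸ K'.subgroupOf Y) = y
    apply QuotientGroup.eq.2
    rw [Subgroup.mem_subgroupOf]
    have h1 : (((⟨u * y * u⁻¹, hAY u huA _ y.2⟩ : ↥Y)⁻¹ * y : ↥Y) : L) = (y⁻¹ * (u * y * u⁻¹) : L)⁻¹ := by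
      simp only [Subgroup.coe_mul, Subgroup.coe_inv]
      group
    rw [h1]
    exact K'.inv_mem (huS _ y.2)
  let αT : ↥T →* ↥T :=
    { toFun := fun x => ⟨u * x * u⁻¹, hAT u huA _ x.2⟩
      map_one' := by
        apply Subtype.ext
        simp
      map_mul' := by
        intro c d
        apply Subtype.ext
        simp only [Subgroup.coe_mul]
        group }
  have hαa : ∀ x : ↥T, ((αT x : ↥T) : L) = u * x * u⁻¹ := fun _ => rfl
  have hαq : ∀ x : ↥T, αT^[q] x = x := by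
    intro x
    have h1 : ∀ n : ℕ, ((αT^[n] x : ↥T) : L) = u ^ n * x * (u ^ n)⁻¹ := by
      intro n
      induction n with
      | zero => simp
      | succ n ih =>
        rw [Function.iterate_succ_apply', hαa, ih, pow_succ']
        group
    apply Subtype.ext
    rw [h1, hPQ.huq]
    simp
  have hψα : ∀ x, ψ (αT x) = ψ x := by
    intro x
    have h1 : ψ (αT x) = secHom Y K' ⟨u, huP⟩ * ψ x * (secHom Y K' ⟨u, huP⟩)⁻¹ := by
      show secHom Y K' _ = secHom Y K' ⟨u, huP⟩ * secHom Y K' _ * (secHom Y K' ⟨u, huP⟩)⁻¹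
      rw [← map_inv, ← map_mul, ← map_mul]
      rfl
    rw [h1, huτ]
    group
  have hcq : ¬ q ∣ Nat.card ψ.ker := by
    intro h1
    have h2 : Nat.card ψ.ker ∣ Nat.card T := Subgroup.card_subgroup_dvd_card _
    exact hnd hq hcopq (h1.trans h2)
  have hψ0 : ∀ x, αT x = x → ψ x = 1 := by
    intro x hx
    ext w
    obtain ⟨y, rfl⟩ := QuotientGroup.mk_surjective w
    rw [hψv]
    apply QuotientGroup.eq.2
    rw [Subgroup.mem_subgroupOf]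
    have hxT : (x : L) ∈ T₀ := (hT₀m _).2 ⟨x.2, congrArg Subtype.val hx⟩
    have h1 := hstep1 _ hxT _ (Y.inv_mem y.2)
    have h2 : (((⟨(x : L) * y * (x : L)⁻¹, hTY _ x.2 _ y.2⟩ : ↥Y)⁻¹ * y : ↥Y) : L) =
        (x : L) * (y : L)⁻¹ * (x : L)⁻¹ * ((y : L)⁻¹)⁻¹ := by
      simp only [Subgroup.coe_mul, Subgroup.coe_inv]
      group
    rw [h2]
    exact h1
  intro x hx y hy
  have h1 : ψ ⟨x, hx⟩ = 1 := by
    have hker : (⟨x, hx⟩ : ↥T)⁻¹ * αT ⟨x, hx⟩ ∈ ψ.ker := by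
      rw [MonoidHom.mem_ker, map_mul, map_inv, hψα, inv_mul_cancel]
    have hJ : ∀ j ∈ ψ.ker, αT j ∈ ψ.ker := by
      intro j hj
      rw [MonoidHom.mem_ker] at hj ⊢
      rw [hψα, hj]
    obtain ⟨j, hj, hfj⟩ := exists_fixed_coset' hq αT hαq ψ.ker hJ hcq ⟨x, hx⟩ hker
    have h5 := hψ0 _ hfj
    rw [map_mul, MonoidHom.mem_ker.1 hj, mul_one] at h5
    exact h5
  have h2 := hψv ⟨x, hx⟩ ⟨y, hy⟩
  rw [h1] at h2
  have h3 := QuotientGroup.eq.1 h2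
  rw [Subgroup.mem_subgroupOf] at h3
  have h4 := hKn _ hy _ h3
  have h6 : y * (y⁻¹ * (x * y * x⁻¹)) * y⁻¹ = x * y * x⁻¹ * y⁻¹ := by group
  have h7 : y * ((((⟨y, hy⟩ : ↥Y)⁻¹ * ⟨x * y * x⁻¹, hTY _ hx _ hy⟩ : ↥Y) : L)) * y⁻¹ = x * y * x⁻¹ * y⁻¹ := h6
  rwa [h7] at h4

end sections

end Cfsg.Agent.Lib.Struct.PQFix
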