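import Mathlib
import Cfsg.Agent.Lib.Struct.SymFixB

/-!
# Normal abelian subgroups are central
-/

set_option autoImplicit false

namespace Cfsg.Agent.Lib.Struct.SymFix

open Subgroup MulAction

theorem unit_eq_one {F : Type*} [Field F] {u : Fˣ} {d e : ℕ} (h1 : u ^ d = 1) (h2 : u ^ e = 1)
    (hde : d.Coprime e) : u = 1 := by
  have h3 : orderOf u ∣ d := orderOf_dvd_of_pow_eq_one h1
  have h4 : orderOf u ∣ e := orderOf_dvd_of_pow_eq_one h2
  have h5 : orderOf u ∣ Nat.gcd d e := Nat.dvd_gcd h3 h4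
  rw [hde, Nat.dvd_one, orderOf_eq_one_iff] at h5
  exact h5

section lemmaZ

variable {K : Type*} [Group K] [Finite K] [MulDistribMulAction S3 K]
  {F : Type*} [Field F] {V : Type*} [AddCommGroup V] [Module F V]

variable {N : Subgroup K} (hNA : ∀ α : S3, ∀ n ∈ N, α • n ∈ N)

omit [Finite K] in
theorem fx_inv {α : S3} {μ : ↥N →* Fˣ} (h : aAct hNA α μ = μ) : aAct hNA α⁻¹ μ = μ := by
  have h1 : aAct hNA α⁻¹ (aAct hNA α μ) = μ := by
    rw [← aAct_mul, inv_mul_cancel, aAct_one]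
  rwa [h] at h1

omit [Finite K] in
theorem fx_mul {α β : S3} {μ : ↥N →* Fˣ} (h : aAct hNA α μ = μ) (h' : aAct hNA β μ = μ) :
    aAct hNA (α * β) μ = μ := by
  rw [aAct_mul, h', h]

omit [Finite K] in
theorem fx_val {α : S3} {μ : ↥N →* Fˣ} (h : aAct hNA α μ = μ) (n : N) :
    μ ⟨α • (n : K), hNA _ _ n.2⟩ = μ n := by
  have h1 := fx_inv hNA h
  have h2 : aAct hNA α⁻¹ μ n = μ n := by rw [h1]
  rw [aAct_apply] at h2
  have h3 : (⟨α • (n : K), hNA _ _ n.2⟩ : N) = ⟨α⁻¹⁻¹ • (n : K), hNA _ _ n.2⟩ := Subtype.ext (by simp)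
  rw [h3]
  exact h2

variable (ρ : K →* Module.End F V) (σ : S3 →* Module.End F V)
  (hcomp : ∀ (α : S3) (g : K), σ α * ρ g = ρ (α • g) * σ α) (hN0 : ∑ α, σ α = 0)
  (hcard : ((Nat.card N : ℕ) : F) ≠ 0)

open Classical in
include hcomp hN0 hcard in
omit [Finite K] in
theorem exists_refl_fix [Finite N] {μ : ↥N →* Fˣ} (hμ : eigS ρ μ ≠ ⊥) (ha : aAct hNA a3 μ ≠ μ) :
    ∃ r : S3, IsRefl r ∧ aAct hNA r μ = μ := by
  by_contra hcon
  push_neg at hcon
  obtain ⟨v, hv, hv0⟩ := (Submodule.ne_bot_iff _).1 hμ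
  have h := sum_stab_eq_zero ρ σ hcomp hN0 hNA hcard hv
  have hf : Finset.univ.filter (fun α : S3 => aAct hNA α μ = μ) = {1} := by
    ext α
    simp only [Finset.mem_filter, Finset.mem_univ, true_and, Finset.mem_singleton]
    constructor
    · intro h1
      rcases cases_S3 α with rfl | rfl | rfl | h2
      · rfl
      · exact absurd h1 ha
      · exact absurd (by simpa using fx_inv hNA h1) ha
      · exact absurd h1 (hcon α h2)
    · rintro rfl
      exact aAct_one hNA μ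
  rw [hf, Finset.sum_singleton, map_one] at h
  exact hv0 h

open Classical in
include hcomp hN0 hcard in
omit [Finite K] in
theorem refl_neg_of_not_fix [Finite N] {μ : ↥N →* Fˣ} (ha : aAct hNA a3 μ ≠ μ) {r : S3} (hr : IsRefl r)
    (hrμ : aAct hNA r μ = μ) {v : V} (hv : v ∈ eigS ρ μ) : σ r v = -v := by
  have h := sum_stab_eq_zero ρ σ hcomp hN0 hNA hcard hv
  have hf : Finset.univ.filter (fun α : S3 => aAct hNA α μ = μ) = {1, r} := by
    ext α
    simp only [Finset.mem_filter, Finset.mem_univ, true_and, Finset.mem_insert, Finset.mem_singleton]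
    constructor
    · intro h1
      rcases cases_S3 α with rfl | rfl | rfl | h2
      · left; rfl
      · exact absurd h1 ha
      · exact absurd (by simpa using fx_inv hNA h1) ha
      · by_cases he : α = r
        · right; exact he
        · exfalso
          have h3 := fx_mul hNA hrμ h1
          rcases refl_mul r α hr h2 (Ne.symm he) with h4 | h4
          · rw [h4] at h3; exact ha h3
          · rw [h4] at h3
            exact ha (by simpa using fx_inv hNA h3)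
    · rintro (rfl | rfl)
      · exact aAct_one hNA μ
      · exact hrμ
  have hne : (1 : S3) ≠ r := fun h1 => hr.2 h1.symm
  rw [hf, Finset.sum_pair hne, map_one] at h
  have h2 : v + σ r v = 0 := h
  exact eq_neg_of_add_eq_zero_right h2

open Classical in
include hcomp hN0 hcard in
omit [Finite K] in
theorem sum_three_of_fix [Finite N] {μ : ↥N →* Fˣ} (ha : aAct hNA a3 μ = μ) {r : S3} (hr : IsRefl r)
    (hrμ : aAct hNA r μ ≠ μ) {v : V} (hv : v ∈ eigS ρ μ) : v + σ a3 v + σ a3⁻¹ v = 0 := by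
  have h := sum_stab_eq_zero ρ σ hcomp hN0 hNA hcard hv
  have hf : Finset.univ.filter (fun α : S3 => aAct hNA α μ = μ) = {1, a3, a3⁻¹} := by
    ext α
    simp only [Finset.mem_filter, Finset.mem_univ, true_and, Finset.mem_insert, Finset.mem_singleton]
    constructor
    · intro h1
      rcases cases_S3 α with rfl | rfl | rfl | h2
      · left; rfl
      · right; left; rfl
      · right; right; rfl
      · exfalso
        apply hrμ
        exact all_of_a_r (fun β => aAct hNA β μ = μ) α h2 (aAct_one hNA μ) ha h1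
          (fun x y hx hy => fx_mul hNA hx hy) r
    · rintro (rfl | rfl | rfl)
      · exact aAct_one hNA μ
      · exact ha
      · exact fx_inv hNA ha
  have h1 : (1 : S3) ∉ ({a3, a3⁻¹} : Finset S3) := by decide
  have h2 : a3 ∉ ({a3⁻¹} : Finset S3) := by decide
  rw [hf, Finset.sum_insert h1, Finset.sum_insert h2, Finset.sum_singleton, map_one] at h
  have h3 : v + (σ a3 v + σ a3⁻¹ v) = 0 := h
  rw [← add_assoc] at h3
  exact h3

variable [hNn : N.Normal] (hc : (Nat.card K).Coprime 6) (hfix : ∀ g : K, (∀ α : S3, α • g = g) → g = 1)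
  (hNc : ∀ x ∈ N, ∀ y ∈ N, x * y = y * x)

/-- The norm of the rotation on `N`. -/
def tauN (n : N) : N :=
  ⟨(n : K) * (a3 • (n : K)) * (a3⁻¹ • (n : K)),
    N.mul_mem (N.mul_mem n.2 (hNA _ _ n.2)) (hNA _ _ n.2)⟩

include hNc in
omit [Finite K] hNn in
theorem tauN_fixed (n : N) : a3 • ((tauN hNA n : N) : K) = ((tauN hNA n : N) : K) := by
  show a3 • ((n : K) * (a3 • (n : K)) * (a3⁻¹ • (n : K))) = (n : K) * (a3 • (n : K)) * (a3⁻¹ • (n : K))
  rw [smul_mul', smul_mul', smul_inv_smul, ← a3_smul_inv]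
  have h1 := hNc _ (hNA a3 _ n.2) _ (hNA a3⁻¹ _ n.2)
  have h2 := hNc _ (N.mul_mem (hNA a3 _ n.2) (hNA a3⁻¹ _ n.2)) _ n.2
  rw [mul_assoc (n : K)]
  exact h2

omit [Finite K] hNn in
theorem tauN_val {μ : ↥N →* Fˣ} (ha : aAct hNA a3 μ = μ) (n : N) : μ (tauN hNA n) = μ n ^ 3 := by
  have h1 : tauN hNA n = n * ⟨a3 • (n : K), hNA _ _ n.2⟩ * ⟨a3⁻¹ • (n : K), hNA _ _ n.2⟩ := rfl
  rw [h1, map_mul, map_mul, fx_val hNA ha n, fx_val hNA (fx_inv hNA ha) n, pow_succ, pow_two]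

include hc in
theorem card_N_coprime : (Nat.card N).Coprime 6 :=
  Nat.Coprime.coprime_dvd_left (Subgroup.card_subgroup_dvd_card N) hc

include hc hfix hNc in
/-- An element fixed by the rotation fixes every character fixed by the rotation. -/
theorem y_fix {μ₀ : ↥N →* Fˣ} (ha : aAct hNA a3 μ₀ = μ₀) {y : K} (hy : a3 • y = y) : y • μ₀ = μ₀ := by
  ext n
  have hm : y⁻¹ * n * y ∈ N := by
    have := hNn.conj_mem n n.2 y⁻¹
    simpa using this
  rw [kSmul_apply N y μ₀ n hm]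
  congr 1
  have hcN := card_N_coprime (N := N) hc
  have h1 : (⟨y⁻¹ * n * y, hm⟩ : N) * n⁻¹ ∈ (⊤ : Subgroup N) := trivial
  obtain ⟨w, hw⟩ : ∃ w : N, w = (⟨y⁻¹ * n * y, hm⟩ : N) * n⁻¹ := ⟨_, rfl⟩
  have h2 : tauN hNA ⟨y⁻¹ * n * y, hm⟩ = tauN hNA n := by
    apply Subtype.ext
    have ha1 : a3 • (y⁻¹ * (n : K) * y) = y⁻¹ * (a3 • (n : K)) * y := by
      rw [smul_mul', smul_mul', smul_inv', hy]
    have ha2 : a3⁻¹ • (y⁻¹ * (n : K) * y) = y⁻¹ * (a3⁻¹ • (n : K)) * y := by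
      rw [smul_mul', smul_mul', smul_inv', a_inv_fix hy]
    show (y⁻¹ * (n : K) * y) * (a3 • (y⁻¹ * (n : K) * y)) * (a3⁻¹ • (y⁻¹ * (n : K) * y)) =
      (n : K) * (a3 • (n : K)) * (a3⁻¹ • (n : K))
    rw [ha1, ha2]
    have h3 : y * ((n : K) * (a3 • (n : K)) * (a3⁻¹ • (n : K))) =
        ((n : K) * (a3 • (n : K)) * (a3⁻¹ • (n : K))) * y :=
      comm_of_a_fixed hc hfix hy (tauN_fixed hNA hNc n)
    calc (y⁻¹ * (n : K) * y) * (y⁻¹ * (a3 • (n : K)) * y) * (y⁻¹ * (a3⁻¹ • (n : K)) * y)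
        = y⁻¹ * ((n : K) * (a3 • (n : K)) * (a3⁻¹ • (n : K))) * y := by group
      _ = y⁻¹ * (y * ((n : K) * (a3 • (n : K)) * (a3⁻¹ • (n : K)))) := by rw [mul_assoc, h3]
      _ = _ := by group
  have h3 : μ₀ ⟨y⁻¹ * n * y, hm⟩ ^ 3 = μ₀ n ^ 3 := by
    rw [← tauN_val hNA ha, ← tauN_val hNA ha, h2]
  have h4 : (μ₀ ⟨y⁻¹ * n * y, hm⟩ * (μ₀ n)⁻¹) ^ 3 = 1 := by
    rw [mul_pow, h3, inv_pow, mul_inv_cancel]
  have h5 : (μ₀ ⟨y⁻¹ * n * y, hm⟩ * (μ₀ n)⁻¹) ^ Nat.card N = 1 := by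
    rw [← map_inv, ← map_mul, ← map_pow, pow_card_eq_one', map_one]
  have h6 := unit_eq_one h4 h5 ((Nat.Coprime.coprime_dvd_right (by norm_num : 3 ∣ 6) hcN)).symm
  have h7 : μ₀ ⟨y⁻¹ * n * y, hm⟩ = μ₀ n := by
    rwa [mul_inv_eq_one] at h6
  rw [h7]

include hc hfix hNc in
/-- The only character fixed by all of `S3` is the trivial one. -/
theorem triv_of_fix {μ₁ : ↥N →* Fˣ} (ha : aAct hNA a3 μ₁ = μ₁) {r : S3} (hr : IsRefl r)
    (hrμ : aAct hNA r μ₁ = μ₁) : μ₁ = 1 := by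
  ext n
  have hcN := card_N_coprime (N := N) hc
  have hfx := tauN_fixed hNA hNc n
  have h1 : r • ((tauN hNA n : N) : K) = ((tauN hNA n : N) : K)⁻¹ := inv_of_a_fixed hc hfix hr hfx
  have h2 := fx_val hNA hrμ (tauN hNA n)
  have h3 : (⟨r • ((tauN hNA n : N) : K), hNA _ _ (tauN hNA n).2⟩ : N) = (tauN hNA n)⁻¹ := by
    apply Subtype.ext
    exact h1
  rw [h3, map_inv, tauN_val hNA ha] at h2
  have h4 : μ₁ n ^ 6 = 1 := by
    have h5 : (μ₁ n ^ 3)⁻¹ = μ₁ n ^ 3 := h2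
    have h6 : μ₁ n ^ 3 * μ₁ n ^ 3 = 1 := by
      nth_rewrite 1 [← h5]
      exact inv_mul_cancel _
    rw [← h6]
    group
  have h5 : μ₁ n ^ Nat.card N = 1 := by
    rw [← map_pow, pow_card_eq_one', map_one]
  have h6 := unit_eq_one h4 h5 hcN.symm
  rw [h6]
  rfl

include hc hfix hNc in
/-- A character fixed by the rotation is the only such in its orbit. -/
theorem fix_unique {μ₀ : ↥N →* Fˣ} (ha : aAct hNA a3 μ₀ = μ₀) (g : K)
    (hg : aAct hNA a3 (g • μ₀) = g • μ₀) : g • μ₀ = μ₀ := by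
  haveI f3 : Fact (Nat.Prime 3) := ⟨Nat.prime_three⟩
  have ha3 : a3 ^ 3 = 1 := by decide
  let K₀ : Subgroup K := MulAction.stabilizer K μ₀
  have hJ : ∀ j ∈ K₀, a3 • j ∈ K₀ := by
    intro j hj
    have hj' : j • μ₀ = μ₀ := hj
    show (a3 • j) • μ₀ = μ₀
    have h1 := aAct_kSmul hNA a3 j μ₀
    rw [hj', ha] at h1
    exact h1.symm
  have hg' : g⁻¹ * (a3 • g) ∈ K₀ := by
    show (g⁻¹ * (a3 • g)) • μ₀ = μ₀
    have h1 := aAct_kSmul hNA a3 g μ₀
    rw [hg, ha] at h1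
    rw [mul_smul, ← h1, inv_smul_smul]
  obtain ⟨j, hj, hfj⟩ := exists_fixed_coset (p := 3) a3 ha3 K₀ hJ (not_three_dvd_of_sub hc K₀) g hg'
  have h1 := y_fix hNA hc hfix hNc ha hfj
  rw [mul_smul, show j • μ₀ = μ₀ from hj] at h1
  exact h1

include hc in
omit hNA in
theorem not_three_dvd_orbit {X : Type*} [MulAction K X] (x : X) : ¬ 3 ∣ Nat.card (orbit K x) := by
  have h1 : Nat.card (orbit K x) ∣ Nat.card K := by
    have h2 := Subgroup.index_dvd_card (stabilizer K x)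
    rwa [index_stabilizer, ← Nat.card_coe_set_eq] at h2
  intro h
  have h2 : 3 ∣ Nat.card K := h.trans h1
  have h3 : 3 ∣ Nat.gcd (Nat.card K) 6 := Nat.dvd_gcd h2 (by norm_num)
  rw [hc] at h3
  norm_num at h3

include hc in
/-- If the rotation stabilizes an orbit then it fixes a point of it. -/
theorem exists_fix_of_stable {μ : ↥N →* Fˣ} (h : ∃ g : K, aAct hNA a3 μ = g • μ) :
    ∃ k : K, aAct hNA a3 (k • μ) = k • μ := by
  haveI f3 : Fact (Nat.Prime 3) := ⟨Nat.prime_three⟩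
  obtain ⟨g, hg⟩ := h
  have hst : ∀ x ∈ orbit K μ, aAct hNA a3 x ∈ orbit K μ := by
    rintro x ⟨k, rfl⟩
    show aAct hNA a3 (k • μ) ∈ _
    rw [aAct_kSmul, hg, ← mul_smul]
    exact mem_orbit _ _
  let f : orbit K μ → orbit K μ := fun x => ⟨aAct hNA a3 x.1, hst _ x.2⟩
  have hid : f^[3] = id := by
    funext x
    apply Subtype.ext
    show aAct hNA a3 (aAct hNA a3 (aAct hNA a3 x.1)) = x.1
    rw [← aAct_mul, ← aAct_mul, a3_cube, aAct_one]
  haveI : Finite (orbit K μ) := by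
    have : Function.Surjective (fun k : K => (⟨k • μ, mem_orbit _ _⟩ : orbit K μ)) := by
      rintro ⟨_, k, rfl⟩
      exact ⟨k, rfl⟩
    exact Finite.of_surjective _ this
  obtain ⟨⟨_, k, rfl⟩, hx⟩ := exists_fixed_of_iterate f hid (not_three_dvd_orbit hc μ)
  exact ⟨k, congrArg Subtype.val hx⟩

include hcomp hN0 hcard hc hfix in
/-- If no character in the orbit is fixed by the rotation, the derived subgroup acts trivially on
the eigenspace. -/
theorem comm_trivial_of_no_fix [Finite N] {μ : ↥N →* Fˣ} (hμ : eigS ρ μ ≠ ⊥)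
    (hno : ∀ k : K, aAct hNA a3 (k • μ) ≠ k • μ) (x y : K) {v : V} (hv : v ∈ eigS ρ μ) :
    ρ (x * y * x⁻¹ * y⁻¹) v = v := by
  have hstable : ¬ ∃ g : K, aAct hNA a3 μ = g • μ := by
    intro h
    obtain ⟨k, hk⟩ := exists_fix_of_stable hNA hc h
    exact hno k hk
  have hno1 : aAct hNA a3 μ ≠ μ := by
    have := hno 1
    rwa [one_smul] at this
  obtain ⟨r, hr, hrμ⟩ := exists_refl_fix hNA ρ σ hcomp hN0 hcard hμ hno1
  have hall : ∀ k : K, aAct hNA r (k • μ) = k • μ := by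
    intro k
    have hocc := occ_k ρ N k hμ
    obtain ⟨r', hr', hrμ'⟩ := exists_refl_fix hNA ρ σ hcomp hN0 hcard hocc (hno k)
    by_cases he : r' = r
    · rw [← he]; exact hrμ'
    · exfalso
      have h1 : aAct hNA r' μ = ((r' • k⁻¹) * k) • μ := by
        have h2 := aAct_kSmul hNA r' k⁻¹ (k • μ)
        rw [inv_smul_smul, hrμ', ← mul_smul] at h2
        exact h2
      have h2 : aAct hNA (r * r') μ = (r • ((r' • k⁻¹) * k)) • μ := by
        rw [aAct_mul, h1, aAct_kSmul, hrμ]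
      rcases refl_mul r r' hr hr' (Ne.symm he) with h3 | h3
      · rw [h3] at h2
        exact hstable ⟨_, h2⟩
      · rw [h3] at h2
        obtain ⟨w, hw⟩ : ∃ w, w = r • ((r' • k⁻¹) * k) := ⟨_, rfl⟩
        rw [← hw] at h2
        have h4 : μ = (a3 • w) • aAct hNA a3 μ := by
          have h5 := aAct_kSmul hNA a3 w μ
          rw [← h2, ← aAct_mul, mul_inv_cancel, aAct_one] at h5
          exact h5
        apply hstable
        refine ⟨(a3 • w)⁻¹, ?_⟩
        nth_rewrite 2 [h4]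
        rw [inv_smul_smul]
  have hneg : ∀ (k : K) {w : V}, w ∈ eigS ρ (k • μ) → σ r w = -w := fun k w hw =>
    refl_neg_of_not_fix hNA ρ σ hcomp hN0 hcard (hno k) hr (hall k) hw
  let L : Subgroup K :=
    { carrier := {g | ∀ (k : K), ∀ w ∈ eigS ρ (k • μ), ρ g w = w}
      mul_mem' := by
        intro a b ha hb k w hw
        rw [map_mul, Module.End.mul_apply, hb k w hw, ha k w hw]
      one_mem' := by
        intro k w _
        simp
      inv_mem' := by
        intro a ha k w hw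
        have h1 := rho_inv_apply ρ a w
        rwa [ha k w hw] at h1 }
  have hLn : L.Normal := by
    refine ⟨fun g hg z k w hw => ?_⟩
    have h1 : ρ z⁻¹ w ∈ eigS ρ ((z⁻¹ * k) • μ) := by
      rw [mul_smul]
      exact rho_eig ρ N z⁻¹ hw
    have h2 : ρ g (ρ z⁻¹ w) = ρ z⁻¹ w := hg _ _ h1
    rw [map_mul, map_mul, Module.End.mul_apply, Module.End.mul_apply, h2, rho_apply_inv]
  have hL : ∀ g : K, g⁻¹ * (r • g) ∈ L := by
    intro g k w hw
    have h1 : σ r (ρ g w) = ρ (r • g) (σ r w) := by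
      have := hcomp r g
      exact congrArg (fun f : Module.End F V => f w) this
    rw [hneg k hw, map_neg] at h1
    have h2 : ρ g w ∈ eigS ρ ((g * k) • μ) := by
      rw [mul_smul]
      exact rho_eig ρ N g hw
    rw [hneg _ h2] at h1
    have h3 : ρ (r • g) w = ρ g w := neg_injective h1.symm
    rw [map_mul, Module.End.mul_apply, h3, rho_inv_apply]
  have hmem := comm_mem_of_refl_trivial hc hfix hr L hL x y
  have hv' : v ∈ eigS ρ ((1 : K) • μ) := by
    rw [one_smul]; exact hv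
  exact hmem 1 v hv'

include hNA hcomp hN0 hcard hc hfix hNc in
/-- The group fixes every character occurring in the representation. -/
theorem k_fix_of_occ [Finite N] {μ : ↥N →* Fˣ} (hμ : eigS ρ μ ≠ ⊥) (k : K) : k • μ = μ := by
  by_cases hA : ∃ k₀ : K, aAct hNA a3 (k₀ • μ) = k₀ • μ
  · obtain ⟨k₀, hk₀⟩ := hA
    obtain ⟨μ₀, hμ₀⟩ : ∃ μ₀, μ₀ = k₀ • μ := ⟨_, rfl⟩
    rw [← hμ₀] at hk₀
    have hocc₀ : eigS ρ μ₀ ≠ ⊥ := by rw [hμ₀]; exact occ_k ρ N k₀ hμ
    have hall : ∀ g : K, aAct hNA a3 (g • μ₀) = g • μ₀ := by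
      intro g
      by_contra hg
      have hocc := occ_k ρ N g hocc₀
      obtain ⟨r, hr, hrμ⟩ := exists_refl_fix hNA ρ σ hcomp hN0 hcard hocc hg
      have h1 : aAct hNA a3 (aAct hNA r μ₀) = aAct hNA r μ₀ := by
        rw [← aAct_mul, refl_conj' r hr, aAct_mul, fx_inv hNA hk₀]
      have h2 : aAct hNA r μ₀ = ((r • g)⁻¹ * g) • μ₀ := by
        have h3 := aAct_kSmul hNA r g μ₀
        rw [hrμ] at h3
        rw [mul_smul, eq_inv_smul_iff]
        exact h3.symm
      rw [h2] at h1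
      have h3 := fix_unique hNA hc hfix hNc hk₀ _ h1
      rw [← h2] at h3
      have h4 := triv_of_fix hNA hc hfix hNc hk₀ hr h3
      apply hg
      have h5 : g • μ₀ = μ₀ := by
        rw [h4]
        ext n
        rfl
      rw [h5]
      exact hk₀
    have hfixall : ∀ g : K, g • μ₀ = μ₀ := fun g => fix_unique hNA hc hfix hNc hk₀ g (hall g)
    have h1 : μ = μ₀ := by
      have h2 := hfixall k₀⁻¹
      rw [hμ₀, inv_smul_smul] at h2
      rw [hμ₀]
      exact h2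
    rw [h1]
    exact hfixall k
  · push_neg at hA
    obtain ⟨v, hv, hv0⟩ := (Submodule.ne_bot_iff _).1 hμ
    ext n
    have hm : k⁻¹ * n * k ∈ N := by
      have := hNn.conj_mem n n.2 k⁻¹
      simpa using this
    rw [kSmul_apply N k μ n hm]
    have h1 := comm_trivial_of_no_fix hNA ρ σ hcomp hN0 hcard hc hfix hμ hA k⁻¹ n hv
    have hc' : k⁻¹ * n * k⁻¹⁻¹ * (n : K)⁻¹ ∈ N := by
      have : k⁻¹ * n * k⁻¹⁻¹ * (n : K)⁻¹ = (k⁻¹ * n * k) * (n : K)⁻¹ := by group
      rw [this]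
      exact N.mul_mem hm (N.inv_mem n.2)
    have h2 : ρ (k⁻¹ * n * k⁻¹⁻¹ * (n : K)⁻¹) v = ((μ ⟨_, hc'⟩ : Fˣ) : F) • v := hv ⟨_, hc'⟩
    rw [h1] at h2
    have h3 : (((μ ⟨_, hc'⟩ : Fˣ) : F) - 1) • v = 0 := by
      rw [sub_smul, one_smul, ← h2, sub_self]
    have h4 : ((μ ⟨_, hc'⟩ : Fˣ) : F) = 1 := sub_eq_zero.1 ((smul_eq_zero.1 h3).resolve_right hv0)
    have h5 : μ ⟨_, hc'⟩ = 1 := Units.ext h4
    have h6 : (⟨_, hc'⟩ : N) = ⟨k⁻¹ * n * k, hm⟩ * n⁻¹ := by
      apply Subtype.ext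
      simp
    rw [h6, map_mul, map_inv, mul_inv_eq_one] at h5
    rw [h5]

end lemmaZ

section central

variable {K : Type*} [Group K] [Finite K] [MulDistribMulAction S3 K]
  {F : Type*} [Field F] [IsAlgClosed F] {V : Type*} [AddCommGroup V] [Module F V] [FiniteDimensional F V]

/-- **Lemma Z.** An invariant abelian normal subgroup of order prime to the characteristic is
central. -/
theorem central_of_abelian_normal (hc : (Nat.card K).Coprime 6)
    (hfix : ∀ g : K, (∀ α : S3, α • g = g) → g = 1)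
    (ρ : K →* Module.End F V) (hfaith : Function.Injective ρ) (σ : S3 →* Module.End F V)
    (hcomp : ∀ (α : S3) (g : K), σ α * ρ g = ρ (α • g) * σ α) (hN0 : ∑ α, σ α = 0)
    (N : Subgroup K) [hNn : N.Normal] (hNA : ∀ α : S3, ∀ n ∈ N, α • n ∈ N)
    (hNc : ∀ x ∈ N, ∀ y ∈ N, x * y = y * x) (hcard : ((Nat.card N : ℕ) : F) ≠ 0)
    (n : K) (hn : n ∈ N) (k : K) : k * n = n * k := by
  have hm : k⁻¹ * n * k ∈ N := by
    have := hNn.conj_mem n hn k⁻¹
    simpa using this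
  let c : N := ⟨k⁻¹ * n * k * n⁻¹, N.mul_mem hm (N.inv_mem hn)⟩
  by_cases hc1 : c = 1
  · have h1 : k⁻¹ * n * k * n⁻¹ = 1 := congrArg Subtype.val hc1
    have h2 : k⁻¹ * n * k = n := by
      rwa [mul_inv_eq_one] at h1
    have h3 : n * k = k * n := by
      calc n * k = k * (k⁻¹ * n * k) := by group
        _ = k * n := by rw [h2]
    exact h3.symm
  · exfalso
    have hρ : ρ c ≠ 1 := by
      intro h
      apply hc1
      apply Subtype.ext
      apply hfaith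
      rw [h]
      simp
    obtain ⟨μ, hocc, hμ⟩ := exists_eig_ne_one ρ hNc hcard c hρ
    have hfx := k_fix_of_occ hNA ρ σ hcomp hN0 hcard hc hfix hNc hocc k
    apply hμ
    have h1 : (k • μ) ⟨n, hn⟩ = μ ⟨k⁻¹ * n * k, hm⟩ := rfl
    rw [hfx] at h1
    have h2 : c = ⟨k⁻¹ * n * k, hm⟩ * (⟨n, hn⟩ : N)⁻¹ := rfl
    rw [h2, map_mul, map_inv, ← h1, mul_inv_cancel]

end central

end Cfsg.Agent.Lib.Struct.SymFix
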