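import Mathlib
import Cfsg.Agent.Lib.Struct.PQFixK
import Cfsg.Agent.Lib.Struct.SymFixC

/-!
# Weights of a normal abelian subgroup under a group of order `pq`
-/

set_option autoImplicit false

namespace Cfsg.Agent.Lib.Struct.PQFix

open Subgroup SymFix

section aux

theorem triv_aux {N A' F : Type*} [CommGroup N] [Finite N] [Group A'] [Fintype A'] [Field F]
    (act : A' →* MulAut N) (μ : N →* Fˣ) (hfix : ∀ a n, μ (act a n) = μ n)
    (hC : ∀ n, (∀ a, act a n = n) → n = 1) (hcop : (Nat.card N).Coprime (Fintype.card A')) : μ = 1 := by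
  ext n
  have hw : ∏ a, act a n = 1 := by
    apply hC
    intro b
    rw [map_prod]
    refine Fintype.prod_equiv (Equiv.mulLeft b) _ _ (fun a => ?_)
    show act b (act a n) = act (b * a) n
    rw [map_mul]
    rfl
  have h1 : μ n ^ Fintype.card A' = 1 := by
    have h2 := congrArg μ hw
    rw [map_prod, map_one] at h2
    simp_rw [hfix] at h2
    rw [Finset.prod_const, Finset.card_univ] at h2
    exact h2
  have h2 : μ n ^ Nat.card N = 1 := by
    rw [← map_pow, pow_card_eq_one', map_one]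
  have h3 := unit_eq_one h2 h1 hcop
  rw [h3]
  rfl

theorem restrict_pow_coe {F V : Type*} [Field F] [AddCommGroup V] [Module F V] (T : Module.End F V)
    (U : Submodule F V) (h : ∀ v ∈ U, T v ∈ U) (i : ℕ) (v : U) :
    ((((T.restrict h) ^ i) v : U) : V) = (T ^ i) (v : V) := by
  induction i with
  | zero => rfl
  | succ i ih =>
    rw [pow_succ', pow_succ', Module.End.mul_apply, Module.End.mul_apply, LinearMap.restrict_coe_apply, ih]

end aux

section wt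

variable {L : Type*} [Group L] [Finite L] {F : Type*} [Field F] {V : Type*} [AddCommGroup V] [Module F V]

theorem fix_of_zpowers {N : Subgroup L} [N.Normal] {μ : ↥N →* Fˣ} {c w : L} (hc : c • μ = μ) (hw : w ∈ zpowers c) :
    w • μ = μ := by
  have h1 : zpowers c ≤ MulAction.stabilizer L μ := by
    rw [zpowers_le]
    exact hc
  exact h1 hw

theorem kSmul_one (N : Subgroup L) [N.Normal] (g : L) : g • (1 : ↥N →* Fˣ) = 1 := by
  ext n
  rfl

theorem smul_ne_one (N : Subgroup L) [N.Normal] (g : L) {μ : ↥N →* Fˣ} (h : μ ≠ 1) : g • μ ≠ 1 := by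
  intro h1
  apply h
  have h2 := congrArg (fun ν => g⁻¹ • ν) h1
  simp only [inv_smul_smul, kSmul_one] at h2
  exact h2

theorem fix_of_central (N : Subgroup L) [N.Normal] (μ : ↥N →* Fˣ) {g : L} (hg : ∀ z ∈ N, g * z = z * g) : g • μ = μ := by
  ext n
  have hm : g⁻¹ * n * g ∈ N := by
    have := Subgroup.Normal.conj_mem (inferInstance : N.Normal) n n.2 g⁻¹
    simpa using this
  rw [kSmul_apply N g μ n hm]
  congr 2
  apply Subtype.ext
  show g⁻¹ * n * g = n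
  rw [mul_assoc, ← hg n n.2]
  group

/-- A character fixed by `A` is trivial. -/
theorem triv_of_fix (A N : Subgroup L) [hNn : N.Normal] [Fintype ↥A] (hNc : ∀ x ∈ N, ∀ y ∈ N, x * y = y * x)
    (hCN : ∀ n ∈ N, (∀ g ∈ A, g * n * g⁻¹ = n) → n = 1) (hcop : (Nat.card N).Coprime (Fintype.card ↥A))
    {μ : ↥N →* Fˣ} (hμ : ∀ g ∈ A, g • μ = μ) : μ = 1 := by
  letI cN : CommGroup ↥N :=
    { (inferInstance : Group ↥N) with
      mul_comm := fun a b => Subtype.ext (hNc a a.2 b b.2) }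
  let act : ↥A →* MulAut ↥N := (MulAut.conjNormal (H := N)).comp A.subtype
  have hact : ∀ (a : ↥A) (n : ↥N), ((act a n : ↥N) : L) = a * n * (a : L)⁻¹ := fun a n => MulAut.conjNormal_apply (a : L) n
  refine triv_aux act μ ?_ ?_ hcop
  · intro a n
    have h1 : act a n = ⟨a * n * (a : L)⁻¹, hNn.conj_mem _ n.2 _⟩ := Subtype.ext (hact a n)
    rw [h1]
    exact fix_val_k (hμ a a.2) n _
  · intro n hn
    apply Subtype.ext
    apply hCN _ n.2
    intro g hg
    have h1 := congrArg Subtype.val (hn ⟨g, hg⟩)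
    rw [hact] at h1
    exact h1

theorem sum_filter_zpowers {W : Type*} [AddCommMonoid W] (A : Subgroup L) [Fintype ↥A] (c : L) (hc : c ∈ A)
    (P : ↥A → Prop) [DecidablePred P] (hP : ∀ a : ↥A, P a ↔ (a : L) ∈ zpowers c) (f : L → W) :
    ∑ a ∈ Finset.univ.filter P, f (a : L) = ∑ i ∈ Finset.range (orderOf c), f (c ^ i) := by
  classical
  symm
  have hpow : ∀ i : ℕ, c ^ i ∈ A := fun i => A.pow_mem hc i
  refine Finset.sum_bij (fun i _ => (⟨c ^ i, hpow i⟩ : ↥A)) ?_ ?_ ?_ ?_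
  · intro i _
    simp only [Finset.mem_filter, Finset.mem_univ, true_and]
    exact (hP _).2 (Subgroup.npow_mem_zpowers c i)
  · intro i hi j hj hij
    have h1 : c ^ i = c ^ j := congrArg Subtype.val hij
    exact pow_injOn_Iio_orderOf (Finset.mem_range.1 hi) (Finset.mem_range.1 hj) h1
  · intro a ha
    have h1 : (a : L) ∈ zpowers c := (hP a).1 (Finset.mem_filter.1 ha).2
    rw [mem_zpowers_iff_mem_range_orderOf] at h1
    obtain ⟨i, hi, hia⟩ := Finset.mem_image.1 h1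
    exact ⟨i, hi, Subtype.ext hia⟩
  · intro _ _
    rfl

open Classical in
/-- **The dichotomy for a weight.** -/
theorem wt_dich (ρ : L →* Module.End F V) (N A : Subgroup L) [hNn : N.Normal] {p q : ℕ} {u : L} (hPQ : PQ A p q u)
    [Fintype ↥A] (hsum : ∀ v, ∑ a : ↥A, ρ (a : L) v = 0) (hcard : ((Nat.card N : ℕ) : F) ≠ 0)
    (hNc : ∀ x ∈ N, ∀ y ∈ N, x * y = y * x)
    (hCN : ∀ n ∈ N, (∀ g ∈ A, g * n * g⁻¹ = n) → n = 1) (hcop : (Nat.card N).Coprime (Fintype.card ↥A))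
    {μ : ↥N →* Fˣ} (hocc : eigS ρ μ ≠ ⊥) (hμ1 : μ ≠ 1) :
    (u • μ = μ ∧ ∀ v ∈ eigS ρ μ, ∑ i ∈ Finset.range q, ((ρ u) ^ i) v = 0) ∨
      (u • μ ≠ μ ∧ ∃ a ∈ A, a ∉ zpowers u ∧ a • μ = μ ∧ ∀ v ∈ eigS ρ μ, ∑ i ∈ Finset.range p, ((ρ a) ^ i) v = 0) := by
  let B : Subgroup L := MulAction.stabilizer L μ ⊓ A
  have hBm : ∀ g, g ∈ B ↔ g • μ = μ ∧ g ∈ A := fun g => Iff.rfl
  have hBne : B ≠ A := by
    intro h
    apply hμ1
    refine triv_of_fix A N hNc hCN hcop (fun g hg => ?_)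
    have : g ∈ B := by rw [h]; exact hg
    exact this.1
  -- the sum over the stabilizer
  have hst : ∀ v ∈ eigS ρ μ, ∑ a ∈ Finset.univ.filter (fun a : ↥A => (a : L) • μ = μ), ρ (a : L) v = 0 := by
    intro v hv
    have h1 := sum_wt_zero ρ hcard Finset.univ (fun a : ↥A => (a : L) • μ) (fun a : ↥A => ρ (a : L) v)
      (fun a _ => rho_eig ρ N _ hv) (hsum v) μ
    convert h1
  have hgen : ∀ c ∈ B, c ≠ 1 → B = zpowers c := by
    intro c hc hc1
    apply le_antisymm (hPQ.gen_of_proper inf_le_right hBne hc hc1)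
    rw [zpowers_le]
    exact hc
  have hfin : ∀ c ∈ B, c ≠ 1 → ∀ v ∈ eigS ρ μ, ∑ i ∈ Finset.range (orderOf c), ((ρ c) ^ i) v = 0 := by
    intro c hc hc1 v hv
    have h1 := hst v hv
    have h2 := sum_filter_zpowers A c hc.2 (fun a : ↥A => (a : L) • μ = μ) (by
      intro a
      rw [← hgen c hc hc1]
      exact ⟨fun h => ⟨h, a.2⟩, fun h => h.1⟩) (fun g => ρ g v)
    rw [h1] at h2
    have h3 : ∑ i ∈ Finset.range (orderOf c), ((ρ c) ^ i) v = ∑ i ∈ Finset.range (orderOf c), ρ (c ^ i) v :=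
      Finset.sum_congr rfl (fun i _ => by rw [map_pow])
    rw [h3, ← h2]
  by_cases huμ : u • μ = μ
  · left
    refine ⟨huμ, fun v hv => ?_⟩
    have h1 := hfin u ⟨huμ, hPQ.huA⟩ hPQ.hu1 v hv
    rwa [hPQ.orderOf_u] at h1
  · right
    refine ⟨huμ, ?_⟩
    -- the stabilizer is not trivial
    obtain ⟨c, hc, hc1⟩ : ∃ c ∈ B, c ≠ 1 := by
      by_contra hcon
      push_neg at hcon
      obtain ⟨v, hv, hv0⟩ := (Submodule.ne_bot_iff _).1 hocc
      apply hv0
      have h1 := hst v hv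
      have hf : Finset.univ.filter (fun a : ↥A => (a : L) • μ = μ) = {1} := by
        ext a
        simp only [Finset.mem_filter, Finset.mem_univ, true_and, Finset.mem_singleton]
        constructor
        · intro h
          exact Subtype.ext (hcon _ ⟨h, a.2⟩)
        · rintro rfl
          exact one_smul _ _
      rw [hf, Finset.sum_singleton] at h1
      simpa using h1
    have hcQ : c ∉ zpowers u := by
      intro h
      exact huμ (fix_of_zpowers hc.1 (hPQ.u_mem_of_Q h hc1))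
    have hcp : c ^ p = 1 := hPQ.hcomp c hc.2 hcQ
    haveI : Fact p.Prime := ⟨hPQ.hp⟩
    have hoc : orderOf c = p := orderOf_eq_prime hcp hc1
    refine ⟨c, hc.2, hcQ, hc.1, fun v hv => ?_⟩
    have h1 := hfin c hc hc1 v hv
    rwa [hoc] at h1

/-- The types of weights. -/
def Rt (ρ : L →* Module.End F V) (N : Subgroup L) [N.Normal] (u : L) (μ : ↥N →* Fˣ) : Prop :=
  eigS ρ μ ≠ ⊥ ∧ μ ≠ 1 ∧ u • μ ≠ μ

/-- The types of weights. -/
def Qt (ρ : L →* Module.End F V) (N : Subgroup L) [N.Normal] (u : L) (μ : ↥N →* Fˣ) : Prop :=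
  eigS ρ μ ≠ ⊥ ∧ μ ≠ 1 ∧ u • μ = μ

omit [Finite L] in
/-- The elements of `Y` acting trivially on the weight spaces. -/
def wtKer (ρ : L →* Module.End F V) (N Y : Subgroup L) (P : (↥N →* Fˣ) → Prop) : Subgroup L where
  carrier := {y | y ∈ Y ∧ ∀ μ, P μ → ∀ v ∈ eigS ρ μ, ρ y v = v}
  mul_mem' := by
    rintro a b ⟨ha, ha'⟩ ⟨hb, hb'⟩
    refine ⟨Y.mul_mem ha hb, fun μ hμ v hv => ?_⟩
    rw [map_mul, Module.End.mul_apply, hb' μ hμ v hv, ha' μ hμ v hv]
  one_mem' := ⟨Y.one_mem, fun μ _ v _ => by rw [map_one]; rfl⟩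
  inv_mem' := by
    rintro a ⟨ha, ha'⟩
    refine ⟨Y.inv_mem ha, fun μ hμ v hv => ?_⟩
    have h1 := ha' μ hμ v hv
    calc ρ a⁻¹ v = ρ a⁻¹ (ρ a v) := by rw [h1]
      _ = v := rho_inv_apply ρ a v

theorem mem_wtKer {ρ : L →* Module.End F V} {N Y : Subgroup L} {P : (↥N →* Fˣ) → Prop} {y : L} :
    y ∈ wtKer ρ N Y P ↔ y ∈ Y ∧ ∀ μ, P μ → ∀ v ∈ eigS ρ μ, ρ y v = v := Iff.rfl

theorem wtKer_conj {ρ : L →* Module.End F V} {N Y : Subgroup L} [N.Normal] {P : (↥N →* Fˣ) → Prop} {g : L}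
    (hgY : ∀ y ∈ Y, g * y * g⁻¹ ∈ Y) (hP : ∀ μ, P μ → P (g⁻¹ • μ)) :
    ∀ k ∈ wtKer ρ N Y P, g * k * g⁻¹ ∈ wtKer ρ N Y P := by
  rintro k ⟨hk, hk'⟩
  refine ⟨hgY k hk, fun μ hμ v hv => ?_⟩
  have h1 := hk' _ (hP μ hμ) (ρ g⁻¹ v) (rho_eig ρ N g⁻¹ hv)
  rw [map_mul, map_mul, Module.End.mul_apply, Module.End.mul_apply, h1]
  exact rho_apply_inv ρ g v

theorem Rt_smul_A {ρ : L →* Module.End F V} {N A : Subgroup L} [N.Normal] {p q : ℕ} {u : L} (hPQ : PQ A p q u)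
    {g : L} (hg : g ∈ A) {μ : ↥N →* Fˣ} (h : Rt ρ N u μ) : Rt ρ N u (g • μ) := by
  refine ⟨occ_k ρ N g h.1, smul_ne_one N g h.2.1, fun h1 => h.2.2 ?_⟩
  have h2 : (g⁻¹ * u * g) • μ = μ := by
    rw [mul_smul, mul_smul, h1, inv_smul_smul]
  have h3 : g⁻¹ * u * g ≠ 1 := by
    intro h4
    apply hPQ.hu1
    calc u = g * (g⁻¹ * u * g) * g⁻¹ := by group
      _ = 1 := by rw [h4]; group
  exact fix_of_zpowers h2 (hPQ.u_mem_of_Q (hPQ.conj_Q' hg (mem_zpowers u)) h3)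

theorem Qt_smul_A {ρ : L →* Module.End F V} {N A : Subgroup L} [N.Normal] {p q : ℕ} {u : L} (hPQ : PQ A p q u)
    {g : L} (hg : g ∈ A) {μ : ↥N →* Fˣ} (h : Qt ρ N u μ) : Qt ρ N u (g • μ) := by
  refine ⟨occ_k ρ N g h.1, smul_ne_one N g h.2.1, ?_⟩
  have h2 : (g⁻¹ * u * g) • μ = μ := fix_of_zpowers h.2.2 (hPQ.conj_Q' hg (mem_zpowers u))
  calc u • g • μ = g • (g⁻¹ * u * g) • μ := by
        rw [← mul_smul, ← mul_smul]
        congr 1
        group
    _ = g • μ := by rw [h2]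

end wt

end Cfsg.Agent.Lib.Struct.PQFix
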