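import Mathlib
import Cfsg.Agent.Lib.Struct.PQFixL
import Cfsg.Agent.Lib.Basic.Glauberman

/-!
# The core of the proof: `r`-groups and `s`-groups under a group of order `pq`
-/

set_option autoImplicit false

namespace Cfsg.Agent.Lib.Struct.PQFix

open Subgroup SymFix

section fixin

variable {L : Type*} [Group L]

/-- The fixed points of `u` in `Y`. -/
def FixIn (Y : Subgroup L) (u : L) : Subgroup L := Y ⊓ centralizer {u}

theorem mem_FixIn {Y : Subgroup L} {u x : L} : x ∈ FixIn Y u ↔ x ∈ Y ∧ u * x * u⁻¹ = x := by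
  show x ∈ Y ⊓ centralizer {u} ↔ _
  rw [Subgroup.mem_inf, Subgroup.mem_centralizer_singleton_iff]
  constructor
  · rintro ⟨h1, h2⟩
    refine ⟨h1, ?_⟩
    rw [← h2]
    group
  · rintro ⟨h1, h2⟩
    refine ⟨h1, ?_⟩
    calc x * u = (u * x * u⁻¹) * u := by rw [h2]
      _ = u * x := by group

theorem zp_comm {u w : L} (h1 : u * w * u⁻¹ = w) : ∀ c ∈ zpowers u, c * w * c⁻¹ = w := by
  intro c hc
  have h3 : zpowers u ≤ centralizer {w} := by
    rw [zpowers_le, Subgroup.mem_centralizer_singleton_iff]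
    calc u * w = (u * w * u⁻¹) * u := by group
      _ = w * u := by rw [h1]
  have h4 := h3 hc
  rw [Subgroup.mem_centralizer_singleton_iff] at h4
  rw [h4]
  group

variable {A : Subgroup L} {p q : ℕ} {u : L}

theorem PQ.conj_fix (hPQ : PQ A p q u) {a w : L} (ha : a ∈ A) (h1 : u * w * u⁻¹ = w) :
    u * (a * w * a⁻¹) * u⁻¹ = a * w * a⁻¹ := by
  have h2 := zp_comm h1 _ (hPQ.conj_Q' ha (mem_zpowers u))
  calc u * (a * w * a⁻¹) * u⁻¹ = a * ((a⁻¹ * u * a) * w * (a⁻¹ * u * a)⁻¹) * a⁻¹ := by group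
    _ = a * w * a⁻¹ := by rw [h2]

theorem PQ.fix_all [Finite L] (hPQ : PQ A p q u) {a w : L} (ha : a ∈ A) (haQ : a ∉ zpowers u) (h1 : u * w * u⁻¹ = w)
    (h2 : a * w * a⁻¹ = w) : ∀ g ∈ A, g * w * g⁻¹ = w := by
  intro g hg
  have h3 : ∀ g ∈ A, g ∈ centralizer {w} := by
    apply hPQ.mem_of_gens _ _ ha haQ
    · rw [Subgroup.mem_centralizer_singleton_iff]
      calc u * w = (u * w * u⁻¹) * u := by group
        _ = w * u := by rw [h1]
    · rw [Subgroup.mem_centralizer_singleton_iff]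
      calc a * w = (a * w * a⁻¹) * a := by group
        _ = w * a := by rw [h2]
  have h4 := h3 g hg
  rw [Subgroup.mem_centralizer_singleton_iff] at h4
  rw [h4]
  group

end fixin

/-- The data of the core of the proof. -/
structure CD {L : Type*} [Group L] {F : Type*} [Field F] {V : Type*} [AddCommGroup V] [Module F V]
    (ρ : L →* Module.End F V) (Y T A : Subgroup L) (p q r s : ℕ) (u : L) : Prop where
  hPQ : PQ A p q u
  hs : s.Prime
  hr : r.Prime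
  hY : IsPGroup s Y
  hT : IsPGroup r T
  hrs : r ≠ s
  hps : p ≠ s
  hqs : q ≠ s
  hrp : r ≠ p
  hrq : r ≠ q
  hs0 : ((s : ℕ) : F) ≠ 0
  hp0 : ((p : ℕ) : F) ≠ 0
  hq0 : ((q : ℕ) : F) ≠ 0
  hAT : ∀ g ∈ A, ∀ x ∈ T, g * x * g⁻¹ ∈ T
  hfixY : ∀ y ∈ Y, (∀ g ∈ A, g * y * g⁻¹ = y) → y = 1
  hfixT : ∀ x ∈ T, (∀ g ∈ A, g * x * g⁻¹ = x) → x = 1

namespace CD

variable {L : Type*} [Group L] [Finite L] {F : Type*} [Field F] {V : Type*} [AddCommGroup V] [Module F V]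
  {ρ : L →* Module.End F V} {Y T A : Subgroup L} {p q r s : ℕ} {u : L}

section basic

variable (h : CD ρ Y T A p q r s u)

include h

theorem cardY : ((Nat.card Y : ℕ) : F) ≠ 0 := by
  haveI : Fact s.Prime := ⟨h.hs⟩
  obtain ⟨k, hk⟩ := IsPGroup.iff_card.1 h.hY
  rw [hk, Nat.cast_pow]
  exact pow_ne_zero k h.hs0

theorem card_ne_of_le {N : Subgroup L} (hNY : N ≤ Y) : ((Nat.card N : ℕ) : F) ≠ 0 := by
  intro h0
  apply h.cardY
  obtain ⟨m, hm⟩ := Subgroup.card_dvd_of_le hNY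
  rw [hm, Nat.cast_mul, h0, zero_mul]

theorem copY (n : ℕ) (hn : n.Prime) (hns : n ≠ s) : (Nat.card Y).Coprime n := by
  haveI : Fact s.Prime := ⟨h.hs⟩
  obtain ⟨k, hk⟩ := IsPGroup.iff_card.1 h.hY
  rw [hk]
  exact Nat.Coprime.pow_left k ((Nat.coprime_primes h.hs hn).2 hns.symm)

theorem copT (n : ℕ) (hn : n.Prime) (hnr : n ≠ r) : (Nat.card T).Coprime n := by
  haveI : Fact r.Prime := ⟨h.hr⟩
  obtain ⟨k, hk⟩ := IsPGroup.iff_card.1 h.hT
  rw [hk]
  exact Nat.Coprime.pow_left k ((Nat.coprime_primes h.hr hn).2 hnr.symm)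

theorem copTY : (Nat.card T).Coprime (Nat.card Y) := by
  haveI : Fact s.Prime := ⟨h.hs⟩
  obtain ⟨k, hk⟩ := IsPGroup.iff_card.1 h.hY
  rw [hk]
  exact Nat.Coprime.pow_right k (h.copT s h.hs h.hrs.symm)

theorem copNA [Fintype ↥A] {N : Subgroup L} (hNY : N ≤ Y) : (Nat.card N).Coprime (Fintype.card ↥A) := by
  rw [← Nat.card_eq_fintype_card, h.hPQ.hcard]
  have h1 : Nat.card N ∣ Nat.card Y := Subgroup.card_dvd_of_le hNY
  refine Nat.Coprime.coprime_dvd_left h1 (Nat.Coprime.mul_right ?_ ?_)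
  · exact h.copY p h.hPQ.hp h.hps
  · exact h.copY q h.hPQ.hq h.hqs

theorem copAT [Fintype ↥A] : (Nat.card A).Coprime (Nat.card T) := by
  rw [h.hPQ.hcard]
  refine Nat.Coprime.symm (Nat.Coprime.mul_right ?_ ?_)
  · exact h.copT p h.hPQ.hp h.hrp.symm
  · exact h.copT q h.hPQ.hq h.hrq.symm

theorem not_dvd_Y (n : ℕ) (hn : n.Prime) (hns : n ≠ s) {K : Subgroup L} (hK : K ≤ Y) : ¬ n ∣ Nat.card K := by
  intro hd
  have h1 : Nat.card K ∣ Nat.card Y := Subgroup.card_dvd_of_le hK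
  have h2 := Nat.dvd_gcd (hd.trans h1) (dvd_refl n)
  rw [h.copY n hn hns] at h2
  exact hn.one_lt.ne' (Nat.dvd_one.1 h2)

end basic

section weights

variable [hYn : Y.Normal] {N : Subgroup L} [hNn : N.Normal] [Fintype ↥A] (h : CD ρ Y T A p q r s u)
  (hsum : ∀ v, ∑ a : ↥A, ρ (a : L) v = 0) (hNY : N ≤ Y) (hYN : ∀ y ∈ Y, ∀ z ∈ N, y * z = z * y)

include h hsum hNY hYN

theorem dichR {μ : ↥N →* Fˣ} (hμ : Rt ρ N u μ) :
    ∃ a ∈ A, a ∉ zpowers u ∧ a • μ = μ ∧ ∀ v ∈ eigS ρ μ, ∑ i ∈ Finset.range p, ((ρ a) ^ i) v = 0 := by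
  rcases wt_dich ρ N A h.hPQ hsum (h.card_ne_of_le hNY) (fun x hx y hy => hYN x (hNY hx) y hy)
    (fun n hn hg => h.hfixY n (hNY hn) hg) (h.copNA hNY) hμ.1 hμ.2.1 with h1 | h1
  · exact absurd h1.1 hμ.2.2
  · exact h1.2

theorem dichQ {μ : ↥N →* Fˣ} (hμ : Qt ρ N u μ) : ∀ v ∈ eigS ρ μ, ∑ i ∈ Finset.range q, ((ρ u) ^ i) v = 0 := by
  rcases wt_dich ρ N A h.hPQ hsum (h.card_ne_of_le hNY) (fun x hx y hy => hYN x (hNY hx) y hy)
    (fun n hn hg => h.hfixY n (hNY hn) hg) (h.copNA hNY) hμ.1 hμ.2.1 with h1 | h1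
  · exact h1.2
  · exact absurd hμ.2.2 h1.1

omit h hsum hNY hYn [Fintype ↥A] in
theorem eig_Y {μ : ↥N →* Fˣ} {y : L} (hy : y ∈ Y) {v : V} (hv : v ∈ eigS ρ μ) : ρ y v ∈ eigS ρ μ := by
  have h1 := rho_eig ρ N y hv
  rwa [fix_of_central N μ (hYN y hy)] at h1

/-- An element of `Y` fixed by `u` acts trivially on a weight space of the first type. -/
theorem cd_C {y : L} (hy : y ∈ Y) (huy : u * y * u⁻¹ = y) {μ : ↥N →* Fˣ} (hμ : Rt ρ N u μ) :
    ∀ v ∈ eigS ρ μ, ρ y v = v := by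
  classical
  obtain ⟨a, haA, haQ, haμ, ha0⟩ := h.dichR hsum hNY hYN hμ
  have hap : a ^ p = 1 := h.hPQ.hcomp a haA haQ
  have hp := h.hPQ.hp
  haveI hsf : Fact s.Prime := ⟨h.hs⟩
  have hYU : ∀ y ∈ Y, ∀ v ∈ eigS ρ μ, ρ y v ∈ eigS ρ μ := fun y hy v hv => eig_Y hYN hy hv
  have haU : ∀ v ∈ eigS ρ μ, ρ a v ∈ eigS ρ μ := by
    intro v hv
    have h1 := rho_eig ρ N a hv
    rwa [haμ] at h1
  let C := FixIn Y u
  let φ : ↥C →* Module.End F (eigS ρ μ) :=
    { toFun := fun g => (ρ (g : L)).restrict (hYU _ (mem_FixIn.1 g.2).1)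
      map_one' := by
        ext v
        simp
      map_mul' := by
        intro g g'
        ext v
        simp }
  have hφ : ∀ (g : ↥C) (v : eigS ρ μ), ((φ g v : eigS ρ μ) : V) = ρ (g : L) v := fun _ _ => rfl
  let θ : Module.End F (eigS ρ μ) := (ρ a).restrict haU
  have hθ : ∀ (v : eigS ρ μ), ((θ v : eigS ρ μ) : V) = ρ a v := fun _ => rfl
  have hCa : ∀ g ∈ C, a * g * a⁻¹ ∈ C := by
    intro g hg
    obtain ⟨h1, h2⟩ := mem_FixIn.1 hg
    exact mem_FixIn.2 ⟨hYn.conj_mem g h1 a, h.hPQ.conj_fix haA h2⟩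
  let α : ↥C →* ↥C :=
    { toFun := fun g => ⟨a * g * a⁻¹, hCa _ g.2⟩
      map_one' := by
        apply Subtype.ext
        simp
      map_mul' := by
        intro c d
        apply Subtype.ext
        simp only [Subgroup.coe_mul]
        group }
  have hαa : ∀ g : ↥C, ((α g : ↥C) : L) = a * g * a⁻¹ := fun _ => rfl
  have hαp : ∀ g : ↥C, α^[p] g = g := by
    intro g
    have h1 : ∀ n : ℕ, ((α^[n] g : ↥C) : L) = a ^ n * g * (a ^ n)⁻¹ := by
      intro n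
      induction n with
      | zero => simp
      | succ n ih =>
        rw [Function.iterate_succ_apply', hαa, ih, pow_succ']
        group
    apply Subtype.ext
    rw [h1, hap]
    simp
  have hCY : C ≤ Y := inf_le_left
  have h1 := F_triv φ α θ p hp
    (by
      ext v
      rw [restrict_pow_coe, ← map_pow, hap, map_one]
      rfl)
    hαp
    (by
      intro g
      ext v
      show ρ a (ρ (g : L) (v : V)) = ρ (a * g * a⁻¹) (ρ a (v : V))
      have h1 : ρ a * ρ (g : L) = ρ (a * g * a⁻¹) * ρ a := by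
        rw [← map_mul, ← map_mul]
        congr 1
        group
      exact congrArg (fun f : Module.End F V => f (v : V)) h1)
    (by
      ext v
      simp only [LinearMap.sum_apply, LinearMap.zero_apply]
      rw [Submodule.coe_sum]
      have h1 : ∀ i, ((((θ ^ i) v : eigS ρ μ)) : V) = ((ρ a) ^ i) (v : V) := fun i => restrict_pow_coe _ _ _ i v
      simp only [h1]
      exact ha0 _ v.2)
    (by
      intro g hg
      have h2 : a * g * a⁻¹ = g := congrArg Subtype.val hg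
      have h3 := h.hfixY _ (mem_FixIn.1 g.2).1 (h.hPQ.fix_all haA haQ (mem_FixIn.1 g.2).2 h2)
      have h4 : g = 1 := Subtype.ext h3
      rw [h4, map_one])
    (Nat.Coprime.coprime_dvd_left (Subgroup.card_dvd_of_le hCY) (h.copY p hp h.hps))
    (by
      intro n hn
      have h2 : n ∣ Nat.card Y := hn.trans (Subgroup.card_dvd_of_le hCY)
      have h3 : ((n : ℕ) : F) ≠ 0 := by
        intro h4
        apply h.cardY
        obtain ⟨m, hm⟩ := h2
        rw [hm, Nat.cast_mul, h4, zero_mul]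
      have h4 : ((n : ℕ) : Module.End F (eigS ρ μ)) = algebraMap F _ ((n : ℕ) : F) := by simp
      rw [h4]
      exact (IsUnit.mk0 _ h3).map _)
    ⟨y, mem_FixIn.2 ⟨hy, huy⟩⟩
  intro v hv
  have h2 := congrArg (fun f : Module.End F (eigS ρ μ) => ((f ⟨v, hv⟩ : eigS ρ μ) : V)) h1
  exact h2

variable [IsAlgClosed F] [FiniteDimensional F V]

/-- The fixed points of `u` in `T` act trivially on the section. -/
theorem cd_T₀ (hTfix : ∀ x ∈ FixIn T u, ∀ μ, Rt ρ N u μ → x • μ = μ) {x y : L} (hx : x ∈ FixIn T u) (hy : y ∈ Y)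
    {μ : ↥N →* Fˣ} (hμ : Rt ρ N u μ) : ∀ v ∈ eigS ρ μ, ρ (x * y * x⁻¹ * y⁻¹) v = v := by
  classical
  obtain ⟨a, haA, haQ, haμ, ha0⟩ := h.dichR hsum hNY hYN hμ
  have hap : a ^ p = 1 := h.hPQ.hcomp a haA haQ
  have hp := h.hPQ.hp
  haveI hsf : Fact s.Prime := ⟨h.hs⟩
  have hYU : ∀ y ∈ Y, ∀ v ∈ eigS ρ μ, ρ y v ∈ eigS ρ μ := fun y hy v hv => eig_Y hYN hy hv
  have haU : ∀ v ∈ eigS ρ μ, ρ a v ∈ eigS ρ μ := by
    intro v hv
    have h1 := rho_eig ρ N a hv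
    rwa [haμ] at h1
  have hXU : ∀ x ∈ FixIn T u, ∀ v ∈ eigS ρ μ, ρ x v ∈ eigS ρ μ := by
    intro x hx v hv
    have h1 := rho_eig ρ N x hv
    rwa [hTfix x hx μ hμ] at h1
  have hmain := lemH_sub ρ (eigS ρ μ) Y (FixIn T u) a hp h.hr hap ha0 hYU hXU haU h.hY
    (h.hT.to_le inf_le_left) (fun x _ y hy => hYn.conj_mem y hy x) (fun y hy => hYn.conj_mem y hy a)
    (by
      intro g hg
      obtain ⟨h1, h2⟩ := mem_FixIn.1 hg
      exact mem_FixIn.2 ⟨h.hAT a haA g h1, h.hPQ.conj_fix haA h2⟩)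
    (by
      intro g hg h2
      obtain ⟨h1, h3⟩ := mem_FixIn.1 hg
      exact h.hfixT g h1 (h.hPQ.fix_all haA haQ h3 h2))
    h.hps h.hrs h.hrp.symm h.hs0 h.hp0
  intro v hv
  have h1 := hmain x hx y hy (ρ y⁻¹ v) (hYU _ (Y.inv_mem hy) v hv)
  rw [map_mul, Module.End.mul_apply, h1]
  exact rho_apply_inv ρ y v

/-- `u` acts trivially on the section for weights of the second type. -/
theorem cd_Q {y : L} (hy : y ∈ Y) {μ : ↥N →* Fˣ} (hμ : Qt ρ N u μ) :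
    ∀ v ∈ eigS ρ μ, ρ (y⁻¹ * (u * y * u⁻¹)) v = v := by
  classical
  haveI hsf : Fact s.Prime := ⟨h.hs⟩
  have hYU : ∀ y ∈ Y, ∀ v ∈ eigS ρ μ, ρ y v ∈ eigS ρ μ := fun y hy v hv => eig_Y hYN hy hv
  have huU : ∀ v ∈ eigS ρ μ, ρ u v ∈ eigS ρ μ := by
    intro v hv
    have h1 := rho_eig ρ N u hv
    rwa [hμ.2.2] at h1
  have hmain := lemG_sub ρ (eigS ρ μ) Y u h.hPQ.hp h.hPQ.hq h.hPQ.hpq h.hPQ.huq (h.dichQ hsum hNY hYN hμ) hYU huU h.hY
    (fun y hy => hYn.conj_mem y hy u) h.hqs h.hps h.hs0 h.hq0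
  intro v hv
  rw [map_mul, Module.End.mul_apply, hmain y hy v hv]
  exact rho_inv_apply ρ y v

end weights

end CD

end Cfsg.Agent.Lib.Struct.PQFix
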