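import Mathlib
import Cfsg.Agent.Lib.Struct.PQFixM

/-!
# The core of the proof: the abelian and the nonabelian case
-/

set_option autoImplicit false

namespace Cfsg.Agent.Lib.Struct.PQFix

open Subgroup SymFix

namespace CD

variable {L : Type*} [Group L] [Finite L] {F : Type*} [Field F] [IsAlgClosed F] {V : Type*} [AddCommGroup V]
  [Module F V] [FiniteDimensional F V]
  {ρ : L →* Module.End F V} {Y T A : Subgroup L} {p q r s : ℕ} {u : L}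

omit [IsAlgClosed F] [FiniteDimensional F V] in
theorem smul_conj_smul (N : Subgroup L) [N.Normal] (a t : L) (μ : ↥N →* Fˣ) : a • t • μ = (a * t * a⁻¹) • a • μ := by
  rw [← mul_smul, ← mul_smul]
  congr 1
  group

section ab

variable [hYn : Y.Normal] [Fintype ↥A] (h : CD ρ Y T A p q r s u)
  (hsum : ∀ v, ∑ a : ↥A, ρ (a : L) v = 0) (hab : ∀ a ∈ Y, ∀ c ∈ Y, a * c = c * a)

include h hsum hab

omit [FiniteDimensional F V] [IsAlgClosed F] in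
/-- Elements of `A` fixing a weight fix the whole orbit. -/
theorem orbit_stab {μ : ↥Y →* Fˣ} (hocc : eigS ρ μ ≠ ⊥) (hμ1 : μ ≠ 1) {b : L} (hb : b ∈ A) (hbμ : b • μ = μ)
    {x : L} (hx : x ∈ T) : b • x • μ = x • μ := by
  classical
  by_cases hb1 : b = 1
  · rw [hb1, one_smul]
  let BO : Subgroup L :=
    { carrier := {a | a ∈ A ∧ ∃ t ∈ T, a • μ = t • μ}
      mul_mem' := by
        rintro a a' ⟨ha, t, ht, hat⟩ ⟨ha', t', ht', hat'⟩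
        refine ⟨A.mul_mem ha ha', (a * t' * a⁻¹) * t, T.mul_mem (h.hAT a ha t' ht') ht, ?_⟩
        rw [mul_smul, hat', smul_conj_smul, hat]
        exact (mul_smul _ _ _).symm
      one_mem' := ⟨A.one_mem, 1, T.one_mem, rfl⟩
      inv_mem' := by
        rintro a ⟨ha, t, ht, hat⟩
        refine ⟨A.inv_mem ha, (a⁻¹ * t * a)⁻¹, T.inv_mem (by
          have := h.hAT a⁻¹ (A.inv_mem ha) t ht
          simpa using this), ?_⟩
        rw [eq_inv_smul_iff, ← mul_smul]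
        have h1 : a⁻¹ * t * a * a⁻¹ = a⁻¹ * t := by group
        rw [h1, mul_smul, ← hat, inv_smul_smul] }
  have hBOm : ∀ a, a ∈ BO ↔ a ∈ A ∧ ∃ t ∈ T, a • μ = t • μ := fun a => Iff.rfl
  have hNe : BO ≠ A := by
    intro hBO
    let S : Set (↥Y →* Fˣ) := {ν | ∃ t ∈ T, ν = t • μ}
    haveI hrf : Fact r.Prime := ⟨h.hr⟩
    haveI : Group.IsNilpotent ↥T := h.hT.isNilpotent
    have hsolv : Group.IsSolvable ↥T := inferInstance
    obtain ⟨⟨ν, ⟨t, ht, rfl⟩, hν⟩, -⟩ := Cfsg.Agent.Lib.Basic.glauberman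
      (A := A) (K := T) (fun a ha => mem_normalizer_of_finite (h.hAT a ha)) h.copAT (Or.inr hsolv)
      S ⟨μ, 1, T.one_mem, (one_smul _ _).symm⟩
      (by
        rintro k hk _ ⟨t, ht, rfl⟩
        exact ⟨k * t, T.mul_mem hk ht, (mul_smul _ _ _).symm⟩)
      (by
        rintro a ha _ ⟨t, ht, rfl⟩
        have ha' : a ∈ BO := by rw [hBO]; exact ha
        obtain ⟨_, t', ht', hat'⟩ := ha'
        refine ⟨(a * t * a⁻¹) * t', T.mul_mem (h.hAT a ha t ht) ht', ?_⟩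
        rw [smul_conj_smul, hat']
        exact (mul_smul _ _ _).symm)
      (by
        rintro _ ⟨t, ht, rfl⟩ _ ⟨t', ht', rfl⟩
        refine ⟨t' * t⁻¹, T.mul_mem ht' (T.inv_mem ht), ?_⟩
        rw [mul_smul, inv_smul_smul])
    have h1 := triv_of_fix (F := F) A Y hab (fun n hn hg => h.hfixY n hn hg) (h.copNA le_rfl) (μ := t • μ) hν
    exact smul_ne_one Y t hμ1 h1
  have hocc' : eigS ρ (x • μ) ≠ ⊥ := occ_k ρ Y x hocc
  have hne' : x • μ ≠ 1 := smul_ne_one Y x hμ1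
  -- a nontrivial stabilizing element
  obtain ⟨c, hcA, hc1, hcμ⟩ : ∃ c ∈ A, c ≠ 1 ∧ c • x • μ = x • μ := by
    rcases wt_dich ρ Y A h.hPQ hsum h.cardY hab (fun n hn hg => h.hfixY n hn hg) (h.copNA le_rfl) hocc' hne' with h1 | h1
    · exact ⟨u, h.hPQ.huA, h.hPQ.hu1, h1.1⟩
    · obtain ⟨_, a, ha, haQ, ha', _⟩ := h1
      exact ⟨a, ha, h.hPQ.ne_one_of_not_Q haQ, ha'⟩
  have hcBO : c ∈ BO := by
    refine ⟨hcA, (c * x * c⁻¹)⁻¹ * x, T.mul_mem (T.inv_mem (h.hAT c hcA x hx)) hx, ?_⟩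
    rw [smul_conj_smul] at hcμ
    rw [mul_smul, ← hcμ, inv_smul_smul]
  have hbBO : b ∈ BO := ⟨hb, 1, T.one_mem, by rw [hbμ, one_smul]⟩
  have h1 := h.hPQ.gen_of_proper (B := BO) (fun a ha => ha.1) hNe hcBO hc1 hbBO
  exact fix_of_zpowers hcμ h1

omit [FiniteDimensional F V] [IsAlgClosed F] in
theorem Rt_T {μ : ↥Y →* Fˣ} (hμ : Rt ρ Y u μ) {x : L} (hx : x ∈ T) : Rt ρ Y u (x • μ) := by
  refine ⟨occ_k ρ Y x hμ.1, smul_ne_one Y x hμ.2.1, fun h1 => hμ.2.2 ?_⟩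
  have h2 := orbit_stab h hsum hab (occ_k ρ Y x hμ.1) (smul_ne_one Y x hμ.2.1) h.hPQ.huA h1 (T.inv_mem hx)
  rwa [inv_smul_smul] at h2

omit [FiniteDimensional F V] [IsAlgClosed F] in
theorem Qt_T {μ : ↥Y →* Fˣ} (hμ : Qt ρ Y u μ) {x : L} (hx : x ∈ T) : Qt ρ Y u (x • μ) :=
  ⟨occ_k ρ Y x hμ.1, smul_ne_one Y x hμ.2.1, orbit_stab h hsum hab hμ.1 hμ.2.1 h.hPQ.huA hμ.2.2 hx⟩

omit [FiniteDimensional F V] [IsAlgClosed F] in
theorem T₀_fix {x : L} (hx : x ∈ FixIn T u) {μ : ↥Y →* Fˣ} (hμ : Rt ρ Y u μ) : x • μ = μ := by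
  obtain ⟨a, haA, haQ, haμ, -⟩ := h.dichR hsum le_rfl hab hμ
  obtain ⟨w, hw, rfl⟩ := exists_twist (FixIn T u) a
    (by
      intro g hg
      obtain ⟨h1, h2⟩ := mem_FixIn.1 hg
      exact mem_FixIn.2 ⟨h.hAT a haA g h1, h.hPQ.conj_fix haA h2⟩)
    (by
      intro g hg h2
      obtain ⟨h1, h3⟩ := mem_FixIn.1 hg
      exact h.hfixT g h1 (h.hPQ.fix_all haA haQ h3 h2))
    x hx
  have h1 := orbit_stab h hsum hab hμ.1 hμ.2.1 haA haμ (mem_FixIn.1 hw).1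
  rw [smul_conj_smul, haμ] at h1
  rw [mul_smul, h1, inv_smul_smul]

omit [FiniteDimensional F V] [IsAlgClosed F] h hsum hab hYn [Fintype ↥A] in
theorem mu_eq_one_of_fix {N : Subgroup L} {μ : ↥N →* Fˣ} {c : L} (hc : c ∈ N) {v : V} (hv : v ∈ eigS ρ μ) (hv0 : v ≠ 0)
    (h1 : ρ c v = v) : μ ⟨c, hc⟩ = 1 := by
  have h2 : ρ c v = ((μ ⟨c, hc⟩ : Fˣ) : F) • v := hv ⟨c, hc⟩
  rw [h1] at h2
  have h3 : (((μ ⟨c, hc⟩ : Fˣ) : F) - 1) • v = 0 := by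
    rw [sub_smul, one_smul, ← h2, sub_self]
  have h4 := sub_eq_zero.1 ((smul_eq_zero.1 h3).resolve_right hv0)
  exact Units.ext h4

/-- **The abelian case.** -/
theorem core_ab (hinj : ∀ z ∈ Y, ρ z = 1 → z = 1) : ∀ x ∈ T, ∀ y ∈ Y, x * y * x⁻¹ = y := by
  classical
  have hq := h.hPQ.hq
  have hp := h.hPQ.hp
  have huA := h.hPQ.huA
  have hTY : ∀ x ∈ T, ∀ y ∈ Y, x * y * x⁻¹ ∈ Y := fun x _ y hy => hYn.conj_mem y hy x
  have hAY : ∀ g ∈ A, ∀ y ∈ Y, g * y * g⁻¹ ∈ Y := fun g _ y hy => hYn.conj_mem y hy g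
  have hYfix : ∀ g ∈ Y, ∀ μ : ↥Y →* Fˣ, g • μ = μ := fun g hg μ => fix_of_central Y μ (hab g hg)
  have hab1 : ∀ {K : Subgroup L}, ∀ a ∈ Y, ∀ b ∈ Y, a * b * a⁻¹ * b⁻¹ ∈ K := by
    intro K a ha b hb
    have : a * b * a⁻¹ * b⁻¹ = 1 := by
      rw [hab a ha b hb]
      group
    rw [this]
    exact K.one_mem
  -- the first section
  have hR : ∀ x ∈ T, ∀ y ∈ Y, x * y * x⁻¹ * y⁻¹ ∈ wtKer ρ Y Y (Rt ρ Y u) := by
    have hKY : wtKer ρ Y Y (Rt ρ Y u) ≤ Y := fun k hk => hk.1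
    refine sec_R Y T _ u q hq hKY ?_ hab1 hTY ?_ (hAY u huA) ?_ (h.hAT u huA) h.hPQ.huq ?_ ?_
      (h.copT q hq h.hrq.symm) h.copTY (h.not_dvd_Y q hq h.hqs hKY)
    · intro y hy
      refine wtKer_conj (fun y' hy' => hYn.conj_mem y' hy' y) (fun μ hμ => ?_)
      rw [hYfix _ (Y.inv_mem hy) μ]
      exact hμ
    · intro x hx
      exact wtKer_conj (hTY x hx) (fun μ hμ => Rt_T h hsum hab hμ (T.inv_mem hx))
    · exact wtKer_conj (hAY u huA) (fun μ hμ => Rt_smul_A h.hPQ (A.inv_mem huA) hμ)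
    · intro y hy huy
      exact ⟨hy, fun μ hμ v hv => h.cd_C hsum le_rfl hab hy huy hμ v hv⟩
    · intro x hx hux y hy
      refine ⟨Y.mul_mem (hTY x hx y hy) (Y.inv_mem hy), fun μ hμ v hv => ?_⟩
      exact h.cd_T₀ hsum le_rfl hab (fun x' hx' μ' hμ' => T₀_fix h hsum hab hx' hμ') (mem_FixIn.2 ⟨hx, hux⟩) hy hμ v hv
  -- the second section
  have hQ : ∀ x ∈ T, ∀ y ∈ Y, x * y * x⁻¹ * y⁻¹ ∈ wtKer ρ Y Y (Qt ρ Y u) := by
    have hKY : wtKer ρ Y Y (Qt ρ Y u) ≤ Y := fun k hk => hk.1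
    refine sec_Q Y T _ A h.hPQ hKY ?_ hab1 hTY ?_ hAY ?_ h.hAT h.hfixY h.hfixT ?_
      (h.copT q hq h.hrq.symm) (h.copT p hp h.hrp.symm) h.copTY
      (Nat.Coprime.coprime_dvd_left (Subgroup.card_dvd_of_le hKY) (h.copY q hq h.hqs))
      (Nat.Coprime.coprime_dvd_left (Subgroup.card_dvd_of_le hKY) (h.copY p hp h.hps))
    · intro y hy
      refine wtKer_conj (fun y' hy' => hYn.conj_mem y' hy' y) (fun μ hμ => ?_)
      rw [hYfix _ (Y.inv_mem hy) μ]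
      exact hμ
    · intro x hx
      exact wtKer_conj (hTY x hx) (fun μ hμ => Qt_T h hsum hab hμ (T.inv_mem hx))
    · intro g hg
      exact wtKer_conj (hAY g hg) (fun μ hμ => Qt_smul_A h.hPQ (A.inv_mem hg) hμ)
    · intro y hy
      exact ⟨Y.mul_mem (Y.inv_mem hy) (hAY u huA y hy), fun μ hμ v hv => h.cd_Q hsum le_rfl hab hy hμ v hv⟩
  -- conclusion
  intro x hx y hy
  have hcY : x * y * x⁻¹ * y⁻¹ ∈ Y := Y.mul_mem (hTY x hx y hy) (Y.inv_mem hy)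
  by_contra hne
  have hc1 : ρ (x * y * x⁻¹ * y⁻¹) ≠ 1 := by
    intro h1
    apply hne
    exact mul_inv_eq_one.1 (hinj _ hcY h1)
  obtain ⟨μ, hocc, hμc⟩ := exists_eig_ne_one ρ hab h.cardY ⟨_, hcY⟩ hc1
  have hμ1 : μ ≠ 1 := by
    rintro rfl
    exact hμc rfl
  obtain ⟨v, hv, hv0⟩ := (Submodule.ne_bot_iff _).1 hocc
  apply hμc
  apply mu_eq_one_of_fix hcY hv hv0
  by_cases hu : u • μ = μ
  · exact (hQ x hx y hy).2 μ ⟨hocc, hμ1, hu⟩ v hv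
  · exact (hR x hx y hy).2 μ ⟨hocc, hμ1, hu⟩ v hv

end ab

section nonab

variable [hYn : Y.Normal] [Fintype ↥A] (h : CD ρ Y T A p q r s u)
  (hsum : ∀ v, ∑ a : ↥A, ρ (a : L) v = 0)

include h hsum

/-- **The nonabelian case.** -/
theorem core_nonab (hinj : ∀ z ∈ Y, ρ z = 1 → z = 1)
    (hmin : ∀ N : Subgroup L, N ≤ Y → N ≠ Y → (∀ g ∈ {g | g ∈ T ∨ g ∈ A}, ∀ n ∈ N, g * n * g⁻¹ ∈ N) →
      ∀ x ∈ T, ∀ n ∈ N, x * n * x⁻¹ = n)
    (hnc : ¬ ∀ x ∈ T, ∀ y ∈ Y, x * y * x⁻¹ = y)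
    {g₀ h₀ : L} (hg₀ : g₀ ∈ Y) (hh₀ : h₀ ∈ Y) (hne : g₀ * h₀ ≠ h₀ * g₀) : False := by
  classical
  have hq := h.hPQ.hq
  have hp := h.hPQ.hp
  have huA := h.hPQ.huA
  haveI hsf : Fact s.Prime := ⟨h.hs⟩
  let S : Set L := {g | g ∈ T ∨ g ∈ A}
  have hSX : ∀ g ∈ S, ∀ x ∈ T, g * x * g⁻¹ ∈ T := by
    rintro g (hg | hg) x hx
    · exact T.mul_mem (T.mul_mem hg hx) (T.inv_mem hg)
    · exact h.hAT g hg x hx
  have hcop : (Nat.card T).Coprime s := h.copT s h.hs h.hrs.symm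
  have hstr := str_center Y T S h.hY hSX hcop hmin hnc
  have hder := str_der Y T S h.hY hSX hcop hmin hnc
  have hTY : ∀ x ∈ T, ∀ y ∈ Y, x * y * x⁻¹ ∈ Y := fun x _ y hy => hYn.conj_mem y hy x
  have hAY : ∀ g ∈ A, ∀ y ∈ Y, g * y * g⁻¹ ∈ Y := fun g _ y hy => hYn.conj_mem y hy g
  have hZY : CZ Y ≤ Y := fun z hz => (mem_CZ.1 hz).1
  have hZne : CZ Y ≠ Y := by
    intro h1
    have h2 : h₀ ∈ CZ Y := by rw [h1]; exact hh₀
    exact hne ((mem_CZ.1 h2).2 g₀ hg₀)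
  have hZn : (CZ Y).Normal := inferInstance
  have hZc : ∀ x ∈ CZ Y, ∀ y ∈ CZ Y, x * y = y * x := by
    intro x hx y hy
    exact (mem_CZ.1 hy).2 x (mem_CZ.1 hx).1
  have hYZ : ∀ y ∈ Y, ∀ z ∈ CZ Y, y * z = z * y := fun y hy z hz => (mem_CZ.1 hz).2 y hy
  have hTZ : ∀ x ∈ T, ∀ z ∈ CZ Y, x * z * x⁻¹ = z := hmin _ hZY hZne (fun g _ n hn => hZn.conj_mem n hn g)
  have hTZ' : ∀ x ∈ T, ∀ z ∈ CZ Y, x * z = z * x := by
    intro x hx z hz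
    calc x * z = (x * z * x⁻¹) * x := by group
      _ = z * x := by rw [hTZ x hx z hz]
  have hTfix : ∀ x ∈ T, ∀ μ : ↥(CZ Y) →* Fˣ, x • μ = μ := fun x hx μ => fix_of_central _ μ (hTZ' x hx)
  have hYfix : ∀ g ∈ Y, ∀ μ : ↥(CZ Y) →* Fˣ, g • μ = μ := fun g hg μ => fix_of_central _ μ (hYZ g hg)
  -- the final contradiction
  have hfinal : (∀ x ∈ T, ∀ y ∈ Y, x * y * x⁻¹ * y⁻¹ ∈ CZ Y) → False := by
    intro hall
    apply hnc
    intro x hx y hy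
    refine comm_of_section h.hY hZY (hTZ x hx)
      (Nat.Coprime.coprime_dvd_left (Subgroup.orderOf_dvd_natCard T hx) hcop) hy ?_
    have h1 := hZn.conj_mem _ (hall x hx y hy) y⁻¹
    have h2 : y⁻¹ * (x * y * x⁻¹ * y⁻¹) * y⁻¹⁻¹ = y⁻¹ * (x * y * x⁻¹) := by group
    rwa [h2] at h1
  have hsecn : ∀ a ∈ Y, ∀ b ∈ Y, a * b * a⁻¹ * b⁻¹ ∈ CZ Y := fun a ha b hb => hder a b ha hb
  have hz₀ : g₀ * h₀ * g₀⁻¹ * h₀⁻¹ ∈ CZ Y := hder g₀ h₀ hg₀ hh₀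
  have hz₀Y := hZY hz₀
  have hz₀1 : ρ (((⟨_, hz₀⟩ : CZ Y)) : L) ≠ 1 := by
    intro h1
    apply hne
    have h2 := mul_inv_eq_one.1 (hinj _ hz₀Y h1)
    calc g₀ * h₀ = g₀ * h₀ * g₀⁻¹ * g₀ := by group
      _ = h₀ * g₀ := by rw [h2]
  obtain ⟨μ, hocc, hμz⟩ := exists_eig_ne_one ρ hZc (h.card_ne_of_le hZY) ⟨_, hz₀⟩ hz₀1
  have hμ1 : μ ≠ 1 := by
    rintro rfl
    exact hμz rfl
  obtain ⟨v₀, hv₀, hv₀0⟩ := (Submodule.ne_bot_iff _).1 hocc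
  have hcard : ∀ {K : Subgroup L}, K ≤ Y → ∀ n : ℕ, n.Prime → n ≠ s → (Nat.card K).Coprime n := by
    intro K hK n hn hns
    exact Nat.Coprime.coprime_dvd_left (Subgroup.card_dvd_of_le hK) (h.copY n hn hns)
  have hZA : ∀ g ∈ A, ∀ k ∈ CZ Y, g * k * g⁻¹ ∈ CZ Y := fun g _ k hk => hZn.conj_mem k hk g
  have hZT : ∀ x ∈ T, ∀ k ∈ CZ Y, x * k * x⁻¹ ∈ CZ Y := fun x _ k hk => hZn.conj_mem k hk x
  have hZYn : ∀ y ∈ Y, ∀ k ∈ CZ Y, y * k * y⁻¹ ∈ CZ Y := fun y _ k hk => hZn.conj_mem k hk y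
  by_cases hu : u • μ = μ
  · -- the second type
    have hKY : wtKer ρ (CZ Y) Y (Qt ρ (CZ Y) u) ≤ Y := fun k hk => hk.1
    have hKle : wtKer ρ (CZ Y) Y (Qt ρ (CZ Y) u) ≤ CZ Y := by
      apply hstr _ hKY
      · intro hK
        have h1 : g₀ * h₀ * g₀⁻¹ * h₀⁻¹ ∈ wtKer ρ (CZ Y) Y (Qt ρ (CZ Y) u) := by rw [hK]; exact hz₀Y
        exact hμz (mu_eq_one_of_fix hz₀ hv₀ hv₀0 (h1.2 μ ⟨hocc, hμ1, hu⟩ v₀ hv₀))
      · rintro g (hg | hg)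
        · refine wtKer_conj (hTY g hg) (fun ν hν => ?_)
          rw [hTfix _ (T.inv_mem hg) ν]
          exact hν
        · exact wtKer_conj (hAY g hg) (fun ν hν => Qt_smul_A h.hPQ (A.inv_mem hg) hν)
      · intro y hy
        refine wtKer_conj (fun y' hy' => hYn.conj_mem y' hy' y) (fun ν hν => ?_)
        rw [hYfix _ (Y.inv_mem hy) ν]
        exact hν
    refine hfinal (sec_Q Y T _ A h.hPQ hZY hZYn hsecn hTY hZT hAY hZA h.hAT h.hfixY h.hfixT ?_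
      (h.copT q hq h.hrq.symm) (h.copT p hp h.hrp.symm) h.copTY (hcard hZY q hq h.hqs) (hcard hZY p hp h.hps))
    intro y hy
    apply hKle
    exact ⟨Y.mul_mem (Y.inv_mem hy) (hAY u huA y hy), fun ν hν v hv => h.cd_Q hsum hZY hYZ hy hν v hv⟩
  · -- the first type
    have hKY : wtKer ρ (CZ Y) Y (Rt ρ (CZ Y) u) ≤ Y := fun k hk => hk.1
    have hKle : wtKer ρ (CZ Y) Y (Rt ρ (CZ Y) u) ≤ CZ Y := by
      apply hstr _ hKY
      · intro hK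
        have h1 : g₀ * h₀ * g₀⁻¹ * h₀⁻¹ ∈ wtKer ρ (CZ Y) Y (Rt ρ (CZ Y) u) := by rw [hK]; exact hz₀Y
        exact hμz (mu_eq_one_of_fix hz₀ hv₀ hv₀0 (h1.2 μ ⟨hocc, hμ1, hu⟩ v₀ hv₀))
      · rintro g (hg | hg)
        · refine wtKer_conj (hTY g hg) (fun ν hν => ?_)
          rw [hTfix _ (T.inv_mem hg) ν]
          exact hν
        · exact wtKer_conj (hAY g hg) (fun ν hν => Rt_smul_A h.hPQ (A.inv_mem hg) hν)
      · intro y hy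
        refine wtKer_conj (fun y' hy' => hYn.conj_mem y' hy' y) (fun ν hν => ?_)
        rw [hYfix _ (Y.inv_mem hy) ν]
        exact hν
    refine hfinal (sec_R Y T _ u q hq hZY hZYn hsecn hTY hZT (hAY u huA) (hZA u huA) (h.hAT u huA) h.hPQ.huq ?_ ?_
      (h.copT q hq h.hrq.symm) h.copTY (h.not_dvd_Y q hq h.hqs hZY))
    · intro y hy huy
      apply hKle
      exact ⟨hy, fun ν hν v hv => h.cd_C hsum hZY hYZ hy huy hν v hv⟩
    · intro x hx hux y hy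
      apply hKle
      refine ⟨Y.mul_mem (hTY x hx y hy) (Y.inv_mem hy), fun ν hν v hv => ?_⟩
      exact h.cd_T₀ hsum hZY hYZ (fun x' hx' μ' _ => hTfix x' (mem_FixIn.1 hx').1 μ') (mem_FixIn.2 ⟨hx, hux⟩) hy hν v hv

end nonab

end CD

end Cfsg.Agent.Lib.Struct.PQFix
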