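import Mathlib
import Cfsg.Agent.Lib.Struct.PQFixN

/-!
# The core of the proof for subgroups which are not normal
-/

set_option autoImplicit false

namespace Cfsg.Agent.Lib.Struct.PQFix

open Subgroup SymFix

section transfer

variable {L : Type*} [Group L]

theorem PQ.subgroupOf [Finite L] {A K : Subgroup L} {p q : ℕ} {u : L} (h : PQ A p q u) (hAK : A ≤ K) :
    PQ (A.subgroupOf K) p q ⟨u, hAK h.huA⟩ := by
  have hmem : ∀ (a : ↥K), a ∈ zpowers (⟨u, hAK h.huA⟩ : ↥K) ↔ (a : L) ∈ zpowers u := by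
    intro a
    constructor
    · intro h1
      obtain ⟨i, hi⟩ := mem_zpowers_iff.1 h1
      refine mem_zpowers_iff.2 ⟨i, ?_⟩
      have := congrArg Subtype.val hi
      simpa using this
    · intro h1
      obtain ⟨i, hi⟩ := mem_zpowers_iff.1 h1
      refine mem_zpowers_iff.2 ⟨i, ?_⟩
      apply Subtype.ext
      simpa using hi
  refine ⟨h.hp, h.hq, h.hpq, Subgroup.mem_subgroupOf.2 h.huA, Subtype.ext h.huq, ?_, ?_, ?_, ?_⟩
  · intro h1
    exact h.hu1 (congrArg Subtype.val h1)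
  · intro a ha
    rw [hmem]
    exact h.hnorm _ (Subgroup.mem_subgroupOf.1 ha)
  · intro a ha hna
    apply Subtype.ext
    rw [hmem] at hna
    exact h.hcomp _ (Subgroup.mem_subgroupOf.1 ha) hna
  · rw [← h.hcard]
    exact Nat.card_congr (Subgroup.subgroupOfEquivOfLe hAK).toEquiv

end transfer

section main

variable {L : Type*} [Group L] [Finite L] {F : Type*} [Field F] [IsAlgClosed F] {V : Type*} [AddCommGroup V]
  [Module F V] [FiniteDimensional F V]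
  {ρ : L →* Module.End F V} {Y T A : Subgroup L} {p q r s : ℕ} {u : L}

/-- **The core theorem.** -/
theorem core_L [Fintype ↥A] (h : CD ρ Y T A p q r s u) (hsum : ∀ v, ∑ a : ↥A, ρ (a : L) v = 0)
    (hinj : ∀ z ∈ Y, ρ z = 1 → z = 1) (hTY : ∀ x ∈ T, ∀ y ∈ Y, x * y * x⁻¹ ∈ Y)
    (hAY : ∀ g ∈ A, ∀ y ∈ Y, g * y * g⁻¹ ∈ Y) : ∀ x ∈ T, ∀ y ∈ Y, x * y * x⁻¹ = y := by
  classical
  by_contra hnc
  let Pd : Subgroup L → Prop := fun N => N ≤ Y ∧ (∀ g ∈ {g | g ∈ T ∨ g ∈ A}, ∀ n ∈ N, g * n * g⁻¹ ∈ N) ∧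
    ¬ ∀ x ∈ T, ∀ y ∈ N, x * y * x⁻¹ = y
  have hne : (setOf Pd).Nonempty := by
    refine ⟨Y, le_rfl, ?_, hnc⟩
    rintro g (hg | hg) n hn
    · exact hTY g hg n hn
    · exact hAY g hg n hn
  obtain ⟨Y₁, hY₁⟩ := (Set.toFinite (setOf Pd)).exists_minimal hne
  obtain ⟨hY₁Y, hY₁S, hY₁c⟩ := hY₁.prop
  have hmin₁ : ∀ N : Subgroup L, N ≤ Y₁ → N ≠ Y₁ → (∀ g ∈ {g | g ∈ T ∨ g ∈ A}, ∀ n ∈ N, g * n * g⁻¹ ∈ N) →
      ∀ x ∈ T, ∀ n ∈ N, x * n * x⁻¹ = n := by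
    intro N h1 h2 h3
    by_contra h4
    exact h2 (le_antisymm h1 (hY₁.le_of_le ⟨h1.trans hY₁Y, h3, h4⟩ h1))
  have hTN : T ≤ normalizer (Y₁ : Set L) := fun x hx => mem_normalizer_of_finite (hY₁S x (Or.inl hx))
  have hAN : A ≤ normalizer (Y₁ : Set L) := fun x hx => mem_normalizer_of_finite (hY₁S x (Or.inr hx))
  haveI hnor : (Y₁.subgroupOf (normalizer (Y₁ : Set L))).Normal := Subgroup.normal_in_normalizer
  let N₁ := normalizer (Y₁ : Set L)
  have hPQ₁ := h.hPQ.subgroupOf hAN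
  have hcd : CD (ρ.comp N₁.subtype) (Y₁.subgroupOf N₁) (T.subgroupOf N₁) (A.subgroupOf N₁) p q r s ⟨u, hAN h.hPQ.huA⟩ :=
    { hPQ := hPQ₁
      hs := h.hs
      hr := h.hr
      hY := comap_pgroup (h.hY.to_le hY₁Y) _ N₁.subtype_injective
      hT := comap_pgroup h.hT _ N₁.subtype_injective
      hrs := h.hrs
      hps := h.hps
      hqs := h.hqs
      hrp := h.hrp
      hrq := h.hrq
      hs0 := h.hs0
      hp0 := h.hp0
      hq0 := h.hq0
      hAT := fun g hg x hx => h.hAT _ (Subgroup.mem_subgroupOf.1 hg) _ (Subgroup.mem_subgroupOf.1 hx)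
      hfixY := by
        intro y hy hg
        apply Subtype.ext
        refine h.hfixY _ (hY₁Y (Subgroup.mem_subgroupOf.1 hy)) (fun g hg' => ?_)
        exact congrArg Subtype.val (hg ⟨g, hAN hg'⟩ (Subgroup.mem_subgroupOf.2 hg'))
      hfixT := by
        intro y hy hg
        apply Subtype.ext
        refine h.hfixT _ (Subgroup.mem_subgroupOf.1 hy) (fun g hg' => ?_)
        exact congrArg Subtype.val (hg ⟨g, hAN hg'⟩ (Subgroup.mem_subgroupOf.2 hg')) }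
  haveI : Fintype ↥(A.subgroupOf N₁) := Fintype.ofFinite _
  have hsum₁ : ∀ v, ∑ a : ↥(A.subgroupOf N₁), (ρ.comp N₁.subtype) (a : ↥N₁) v = 0 := by
    intro v
    rw [← hsum v]
    exact Fintype.sum_equiv (Subgroup.subgroupOfEquivOfLe hAN).toEquiv _ _ (fun _ => rfl)
  have hinj₁ : ∀ z ∈ Y₁.subgroupOf N₁, (ρ.comp N₁.subtype) z = 1 → z = 1 := by
    intro z hz hz1
    apply Subtype.ext
    exact hinj _ (hY₁Y (Subgroup.mem_subgroupOf.1 hz)) hz1
  by_cases hab : ∀ a ∈ Y₁.subgroupOf N₁, ∀ c ∈ Y₁.subgroupOf N₁, a * c = c * a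
  · have h1 := CD.core_ab hcd hsum₁ hab hinj₁
    apply hY₁c
    intro x hx y hy
    have hyN : y ∈ N₁ := Subgroup.le_normalizer hy
    have h2 := h1 ⟨x, hTN hx⟩ (Subgroup.mem_subgroupOf.2 hx) ⟨y, hyN⟩ (Subgroup.mem_subgroupOf.2 hy)
    exact congrArg Subtype.val h2
  · push_neg at hab
    obtain ⟨g₀, hg₀, h₀, hh₀, hne₀⟩ := hab
    refine CD.core_nonab hcd hsum₁ hinj₁ ?_ ?_ hg₀ hh₀ hne₀
    · intro N' hN'1 hN'2 hN'3 x hx n hn
      apply Subtype.ext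
      refine hmin₁ (N'.map N₁.subtype) (map_le_of_le hN'1) (map_ne_of_ne hN'2) ?_ _ (Subgroup.mem_subgroupOf.1 hx) _
        (Subgroup.mem_map_of_mem _ hn)
      rintro g hg _ ⟨n', hn', rfl⟩
      rcases hg with hg | hg
      · exact ⟨_, hN'3 ⟨g, hTN hg⟩ (Or.inl (Subgroup.mem_subgroupOf.2 hg)) n' hn', rfl⟩
      · exact ⟨_, hN'3 ⟨g, hAN hg⟩ (Or.inr (Subgroup.mem_subgroupOf.2 hg)) n' hn', rfl⟩
    · intro h2
      apply hY₁c
      intro x hx y hy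
      have hyN : y ∈ N₁ := Subgroup.le_normalizer hy
      have h1 := h2 ⟨x, hTN hx⟩ (Subgroup.mem_subgroupOf.2 hx) ⟨y, hyN⟩ (Subgroup.mem_subgroupOf.2 hy)
      exact congrArg Subtype.val h1

end main

end Cfsg.Agent.Lib.Struct.PQFix
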