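import Mathlib
import Cfsg.Agent.Lib.Struct.PQFixO
import Cfsg.Agent.Lib.Basic.Core
import Cfsg.Agent.Lib.Basic.Solv1

/-!
# The semidirect product: invariant Sylow subgroups and the commutation of primary parts
-/

set_option autoImplicit false

namespace Cfsg.Agent.Lib.Struct.PQFix

open Subgroup SymFix Cfsg Cfsg.Agent.Lib.Basic

section pqmap

variable {L M : Type*} [Group L] [Group M]

theorem PQ.map {A : Subgroup L} {p q : ℕ} {u : L} (h : PQ A p q u) (f : L →* M) (hf : Function.Injective f) :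
    PQ (A.map f) p q (f u) := by
  have hmem : ∀ (a : L), a ∈ zpowers u ↔ f a ∈ zpowers (f u) := by
    intro a
    constructor
    · intro h1
      obtain ⟨i, hi⟩ := mem_zpowers_iff.1 h1
      refine mem_zpowers_iff.2 ⟨i, ?_⟩
      rw [← map_zpow, hi]
    · intro h1
      obtain ⟨i, hi⟩ := mem_zpowers_iff.1 h1
      refine mem_zpowers_iff.2 ⟨i, ?_⟩
      apply hf
      rw [map_zpow, hi]
  refine ⟨h.hp, h.hq, h.hpq, Subgroup.mem_map_of_mem _ h.huA, ?_, ?_, ?_, ?_, ?_⟩
  · rw [← map_pow, h.huq, map_one]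
  · intro h1
    exact h.hu1 (hf (by rw [h1, map_one]))
  · rintro _ ⟨a, ha, rfl⟩
    rw [← map_inv, ← map_mul, ← map_mul, ← hmem]
    exact h.hnorm a ha
  · rintro _ ⟨a, ha, rfl⟩ hna
    rw [← hmem] at hna
    rw [← map_pow, h.hcomp a ha hna, map_one]
  · rw [← h.hcard]
    exact Nat.card_congr (Subgroup.equivMapOfInjective A f hf).symm.toEquiv

end pqmap

section sd

open SemidirectProduct

variable (H A₀ : Type*) [Group H] [Group A₀] [MulDistribMulAction A₀ H]

/-- The semidirect product. -/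
abbrev SD := H ⋊[MulDistribMulAction.toMulAut A₀ H] A₀

variable {H A₀}

theorem sd_conj (α : A₀) (x : H) :
    (inr α : SD H A₀) * inl x * (inr α : SD H A₀)⁻¹ = inl (α • x) := by
  rw [← map_inv]
  exact (inl_aut α x).symm

theorem sd_finite [Finite H] [Finite A₀] : Finite (SD H A₀) :=
  Finite.of_equiv _ SemidirectProduct.equivProd.symm

theorem exists_sd_rep {F V : Type*} [Field F] [AddCommGroup V] [Module F V] (ρ : H →* Module.End F V)
    (σ : A₀ →* Module.End F V) (hcomp : ∀ (α : A₀) (g : H), σ α * ρ g = ρ (α • g) * σ α) :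
    ∃ ρ' : SD H A₀ →* Module.End F V, (∀ x, ρ' (inl x) = ρ x) ∧ ∀ α, ρ' (inr α) = σ α := by
  let ρu : H →* (Module.End F V)ˣ := ρ.toHomUnits
  let σu : A₀ →* (Module.End F V)ˣ := σ.toHomUnits
  have hρu : ∀ x, ((ρu x : (Module.End F V)ˣ) : Module.End F V) = ρ x := fun x => MonoidHom.coe_toHomUnits ρ x
  have hσu : ∀ x, ((σu x : (Module.End F V)ˣ) : Module.End F V) = σ x := fun x => MonoidHom.coe_toHomUnits σ x
  have hh : ∀ g, ρu.comp (MulDistribMulAction.toMulAut A₀ H g).toMonoidHom =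
      (MulAut.conj (σu g)).toMonoidHom.comp ρu := by
    intro α
    apply MonoidHom.ext
    intro x
    show ρu (α • x) = σu α * ρu x * (σu α)⁻¹
    have h1 : ρu (α • x) * σu α = σu α * ρu x := by
      apply Units.ext
      simp only [Units.val_mul, hρu, hσu]
      exact (hcomp α x).symm
    rw [← h1]
    simp
  refine ⟨(Units.coeHom _).comp (lift ρu σu hh), fun x => ?_, fun α => ?_⟩
  · show ((lift ρu σu hh (inl x) : (Module.End F V)ˣ) : Module.End F V) = ρ x
    rw [lift_inl, hρu]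
  · show ((lift ρu σu hh (inr α) : (Module.End F V)ˣ) : Module.End F V) = σ α
    rw [lift_inr, hσu]

/-- **Invariant Sylow subgroups.** -/
theorem exists_inv_sylow [Finite H] [Group.IsSolvable H] [Finite A₀] (hcop : (Nat.card H).Coprime (Nat.card A₀))
    (r : ℕ) [hrf : Fact r.Prime] : ∃ T : Sylow r H, ∀ α : A₀, ∀ x ∈ (T : Subgroup H), α • x ∈ (T : Subgroup H) := by
  haveI := sd_finite (H := H) (A₀ := A₀)
  let il : H →* SD H A₀ := inl
  let ir : A₀ →* SD H A₀ := inr
  let K : Subgroup (SD H A₀) := il.range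
  let Â : Subgroup (SD H A₀) := ir.range
  have hAK : Â ≤ normalizer (K : Set (SD H A₀)) := by
    rintro _ ⟨α, rfl⟩
    apply mem_normalizer_of_finite
    rintro _ ⟨x, rfl⟩
    refine ⟨α • x, ?_⟩
    exact (sd_conj α x).symm
  have hil : Function.Injective il := inl_injective
  have hir : Function.Injective ir := inr_injective
  have hcardK : Nat.card K = Nat.card H := (Nat.card_congr (MonoidHom.ofInjective hil).toEquiv).symm
  have hcardA : Nat.card Â = Nat.card A₀ := (Nat.card_congr (MonoidHom.ofInjective hir).toEquiv).symm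
  have hsolv : Group.IsSolvable ↥K := solvable_of_surjective il.rangeRestrict_surjective
  obtain ⟨P, hP⟩ := exists_invariant_sylow hAK (by rw [hcardA, hcardK]; exact hcop.symm) (Or.inr hsolv) r
  let f : H →* ↥K := il.rangeRestrict
  have hf : Function.Surjective f := il.rangeRestrict_surjective
  have hfi : Function.Injective f := by
    intro a b hab
    exact hil (congrArg Subtype.val hab)
  have hTp : IsPGroup r ((P : Subgroup ↥K).comap f) := P.isPGroup'.comap_of_injective f hfi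
  have hTi : ¬ r ∣ ((P : Subgroup ↥K).comap f).index := by
    rw [Subgroup.index_comap_of_surjective _ hf]
    exact P.not_dvd_index
  refine ⟨hTp.toSylow hTi, ?_⟩
  intro α x hx
  rw [IsPGroup.toSylow_coe] at hx ⊢
  have h1 : (il x) ∈ (P : Subgroup ↥K).map K.subtype := ⟨f x, hx, rfl⟩
  have h2 := (mem_normalizer_iff.1 (hP (⟨α, rfl⟩ : ir α ∈ Â)) _).1 h1
  have h3 : ir α * il x * (ir α)⁻¹ = il (α • x) := sd_conj α x
  rw [h3] at h2
  obtain ⟨w, hw, hwe⟩ := h2
  have h4 : w = f (α • x) := Subtype.ext hwe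
  rw [h4] at hw
  exact hw

variable {F V : Type*} [Field F] [IsAlgClosed F] [AddCommGroup V] [Module F V] [FiniteDimensional F V]

/-- **The core theorem for an action.** -/
theorem core_sylow [Finite H] [Fintype A₀] (ρ : H →* Module.End F V) (hinj : Function.Injective ρ)
    (σ : A₀ →* Module.End F V) (hcomp : ∀ (α : A₀) (g : H), σ α * ρ g = ρ (α • g) * σ α) (hsum : ∑ α, σ α = 0)
    {p q r s : ℕ} {u : A₀} (hPQ : PQ (⊤ : Subgroup A₀) p q u) (Y T : Subgroup H) (hs : s.Prime) (hr : r.Prime)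
    (hY : IsPGroup s Y) (hT : IsPGroup r T) (hrs : r ≠ s) (hps : p ≠ s) (hqs : q ≠ s) (hrp : r ≠ p) (hrq : r ≠ q)
    (hs0 : ((s : ℕ) : F) ≠ 0) (hp0 : ((p : ℕ) : F) ≠ 0) (hq0 : ((q : ℕ) : F) ≠ 0)
    (hAY : ∀ α : A₀, ∀ y ∈ Y, α • y ∈ Y) (hAT : ∀ α : A₀, ∀ x ∈ T, α • x ∈ T)
    (hTY : ∀ x ∈ T, ∀ y ∈ Y, x * y * x⁻¹ ∈ Y) (hfix : ∀ g : H, (∀ α : A₀, α • g = g) → g = 1) :
    ∀ x ∈ T, ∀ y ∈ Y, x * y * x⁻¹ = y := by
  classical
  haveI := sd_finite (H := H) (A₀ := A₀)
  obtain ⟨ρ', hρl, hρr⟩ := exists_sd_rep ρ σ hcomp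
  let il : H →* SD H A₀ := inl
  let ir : A₀ →* SD H A₀ := inr
  have hil : Function.Injective il := inl_injective
  have hir : Function.Injective ir := inr_injective
  have hconj : ∀ α x, ir α * il x * (ir α)⁻¹ = il (α • x) := fun α x => sd_conj α x
  let Â : Subgroup (SD H A₀) := (⊤ : Subgroup A₀).map ir
  have hcd : CD ρ' (Y.map il) (T.map il) Â p q r s (ir u) :=
    { hPQ := hPQ.map ir hir
      hs := hs
      hr := hr
      hY := hY.map il
      hT := hT.map il
      hrs := hrs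
      hps := hps
      hqs := hqs
      hrp := hrp
      hrq := hrq
      hs0 := hs0
      hp0 := hp0
      hq0 := hq0
      hAT := by
        rintro _ ⟨α, -, rfl⟩ _ ⟨x, hx, rfl⟩
        rw [hconj]
        exact Subgroup.mem_map_of_mem _ (hAT α x hx)
      hfixY := by
        rintro _ ⟨y, hy, rfl⟩ hg
        rw [show il y = il 1 from congrArg il (hfix y (fun α => hil ?_)), map_one]
        rw [← hconj]
        exact hg _ (Subgroup.mem_map_of_mem _ (Subgroup.mem_top α))
      hfixT := by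
        rintro _ ⟨y, hy, rfl⟩ hg
        rw [show il y = il 1 from congrArg il (hfix y (fun α => hil ?_)), map_one]
        rw [← hconj]
        exact hg _ (Subgroup.mem_map_of_mem _ (Subgroup.mem_top α)) }
  letI : Fintype ↥Â := Fintype.ofFinite _
  have hsum' : ∀ v, ∑ a : ↥Â, ρ' (a : SD H A₀) v = 0 := by
    intro v
    let e : A₀ ≃ ↥Â := (Subgroup.topEquiv.symm.trans (Subgroup.equivMapOfInjective ⊤ ir hir)).toEquiv
    have h1 : ∑ a : ↥Â, ρ' (a : SD H A₀) v = ∑ α : A₀, σ α v := by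
      symm
      refine Fintype.sum_equiv e _ _ (fun α => ?_)
      show σ α v = ρ' (ir α) v
      rw [show ρ' (ir α) = σ α from hρr α]
    rw [h1, ← LinearMap.sum_apply, hsum]
    rfl
  have hmain := core_L hcd hsum' (by
      rintro _ ⟨y, hy, rfl⟩ h1
      have h2 : ρ y = 1 := by
        rw [← hρl y]
        exact h1
      have h3 : y = 1 := hinj (by rw [h2, map_one])
      rw [h3, map_one])
    (by
      rintro _ ⟨x, hx, rfl⟩ _ ⟨y, hy, rfl⟩
      rw [← map_inv, ← map_mul, ← map_mul]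
      exact Subgroup.mem_map_of_mem _ (hTY x hx y hy))
    (by
      rintro _ ⟨α, -, rfl⟩ _ ⟨y, hy, rfl⟩
      rw [hconj]
      exact Subgroup.mem_map_of_mem _ (hAY α y hy))
  intro x hx y hy
  have h1 := hmain _ (Subgroup.mem_map_of_mem il hx) _ (Subgroup.mem_map_of_mem il hy)
  rw [← map_inv, ← map_mul, ← map_mul] at h1
  exact hil h1

end sd

end Cfsg.Agent.Lib.Struct.PQFix
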