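import Mathlib
import Cfsg.Agent.Lib.Struct.SymFixC
import Cfsg.Agent.Lib.Struct.SymFixD

/-!
# Invariant `s`-subgroups act abelianly
-/

set_option autoImplicit false

namespace Cfsg.Agent.Lib.Struct.SymFix

open Subgroup

/-- The action on an invariant subgroup. -/
@[reducible] def subAction {K : Type*} [Group K] [MulDistribMulAction S3 K] (L : Subgroup K)
    (hL : ∀ α : S3, ∀ x ∈ L, α • x ∈ L) : MulDistribMulAction S3 ↥L where
  smul α x := ⟨α • (x : K), hL α _ x.2⟩
  one_smul x := Subtype.ext (one_smul _ _)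
  mul_smul α β x := Subtype.ext (mul_smul _ _ _)
  smul_mul α x y := Subtype.ext (smul_mul' _ _ _)
  smul_one α := Subtype.ext (smul_one _)

/-- The action on a quotient by an invariant normal subgroup. -/
@[reducible] def quotAction {K : Type*} [Group K] [MulDistribMulAction S3 K] (L : Subgroup K) [hN : L.Normal]
    (hL : ∀ α : S3, ∀ x ∈ L, α • x ∈ L) : MulDistribMulAction S3 (K ⧸ L) where
  smul α := QuotientGroup.map L L (MulDistribMulAction.toMonoidHom K α) (fun x hx => hL α x hx)
  one_smul x := by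
    induction x using QuotientGroup.induction_on with
    | H g =>
      show ((((1 : S3) • g : K)) : K ⧸ L) = g
      rw [one_smul]
  mul_smul α β x := by
    induction x using QuotientGroup.induction_on with
    | H g =>
      show (((α * β) • g : K) : K ⧸ L) = ((α • β • g : K) : K ⧸ L)
      rw [mul_smul]
  smul_mul α x y := map_mul _ x y
  smul_one α := map_one _

theorem quot_smul_mk {K : Type*} [Group K] [MulDistribMulAction S3 K] (L : Subgroup K) [hN : L.Normal]
    (hL : ∀ α : S3, ∀ x ∈ L, α • x ∈ L) (α : S3) (g : K) :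
    letI := quotAction L hL
    α • ((g : K) : K ⧸ L) = ((α • g : K) : K ⧸ L) := rfl

/-- Commuting generators give commuting images. -/
theorem comm_of_closure {K Q : Type*} [Group K] [Group Q] (f : K →* Q) (J : Subgroup K) (S : Set K)
    (hJ : J ≤ closure S) (hS : ∀ a ∈ S, ∀ b ∈ S, f a * f b = f b * f a) :
    ∀ x ∈ J, ∀ y ∈ J, f x * f y = f y * f x := by
  have h1 : ∀ b ∈ S, closure S ≤ (centralizer {f b}).comap f := by
    intro b hb
    rw [closure_le]
    intro a ha
    show f a ∈ centralizer {f b}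
    rw [mem_centralizer_singleton_iff]
    exact hS a ha b hb
  have h2 : ∀ x ∈ closure S, closure S ≤ (centralizer {f x}).comap f := by
    intro x hx
    rw [closure_le]
    intro b hb
    show f b ∈ centralizer {f x}
    rw [mem_centralizer_singleton_iff]
    have h3 := h1 b hb hx
    have h4 : f x ∈ centralizer {f b} := h3
    rw [mem_centralizer_singleton_iff] at h4
    exact h4.symm
  intro x hx y hy
  have h3 := h2 y (hJ hy) (hJ hx)
  have h4 : f x ∈ centralizer {f y} := h3
  rw [mem_centralizer_singleton_iff] at h4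
  exact h4

theorem comm_gen {K Q : Type*} [Group K] [Group Q] (M : Subgroup K) (hZ : ∀ n ∈ M, ∀ k : K, k * n = n * k)
    (x y : K) (hJ : M ⊔ zpowers x ⊔ zpowers y = ⊤) (f : K →* Q) (hf : f x * f y = f y * f x) (a b : K) :
    f a * f b = f b * f a := by
  refine comm_of_closure f ⊤ ((M : Set K) ∪ {x, y}) ?_ ?_ a (Subgroup.mem_top a) b (Subgroup.mem_top b)
  · rw [← hJ]
    refine sup_le (sup_le ?_ ?_) ?_
    · intro l hl
      exact subset_closure (Or.inl hl)
    · rw [Subgroup.zpowers_le]
      exact subset_closure (Or.inr (Or.inl rfl))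
    · rw [Subgroup.zpowers_le]
      exact subset_closure (Or.inr (Or.inr rfl))
  · have hc : ∀ m ∈ M, ∀ g : K, f g * f m = f m * f g := by
      intro m hm g
      rw [← map_mul, ← map_mul, hZ m hm g]
    rintro a' (ha' | ha' | ha') b' (hb' | hb' | hb')
    · exact hc b' hb' a'
    · exact (hc a' ha' b').symm
    · exact (hc a' ha' b').symm
    · exact hc b' hb' a'
    · rw [ha', hb']
    · rw [ha', show b' = y from hb']; exact hf
    · exact hc b' hb' a'
    · rw [show a' = y from ha', hb']; exact hf.symm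
    · rw [show a' = y from ha', show b' = y from hb']

section Smin

variable {K : Type*} [Group K] [MulDistribMulAction S3 K]

/-- Invariance under the action. -/
def Inv (L : Subgroup K) : Prop := ∀ α : S3, ∀ x ∈ L, α • x ∈ L

theorem inv_of_a_r {L : Subgroup K} {r : S3} (hr : IsRefl r) (ha : ∀ x ∈ L, a3 • x ∈ L)
    (hr' : ∀ x ∈ L, r • x ∈ L) : Inv L := by
  apply all_of_a_r (fun α => ∀ x ∈ L, α • x ∈ L) r hr
  · intro x hx; rwa [one_smul]
  · exact ha
  · exact hr'
  · intro x y hx hy l hl
    rw [mul_smul]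
    exact hx _ (hy _ hl)

theorem inv_char (L : Subgroup K) [h : L.Characteristic] : Inv L := by
  intro α x hx
  exact (Subgroup.characteristic_iff_le_comap.1 h (MulDistribMulAction.toMulAut S3 K α)) hx

theorem inv_sup {L₁ L₂ : Subgroup K} (h₁ : Inv L₁) (h₂ : Inv L₂) : Inv (L₁ ⊔ L₂) := by
  intro α x hx
  have : L₁ ⊔ L₂ ≤ (L₁ ⊔ L₂).comap (MulDistribMulAction.toMonoidHom K α) := by
    refine sup_le ?_ ?_
    · intro l hl
      exact (le_sup_left : L₁ ≤ L₁ ⊔ L₂) (h₁ α l hl)
    · intro l hl
      exact (le_sup_right : L₂ ≤ L₁ ⊔ L₂) (h₂ α l hl)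
  exact this hx

theorem inv_bot : Inv (⊥ : Subgroup K) := by
  intro α x hx
  rw [Subgroup.mem_bot] at hx ⊢
  rw [hx, smul_one]

theorem inv_normalizer {L : Subgroup K} (h : Inv L) : Inv (normalizer (L : Set K)) := by
  intro α x hx
  rw [mem_normalizer_iff] at hx ⊢
  intro m
  have e : ∀ u : K, α • (α⁻¹ • u) = u := fun u => smul_inv_smul α u
  constructor
  · intro hm
    have h1 : α⁻¹ • m ∈ L := h _ _ hm
    have h2 := (hx _).1 h1
    have h3 := h α _ h2
    rw [smul_mul', smul_mul', smul_inv', e] at h3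
    exact h3
  · intro hm
    have h1 := h α⁻¹ _ hm
    rw [smul_mul', smul_mul', smul_inv', inv_smul_smul] at h1
    have h2 := (hx _).2 h1
    have h3 := h α _ h2
    rw [e] at h3
    exact h3

variable [Finite K] {F : Type*} [Field F] [IsAlgClosed F] {V : Type*} [AddCommGroup V] [Module F V]
  [FiniteDimensional F V]

/-- **The minimal case.** -/
theorem smin {s : ℕ} [hs : Fact s.Prime] (hK : IsPGroup s K)
    (hc : (Nat.card K).Coprime 6) (hfix : ∀ g : K, (∀ α : S3, α • g = g) → g = 1)
    (ρ : K →* Module.End F V) (hfaith : Function.Injective ρ) (σ : S3 →* Module.End F V)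
    (hcomp : ∀ (α : S3) (g : K), σ α * ρ g = ρ (α • g) * σ α) (hN0 : ∑ α, σ α = 0)
    (h3 : (3 : F) ≠ 0) (hcard : ((Nat.card K : ℕ) : F) ≠ 0)
    (hmin : ∀ L : Subgroup K, L ≠ ⊤ → Inv L → ∀ x ∈ L, ∀ y ∈ L, x * y = y * x) (u v : K) :
    u * v = v * u := by
  classical
  by_contra hne
  obtain ⟨r, hr⟩ := exists_refl
  have hnab : ¬ ∀ a b : K, a * b = b * a := fun h => hne (h u v)
  haveI hnt : Nontrivial K := by
    by_contra h
    rw [not_nontrivial_iff_subsingleton] at h
    exact hne (Subsingleton.elim _ _)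
  -- the maximal invariant subgroup
  obtain ⟨M, hMm⟩ : ∃ M : Subgroup K, Maximal (fun L : Subgroup K => L ≠ ⊤ ∧ Inv L) M := by
    have hfin : (setOf (fun L : Subgroup K => L ≠ ⊤ ∧ Inv L)).Finite := Set.toFinite _
    obtain ⟨M, hM⟩ := hfin.exists_maximal ⟨⊥, bot_ne_top, inv_bot⟩
    exact ⟨M, hM⟩
  have hMt : M ≠ ⊤ := hMm.prop.1
  have hMinv : Inv M := hMm.prop.2
  have hmax : ∀ L : Subgroup K, Inv L → M ≤ L → L ≠ ⊤ → L ≤ M := fun L h1 h2 h3 =>
    hMm.le_of_ge ⟨h3, h1⟩ h2
  have hMc : ∀ x ∈ M, ∀ y ∈ M, x * y = y * x := hmin M hMt hMinv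
  haveI hnil : Group.IsNilpotent K := hK.isNilpotent
  -- normality
  haveI hMn : M.Normal := by
    rw [← Subgroup.normalizer_eq_top_iff]
    by_contra h
    have h1 : M < normalizer (M : Set K) :=
      Group.normalizerCondition_of_isNilpotent M (lt_top_iff_ne_top.2 hMt)
    exact absurd (hmax _ (inv_normalizer hMinv) h1.le h) (not_le_of_gt h1)
  have hMcard : ((Nat.card M : ℕ) : F) ≠ 0 := by
    intro h
    apply hcard
    obtain ⟨m, hm⟩ := Subgroup.card_subgroup_dvd_card M
    rw [hm, Nat.cast_mul, h, zero_mul]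
  -- centrality
  have hZ : ∀ n ∈ M, ∀ k : K, k * n = n * k := fun n hn k =>
    central_of_abelian_normal hc hfix ρ hfaith σ hcomp hN0 M hMinv hMc hMcard n hn k
  have hZM : ∀ g : K, (∀ k : K, k * g = g * k) → g ∈ M := by
    have h1 : center K ≤ M := by
      apply hmax _ (inv_char _)
      · intro n hn
        rw [mem_center_iff]
        exact hZ n hn
      · intro h
        apply hnab
        intro a b
        have : a ∈ center K := h ▸ Subgroup.mem_top a
        rw [mem_center_iff] at this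
        exact (this b).symm
    intro g hg
    exact h1 (mem_center_iff.2 hg)
  -- the quotient
  let q : K →* K ⧸ M := QuotientGroup.mk' M
  have hqM : ∀ m ∈ M, q m = 1 := fun m hm => (QuotientGroup.eq_one_iff m).2 hm
  have hqone : ∀ g : K, q g = 1 → g ∈ M := fun g hg => (QuotientGroup.eq_one_iff g).1 hg
  have hqeq : ∀ g h : K, q g = q h → g⁻¹ * h ∈ M := fun g h hgh => QuotientGroup.eq.1 hgh
  have hqsurj : Function.Surjective q := QuotientGroup.mk'_surjective M
  haveI hQnt : Nontrivial (K ⧸ M) := by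
    obtain ⟨g, hg⟩ : ∃ g, g ∉ M := by
      by_contra h
      push_neg at h
      exact hMt ((Subgroup.eq_top_iff' M).2 h)
    refine ⟨⟨q g, 1, fun h => hg (hqone g h)⟩⟩
  haveI hQsol : Group.IsSolvable (K ⧸ M) := inferInstance
  -- the derived subgroup lies in `M`
  have hder : commutator K ≤ M := by
    have h1 : commutator K ⊔ M ≤ M := by
      apply hmax _ (inv_sup (inv_char _) hMinv) le_sup_right
      intro h
      have h2 : commutator K ⊔ M ≤ (commutator (K ⧸ M)).comap q := by
        refine sup_le ?_ ?_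
        · rw [← Subgroup.map_le_iff_le_comap, _root_.commutator_def, _root_.commutator_def, Subgroup.map_commutator]
          exact Subgroup.commutator_mono le_top le_top
        · intro m hm
          show q m ∈ commutator (K ⧸ M)
          rw [hqM m hm]
          exact one_mem _
      have h4 : commutator (K ⧸ M) = ⊤ := by
        rw [Subgroup.eq_top_iff']
        intro w
        obtain ⟨g, rfl⟩ := hqsurj w
        apply h2
        rw [h]
        exact Subgroup.mem_top g
      exact absurd h4 (ne_of_lt (IsSolvable.commutator_lt_top_of_nontrivial (K ⧸ M)))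
    exact le_trans le_sup_left h1
  have hcomm : ∀ g h : K, g * h * g⁻¹ * h⁻¹ ∈ M := fun g h =>
    hder (by
      have := Subgroup.commutator_mem_commutator (Subgroup.mem_top g) (Subgroup.mem_top h)
      rw [commutatorElement_def] at this
      rwa [_root_.commutator_def])
  have hQ : ∀ g h : K, q g * q h = q h * q g := by
    intro g h
    have h1 := hqM _ (hcomm g h)
    rw [map_mul, map_mul, map_mul, map_inv, map_inv] at h1
    have h2 : q g * q h * (q g)⁻¹ = q h := by
      rwa [mul_inv_eq_one] at h1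
    calc q g * q h = q g * q h * (q g)⁻¹ * q g := by group
      _ = q h * q g := by rw [h2]
  -- the fixed points of the rotation
  have hYM : fixSub K a3 ≤ M := by
    have hY : Inv (fixSub K a3) := inv_of_a_r hr (fun x hx => by
        show a3 • a3 • x = a3 • x
        rw [show a3 • x = x from hx, show a3 • x = x from hx]) (fun x hx => by
        show a3 • r • x = r • x
        rw [a_refl_smul hr, a_inv_fix (show a3 • x = x from hx)])
    have h1 : fixSub K a3 ⊔ M ≤ M := by
      apply hmax _ (inv_sup hY hMinv) le_sup_right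
      intro h
      apply hnab
      intro a b
      have hcl := comm_of_closure (MonoidHom.id K) ⊤ ((fixSub K a3 : Set K) ∪ (M : Set K))
        (by
          rw [← h]
          refine sup_le ?_ ?_
          · intro l hl
            exact subset_closure (Or.inl hl)
          · intro l hl
            exact subset_closure (Or.inr hl))
        (by
          rintro a' (ha' | ha') b' (hb' | hb')
          · exact comm_of_a_fixed hc hfix ha' hb'
          · exact (hZ b' hb' a')
          · exact (hZ a' ha' b').symm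
          · exact hMc a' ha' b' hb')
      exact hcl a (Subgroup.mem_top a) b (Subgroup.mem_top b)
    exact le_trans le_sup_left h1
  have hfp : ∀ g : K, g⁻¹ * (a3 • g) ∈ M → g ∈ M := by
    intro g hg
    haveI f3 : Fact (Nat.Prime 3) := ⟨Nat.prime_three⟩
    have ha3 : a3 ^ 3 = 1 := by decide
    obtain ⟨j, hj, hfj⟩ := exists_fixed_coset (p := 3) a3 ha3 M (hMinv a3) (not_three_dvd_of_sub hc M) g hg
    have h1 : g * j ∈ M := hYM hfj
    have h2 : g = g * j * j⁻¹ := by group
    rw [h2]
    exact M.mul_mem h1 (M.inv_mem hj)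
  -- a reflection fixes an element outside `M`
  obtain ⟨x, hxr, hxM⟩ : ∃ x : K, r • x = x ∧ x ∉ M := by
    by_contra hcon
    push_neg at hcon
    haveI f2 : Fact (Nat.Prime 2) := ⟨Nat.prime_two⟩
    have hr2 : r ^ 2 = 1 := by rw [pow_two]; exact hr.1
    have h1 : ∀ g : K, g * (r • g) ∈ M := by
      intro g
      let t := g * (r • g)
      have h2 : t⁻¹ * (r • t) ∈ M := by
        apply hqeq
        show q t = q (r • t)
        show q (g * (r • g)) = q (r • (g * (r • g)))
        rw [smul_mul', refl_smul_smul hr, map_mul, map_mul, hQ]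
      obtain ⟨j, hj, hfj⟩ := exists_fixed_coset (p := 2) r hr2 M (hMinv r) (not_two_dvd_of_sub hc M) t h2
      have h3 : t * j ∈ M := hcon _ hfj
      have h4 : t = t * j * j⁻¹ := by group
      show t ∈ M
      rw [h4]
      exact M.mul_mem h3 (M.inv_mem hj)
    have h2 : ∀ g : K, q (r • g) = (q g)⁻¹ := by
      intro g
      have := hqM _ (h1 g)
      rw [map_mul] at this
      exact eq_inv_of_mul_eq_one_right this
    have h4 : ∀ g : K, q (a3 • g) = q (a3⁻¹ • g) := by
      intro g
      have h5 := h2 (a3 • g)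
      rw [refl_a_smul hr] at h5
      have h6 := hqM _ (hMinv a3⁻¹ _ (h1 g))
      rw [smul_mul', map_mul] at h6
      have h7 := eq_inv_of_mul_eq_one_right h6
      rw [h5] at h7
      exact inv_injective h7
    have h5 : ∀ g : K, g ∈ M := by
      intro g
      apply hfp
      apply hqeq
      have h6 := h4 (a3 • g)
      rw [inv_smul_smul] at h6
      -- `a3 • a3 • g` maps to `g`
      have h7 : a3 • a3 • g = a3⁻¹ • g := (a3_smul_inv g).symm
      rw [h7] at h6
      have h8 := h4 (a3⁻¹ • g)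
      rw [smul_inv_smul] at h8
      have h9 : a3⁻¹ • a3⁻¹ • g = a3 • g := by
        rw [← mul_smul]
        have : a3⁻¹ * a3⁻¹ = a3 := by decide
        rw [this]
      rw [h9] at h8
      rw [h8]
    exact hMt ((Subgroup.eq_top_iff' M).2 h5)
  -- the three conjugates
  obtain ⟨y, hy⟩ : ∃ y : K, a3 • x = y := ⟨_, rfl⟩
  obtain ⟨w, hw⟩ : ∃ w : K, a3 • y = w := ⟨_, rfl⟩
  have haw : a3 • w = x := by
    rw [← hw, ← hy]
    exact a3_cube_smul x
  have hry : r • y = w := by
    rw [← hy, refl_a_smul hr, hxr, a3_smul_inv, hy, hw]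
  have hrw : r • w = y := by
    rw [← hry, refl_smul_smul hr]
  obtain ⟨z, hz⟩ : ∃ z : K, x * y * w = z := ⟨_, rfl⟩
  have hzM : z ∈ M := by
    apply hfp
    apply hqeq
    rw [← hz, smul_mul', smul_mul', hy, hw, haw]
    have h1 := hQ x (y * w)
    rw [← map_mul, ← map_mul] at h1
    rw [mul_assoc, h1]
  have hwz : w = y⁻¹ * x⁻¹ * z := by rw [← hz]; group
  -- the generators
  have hJtop : M ⊔ zpowers x ⊔ zpowers y = ⊤ := by
    by_contra hJ
    have hMJ : M ≤ M ⊔ zpowers x ⊔ zpowers y := le_sup_left.trans le_sup_left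
    have hxJ : x ∈ M ⊔ zpowers x ⊔ zpowers y :=
      ((le_sup_right : zpowers x ≤ M ⊔ zpowers x).trans le_sup_left) (mem_zpowers x)
    have hyJ : y ∈ M ⊔ zpowers x ⊔ zpowers y := (le_sup_right : zpowers y ≤ _) (mem_zpowers y)
    have hwJ : w ∈ M ⊔ zpowers x ⊔ zpowers y := by
      rw [hwz]
      exact Subgroup.mul_mem _ (Subgroup.mul_mem _ (Subgroup.inv_mem _ hyJ) (Subgroup.inv_mem _ hxJ)) (hMJ hzM)
    have hinv : Inv (M ⊔ zpowers x ⊔ zpowers y) := by
      refine inv_of_a_r hr ?_ ?_
      · have : M ⊔ zpowers x ⊔ zpowers y ≤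
            (M ⊔ zpowers x ⊔ zpowers y).comap (MulDistribMulAction.toMonoidHom K a3) := by
          refine sup_le (sup_le ?_ ?_) ?_
          · intro m hm
            exact hMJ (hMinv a3 m hm)
          · rw [Subgroup.zpowers_le]
            show a3 • x ∈ M ⊔ zpowers x ⊔ zpowers y
            rw [hy]; exact hyJ
          · rw [Subgroup.zpowers_le]
            show a3 • y ∈ M ⊔ zpowers x ⊔ zpowers y
            rw [hw]; exact hwJ
        exact fun l hl => this hl
      · have : M ⊔ zpowers x ⊔ zpowers y ≤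
            (M ⊔ zpowers x ⊔ zpowers y).comap (MulDistribMulAction.toMonoidHom K r) := by
          refine sup_le (sup_le ?_ ?_) ?_
          · intro m hm
            exact hMJ (hMinv r m hm)
          · rw [Subgroup.zpowers_le]
            show r • x ∈ M ⊔ zpowers x ⊔ zpowers y
            rw [hxr]; exact hxJ
          · rw [Subgroup.zpowers_le]
            show r • y ∈ M ⊔ zpowers x ⊔ zpowers y
            rw [hry]; exact hwJ
        exact fun l hl => this hl
    exact hxM (hmax _ hinv hMJ hJ hxJ)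
  -- the commutator
  obtain ⟨c, hcdef⟩ : ∃ c : K, x * y * x⁻¹ * y⁻¹ = c := ⟨_, rfl⟩
  have hcM : c ∈ M := hcdef ▸ hcomm x y
  have hcc : ∀ g : K, g * c = c * g := fun g => hZ c hcM g
  have hzc : ∀ g : K, g * z = z * g := fun g => hZ z hzM g
  have hxy : x * y = c * y * x := by rw [← hcdef]; group
  have hac : a3 • c = c := by
    rw [← hcdef, smul_mul', smul_mul', smul_mul', smul_inv', smul_inv', hy, hw, hcdef]
    have h1 : y * w * y⁻¹ * w⁻¹ = x⁻¹ * (z * y⁻¹) * z⁻¹ * x * y := by
      rw [hwz]; group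
    rw [h1, ← hzc y⁻¹]
    have h2 : x⁻¹ * (y⁻¹ * z) * z⁻¹ * x * y = x⁻¹ * y⁻¹ * (x * y) := by group
    have h3 : x⁻¹ * y⁻¹ * (c * y * x) = (x⁻¹ * y⁻¹ * c) * (y * x) := by group
    rw [h2, hxy, h3, hcc]
    group
  have hcne : c ≠ 1 := by
    intro h
    apply hnab
    exact comm_gen M hZ x y hJtop (MonoidHom.id K) (by
      show x * y = y * x
      rw [hxy, h, one_mul])
  -- `s`-th powers
  have hpow : ∀ g : K, g ^ s ∈ M := by
    let J4 : Subgroup K :=
      { carrier := {g | g ^ s ∈ M}
        mul_mem' := by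
          intro a b ha hb
          apply hqone
          have hab : Commute (q a) (q b) := hQ a b
          rw [map_pow, map_mul, hab.mul_pow, ← map_pow, ← map_pow, hqM _ ha, hqM _ hb, one_mul]
        one_mem' := by
          show (1 : K) ^ s ∈ M
          rw [one_pow]; exact M.one_mem
        inv_mem' := by
          intro a ha
          show a⁻¹ ^ s ∈ M
          rw [inv_pow]; exact M.inv_mem ha }
    have hJ4 : J4 = ⊤ := by
      by_contra h
      have hinv : Inv J4 := by
        intro α a ha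
        show (α • a) ^ s ∈ M
        rw [← smul_pow']
        exact hMinv α _ ha
      have hle : M ≤ J4 := fun m hm => M.pow_mem hm s
      have h1 := hmax J4 hinv hle h
      have hQp : IsPGroup s (K ⧸ M) := hK.to_quotient M
      obtain ⟨n, hn0, hn⟩ := hQp.nontrivial_iff_card.1 hQnt
      have hd : s ∣ Nat.card (K ⧸ M) := by
        rw [hn]; exact dvd_pow_self s (Nat.pos_iff_ne_zero.1 hn0)
      obtain ⟨t, ht⟩ := exists_prime_orderOf_dvd_card' s hd
      obtain ⟨g, rfl⟩ := hqsurj t
      have hg : g ∈ J4 := by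
        apply hqone
        rw [map_pow, ← ht, pow_orderOf_eq_one]
      have hg1 := h1 hg
      rw [hqM g hg1, orderOf_one] at ht
      exact hs.out.one_lt.ne ht
    intro g
    have : g ∈ J4 := hJ4 ▸ Subgroup.mem_top g
    exact this
  have hpowc : ∀ n : ℕ, x ^ n * y = c ^ n * y * x ^ n := by
    intro n
    induction n with
    | zero => simp
    | succ n ih =>
      calc x ^ (n + 1) * y = x ^ n * (x * y) := by rw [pow_succ, mul_assoc]
        _ = x ^ n * (c * y * x) := by rw [hxy]
        _ = (x ^ n * c) * (y * x) := by simp only [mul_assoc]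
        _ = (c * x ^ n) * (y * x) := by rw [hcc]
        _ = c * (x ^ n * y) * x := by simp only [mul_assoc]
        _ = c * (c ^ n * y * x ^ n) * x := by rw [ih]
        _ = c ^ (n + 1) * y * x ^ (n + 1) := by
          rw [pow_succ' c, pow_succ x]; simp only [mul_assoc]
  have hcs : c ^ s = 1 := by
    have h1 := hpowc s
    have h2 := hZ _ (hpow x) y
    rw [← h2] at h1
    have h3 : c ^ s * (y * x ^ s) = 1 * (y * x ^ s) := by
      rw [one_mul, ← mul_assoc, ← h1]
    exact mul_right_cancel h3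
  have hoc : orderOf c = s := orderOf_eq_prime hcs hcne
  -- all commutators are powers of `c`
  haveI hCn : (zpowers c).Normal := ⟨by
    intro n hn g
    obtain ⟨i, rfl⟩ := mem_zpowers_iff.1 hn
    have h1 : Commute g (c ^ i) := Commute.zpow_right (hcc g) i
    rw [h1.eq]
    simpa using hn⟩
  have hallc : ∀ g h : K, g * h * g⁻¹ * h⁻¹ ∈ zpowers c := by
    intro g h
    let f : K →* K ⧸ zpowers c := QuotientGroup.mk' _
    have hfc : f c = 1 := (QuotientGroup.eq_one_iff c).2 (mem_zpowers c)
    have hf : f x * f y = f y * f x := by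
      rw [← map_mul, hxy, map_mul, map_mul, hfc, one_mul]
    have h1 := comm_gen M hZ x y hJtop f hf g h
    apply (QuotientGroup.eq_one_iff _).1
    show f (g * h * g⁻¹ * h⁻¹) = 1
    rw [map_mul, map_mul, map_mul, map_inv, map_inv, h1]
    group
  -- the character
  have hMA : ∀ α : S3, ∀ n ∈ M, α • n ∈ M := hMinv
  obtain ⟨μ, hocc, hμc⟩ := exists_eig_ne_one ρ hMc hMcard ⟨c, hcM⟩ (by
    intro h
    apply hcne
    apply hfaith
    rw [map_one]
    exact h)
  have hkμ : ∀ k : K, k • μ = μ := by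
    intro k
    ext n
    have hm : k⁻¹ * (n : K) * k ∈ M := by
      have := hMn.conj_mem n n.2 k⁻¹
      simpa using this
    rw [kSmul_apply M k μ n hm]
    congr 2
    apply Subtype.ext
    show k⁻¹ * (n : K) * k = n
    rw [mul_assoc, ← hZ n n.2 k]
    group
  -- `s` is odd
  have hs6 : s.Coprime 6 := by
    have hQ1 : ∃ n > 0, Nat.card K = s ^ n := hK.nontrivial_iff_card.1 hnt
    obtain ⟨n, hn0, hn⟩ := hQ1
    have hd : s ∣ Nat.card K := by
      rw [hn]; exact dvd_pow_self s (Nat.pos_iff_ne_zero.1 hn0)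
    exact Nat.Coprime.coprime_dvd_left hd hc
  have hs2 : s ≠ 2 := by
    rintro rfl
    revert hs6
    decide
  have hμs : μ ⟨c, hcM⟩ ^ s = 1 := by
    rw [← map_pow]
    have : (⟨c, hcM⟩ : M) ^ s = 1 := Subtype.ext hcs
    rw [this, map_one]
  have hoμ : orderOf (μ ⟨c, hcM⟩) = s := orderOf_eq_prime hμs hμc
  have ha : aAct hMA a3 μ = μ := by
    by_contra hne'
    have hno : ∀ k : K, aAct hMA a3 (k • μ) ≠ k • μ := by
      intro k
      rw [hkμ]
      exact hne'
    obtain ⟨v, hv, hv0⟩ := (Submodule.ne_bot_iff _).1 hocc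
    have h1 := comm_trivial_of_no_fix hMA ρ σ hcomp hN0 hMcard hc hfix hocc hno x y hv
    rw [hcdef] at h1
    have h2 : ρ c v = ((μ ⟨c, hcM⟩ : Fˣ) : F) • v := hv ⟨c, hcM⟩
    rw [h1] at h2
    have h3 : (((μ ⟨c, hcM⟩ : Fˣ) : F) - 1) • v = 0 := by
      rw [sub_smul, one_smul, ← h2, sub_self]
    have h4 := sub_eq_zero.1 ((smul_eq_zero.1 h3).resolve_right hv0)
    exact hμc (Units.ext h4)
  have hrm : aAct hMA r μ ≠ μ := by
    intro h
    have h1 := fx_val hMA h ⟨c, hcM⟩
    have hrc : r • c = c⁻¹ := inv_of_a_fixed hc hfix hr hac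
    have h2 : (⟨r • c, hMA _ _ hcM⟩ : M) = (⟨c, hcM⟩ : M)⁻¹ := Subtype.ext hrc
    have h1' : μ ⟨r • c, hMA _ _ hcM⟩ = μ ⟨c, hcM⟩ := h1
    rw [h2, map_inv] at h1'
    have h3 : μ ⟨c, hcM⟩ ^ 2 = 1 := by
      rw [pow_two]
      nth_rewrite 1 [← h1']
      exact inv_mul_cancel _
    exact hμc (unit_eq_one h3 hμs (Nat.Coprime.coprime_dvd_right (by norm_num : 2 ∣ 6) hs6).symm)
  -- the eigenspace
  have hρW : ∀ (g : K), ∀ v ∈ eigS ρ μ, ρ g v ∈ eigS ρ μ := by
    intro g v hv
    have := rho_eig ρ M g hv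
    rwa [hkμ] at this
  have hσW : ∀ v ∈ eigS ρ μ, σ a3 v ∈ eigS ρ μ := by
    intro v hv
    have := sig_eig ρ σ hcomp hMA a3 hv
    rwa [ha] at this
  haveI hWnt : Nontrivial (eigS ρ μ) := (Submodule.nontrivial_iff_ne_bot).2 hocc
  let ρW : K →* Module.End F (eigS ρ μ) :=
    { toFun := fun g => (ρ g).restrict (hρW g)
      map_one' := by
        ext v
        simp
      map_mul' := by
        intro g h
        ext v
        simp }
  have hρWa : ∀ (g : K) (v : eigS ρ μ), ((ρW g v : eigS ρ μ) : V) = ρ g v := fun _ _ => rfl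
  let A : Module.End F (eigS ρ μ) := (σ a3).restrict hσW
  have hAa : ∀ (v : eigS ρ μ), ((A v : eigS ρ μ) : V) = σ a3 v := fun _ => rfl
  haveI hKf : Fintype K := Fintype.ofFinite K
  let χ : K → K → F := fun g h => ((μ ⟨g * h * g⁻¹ * h⁻¹, hcomm g h⟩ : Fˣ) : F)
  have hχ : ∀ g h, ρW g * ρW h = χ g h • (ρW h * ρW g) := by
    intro g h
    ext v
    have h1 : g * h = (g * h * g⁻¹ * h⁻¹) * (h * g) := by group
    have h2 : ρ g (ρ h (v : V)) = ρ (g * h * g⁻¹ * h⁻¹) (ρ h (ρ g (v : V))) := by
      have h3 : ρ g * ρ h = ρ (g * h * g⁻¹ * h⁻¹) * (ρ h * ρ g) := by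
        rw [← map_mul, ← map_mul, ← map_mul, ← h1]
      exact congrArg (fun f : Module.End F V => f (v : V)) h3
    have h4 : ρ h (ρ g (v : V)) ∈ eigS ρ μ := hρW h _ (hρW g _ v.2)
    show ρ g (ρ h (v : V)) = χ g h • (ρ h (ρ g (v : V)))
    rw [h2]
    exact h4 ⟨_, hcomm g h⟩
  let μ' : K → F := fun m => if h : m ∈ M then ((μ ⟨m, h⟩ : Fˣ) : F) else 0
  have hμ' : ∀ m ∈ M, ρW m = μ' m • 1 := by
    intro m hm
    ext v
    show ρ m (v : V) = μ' m • (v : V)
    simp only [μ', dif_pos hm]
    exact v.2 ⟨m, hm⟩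
  have hnd : ∀ h, h ∉ M → ∃ g, χ h g ≠ 1 := by
    intro h hh
    have h1 : ∃ g : K, g * h ≠ h * g := by
      by_contra hcon
      push_neg at hcon
      exact hh (hZM h hcon)
    obtain ⟨g, hg⟩ := h1
    refine ⟨g, ?_⟩
    intro h2
    apply hg
    have h3 : μ ⟨h * g * h⁻¹ * g⁻¹, hcomm h g⟩ = 1 := Units.ext h2
    obtain ⟨i, hi⟩ := mem_zpowers_iff.1 (hallc h g)
    have h4 : (⟨h * g * h⁻¹ * g⁻¹, hcomm h g⟩ : M) = (⟨c, hcM⟩ : M) ^ i := by
      apply Subtype.ext
      rw [Subgroup.coe_zpow]
      exact hi.symm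
    rw [h4, map_zpow] at h3
    have h5 : (orderOf (μ ⟨c, hcM⟩) : ℤ) ∣ i := orderOf_dvd_iff_zpow_eq_one.2 h3
    rw [hoμ, ← hoc] at h5
    have h6 : c ^ i = 1 := orderOf_dvd_iff_zpow_eq_one.1 h5
    rw [h6] at hi
    have h7 : h * g * h⁻¹ = g := mul_inv_eq_one.1 hi.symm
    calc g * h = (h * g * h⁻¹) * h := by rw [h7]
      _ = h * g := by group
  let α : K →* K := MulDistribMulAction.toMonoidHom K a3
  have hαa : ∀ g, α g = a3 • g := fun _ => rfl
  have hα3 : ∀ g, α (α (α g)) = g := fun g => a3_cube_smul g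
  have hαM : ∀ m ∈ M, α m ∈ M := fun m hm => hMinv a3 m hm
  have hfp' : ∀ g, g⁻¹ * α g ∈ M → g ∈ M := hfp
  have hA3 : A * A * A = 1 := by
    ext v
    have h1 : σ a3 * σ a3 * σ a3 = 1 := by
      rw [← map_mul, ← map_mul, a3_cube, map_one]
    exact congrArg (fun f : Module.End F V => f (v : V)) h1
  have hAρ : ∀ g, A * ρW g = ρW (α g) * A := by
    intro g
    ext v
    exact congrArg (fun f : Module.End F V => f (v : V)) (hcomp a3 g)
  have h0 : A * A + A + 1 = 0 := by
    ext v
    have h1 := sum_three_of_fix hMA ρ σ hcomp hN0 hMcard ha hr hrm v.2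
    have h2 : σ a3⁻¹ (v : V) = σ a3 (σ a3 (v : V)) := by
      rw [a3_inv, map_mul]
      rfl
    rw [h2] at h1
    show σ a3 (σ a3 (v : V)) + σ a3 (v : V) + (v : V) = 0
    rw [← h1]
    abel
  have he : 4 < M.index := by
    have hQp : IsPGroup s (K ⧸ M) := hK.to_quotient M
    obtain ⟨n, hn⟩ := IsPGroup.iff_card.1 hQp
    have hind : M.index = s ^ n := hn
    rcases n with _ | _ | n
    · exfalso
      rw [pow_zero] at hind
      exact hMt (Subgroup.index_eq_one.1 hind)
    · exfalso
      rw [zero_add, pow_one] at hn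
      haveI : Fact (Nat.card (K ⧸ M)).Prime := ⟨hn ▸ hs.out⟩
      haveI : IsCyclic (K ⧸ M) := isCyclic_of_prime_card rfl
      apply hnab
      refine commutative_of_cyclic_center_quotient q ?_
      intro g hg
      have h1 : g ∈ M := hqone g hg
      exact mem_center_iff.2 (hZ g h1)
    · rw [hind]
      have hs3 : 3 ≤ s := by
        have := hs.out.two_le
        omega
      have h1 : s ^ 2 ≤ s ^ (n + 1 + 1) := Nat.pow_le_pow_right hs.out.pos (by omega)
      have h2 : 3 ^ 2 ≤ s ^ 2 := Nat.pow_le_pow_left hs3 2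
      omega
  have hK' : ((Fintype.card K : ℕ) : F) ≠ 0 := by
    rw [← Nat.card_eq_fintype_card]
    exact hcard
  exact no_fixfree_three ρW M χ hχ μ' hμ' hnd α hα3 hfp' A hA3 hAρ h3 hK' hαM he h0

end Smin

section SS

universe u

variable {F : Type*} [Field F] [IsAlgClosed F] {V : Type*} [AddCommGroup V] [Module F V]
  [FiniteDimensional F V]

/-- **Invariant `s`-groups are abelian.** -/
theorem ss_abelian {s : ℕ} [hs : Fact s.Prime] (σ : S3 →* Module.End F V) (hN0 : ∑ α, σ α = 0)
    (h3 : (3 : F) ≠ 0) (n : ℕ) :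
    ∀ (K : Type u) [Group K] [Finite K] [MulDistribMulAction S3 K], Nat.card K = n → IsPGroup s K →
      (Nat.card K).Coprime 6 → (∀ g : K, (∀ α : S3, α • g = g) → g = 1) →
      ∀ (ρ : K →* Module.End F V), Function.Injective ρ →
      (∀ (α : S3) (g : K), σ α * ρ g = ρ (α • g) * σ α) →
      ((Nat.card K : ℕ) : F) ≠ 0 → ∀ u v : K, u * v = v * u := by
  induction n using Nat.strong_induction_on with
  | _ n ih =>
    intro K _ _ _ hn hK hc hfix ρ hfaith hcomp hcard u v
    refine smin hK hc hfix ρ hfaith σ hcomp hN0 h3 hcard ?_ u v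
    intro L hL hLinv x hx y hy
    letI : MulDistribMulAction S3 ↥L := subAction L hLinv
    have hlt : Nat.card L < n := by
      rw [← hn]
      refine lt_of_le_of_ne (Subgroup.card_le_card_group L) ?_
      intro h
      exact hL (Subgroup.eq_top_of_card_eq L h)
    have h1 := ih (Nat.card L) hlt ↥L rfl (hK.to_subgroup L)
      (Nat.Coprime.coprime_dvd_left (Subgroup.card_subgroup_dvd_card L) hc)
      (by
        intro g hg
        apply Subtype.ext
        apply hfix
        intro α
        exact congrArg Subtype.val (hg α))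
      (ρ.comp L.subtype) (hfaith.comp L.subtype_injective)
      (by
        intro α g
        exact hcomp α g)
      (by
        intro h
        apply hcard
        obtain ⟨m, hm⟩ := Subgroup.card_subgroup_dvd_card L
        rw [hm, Nat.cast_mul, h, zero_mul])
      ⟨x, hx⟩ ⟨y, hy⟩
    exact congrArg Subtype.val h1

end SS

end Cfsg.Agent.Lib.Struct.SymFix
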