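import Mathlib
import Cfsg.Agent.Lib.Struct.SymFixE
import Cfsg.Agent.Lib.Basic.Core
import Cfsg.Agent.Lib.Basic.Solv1

/-!
# The action of `S3` on a solvable group of order prime to six: the derived group is nilpotent
-/

set_option autoImplicit false

namespace Cfsg.Agent.Lib.Struct.SymFix

open Subgroup Cfsg Cfsg.Agent.Lib.Basic
open scoped commutatorElement

universe u

theorem fitting_coprime' {X : Type*} [Group X] [Finite X] {p : ℕ} [hp : Fact p.Prime] (hO : pCore p X = ⊥) :
    (Nat.card (fittingSubgroup X)).Coprime p := by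
  rw [Nat.coprime_comm, Nat.Prime.coprime_iff_not_dvd hp.out]
  intro hd
  obtain ⟨x, hx⟩ := exists_prime_orderOf_dvd_card' p hd
  obtain ⟨P⟩ : Nonempty (Sylow p ↥(fittingSubgroup X)) := inferInstance
  have hz : IsPGroup p (zpowers x) := by
    rw [IsPGroup.iff_card, Nat.card_zpowers, hx]
    exact ⟨1, (pow_one p).symm⟩
  obtain ⟨Q, hQ⟩ := hz.exists_le_sylow
  have h1 := sylow_map_le_pCore_of_nilpotent (N := fittingSubgroup X) fittingSubgroup_normal
    fittingSubgroup_isNilpotent p Q
  rw [hO] at h1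
  have h2 : ((x : X)) ∈ ((Q : Subgroup _).map (fittingSubgroup X).subtype : Subgroup X) :=
    mem_map_of_mem _ (hQ (mem_zpowers x))
  have h3 := h1 h2
  rw [mem_bot] at h3
  have h4 : x = 1 := Subtype.ext h3
  rw [h4, orderOf_one] at hx
  exact hp.out.one_lt.ne hx

section M

variable {F : Type*} [Field F] [IsAlgClosed F] {V : Type*} [AddCommGroup V] [Module F V]
  [FiniteDimensional F V]

/-- **Theorem M.** A faithful module with vanishing norm over a field of characteristic `t` and
`O_t(H) = 1` force `H` to be abelian. -/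
theorem m_abelian {H : Type u} [Group H] [Finite H] [Group.IsSolvable H] [MulDistribMulAction S3 H]
    (hc : (Nat.card H).Coprime 6) (hfix : ∀ g : H, (∀ α : S3, α • g = g) → g = 1)
    (ρ : H →* Module.End F V) (hfaith : Function.Injective ρ) (σ : S3 →* Module.End F V)
    (hcomp : ∀ (α : S3) (g : H), σ α * ρ g = ρ (α • g) * σ α) (hN0 : ∑ α, σ α = 0)
    (t : ℕ) [ht : Fact t.Prime] [hchar : CharP F t] (ht6 : t.Coprime 6) (hO : pCore t H = ⊥) (u v : H) :
    u * v = v * u := by
  have h3 : (3 : F) ≠ 0 := by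
    intro h
    have h1 : ((3 : ℕ) : F) = 0 := by exact_mod_cast h
    rw [CharP.cast_eq_zero_iff F t] at h1
    have h2 : t = 3 := (Nat.prime_dvd_prime_iff_eq ht.out Nat.prime_three).1 h1
    rw [h2] at ht6
    revert ht6
    decide
  -- each core is abelian
  have hcore : ∀ s : ℕ, s.Prime → ∀ a ∈ pCore s H, ∀ b ∈ pCore s H, a * b = b * a := by
    intro s hsp a ha b hb
    by_cases hst : s = t
    · rw [hst, hO] at ha hb
      rw [mem_bot] at ha hb
      rw [ha, hb]
    haveI hsf : Fact s.Prime := ⟨hsp⟩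
    haveI hch := pCore_characteristic (G := H) s
    letI sa : MulDistribMulAction S3 ↥(pCore s H) := subAction _ (inv_char _)
    have hs0 : ((s : ℕ) : F) ≠ 0 := by
      intro h
      rw [CharP.cast_eq_zero_iff F t] at h
      exact hst ((Nat.prime_dvd_prime_iff_eq ht.out hsp).1 h).symm
    have h1 := ss_abelian (s := s) σ hN0 h3 (Nat.card (pCore s H)) ↥(pCore s H) rfl (pCore_isPGroup s)
      (Nat.Coprime.coprime_dvd_left (Subgroup.card_subgroup_dvd_card _) hc)
      (by
        intro g hg
        apply Subtype.ext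
        apply hfix
        intro α
        exact congrArg Subtype.val (hg α))
      (ρ.comp (pCore s H).subtype) (hfaith.comp (pCore s H).subtype_injective)
      (by
        intro α g
        exact hcomp α g)
      (by
        obtain ⟨k, hk⟩ := IsPGroup.iff_card.1 (pCore_isPGroup (G := H) s)
        rw [hk, Nat.cast_pow]
        exact pow_ne_zero k hs0)
      ⟨a, ha⟩ ⟨b, hb⟩
    exact congrArg Subtype.val h1
  -- the Fitting subgroup is abelian
  have hFc : ∀ x ∈ fittingSubgroup H, ∀ y ∈ fittingSubgroup H, x * y = y * x := by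
    refine comm_of_closure (MonoidHom.id H) (fittingSubgroup H)
      (⋃ p : Nat.Primes, (pCore (p : ℕ) H : Set H)) ?_ ?_
    · rw [fittingSubgroup_eq_iSup_pCore]
      refine iSup_le (fun p => ?_)
      intro l hl
      exact subset_closure (Set.mem_iUnion.2 ⟨p, hl⟩)
    · intro a ha b hb
      obtain ⟨p, hp⟩ := Set.mem_iUnion.1 ha
      obtain ⟨q, hq⟩ := Set.mem_iUnion.1 hb
      show a * b = b * a
      by_cases hpq : (p : ℕ) = q
      · rw [hpq] at hp
        exact hcore _ q.2 a hp b hq
      · haveI : Fact (p : ℕ).Prime := ⟨p.2⟩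
        haveI : Fact (q : ℕ).Prime := ⟨q.2⟩
        exact Subgroup.commute_of_normal_of_disjoint _ _ inferInstance inferInstance
          (IsPGroup.disjoint_of_ne p q hpq _ _ (pCore_isPGroup _) (pCore_isPGroup _)) a b hp hq
  have hcardF : ((Nat.card (fittingSubgroup H) : ℕ) : F) ≠ 0 := by
    intro h
    rw [CharP.cast_eq_zero_iff F t] at h
    have h1 := fitting_coprime' hO
    have h2 := Nat.Coprime.coprime_dvd_left h h1
    rw [Nat.coprime_self] at h2
    exact ht.out.one_lt.ne h2.symm
  haveI hch := fittingSubgroup_characteristic (G := H)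
  have hcen : ∀ n ∈ fittingSubgroup H, ∀ k : H, k * n = n * k := fun n hn k =>
    central_of_abelian_normal hc hfix ρ hfaith σ hcomp hN0 (fittingSubgroup H) (inv_char _) hFc hcardF n hn k
  have hle : ∀ k : H, k ∈ fittingSubgroup H := by
    intro k
    apply centralizer_fittingSubgroup_le
    rw [Subgroup.mem_centralizer_iff]
    intro n hn
    exact (hcen n hn k).symm
  exact hFc u (hle u) v (hle v)

end M

section rep

/-- Endomorphism rings embed under field extension. -/
theorem exists_end_embed (E : Type*) [Field E] (F : Type*) [Field F] [Algebra E F] (V₀ : Type*)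
    [AddCommGroup V₀] [Module E V₀] [FiniteDimensional E V₀] :
    ∃ (n : ℕ) (φ : Module.End E V₀ →+* Module.End F (Fin n → F)), Function.Injective φ := by
  let b := Module.finBasis E V₀
  let e1 : Module.End E V₀ ≃ₐ[E] Matrix (Fin (Module.finrank E V₀)) (Fin (Module.finrank E V₀)) E :=
    LinearMap.toMatrixAlgEquiv b
  let e2 : Matrix (Fin (Module.finrank E V₀)) (Fin (Module.finrank E V₀)) E →+*
      Matrix (Fin (Module.finrank E V₀)) (Fin (Module.finrank E V₀)) F := (algebraMap E F).mapMatrix
  let e3 : Matrix (Fin (Module.finrank E V₀)) (Fin (Module.finrank E V₀)) F ≃ₐ[F]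
      Module.End F (Fin (Module.finrank E V₀) → F) := Matrix.toLinAlgEquiv'
  refine ⟨Module.finrank E V₀, e3.toRingEquiv.toRingHom.comp (e2.comp e1.toRingEquiv.toRingHom), ?_⟩
  intro x y hxy
  have h1 : e2 (e1 x) = e2 (e1 y) := e3.injective hxy
  have h2 : e1 x = e1 y := by
    ext i j
    have h3 := congrFun (congrFun h1 i) j
    exact (algebraMap E F).injective h3
  exact e1.injective h2

theorem exists_rep_aux {A : Type*} [CommGroup A] [Finite A] {t : ℕ} [Fact t.Prime]
    [Module (ZMod t) (Additive A)] (F : Type*) [Field F] [Algebra (ZMod t) F] :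
    ∃ (m : ℕ) (τ : MulAut A →* Module.End F (Fin m → F)), Function.Injective τ ∧
      ∀ {ι : Type} [Fintype ι] (f : ι → MulAut A), (∀ x : A, ∏ i, f i x = 1) → ∑ i, τ (f i) = 0 := by
  haveI hfa : Finite (Additive A) := inferInstanceAs (Finite A)
  haveI hfd : Module.Finite (ZMod t) (Additive A) := Module.Finite.of_finite
  obtain ⟨m, φ, hφ⟩ := exists_end_embed (ZMod t) F (Additive A)
  let τ₀ : MulAut A →* Module.End (ZMod t) (Additive A) :=
    { toFun := fun f => AddMonoidHom.toZModLinearMap t (MonoidHom.toAdditive f.toMonoidHom)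
      map_one' := by
        apply LinearMap.ext
        intro x
        rfl
      map_mul' := by
        intro f g
        apply LinearMap.ext
        intro x
        rfl }
  have hτ₀ : ∀ (f : MulAut A) (x : A), τ₀ f (Additive.ofMul x) = Additive.ofMul (f x) := fun _ _ => rfl
  refine ⟨m, φ.toMonoidHom.comp τ₀, ?_, ?_⟩
  · intro f g hfg
    have h1 : τ₀ f = τ₀ g := hφ hfg
    ext x
    have h2 := congrArg (fun T : Module.End (ZMod t) (Additive A) => T (Additive.ofMul x)) h1
    simp only [hτ₀] at h2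
    exact Additive.ofMul.injective h2
  · intro ι _ f hf
    have h1 : ∑ i, τ₀ (f i) = 0 := by
      apply LinearMap.ext
      intro x
      rw [LinearMap.sum_apply]
      have h2 : ∀ i, τ₀ (f i) x = Additive.ofMul (f i (Additive.toMul x)) := fun i => hτ₀ (f i) (Additive.toMul x)
      simp_rw [h2]
      rw [← ofMul_prod, hf]
      rfl
    show ∑ i, φ (τ₀ (f i)) = 0
    rw [← map_sum, h1, map_zero]

/-- The automorphisms of an elementary abelian group, represented over an extension field. -/
theorem exists_rep {A : Type*} [CommGroup A] [Finite A] {t : ℕ} [Fact t.Prime] (hexp : ∀ x : A, x ^ t = 1)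
    (F : Type*) [Field F] [Algebra (ZMod t) F] :
    ∃ (m : ℕ) (τ : MulAut A →* Module.End F (Fin m → F)), Function.Injective τ ∧
      ∀ {ι : Type} [Fintype ι] (f : ι → MulAut A), (∀ x : A, ∏ i, f i x = 1) → ∑ i, τ (f i) = 0 := by
  have hm : ∀ x : Additive A, t • x = 0 := by
    intro x
    have h1 : t • x = Additive.ofMul ((Additive.toMul x) ^ t) := rfl
    rw [h1, hexp]
    rfl
  exact @exists_rep_aux A _ _ t _ (AddCommGroup.zmodModule hm) F _ _

end rep

section main

/-- A reduction of the main theorem to `m_abelian`. -/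
theorem abelian_of_action {A : Type*} [CommGroup A] [Finite A] {t : ℕ} [ht : Fact t.Prime] (ht6 : t.Coprime 6)
    (hexp : ∀ x : A, x ^ t = 1) {H : Type u} [Group H] [Finite H] [Group.IsSolvable H]
    [MulDistribMulAction S3 H] (hc : (Nat.card H).Coprime 6) (hfix : ∀ g : H, (∀ α : S3, α • g = g) → g = 1)
    (ψ : H →* MulAut A) (hψ : Function.Injective ψ) (σ' : S3 →* MulAut A)
    (hcomp : ∀ (α : S3) (g : H), σ' α * ψ g = ψ (α • g) * σ' α) (hsum : ∀ x : A, ∏ α, σ' α x = 1)
    (hO : pCore t H = ⊥) (u v : H) : u * v = v * u := by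
  obtain ⟨m, τ, hτ, hτs⟩ := exists_rep hexp (AlgebraicClosure (ZMod t))
  refine m_abelian hc hfix (τ.comp ψ) (hτ.comp hψ) (τ.comp σ') ?_ ?_ t ht6 hO u v
  · intro α g
    show τ (σ' α) * τ (ψ g) = τ (ψ (α • g)) * τ (σ' α)
    rw [← map_mul, ← map_mul, hcomp]
  · exact hτs (fun α => σ' α) hsum

/-- **The main theorem.** -/
theorem nilp_main (n : ℕ) : ∀ (G : Type u) [Group G] [Finite G] [Group.IsSolvable G]
    [MulDistribMulAction S3 G], Nat.card G = n → (Nat.card G).Coprime 6 →
    (∀ g : G, (∀ α : S3, α • g = g) → g = 1) → Group.IsNilpotent ↥(commutator G) := by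
  induction n using Nat.strong_induction_on with
  | _ n ih =>
    intro G _ _ _ _ hn hc hfix
    classical
    obtain ⟨r, hr⟩ := exists_refl
    by_cases hnt : Nontrivial G
    swap
    · rw [not_nontrivial_iff_subsingleton] at hnt
      haveI : Subsingleton ↥(commutator G) := ⟨fun a b => Subtype.ext (Subsingleton.elim _ _)⟩
      infer_instance
    -- a minimal invariant normal subgroup
    obtain ⟨N, hNm⟩ : ∃ N : Subgroup G, Minimal (fun L : Subgroup G => L ≠ ⊥ ∧ L.Normal ∧ Inv L) N := by
      have hfin := Set.toFinite (setOf (fun L : Subgroup G => L ≠ ⊥ ∧ L.Normal ∧ Inv L))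
      obtain ⟨N, hN⟩ := hfin.exists_minimal ⟨⊤, top_ne_bot, inferInstance, fun _ _ _ => mem_top _⟩
      exact ⟨N, hN⟩
    obtain ⟨hNb, hNn, hNinv⟩ := hNm.prop
    have hmin : ∀ L : Subgroup G, L ≠ ⊥ → L.Normal → Inv L → L ≤ N → N ≤ L :=
      fun L h1 h2 h3 h4 => hNm.le_of_le ⟨h1, h2, h3⟩ h4
    haveI := hNn
    -- it is abelian
    have hNc : ∀ a ∈ N, ∀ b ∈ N, a * b = b * a := by
      have h1 : ⁅N, N⁆ = ⊥ := by
        by_contra h
        have hinv : Inv ⁅N, N⁆ := by
          intro α x hx
          have h1 : MulDistribMulAction.toMonoidHom G α x ∈ (⁅N, N⁆).map (MulDistribMulAction.toMonoidHom G α) :=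
            mem_map_of_mem _ hx
          rw [Subgroup.map_commutator] at h1
          have h2 : (N.map (MulDistribMulAction.toMonoidHom G α)) ≤ N := by
            rintro _ ⟨l, hl, rfl⟩
            exact hNinv α l hl
          exact Subgroup.commutator_mono h2 h2 h1
        have hle : ⁅N, N⁆ ≤ N := Subgroup.commutator_le_left N N
        have h2 := hmin _ h inferInstance hinv hle
        have h3 := IsSolvable.commutator_lt_of_ne_bot hNb
        exact absurd h2 (not_le_of_gt h3)
      intro a ha b hb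
      have h2 : ⁅a, b⁆ ∈ ⁅N, N⁆ := Subgroup.commutator_mem_commutator ha hb
      rw [h1, mem_bot, commutatorElement_eq_one_iff_mul_comm] at h2
      exact h2
    -- of prime exponent
    haveI hNnt : Nontrivial ↥N := (Subgroup.nontrivial_iff_ne_bot N).2 hNb
    obtain ⟨t, ht, htd⟩ := Nat.exists_prime_and_dvd (Finite.one_lt_card (α := ↥N)).ne'
    haveI htf : Fact t.Prime := ⟨ht⟩
    have ht6 : t.Coprime 6 :=
      Nat.Coprime.coprime_dvd_left (htd.trans (Subgroup.card_subgroup_dvd_card N)) hc
    have hNt : ∀ a ∈ N, a ^ t = 1 := by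
      let Ω : Subgroup G :=
        { carrier := {g | g ∈ N ∧ g ^ t = 1}
          mul_mem' := by
            rintro a b ⟨ha, ha'⟩ ⟨hb, hb'⟩
            refine ⟨N.mul_mem ha hb, ?_⟩
            have h1 : Commute a b := hNc a ha b hb
            rw [h1.mul_pow, ha', hb', one_mul]
          one_mem' := ⟨N.one_mem, one_pow _⟩
          inv_mem' := by
            rintro a ⟨ha, ha'⟩
            refine ⟨N.inv_mem ha, ?_⟩
            rw [inv_pow, ha', inv_one] }
      have hΩn : Ω.Normal := ⟨by
        rintro a ⟨ha, ha'⟩ g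
        refine ⟨hNn.conj_mem a ha g, ?_⟩
        rw [conj_pow, ha']
        simp⟩
      have hΩi : Inv Ω := by
        rintro α a ⟨ha, ha'⟩
        refine ⟨hNinv α a ha, ?_⟩
        rw [← smul_pow', ha', smul_one]
      have hΩb : Ω ≠ ⊥ := by
        obtain ⟨x, hx⟩ := exists_prime_orderOf_dvd_card' t htd
        intro h
        have h1 : (x : G) ∈ Ω := by
          refine ⟨x.2, ?_⟩
          have h2 : x ^ t = 1 := by
            rw [← hx]; exact pow_orderOf_eq_one x
          exact congrArg Subtype.val h2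
        rw [h, mem_bot] at h1
        have h2 : x = 1 := Subtype.ext h1
        rw [h2, orderOf_one] at hx
        exact ht.one_lt.ne hx
      have h1 := hmin Ω hΩb hΩn hΩi (fun a ha => ha.1)
      exact fun a ha => (h1 ha).2
    -- the quotient by `N`
    have hQnil : Group.IsNilpotent ↥(commutator (G ⧸ N)) := by
      letI qa : MulDistribMulAction S3 (G ⧸ N) := quotAction N hNinv
      have hlt : Nat.card (G ⧸ N) < n := by
        rw [← hn]
        have h1 := Subgroup.card_eq_card_quotient_mul_card_subgroup N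
        rw [h1]
        have h2 : 1 < Nat.card N := Finite.one_lt_card
        have h3 : 0 < Nat.card (G ⧸ N) := Nat.card_pos
        nlinarith
      refine ih (Nat.card (G ⧸ N)) hlt (G ⧸ N) rfl
        (Nat.Coprime.coprime_dvd_left (Subgroup.card_quotient_dvd_card N) hc) ?_
      intro w hw
      obtain ⟨g, rfl⟩ := QuotientGroup.mk_surjective w
      have h1 : ∀ α : S3, g⁻¹ * (α • g) ∈ N := by
        intro α
        have h2 : ((g : G) : G ⧸ N) = ((α • g : G) : G ⧸ N) := (hw α).symm
        exact QuotientGroup.eq.1 h2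
      have h2 := mem_of_coset_fixed hc hfix hr N (hNinv a3) (hNinv r) g (h1 a3) (h1 r)
      exact (QuotientGroup.eq_one_iff g).2 h2
    -- the action on `N`
    letI cg : CommGroup ↥N :=
      { (inferInstance : Group ↥N) with
        mul_comm := fun a b => Subtype.ext (hNc a a.2 b b.2) }
    letI sa : MulDistribMulAction S3 ↥N := subAction N hNinv
    let ψ : G →* MulAut ↥N := MulAut.conjNormal
    let σ' : S3 →* MulAut ↥N := MulDistribMulAction.toMulAut S3 ↥N
    have hψa : ∀ (g : G) (n : ↥N), ((ψ g n : ↥N) : G) = g * n * g⁻¹ := fun g n => MulAut.conjNormal_apply g n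
    have hσa : ∀ (α : S3) (n : ↥N), ((σ' α n : ↥N) : G) = α • (n : G) := fun _ _ => rfl
    have hcomp₀ : ∀ (α : S3) (g : G), σ' α * ψ g = ψ (α • g) * σ' α := by
      intro α g
      ext n
      show ((σ' α (ψ g n) : ↥N) : G) = ((ψ (α • g) (σ' α n) : ↥N) : G)
      rw [hσa, hψa, hψa, hσa, smul_mul', smul_mul', smul_inv']
    have hsum : ∀ x : ↥N, ∏ α, σ' α x = 1 := by
      intro x
      apply Subtype.ext
      apply hfix
      intro β
      have h1 : ∀ β : S3, σ' β (∏ α, σ' α x) = ∏ α, σ' α x := by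
        intro β
        rw [map_prod]
        refine Fintype.prod_equiv (Equiv.mulLeft β) _ _ (fun α => ?_)
        show σ' β (σ' α x) = σ' (β * α) x
        rw [map_mul]
        rfl
      exact congrArg Subtype.val (h1 β)
    -- the quotient acting faithfully
    have hCinv : Inv ψ.ker := by
      intro α g hg
      have h1 := hcomp₀ α g
      rw [MonoidHom.mem_ker] at hg ⊢
      rw [hg, mul_one] at h1
      have h2 : ψ (α • g) * σ' α = 1 * σ' α := by rw [one_mul]; exact h1.symm
      exact mul_right_cancel h2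
    letI ha : MulDistribMulAction S3 (G ⧸ ψ.ker) := quotAction ψ.ker hCinv
    let θ : G ⧸ ψ.ker →* MulAut ↥N := QuotientGroup.kerLift ψ
    have hθ : ∀ g : G, θ (g : G ⧸ ψ.ker) = ψ g := fun g => rfl
    have hO : pCore t (G ⧸ ψ.ker) = ⊥ := by
      have hPp : IsPGroup t ↥(pCore t (G ⧸ ψ.ker)) := pCore_isPGroup t
      letI ma : MulAction ↥(pCore t (G ⧸ ψ.ker)) ↥N :=
        MulAction.compHom ↥N (θ.comp (pCore t (G ⧸ ψ.ker)).subtype)
      have hsmul : ∀ (p : ↥(pCore t (G ⧸ ψ.ker))) (n : ↥N), p • n = θ (p : G ⧸ ψ.ker) n := fun _ _ => rfl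
      have hmod := hPp.card_modEq_card_fixedPoints ↥N
      have hd : t ∣ Nat.card (MulAction.fixedPoints ↥(pCore t (G ⧸ ψ.ker)) ↥N) :=
        (Nat.ModEq.dvd_iff hmod (dvd_refl t)).1 htd
      have h1fix : (1 : ↥N) ∈ MulAction.fixedPoints ↥(pCore t (G ⧸ ψ.ker)) ↥N := by
        intro p
        rw [hsmul, map_one]
      obtain ⟨n₀, hn₀fix, hn₀ne⟩ : ∃ n₀ : ↥N, n₀ ∈ MulAction.fixedPoints ↥(pCore t (G ⧸ ψ.ker)) ↥N ∧ n₀ ≠ 1 := by
        haveI : Nonempty (MulAction.fixedPoints ↥(pCore t (G ⧸ ψ.ker)) ↥N) := ⟨⟨1, h1fix⟩⟩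
        have hpos : 0 < Nat.card (MulAction.fixedPoints ↥(pCore t (G ⧸ ψ.ker)) ↥N) := Nat.card_pos
        have h2 : 1 < Nat.card (MulAction.fixedPoints ↥(pCore t (G ⧸ ψ.ker)) ↥N) :=
          lt_of_lt_of_le ht.one_lt (Nat.le_of_dvd hpos hd)
        haveI := Finite.one_lt_card_iff_nontrivial.1 h2
        obtain ⟨y, hy⟩ := exists_ne (⟨1, h1fix⟩ : MulAction.fixedPoints ↥(pCore t (G ⧸ ψ.ker)) ↥N)
        exact ⟨y.1, y.2, fun h => hy (Subtype.ext h)⟩
      -- the preimage
      let q : G →* G ⧸ ψ.ker := QuotientGroup.mk' ψ.ker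
      let Pt : Subgroup G := (pCore t (G ⧸ ψ.ker)).comap q
      have hPtn : Pt.Normal := Subgroup.Normal.comap inferInstance q
      have hPti : Inv Pt := by
        intro α g hg
        have h1 : q g ∈ pCore t (G ⧸ ψ.ker) := hg
        haveI hch := pCore_characteristic (G := G ⧸ ψ.ker) t
        have h2 := (inv_char (pCore t (G ⧸ ψ.ker))) α _ h1
        exact h2
      let W₀ : Subgroup G :=
        { carrier := {g | g ∈ N ∧ ∀ p ∈ Pt, p * g * p⁻¹ = g}
          mul_mem' := by
            rintro a b ⟨ha, ha'⟩ ⟨hb, hb'⟩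
            refine ⟨N.mul_mem ha hb, fun p hp => ?_⟩
            have h1 : p * (a * b) * p⁻¹ = (p * a * p⁻¹) * (p * b * p⁻¹) := by group
            rw [h1, ha' p hp, hb' p hp]
          one_mem' := ⟨N.one_mem, fun p _ => by group⟩
          inv_mem' := by
            rintro a ⟨ha, ha'⟩
            refine ⟨N.inv_mem ha, fun p hp => ?_⟩
            have h1 : p * a⁻¹ * p⁻¹ = (p * a * p⁻¹)⁻¹ := by group
            rw [h1, ha' p hp] }
      have hW₀n : W₀.Normal := ⟨by
        rintro a ⟨ha, ha'⟩ g
        refine ⟨hNn.conj_mem a ha g, fun p hp => ?_⟩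
        have h1 : g⁻¹ * p * g ∈ Pt := by
          have := hPtn.conj_mem p hp g⁻¹
          simpa using this
        have h2 := ha' _ h1
        calc p * (g * a * g⁻¹) * p⁻¹ = g * ((g⁻¹ * p * g) * a * (g⁻¹ * p * g)⁻¹) * g⁻¹ := by group
          _ = g * a * g⁻¹ := by rw [h2]⟩
      have hW₀i : Inv W₀ := by
        rintro α a ⟨ha, ha'⟩
        refine ⟨hNinv α a ha, fun p hp => ?_⟩
        have h1 : α⁻¹ • p ∈ Pt := hPti _ _ hp
        have h2 := ha' _ h1
        have h3 := congrArg (fun x => α • x) h2
        simp only [smul_mul', smul_inv', smul_inv_smul] at h3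
        exact h3
      have hW₀b : W₀ ≠ ⊥ := by
        intro h
        have h1 : (n₀ : G) ∈ W₀ := by
          refine ⟨n₀.2, fun p hp => ?_⟩
          have h2 := hn₀fix ⟨q p, hp⟩
          have h3 : ψ p n₀ = n₀ := h2
          have h4 := congrArg Subtype.val h3
          rw [hψa] at h4
          exact h4
        rw [h, mem_bot] at h1
        exact hn₀ne (Subtype.ext h1)
      have hNW := hmin W₀ hW₀b hW₀n hW₀i (fun a ha => ha.1)
      rw [eq_bot_iff]
      intro w hw
      obtain ⟨g, rfl⟩ := QuotientGroup.mk_surjective w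
      have hg : g ∈ Pt := hw
      rw [mem_bot]
      apply (QuotientGroup.eq_one_iff g).2
      rw [MonoidHom.mem_ker]
      ext n
      show ((ψ g n : ↥N) : G) = n
      rw [hψa]
      exact (hNW n.2).2 g hg
    have habel : ∀ u v : G ⧸ ψ.ker, u * v = v * u :=
      abelian_of_action ht6 (fun x => Subtype.ext (by
        show ((x : G)) ^ t = 1
        exact hNt _ x.2))
        (Nat.Coprime.coprime_dvd_left (Subgroup.card_quotient_dvd_card _) hc)
        (by
          intro w hw
          obtain ⟨g, rfl⟩ := QuotientGroup.mk_surjective w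
          have h1 : ∀ α : S3, g⁻¹ * (α • g) ∈ ψ.ker := by
            intro α
            have h2 : ((g : G) : G ⧸ ψ.ker) = ((α • g : G) : G ⧸ ψ.ker) := (hw α).symm
            exact QuotientGroup.eq.1 h2
          have h2 := mem_of_coset_fixed hc hfix hr ψ.ker (hCinv a3) (hCinv r) g (h1 a3) (h1 r)
          exact (QuotientGroup.eq_one_iff g).2 h2)
        θ (QuotientGroup.kerLift_injective ψ) σ'
        (by
          intro α w
          obtain ⟨g, rfl⟩ := QuotientGroup.mk_surjective w
          exact hcomp₀ α g)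
        hsum hO
    have hder : commutator G ≤ ψ.ker := by
      rw [_root_.commutator_def, Subgroup.commutator_le]
      intro a _ b _
      have h1 : ((⁅a, b⁆ : G) : G ⧸ ψ.ker) = 1 := by
        rw [commutatorElement_def]
        rw [QuotientGroup.mk_mul, QuotientGroup.mk_mul, QuotientGroup.mk_mul, QuotientGroup.mk_inv,
          QuotientGroup.mk_inv, habel (a : G ⧸ ψ.ker) b]
        group
      exact (QuotientGroup.eq_one_iff _).1 h1
    -- conclusion
    let f₀ : ↥(commutator G) →* G ⧸ N := (QuotientGroup.mk' N).comp (commutator G).subtype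
    have hf₀ : ∀ g : ↥(commutator G), f₀ g ∈ commutator (G ⧸ N) := by
      intro g
      have h1 : (commutator G).map (QuotientGroup.mk' N) ≤ commutator (G ⧸ N) := by
        rw [_root_.commutator_def, _root_.commutator_def, Subgroup.map_commutator]
        exact Subgroup.commutator_mono le_top le_top
      exact h1 (mem_map_of_mem _ g.2)
    let f : ↥(commutator G) →* ↥(commutator (G ⧸ N)) := f₀.codRestrict _ hf₀
    refine Subgroup.isNilpotent_of_ker_le_center f ?_
    intro g hg
    have h1 : ((f g : ↥(commutator (G ⧸ N))) : G ⧸ N) = 1 := congrArg Subtype.val (MonoidHom.mem_ker.1 hg)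
    have h2 : (g : G) ∈ N := (QuotientGroup.eq_one_iff _).1 h1
    rw [mem_center_iff]
    intro h
    apply Subtype.ext
    have h3 : ψ (h : G) = 1 := MonoidHom.mem_ker.1 (hder h.2)
    have h4 : ψ (h : G) ⟨g, h2⟩ = ⟨g, h2⟩ := by rw [h3]; rfl
    have h5 := congrArg Subtype.val h4
    rw [hψa] at h5
    show (h : G) * g = g * h
    calc (h : G) * g = (h : G) * g * (h : G)⁻¹ * h := by group
      _ = g * h := by rw [show (h : G) * g * (h : G)⁻¹ = g from h5]

end main

end Cfsg.Agent.Lib.Struct.SymFix
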