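import Mathlib
import Cfsg.Agent.Lib.Struct.PQFixP
import Cfsg.Agent.Lib.Struct.SymFixF

/-!
# A faithful module with vanishing norm: the group is nilpotent
-/

set_option autoImplicit false

namespace Cfsg.Agent.Lib.Struct.PQFix

open Subgroup SymFix Cfsg Cfsg.Agent.Lib.Basic

section prelim

variable {H : Type*} [Group H] [Finite H]

theorem pgroup_of_primes {Q : Type*} [Group Q] [Finite Q] {r : ℕ} [hr : Fact r.Prime]
    (h : ∀ ℓ : ℕ, ℓ.Prime → ℓ ≠ r → ¬ ℓ ∣ Nat.card Q) : IsPGroup r Q := by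
  have h1 := Nat.eq_prime_pow_of_unique_prime_dvd (n := Nat.card Q) (p := r) Nat.card_pos.ne' (by
    intro d hd hdv
    by_contra hne
    exact h d hd hne hdv)
  exact IsPGroup.of_card h1

/-- A power of an element of a quotient with prime order. -/
theorem exists_prime_power_element {Q : Type*} [Group Q] (f : H →* Q) (hf : Function.Surjective f) {ℓ : ℕ} (hℓ : ℓ.Prime)
    {xb : Q} (hx : orderOf xb = ℓ) : ∃ y : H, (∃ k, y ^ ℓ ^ k = 1) ∧ f y ≠ 1 := by
  obtain ⟨x, rfl⟩ := hf xb
  have hn : orderOf x ≠ 0 := (orderOf_pos x).ne'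
  obtain ⟨a, m, hm, hnm⟩ := Nat.exists_eq_pow_mul_and_not_dvd hn ℓ hℓ.ne_one
  refine ⟨x ^ m, ⟨a, ?_⟩, ?_⟩
  · rw [← pow_mul, mul_comm, ← hnm, pow_orderOf_eq_one]
  · rw [map_pow]
    intro h
    apply hm
    rw [← hx]
    exact orderOf_dvd_of_pow_eq_one h

end prelim

section main

variable {H A₀ : Type*} [Group H] [Finite H] [Group.IsSolvable H] [Group A₀] [Fintype A₀] [MulDistribMulAction A₀ H]
  {F V : Type*} [Field F] [IsAlgClosed F] [AddCommGroup V] [Module F V] [FiniteDimensional F V]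

/-- **Theorem M.** -/
theorem m_nilp {p q : ℕ} {u : A₀} (hPQ : PQ (⊤ : Subgroup A₀) p q u) (hc : (Nat.card H).Coprime (p * q))
    (hfix : ∀ g : H, (∀ α : A₀, α • g = g) → g = 1)
    (ρ : H →* Module.End F V) (hfaith : Function.Injective ρ) (σ : A₀ →* Module.End F V)
    (hcomp : ∀ (α : A₀) (g : H), σ α * ρ g = ρ (α • g) * σ α) (hN0 : ∑ α, σ α = 0)
    (t : ℕ) [ht : Fact t.Prime] [hchar : CharP F t] (htp : t ≠ p) (htq : t ≠ q) (hO : pCore t H = ⊥) :
    Group.IsNilpotent H := by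
  classical
  have hp := hPQ.hp
  have hq := hPQ.hq
  have hcardA : Nat.card A₀ = p * q := by
    have h1 := hPQ.hcard
    rw [← h1]
    exact (Nat.card_congr Subgroup.topEquiv.toEquiv).symm
  have hcH : (Nat.card H).Coprime (Nat.card A₀) := by rwa [hcardA]
  have hne : ∀ ℓ : ℕ, ℓ.Prime → ℓ ≠ t → ((ℓ : ℕ) : F) ≠ 0 := by
    intro ℓ hℓ hℓt h
    rw [CharP.cast_eq_zero_iff F t] at h
    exact hℓt ((Nat.prime_dvd_prime_iff_eq ht.out hℓ).1 h).symm
  have hndvd : ∀ ℓ : ℕ, ℓ.Prime → ℓ ∣ Nat.card H → ℓ ≠ p ∧ ℓ ≠ q := by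
    intro ℓ hℓ hd
    constructor
    · rintro rfl
      have h1 := Nat.dvd_gcd hd (Dvd.intro _ rfl : ℓ ∣ ℓ * q)
      rw [hc] at h1
      exact hℓ.one_lt.ne' (Nat.dvd_one.1 h1)
    · rintro rfl
      have h1 := Nat.dvd_gcd hd (Dvd.intro_left _ rfl : ℓ ∣ p * ℓ)
      rw [hc] at h1
      exact hℓ.one_lt.ne' (Nat.dvd_one.1 h1)
  have hinvc : ∀ (C : Subgroup H) [C.Characteristic], ∀ α : A₀, ∀ x ∈ C, α • x ∈ C := by
    intro C hC α x hx
    exact (Subgroup.characteristic_iff_le_comap.1 hC (MulDistribMulAction.toMulAut A₀ H α)) hx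
  -- step 1: invariant Sylow subgroups centralize the other cores
  have hstep1 : ∀ (r s : ℕ), r.Prime → s.Prime → r ≠ s → ∀ T : Sylow r H,
      (∀ α : A₀, ∀ x ∈ (T : Subgroup H), α • x ∈ (T : Subgroup H)) → ∀ x ∈ (T : Subgroup H), ∀ y ∈ pCore s H,
      x * y * x⁻¹ = y := by
    intro r s hr hs hrs T hTA x hx y hy
    by_cases hst : s = t
    · rw [hst, hO, mem_bot] at hy
      rw [hy]
      group
    by_cases hdr : r ∣ Nat.card H
    swap
    · haveI : Fact r.Prime := ⟨hr⟩
      have h1 : Nat.card (T : Subgroup H) = 1 := by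
        obtain ⟨k, hk⟩ := IsPGroup.iff_card.1 T.isPGroup'
        rw [hk]
        rcases k with _ | k
        · rfl
        · exfalso
          apply hdr
          have h2 : Nat.card (T : Subgroup H) ∣ Nat.card H := Subgroup.card_subgroup_dvd_card _
          rw [hk] at h2
          exact (dvd_pow_self r (Nat.succ_ne_zero k)).trans h2
      haveI := (Nat.card_eq_one_iff_unique.1 h1).1
      have h3 : (⟨x, hx⟩ : ↥(T : Subgroup H)) = 1 := Subsingleton.elim _ _
      have h4 : x = 1 := congrArg Subtype.val h3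
      rw [h4]
      group
    by_cases hds : s ∣ Nat.card H
    swap
    · haveI : Fact s.Prime := ⟨hs⟩
      have h1 : pCore s H = ⊥ := pCore_eq_bot_of_not_dvd hds
      rw [h1, mem_bot] at hy
      rw [hy]
      group
    obtain ⟨hrp, hrq⟩ := hndvd r hr hdr
    obtain ⟨hsp, hsq⟩ := hndvd s hs hds
    haveI : (pCore s H).Characteristic := pCore_characteristic s
    exact core_sylow ρ hfaith σ hcomp hN0 hPQ (pCore s H) (T : Subgroup H) hs hr (pCore_isPGroup s) T.isPGroup' hrs
      hsp.symm hsq.symm hrp hrq (hne s hs hst) (hne p hp htp.symm) (hne q hq htq.symm)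
      (hinvc _) hTA (fun x _ y hy => (pCore_normal s).conj_mem y hy x) hfix x hx y hy
  -- step 2: all `r`-elements centralize the other cores
  have hstep2 : ∀ (r s : ℕ), r.Prime → s.Prime → r ≠ s → ∀ g : H, (∃ k, g ^ r ^ k = 1) → ∀ y ∈ pCore s H,
      g * y * g⁻¹ = y := by
    intro r s hr hs hrs g hg y hy
    haveI : Fact r.Prime := ⟨hr⟩
    obtain ⟨T, hT⟩ := exists_inv_sylow (A₀ := A₀) hcH r
    have hz : IsPGroup r (zpowers g) := by
      obtain ⟨k, hk⟩ := hg
      intro w
      refine ⟨k, ?_⟩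
      obtain ⟨i, hi⟩ := mem_zpowers_iff.1 w.2
      apply Subtype.ext
      show (w : H) ^ r ^ k = 1
      rw [← hi, ← zpow_natCast, ← zpow_mul, mul_comm, zpow_mul, zpow_natCast, hk, one_zpow]
    obtain ⟨Q, hQ⟩ := hz.exists_le_sylow
    obtain ⟨k, rfl⟩ := MulAction.exists_smul_eq H T Q
    have hgm : g ∈ ((k • T : Sylow r H) : Subgroup H) := hQ (mem_zpowers g)
    rw [Sylow.coe_subgroup_smul, Subgroup.mem_smul_pointwise_iff_exists] at hgm
    obtain ⟨x, hx, hxg⟩ := hgm
    have hxg' : g = k * x * k⁻¹ := hxg.symm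
    have hy' : k⁻¹ * y * k ∈ pCore s H := by
      have := (pCore_normal s).conj_mem y hy k⁻¹
      simpa using this
    have h1 := hstep1 r s hr hs hrs T hT x hx _ hy'
    rw [hxg']
    calc k * x * k⁻¹ * y * (k * x * k⁻¹)⁻¹ = k * (x * (k⁻¹ * y * k) * x⁻¹) * k⁻¹ := by group
      _ = y := by rw [h1]; group
  -- elements of prime power order commute with the other cores
  have hcomm : ∀ (r s : ℕ), r.Prime → s.Prime → r ≠ s → ∀ g : H, (∃ k, g ^ r ^ k = 1) → ∀ y ∈ pCore s H,
      g * y = y * g := by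
    intro r s hr hs hrs g hg y hy
    have h1 := hstep2 r s hr hs hrs g hg y hy
    calc g * y = (g * y * g⁻¹) * g := by group
      _ = y * g := by rw [h1]
  -- step 3: all `r`-elements lie in an invariant Sylow subgroup
  have hstep3 : ∀ r : ℕ, r.Prime → ∀ T : Sylow r H, ∀ g : H, (∃ k, g ^ r ^ k = 1) → g ∈ (T : Subgroup H) := by
    intro r hr T g hg
    haveI hrf : Fact r.Prime := ⟨hr⟩
    have hTel : ∀ x ∈ (T : Subgroup H), ∃ k, x ^ r ^ k = 1 := by
      intro x hx
      obtain ⟨k, hk⟩ := T.isPGroup' ⟨x, hx⟩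
      exact ⟨k, congrArg Subtype.val hk⟩
    let C : Subgroup H := centralizer (pCore r H : Set H)
    haveI hCn : C.Normal := inferInstance
    have hCm : ∀ x, x ∈ C ↔ ∀ y ∈ pCore r H, y * x = x * y := fun x => Subgroup.mem_centralizer_iff
    have hQp : IsPGroup r (H ⧸ C) := by
      refine pgroup_of_primes ?_
      intro ℓ hℓ hℓr hd
      haveI : Fact ℓ.Prime := ⟨hℓ⟩
      obtain ⟨xb, hxb⟩ := exists_prime_orderOf_dvd_card' ℓ hd
      obtain ⟨y, hy, hy1⟩ := exists_prime_power_element (QuotientGroup.mk' C) (QuotientGroup.mk'_surjective C) hℓ hxb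
      apply hy1
      apply (QuotientGroup.eq_one_iff y).2
      rw [hCm]
      intro z hz
      exact (hcomm ℓ r hℓ hr hℓr y hy z hz).symm
    have hind : ((T : Subgroup H).map (QuotientGroup.mk' C)).index = 1 := by
      have h1 := Subgroup.index_map_dvd (T : Subgroup H) (QuotientGroup.mk'_surjective C)
      have h2 := T.not_dvd_index
      obtain ⟨k, hk⟩ := IsPGroup.iff_card.1 hQp
      have h3 : ((T : Subgroup H).map (QuotientGroup.mk' C)).index ∣ r ^ k := by
        rw [← hk]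
        exact Subgroup.index_dvd_card _
      obtain ⟨j, -, hj⟩ := (Nat.dvd_prime_pow hr).1 h3
      rcases j with _ | j
      · simpa using hj
      · rw [hj] at h1
        exact absurd ((dvd_pow_self r (Nat.succ_ne_zero j)).trans h1) h2
    have htop := Subgroup.index_eq_one.1 hind
    have hgm : QuotientGroup.mk' C g ∈ (T : Subgroup H).map (QuotientGroup.mk' C) := by
      rw [htop]
      exact Subgroup.mem_top _
    obtain ⟨t, ht, hte⟩ := hgm
    have hc₀ : t⁻¹ * g ∈ C := QuotientGroup.eq.1 hte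
    have htr := hTel t ht
    -- the Fitting subgroup
    have hcF : t⁻¹ * g ∈ centralizer (fittingSubgroup H : Set H) := by
      rw [Subgroup.mem_centralizer_iff]
      have hle : fittingSubgroup H ≤ centralizer {t⁻¹ * g} := by
        rw [fittingSubgroup_eq_iSup_pCore]
        refine iSup_le (fun s => ?_)
        intro y hy
        show y ∈ centralizer {t⁻¹ * g}
        rw [Subgroup.mem_centralizer_singleton_iff]
        by_cases hsr : (s : ℕ) = r
        · rw [hsr] at hy
          exact (hCm _).1 hc₀ y hy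
        · have h1 := hcomm r s hr s.2 (Ne.symm hsr) g hg y hy
          have h2 := hcomm r s hr s.2 (Ne.symm hsr) t htr y hy
          have h3 : t⁻¹ * y = y * t⁻¹ := by
            calc t⁻¹ * y = t⁻¹ * (y * t) * t⁻¹ := by group
              _ = t⁻¹ * (t * y) * t⁻¹ := by rw [h2]
              _ = y * t⁻¹ := by group
          calc y * (t⁻¹ * g) = (y * t⁻¹) * g := by group
            _ = (t⁻¹ * y) * g := by rw [h3]
            _ = t⁻¹ * (y * g) := by group
            _ = t⁻¹ * (g * y) := by rw [h1]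
            _ = (t⁻¹ * g) * y := by group
      intro y hy
      have h1 := hle hy
      rw [Subgroup.mem_centralizer_singleton_iff] at h1
      exact h1
    have hc₀F : t⁻¹ * g ∈ fittingSubgroup H := centralizer_fittingSubgroup_le hcF
    -- the decomposition
    let D : Subgroup H := ⨆ s : {s : Nat.Primes // (s : ℕ) ≠ r}, pCore ((s : Nat.Primes) : ℕ) H
    have hFle : fittingSubgroup H ≤ pCore r H ⊔ D := by
      rw [fittingSubgroup_eq_iSup_pCore]
      refine iSup_le (fun s => ?_)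
      by_cases hsr : (s : ℕ) = r
      · rw [hsr]
        exact le_sup_left
      · exact le_trans (le_iSup (fun s : {s : Nat.Primes // (s : ℕ) ≠ r} => pCore ((s : Nat.Primes) : ℕ) H) ⟨s, hsr⟩) le_sup_right
    have hDF : D ≤ fittingSubgroup H := by
      refine iSup_le (fun s => ?_)
      haveI : Fact ((s : Nat.Primes) : ℕ).Prime := ⟨(s : Nat.Primes).2⟩
      exact pCore_le_fittingSubgroup _
    have hDc : ∀ x : H, (∃ k, x ^ r ^ k = 1) → ∀ d ∈ D, x * d = d * x := by
      intro x hx d hd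
      have hle : D ≤ centralizer {x} := by
        refine iSup_le (fun s => ?_)
        intro y hy
        show y ∈ centralizer {x}
        rw [Subgroup.mem_centralizer_singleton_iff]
        exact (hcomm r _ hr (s : Nat.Primes).2 (Ne.symm s.2) x hx y hy).symm
      have h1 := hle hd
      rw [Subgroup.mem_centralizer_singleton_iff] at h1
      exact h1.symm
    have hmem : t⁻¹ * g ∈ (↑(pCore r H ⊔ D) : Set H) := hFle hc₀F
    rw [Subgroup.normal_mul] at hmem
    obtain ⟨c₁, hc₁, c₂, hc₂, hc⟩ := Set.mem_mul.1 hmem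
    have hc₁T : c₁ ∈ (T : Subgroup H) := pCore_le_sylow T hc₁
    have ht₁T : t * c₁ ∈ (T : Subgroup H) := (T : Subgroup H).mul_mem ht hc₁T
    have hgd : g = (t * c₁) * c₂ := by
      calc g = t * (t⁻¹ * g) := by group
        _ = t * (c₁ * c₂) := by rw [← hc]
        _ = _ := by group
    obtain ⟨k₁, hk₁⟩ := hTel _ ht₁T
    obtain ⟨k₂, hk₂⟩ := hg
    have hcm : Commute (t * c₁) c₂ := hDc _ ⟨k₁, hk₁⟩ c₂ hc₂
    have hc₂r : c₂ ^ r ^ (k₁ + k₂) = 1 := by
      have h1 : g ^ r ^ (k₁ + k₂) = (t * c₁) ^ r ^ (k₁ + k₂) * c₂ ^ r ^ (k₁ + k₂) := by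
        rw [hgd, hcm.mul_pow]
      have h2 : g ^ r ^ (k₁ + k₂) = 1 := by
        rw [add_comm, pow_add, pow_mul, hk₂, one_pow]
      have h3 : (t * c₁) ^ r ^ (k₁ + k₂) = 1 := by
        rw [pow_add, pow_mul, hk₁, one_pow]
      rw [h2, h3, one_mul] at h1
      exact h1.symm
    have hc₂core : c₂ ∈ pCore r H := by
      have hc₂F := hDF hc₂
      have hz : IsPGroup r (zpowers (⟨c₂, hc₂F⟩ : ↥(fittingSubgroup H))) := by
        intro w
        refine ⟨k₁ + k₂, ?_⟩
        obtain ⟨i, hi⟩ := mem_zpowers_iff.1 w.2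
        apply Subtype.ext
        show (w : ↥(fittingSubgroup H)) ^ r ^ (k₁ + k₂) = 1
        rw [← hi, ← zpow_natCast, ← zpow_mul, mul_comm, zpow_mul, zpow_natCast]
        have : (⟨c₂, hc₂F⟩ : ↥(fittingSubgroup H)) ^ r ^ (k₁ + k₂) = 1 := Subtype.ext hc₂r
        rw [this, one_zpow]
      obtain ⟨P, hP⟩ := hz.exists_le_sylow
      have h1 := sylow_map_le_pCore_of_nilpotent (N := fittingSubgroup H) fittingSubgroup_normal
        fittingSubgroup_isNilpotent r P
      exact h1 (mem_map_of_mem _ (hP (mem_zpowers _)))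
    rw [hgd]
    exact (T : Subgroup H).mul_mem ht₁T (pCore_le_sylow T hc₂core)
  -- conclusion
  refine (Group.isNilpotent_of_finite_tfae.out 3 0).1 ?_
  intro r hr P
  have hel : ∀ x ∈ (P : Subgroup H), ∃ k, x ^ r ^ k = 1 := by
    intro x hx
    obtain ⟨k, hk⟩ := P.isPGroup' ⟨x, hx⟩
    exact ⟨k, congrArg Subtype.val hk⟩
  refine ⟨fun x hx g => hstep3 r hr.out P _ ?_⟩
  obtain ⟨k, hk⟩ := hel x hx
  refine ⟨k, ?_⟩
  rw [conj_pow, hk]
  group

end main

end Cfsg.Agent.Lib.Struct.PQFix
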