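import Mathlib
import Cfsg.Agent.Lib.Struct.PQFixQ

/-!
# Fitting height two: nonabelian groups of order `pq`
-/

set_option autoImplicit false

namespace Cfsg.Agent.Lib.Struct.PQFix

open Subgroup SymFix Cfsg Cfsg.Agent.Lib.Basic
open scoped commutatorElement

section group

variable {A₀ : Type*} [Group A₀] [Finite A₀]

/-- A nonabelian group of order `pq`. -/
theorem exists_PQ {p q : ℕ} (hp : p.Prime) (hq : q.Prime) (hlt : p < q) (hA : Nat.card A₀ = p * q)
    (hna : ¬ ∀ a b : A₀, a * b = b * a) : ∃ u : A₀, PQ (⊤ : Subgroup A₀) p q u := by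
  classical
  haveI hqf : Fact q.Prime := ⟨hq⟩
  haveI hpf : Fact p.Prime := ⟨hp⟩
  obtain ⟨u, hu⟩ := exists_prime_orderOf_dvd_card' q (by rw [hA]; exact Dvd.intro_left _ rfl)
  have huq : u ^ q = 1 := by
    rw [← hu]
    exact pow_orderOf_eq_one u
  have hu1 : u ≠ 1 := by
    rintro rfl
    rw [orderOf_one] at hu
    exact hq.one_lt.ne hu
  have hcQ : Nat.card (zpowers u) = q := by
    rw [Nat.card_zpowers, hu]
  have hind : (zpowers u).index = p := by
    have h1 := Subgroup.card_mul_index (zpowers u)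
    rw [hcQ, hA, mul_comm] at h1
    exact Nat.eq_of_mul_eq_mul_right hq.pos h1
  have hmf : (Nat.card A₀).minFac = p := by
    rw [hA]
    apply le_antisymm
    · exact Nat.minFac_le_of_dvd hp.two_le (Dvd.intro _ rfl)
    · have h1 := Nat.minFac_prime (n := p * q) (Nat.ne_of_gt (by nlinarith [hp.two_le, hq.two_le]))
      have h2 := Nat.minFac_dvd (p * q)
      rcases (Nat.Prime.dvd_mul h1).1 h2 with h3 | h3
      · exact le_of_eq ((Nat.prime_dvd_prime_iff_eq h1 hp).1 h3).symm
      · rw [(Nat.prime_dvd_prime_iff_eq h1 hq).1 h3]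
        exact hlt.le
  haveI hQn : (zpowers u).Normal := Subgroup.normal_of_index_eq_minFac_card (by rw [hind, hmf])
  have hQne : ∀ a : A₀, a ∉ zpowers u → a * u * a⁻¹ ≠ u := by
    intro a ha h
    apply hna
    have hcent : ∀ g : A₀, g ∈ centralizer {u} := by
      have h1 : a ∈ centralizer {u} := by
        rw [Subgroup.mem_centralizer_singleton_iff]
        calc a * u = (a * u * a⁻¹) * a := by group
          _ = u * a := by rw [h]
      have hle : zpowers u ≤ centralizer {u} := by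
        rw [zpowers_le, Subgroup.mem_centralizer_singleton_iff]
      have h2 : Nat.card (centralizer {u}) ∣ p * q := by
        rw [← hA]
        exact Subgroup.card_subgroup_dvd_card _
      have h3 : q ∣ Nat.card (centralizer {u}) := by
        rw [← hcQ]
        exact Subgroup.card_dvd_of_le hle
      have hne : zpowers u ≠ centralizer {u} := by
        intro h4
        rw [← h4] at h1
        exact ha h1
      have h4 : Nat.card (centralizer {u}) ≠ q := by
        intro h5
        apply hne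
        exact Subgroup.eq_of_le_of_card_ge hle (by rw [h5, hcQ])
      obtain ⟨m, hm⟩ := h3
      have h5 : m ∣ p := by
        rw [hm, mul_comm] at h2
        exact Nat.dvd_of_mul_dvd_mul_right hq.pos h2
      rcases (Nat.dvd_prime hp).1 h5 with rfl | rfl
      · exact absurd (by rw [hm, mul_one]) h4
      · have h6 : centralizer {u} = ⊤ := by
          apply Subgroup.eq_top_of_card_eq
          rw [hm, hA, mul_comm]
        intro g
        rw [h6]
        exact Subgroup.mem_top g
    -- the quotient by `Q` is cyclic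
    let f : A₀ →* A₀ ⧸ zpowers u := QuotientGroup.mk' _
    haveI hprime : Fact (Nat.card (A₀ ⧸ zpowers u)).Prime := by
      have : Nat.card (A₀ ⧸ zpowers u) = p := hind
      rw [this]
      exact hpf
    haveI : IsCyclic (A₀ ⧸ zpowers u) := isCyclic_of_prime_card rfl
    refine commutative_of_cyclic_center_quotient f ?_
    intro g hg
    have hg' : g ∈ zpowers u := (QuotientGroup.eq_one_iff g).1 hg
    rw [mem_center_iff]
    intro w
    have h1 := hcent w
    have h2 : zpowers u ≤ centralizer {w} := by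
      rw [zpowers_le, Subgroup.mem_centralizer_singleton_iff]
      rw [Subgroup.mem_centralizer_singleton_iff] at h1
      exact h1.symm
    have h3 := h2 hg'
    rw [Subgroup.mem_centralizer_singleton_iff] at h3
    exact h3.symm
  have hpow : ∀ a : A₀, a ^ p ∈ zpowers u := by
    intro a
    apply (QuotientGroup.eq_one_iff _).1
    rw [QuotientGroup.mk_pow]
    have h1 : Nat.card (A₀ ⧸ zpowers u) = p := hind
    rw [← h1]
    exact pow_card_eq_one'
  have hcomp : ∀ a : A₀, a ∉ zpowers u → a ^ p = 1 := by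
    intro a ha
    by_contra hne
    have h1 := hpow a
    have h2 : (⟨u, mem_zpowers u⟩ : ↥(zpowers u)) ∈ zpowers (⟨a ^ p, h1⟩ : ↥(zpowers u)) :=
      mem_zpowers_of_prime_card hcQ (fun h => hne (congrArg Subtype.val h))
    obtain ⟨i', hi'⟩ := mem_zpowers_iff.1 h2
    obtain ⟨i, hi⟩ : ∃ i : ℤ, (a ^ p) ^ i = u := ⟨i', by simpa using congrArg Subtype.val hi'⟩
    apply hQne a ha
    have h3 : Commute a u := by
      rw [← hi, ← zpow_natCast, ← zpow_mul]
      exact (Commute.refl a).zpow_right _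
    rw [h3.eq]
    group
  obtain ⟨a, ha⟩ : ∃ a : A₀, a ∉ zpowers u := by
    by_contra h
    push_neg at h
    have h1 : zpowers u = ⊤ := (Subgroup.eq_top_iff' _).2 h
    rw [h1, Subgroup.index_top] at hind
    exact hp.one_lt.ne hind
  -- `p` divides `q - 1`
  have hpq : p ∣ q - 1 := by
    obtain ⟨i, hi⟩ := mem_zpowers_iff.1 (hQn.conj_mem u (mem_zpowers u) a)
    have hit : ∀ n : ℕ, a ^ n * u * (a ^ n)⁻¹ = u ^ (i ^ n) := by
      intro n
      induction n with
      | zero => simp
      | succ n ih =>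
        have h1 : a ^ (n + 1) * u * (a ^ (n + 1))⁻¹ = a ^ n * (a * u * a⁻¹) * (a ^ n)⁻¹ := by
          rw [pow_succ]
          group
        rw [h1, ← hi, ← conj_zpow, ih, ← zpow_mul, pow_succ]
    have h1 := hit p
    rw [hcomp a ha] at h1
    have h2 : u ^ (i ^ p) = u ^ (1 : ℤ) := by
      rw [← h1]
      simp
    have h3 : ((i ^ p : ℤ) : ZMod q) = ((1 : ℤ) : ZMod q) := by
      have := (zpow_eq_zpow_iff_modEq.1 h2)
      rw [hu] at this
      exact (ZMod.intCast_eq_intCast_iff _ _ q).2 this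
    have h4 : ((i : ℤ) : ZMod q) ^ p = 1 := by
      push_cast at h3
      exact h3
    have h5 : ((i : ℤ) : ZMod q) ≠ 1 := by
      intro h6
      apply hQne a ha
      rw [← hi]
      have h7 : ((i : ℤ) : ZMod q) = ((1 : ℤ) : ZMod q) := by
        rw [h6]
        simp
      have h8 : i ≡ 1 [ZMOD q] := (ZMod.intCast_eq_intCast_iff _ _ q).1 h7
      have h9 : u ^ i = u ^ (1 : ℤ) := by
        apply zpow_eq_zpow_iff_modEq.2
        rw [hu]
        exact h8
      rw [h9, zpow_one]
    have h6 : ((i : ℤ) : ZMod q) ≠ 0 := by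
      intro h7
      rw [h7, zero_pow hp.ne_zero] at h4
      exact zero_ne_one h4
    let w : (ZMod q)ˣ := Units.mk0 _ h6
    have hw : w ^ p = 1 := by
      apply Units.ext
      simpa [w] using h4
    have hw1 : w ≠ 1 := by
      intro h7
      apply h5
      have := congrArg Units.val h7
      simpa [w] using this
    have hoc : orderOf w = p := orderOf_eq_prime hw hw1
    have h7 : orderOf w ∣ Nat.card (ZMod q)ˣ := orderOf_dvd_natCard w
    rw [hoc, Nat.card_eq_fintype_card, ZMod.card_units_eq_totient, Nat.totient_prime hq] at h7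
    exact h7
  refine ⟨u, hp, hq, hpq, Subgroup.mem_top _, huq, hu1, ?_, ?_, ?_⟩
  · intro a _
    exact hQn.conj_mem u (mem_zpowers u) a
  · intro a _ h
    exact hcomp a h
  · rw [← hA]
    exact Nat.card_congr Subgroup.topEquiv.toEquiv

end group

section main

universe u v

variable {A₀ : Type v} [Group A₀] [Fintype A₀]

/-- The action on an invariant subgroup. -/
@[reducible] def subActionG {K : Type*} [Group K] [MulDistribMulAction A₀ K] (L : Subgroup K)
    (hL : ∀ α : A₀, ∀ x ∈ L, α • x ∈ L) : MulDistribMulAction A₀ ↥L where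
  smul α x := ⟨α • (x : K), hL α _ x.2⟩
  one_smul x := Subtype.ext (one_smul _ _)
  mul_smul α β x := Subtype.ext (mul_smul _ _ _)
  smul_mul α x y := Subtype.ext (smul_mul' _ _ _)
  smul_one α := Subtype.ext (smul_one _)

/-- The action on a quotient by an invariant normal subgroup. -/
@[reducible] def quotActionG {K : Type*} [Group K] [MulDistribMulAction A₀ K] (L : Subgroup K) [hN : L.Normal]
    (hL : ∀ α : A₀, ∀ x ∈ L, α • x ∈ L) : MulDistribMulAction A₀ (K ⧸ L) where
  smul α := QuotientGroup.map L L (MulDistribMulAction.toMonoidHom K α) (fun x hx => hL α x hx)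
  one_smul x := by
    induction x using QuotientGroup.induction_on with
    | H g =>
      show (((1 : A₀) • g : K) : K ⧸ L) = g
      rw [one_smul]
  mul_smul α β x := by
    induction x using QuotientGroup.induction_on with
    | H g =>
      show (((α * β) • g : K) : K ⧸ L) = ((α • β • g : K) : K ⧸ L)
      rw [mul_smul]
  smul_mul α x y := map_mul _ x y
  smul_one α := map_one _

theorem fix_gens {G : Type*} [Group G] [MulDistribMulAction A₀ G] {p q : ℕ} {u : A₀} (hPQ : PQ (⊤ : Subgroup A₀) p q u)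
    {a : A₀} (ha : a ∉ zpowers u) {w : G} (h1 : u • w = w) (h2 : a • w = w) (α : A₀) : α • w = w :=
  hPQ.mem_of_gens (B := MulAction.stabilizer A₀ w) h1 h2 (Subgroup.mem_top a) ha α (Subgroup.mem_top α)

/-- A coset fixed by `A` contains a fixed point, hence lies in the subgroup. -/
theorem coset_fixed {G : Type*} [Group G] [Finite G] [MulDistribMulAction A₀ G] {p q : ℕ} {u : A₀}
    (hPQ : PQ (⊤ : Subgroup A₀) p q u) (hc : (Nat.card G).Coprime (p * q))
    (hfix : ∀ g : G, (∀ α : A₀, α • g = g) → g = 1) (N : Subgroup G) (hNinv : ∀ α : A₀, ∀ x ∈ N, α • x ∈ N)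
    (g : G) (hg : ∀ α : A₀, g⁻¹ * (α • g) ∈ N) : g ∈ N := by
  classical
  have hp := hPQ.hp
  have hq := hPQ.hq
  have hnd : ∀ (J : Subgroup G) {n : ℕ}, n.Prime → n ∣ p * q → ¬ n ∣ Nat.card J := by
    intro J n hn hnpq hd
    have h1 := Nat.dvd_gcd (hd.trans (Subgroup.card_subgroup_dvd_card J)) hnpq
    rw [hc] at h1
    exact hn.one_lt.ne' (Nat.dvd_one.1 h1)
  let m : A₀ → G →* G := fun α => MulDistribMulAction.toMonoidHom G α
  have hm : ∀ α x, m α x = α • x := fun _ _ => rfl
  have hiter : ∀ (α : A₀) (n : ℕ) (x : G), (m α)^[n] x = α ^ n • x := by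
    intro α n x
    induction n with
    | zero => simp
    | succ n ih =>
      rw [Function.iterate_succ_apply', ih, hm, pow_succ', mul_smul]
  have huq := hPQ.huq
  obtain ⟨j₁, hj₁, hf₁⟩ := exists_fixed_coset' hq (m u) (fun x => by rw [hiter, huq, one_smul]) N (hNinv u)
    (hnd N hq (Dvd.intro_left _ rfl)) g (hg u)
  obtain ⟨y₁, hy₁⟩ : ∃ y₁, y₁ = g * j₁ := ⟨_, rfl⟩
  rw [← hy₁] at hf₁
  have hf₁' : u • y₁ = y₁ := hf₁
  obtain ⟨a, -, ha⟩ := hPQ.exists_not_Q
  have hap : a ^ p = 1 := hPQ.hcomp a (Subgroup.mem_top a) ha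
  have hcf : ∀ w : G, u • w = w → u • (a • w) = a • w := by
    intro w hw
    have h1 : zpowers u ≤ MulAction.stabilizer A₀ w := by
      rw [zpowers_le]
      exact hw
    have h2 : (a⁻¹ * u * a) • w = w := h1 (hPQ.conj_Q' (Subgroup.mem_top a) (mem_zpowers u))
    calc u • (a • w) = a • ((a⁻¹ * u * a) • w) := by
          rw [← mul_smul, ← mul_smul]
          congr 1
          group
      _ = a • w := by rw [h2]
  let N₁ : Subgroup G :=
    { carrier := {x | x ∈ N ∧ u • x = x}
      mul_mem' := by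
        rintro x y ⟨hx, hx'⟩ ⟨hy, hy'⟩
        refine ⟨N.mul_mem hx hy, ?_⟩
        rw [smul_mul', hx', hy']
      one_mem' := ⟨N.one_mem, smul_one _⟩
      inv_mem' := by
        rintro x ⟨hx, hx'⟩
        refine ⟨N.inv_mem hx, ?_⟩
        rw [smul_inv', hx'] }
  have hN₁le : N₁ ≤ N := fun x hx => hx.1
  obtain ⟨j₂, hj₂, hf₂⟩ := exists_fixed_coset' hp (m a) (fun x => by rw [hiter, hap, one_smul]) N₁
    (fun j hj => ⟨hNinv a j hj.1, hcf j hj.2⟩)
    (hnd N₁ hp (Dvd.intro _ rfl)) y₁ (by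
      refine ⟨?_, ?_⟩
      · have h1 : y₁⁻¹ * m a y₁ = j₁⁻¹ * (g⁻¹ * (a • g)) * (a • j₁) := by
          rw [hy₁, hm, smul_mul']
          group
        rw [h1]
        exact N.mul_mem (N.mul_mem (N.inv_mem hj₁) (hg a)) (hNinv a _ hj₁)
      · rw [hm, smul_mul', smul_inv', hf₁', hcf y₁ hf₁'])
  have hf₂' : a • (y₁ * j₂) = y₁ * j₂ := hf₂
  have hu₂ : u • (y₁ * j₂) = y₁ * j₂ := by
    rw [smul_mul', hf₁', hj₂.2]
  have h1 := hfix _ (fix_gens hPQ ha hu₂ hf₂')
  have h2 : g = (y₁ * j₂) * j₂⁻¹ * j₁⁻¹ := by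
    rw [hy₁]
    group
  rw [h2, h1, one_mul]
  exact N.mul_mem (N.inv_mem hj₂.1) (N.inv_mem hj₁)

/-- A reduction of the main theorem to `m_nilp`. -/
theorem nilp_of_action {Ab : Type*} [CommGroup Ab] [Finite Ab] {t : ℕ} [ht : Fact t.Prime]
    (hexp : ∀ x : Ab, x ^ t = 1) {H : Type*} [Group H] [Finite H] [Group.IsSolvable H]
    [MulDistribMulAction A₀ H] {p q : ℕ} {u : A₀} (hPQ : PQ (⊤ : Subgroup A₀) p q u)
    (hc : (Nat.card H).Coprime (p * q)) (hfix : ∀ g : H, (∀ α : A₀, α • g = g) → g = 1)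
    (ψ : H →* MulAut Ab) (hψ : Function.Injective ψ) (σ' : A₀ →* MulAut Ab)
    (hcomp : ∀ (α : A₀) (g : H), σ' α * ψ g = ψ (α • g) * σ' α) (hsum : ∀ x : Ab, ∏ α, σ' α x = 1)
    (htp : t ≠ p) (htq : t ≠ q) (hO : pCore t H = ⊥) : Group.IsNilpotent H := by
  obtain ⟨m, τ, hτ, hτs⟩ := exists_rep hexp (AlgebraicClosure (ZMod t))
  refine m_nilp hPQ hc hfix (τ.comp ψ) (hτ.comp hψ) (τ.comp σ') ?_ ?_ t htp htq hO
  · intro α g
    show τ (σ' α) * τ (ψ g) = τ (ψ (α • g)) * τ (σ' α)
    rw [← map_mul, ← map_mul, hcomp]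
  · let e := Fintype.equivFin A₀
    have h1 := hτs (fun i : Fin _ => σ' (e.symm i)) (by
      intro x
      rw [← hsum x]
      exact Fintype.prod_equiv e.symm _ _ (fun _ => rfl))
    show ∑ α, τ (σ' α) = 0
    rw [← h1]
    exact Fintype.sum_equiv e _ _ (fun α => by simp)

/-- **The main theorem.** -/
theorem fit_main {p q : ℕ} {u : A₀} (hPQ : PQ (⊤ : Subgroup A₀) p q u) (n : ℕ) :
    ∀ (G : Type u) [Group G] [Finite G] [Group.IsSolvable G]
    [MulDistribMulAction A₀ G], Nat.card G = n → (Nat.card G).Coprime (p * q) →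
    (∀ g : G, (∀ α : A₀, α • g = g) → g = 1) →
    ∃ F : Subgroup G, ∃ hF : F.Normal, Group.IsNilpotent ↥F ∧ Group.IsNilpotent (G ⧸ F) := by
  induction n using Nat.strong_induction_on with
  | _ n ih =>
    intro G _ _ _ _ hn hc hfix
    classical
    by_cases hnt : Nontrivial G
    swap
    · rw [not_nontrivial_iff_subsingleton] at hnt
      refine ⟨⊤, inferInstance, ?_, ?_⟩
      · haveI : Subsingleton (↥(⊤ : Subgroup G)) := ⟨fun a b => Subtype.ext (Subsingleton.elim _ _)⟩
        infer_instance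
      · haveI : Subsingleton (G ⧸ (⊤ : Subgroup G)) := QuotientGroup.subsingleton_quotient_top
        infer_instance
    let Inv : Subgroup G → Prop := fun L => ∀ α : A₀, ∀ x ∈ L, α • x ∈ L
    -- a minimal invariant normal subgroup
    obtain ⟨N, hNm⟩ : ∃ N : Subgroup G, Minimal (fun L : Subgroup G => L ≠ ⊥ ∧ L.Normal ∧ Inv L) N := by
      have hfin := Set.toFinite (setOf (fun L : Subgroup G => L ≠ ⊥ ∧ L.Normal ∧ Inv L))
      obtain ⟨N, hN⟩ := hfin.exists_minimal ⟨⊤, top_ne_bot, inferInstance, fun _ _ _ => mem_top _⟩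
      exact ⟨N, hN⟩
    obtain ⟨hNb, hNn, hNinv⟩ := hNm.prop
    have hmin : ∀ L : Subgroup G, L ≠ ⊥ → L.Normal → Inv L → L ≤ N → N ≤ L :=
      fun L h1 h2 h3 h4 => hNm.le_of_le ⟨h1, h2, h3⟩ h4
    haveI := hNn
    -- it is abelian
    have hNc : ∀ a ∈ N, ∀ b ∈ N, a * b = b * a := by
      have h1 : ⁅N, N⁆ = ⊥ := by
        by_contra h
        have hinv : Inv ⁅N, N⁆ := by
          intro α x hx
          have h1 : MulDistribMulAction.toMonoidHom G α x ∈ (⁅N, N⁆).map (MulDistribMulAction.toMonoidHom G α) :=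
            mem_map_of_mem _ hx
          rw [Subgroup.map_commutator] at h1
          have h2 : (N.map (MulDistribMulAction.toMonoidHom G α)) ≤ N := by
            rintro _ ⟨l, hl, rfl⟩
            exact hNinv α l hl
          exact Subgroup.commutator_mono h2 h2 h1
        have hle : ⁅N, N⁆ ≤ N := Subgroup.commutator_le_left N N
        have h2 := hmin _ h inferInstance hinv hle
        have h3 := IsSolvable.commutator_lt_of_ne_bot hNb
        exact absurd h2 (not_le_of_gt h3)
      intro a ha b hb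
      have h2 : ⁅a, b⁆ ∈ ⁅N, N⁆ := Subgroup.commutator_mem_commutator ha hb
      rw [h1, mem_bot, commutatorElement_eq_one_iff_mul_comm] at h2
      exact h2
    -- of prime exponent
    haveI hNnt : Nontrivial ↥N := (Subgroup.nontrivial_iff_ne_bot N).2 hNb
    obtain ⟨t, ht, htd⟩ := Nat.exists_prime_and_dvd (Finite.one_lt_card (α := ↥N)).ne'
    haveI htf : Fact t.Prime := ⟨ht⟩
    have htG : t ∣ Nat.card G := htd.trans (Subgroup.card_subgroup_dvd_card N)
    have htp : t ≠ p := by
      rintro rfl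
      have h1 := Nat.dvd_gcd htG (Dvd.intro _ rfl : t ∣ t * q)
      rw [hc] at h1
      exact ht.one_lt.ne' (Nat.dvd_one.1 h1)
    have htq : t ≠ q := by
      rintro rfl
      have h1 := Nat.dvd_gcd htG (Dvd.intro_left _ rfl : t ∣ p * t)
      rw [hc] at h1
      exact ht.one_lt.ne' (Nat.dvd_one.1 h1)
    have hNt : ∀ a ∈ N, a ^ t = 1 := by
      let Ω : Subgroup G :=
        { carrier := {g | g ∈ N ∧ g ^ t = 1}
          mul_mem' := by
            rintro a b ⟨ha, ha'⟩ ⟨hb, hb'⟩
            refine ⟨N.mul_mem ha hb, ?_⟩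
            have h1 : Commute a b := hNc a ha b hb
            rw [h1.mul_pow, ha', hb', one_mul]
          one_mem' := ⟨N.one_mem, one_pow _⟩
          inv_mem' := by
            rintro a ⟨ha, ha'⟩
            refine ⟨N.inv_mem ha, ?_⟩
            rw [inv_pow, ha', inv_one] }
      have hΩn : Ω.Normal := ⟨by
        rintro a ⟨ha, ha'⟩ g
        refine ⟨hNn.conj_mem a ha g, ?_⟩
        rw [conj_pow, ha']
        simp⟩
      have hΩi : Inv Ω := by
        rintro α a ⟨ha, ha'⟩
        refine ⟨hNinv α a ha, ?_⟩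
        rw [← smul_pow', ha', smul_one]
      have hΩb : Ω ≠ ⊥ := by
        obtain ⟨x, hx⟩ := exists_prime_orderOf_dvd_card' t htd
        intro h
        have h1 : (x : G) ∈ Ω := by
          refine ⟨x.2, ?_⟩
          have h2 : x ^ t = 1 := by
            rw [← hx]; exact pow_orderOf_eq_one x
          exact congrArg Subtype.val h2
        rw [h, mem_bot] at h1
        have h2 : x = 1 := Subtype.ext h1
        rw [h2, orderOf_one] at hx
        exact ht.one_lt.ne hx
      have h1 := hmin Ω hΩb hΩn hΩi (fun a ha => ha.1)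
      exact fun a ha => (h1 ha).2
    -- the quotient by `N`
    obtain ⟨Fb, hFbn, hFbnil, hQFb⟩ : ∃ F : Subgroup (G ⧸ N), ∃ hF : F.Normal, Group.IsNilpotent ↥F ∧ Group.IsNilpotent ((G ⧸ N) ⧸ F) := by
      letI qa : MulDistribMulAction A₀ (G ⧸ N) := quotActionG N hNinv
      have hlt : Nat.card (G ⧸ N) < n := by
        rw [← hn]
        have h1 := Subgroup.card_eq_card_quotient_mul_card_subgroup N
        rw [h1]
        have h2 : 1 < Nat.card N := Finite.one_lt_card
        have h3 : 0 < Nat.card (G ⧸ N) := Nat.card_pos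
        nlinarith
      refine ih (Nat.card (G ⧸ N)) hlt (G ⧸ N) rfl
        (Nat.Coprime.coprime_dvd_left (Subgroup.card_quotient_dvd_card N) hc) ?_
      intro w hw
      obtain ⟨g, rfl⟩ := QuotientGroup.mk_surjective w
      have h1 : ∀ α : A₀, g⁻¹ * (α • g) ∈ N := by
        intro α
        have h2 : ((g : G) : G ⧸ N) = ((α • g : G) : G ⧸ N) := (hw α).symm
        exact QuotientGroup.eq.1 h2
      have h2 := coset_fixed hPQ hc hfix N hNinv g h1
      exact (QuotientGroup.eq_one_iff g).2 h2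
    haveI := hFbn
    haveI := hFbnil
    haveI := hQFb
    -- the action on `N`
    letI cg : CommGroup ↥N :=
      { (inferInstance : Group ↥N) with
        mul_comm := fun a b => Subtype.ext (hNc a a.2 b b.2) }
    letI sa : MulDistribMulAction A₀ ↥N := subActionG N hNinv
    let ψ : G →* MulAut ↥N := MulAut.conjNormal
    let σ' : A₀ →* MulAut ↥N := MulDistribMulAction.toMulAut A₀ ↥N
    have hψa : ∀ (g : G) (n : ↥N), ((ψ g n : ↥N) : G) = g * n * g⁻¹ := fun g n => MulAut.conjNormal_apply g n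
    have hσa : ∀ (α : A₀) (n : ↥N), ((σ' α n : ↥N) : G) = α • (n : G) := fun _ _ => rfl
    have hcomp₀ : ∀ (α : A₀) (g : G), σ' α * ψ g = ψ (α • g) * σ' α := by
      intro α g
      ext n
      show ((σ' α (ψ g n) : ↥N) : G) = ((ψ (α • g) (σ' α n) : ↥N) : G)
      rw [hσa, hψa, hψa, hσa, smul_mul', smul_mul', smul_inv']
    have hsum : ∀ x : ↥N, ∏ α, σ' α x = 1 := by
      intro x
      apply Subtype.ext
      apply hfix
      intro β
      have h1 : ∀ β : A₀, σ' β (∏ α, σ' α x) = ∏ α, σ' α x := by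
        intro β
        rw [map_prod]
        refine Fintype.prod_equiv (Equiv.mulLeft β) _ _ (fun α => ?_)
        show σ' β (σ' α x) = σ' (β * α) x
        rw [map_mul]
        rfl
      exact congrArg Subtype.val (h1 β)
    -- the quotient acting faithfully
    have hCinv : Inv ψ.ker := by
      intro α g hg
      have h1 := hcomp₀ α g
      rw [MonoidHom.mem_ker] at hg ⊢
      rw [hg, mul_one] at h1
      have h2 : ψ (α • g) * σ' α = 1 * σ' α := by rw [one_mul]; exact h1.symm
      exact mul_right_cancel h2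
    letI ha : MulDistribMulAction A₀ (G ⧸ ψ.ker) := quotActionG ψ.ker hCinv
    let θ : G ⧸ ψ.ker →* MulAut ↥N := QuotientGroup.kerLift ψ
    have hθ : ∀ g : G, θ (g : G ⧸ ψ.ker) = ψ g := fun g => rfl
    have hO : pCore t (G ⧸ ψ.ker) = ⊥ := by
      have hPp : IsPGroup t ↥(pCore t (G ⧸ ψ.ker)) := pCore_isPGroup t
      letI ma : MulAction ↥(pCore t (G ⧸ ψ.ker)) ↥N :=
        MulAction.compHom ↥N (θ.comp (pCore t (G ⧸ ψ.ker)).subtype)
      have hsmul : ∀ (p : ↥(pCore t (G ⧸ ψ.ker))) (n : ↥N), p • n = θ (p : G ⧸ ψ.ker) n := fun _ _ => rfl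
      have hmod := hPp.card_modEq_card_fixedPoints ↥N
      have hd : t ∣ Nat.card (MulAction.fixedPoints ↥(pCore t (G ⧸ ψ.ker)) ↥N) :=
        (Nat.ModEq.dvd_iff hmod (dvd_refl t)).1 htd
      have h1fix : (1 : ↥N) ∈ MulAction.fixedPoints ↥(pCore t (G ⧸ ψ.ker)) ↥N := by
        intro p
        rw [hsmul, map_one]
      obtain ⟨n₀, hn₀fix, hn₀ne⟩ : ∃ n₀ : ↥N, n₀ ∈ MulAction.fixedPoints ↥(pCore t (G ⧸ ψ.ker)) ↥N ∧ n₀ ≠ 1 := by
        haveI : Nonempty (MulAction.fixedPoints ↥(pCore t (G ⧸ ψ.ker)) ↥N) := ⟨⟨1, h1fix⟩⟩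
        have hpos : 0 < Nat.card (MulAction.fixedPoints ↥(pCore t (G ⧸ ψ.ker)) ↥N) := Nat.card_pos
        have h2 : 1 < Nat.card (MulAction.fixedPoints ↥(pCore t (G ⧸ ψ.ker)) ↥N) :=
          lt_of_lt_of_le ht.one_lt (Nat.le_of_dvd hpos hd)
        haveI := Finite.one_lt_card_iff_nontrivial.1 h2
        obtain ⟨y, hy⟩ := exists_ne (⟨1, h1fix⟩ : MulAction.fixedPoints ↥(pCore t (G ⧸ ψ.ker)) ↥N)
        exact ⟨y.1, y.2, fun h => hy (Subtype.ext h)⟩
      -- the preimage
      let q' : G →* G ⧸ ψ.ker := QuotientGroup.mk' ψ.ker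
      let Pt : Subgroup G := (pCore t (G ⧸ ψ.ker)).comap q'
      have hPtn : Pt.Normal := Subgroup.Normal.comap inferInstance q'
      have hPti : Inv Pt := by
        intro α g hg
        have h1 : q' g ∈ pCore t (G ⧸ ψ.ker) := hg
        haveI hch := pCore_characteristic (G := G ⧸ ψ.ker) t
        have h2 := (Subgroup.characteristic_iff_le_comap.1 hch (MulDistribMulAction.toMulAut A₀ (G ⧸ ψ.ker) α)) h1
        exact h2
      let W₀ : Subgroup G :=
        { carrier := {g | g ∈ N ∧ ∀ p ∈ Pt, p * g * p⁻¹ = g}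
          mul_mem' := by
            rintro a b ⟨ha, ha'⟩ ⟨hb, hb'⟩
            refine ⟨N.mul_mem ha hb, fun p hp => ?_⟩
            have h1 : p * (a * b) * p⁻¹ = (p * a * p⁻¹) * (p * b * p⁻¹) := by group
            rw [h1, ha' p hp, hb' p hp]
          one_mem' := ⟨N.one_mem, fun p _ => by group⟩
          inv_mem' := by
            rintro a ⟨ha, ha'⟩
            refine ⟨N.inv_mem ha, fun p hp => ?_⟩
            have h1 : p * a⁻¹ * p⁻¹ = (p * a * p⁻¹)⁻¹ := by group
            rw [h1, ha' p hp] }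
      have hW₀n : W₀.Normal := ⟨by
        rintro a ⟨ha, ha'⟩ g
        refine ⟨hNn.conj_mem a ha g, fun p hp => ?_⟩
        have h1 : g⁻¹ * p * g ∈ Pt := by
          have := hPtn.conj_mem p hp g⁻¹
          simpa using this
        have h2 := ha' _ h1
        calc p * (g * a * g⁻¹) * p⁻¹ = g * ((g⁻¹ * p * g) * a * (g⁻¹ * p * g)⁻¹) * g⁻¹ := by group
          _ = g * a * g⁻¹ := by rw [h2]⟩
      have hW₀i : Inv W₀ := by
        rintro α a ⟨ha, ha'⟩
        refine ⟨hNinv α a ha, fun p hp => ?_⟩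
        have h1 : α⁻¹ • p ∈ Pt := hPti _ _ hp
        have h2 := ha' _ h1
        have h3 := congrArg (fun x => α • x) h2
        simp only [smul_mul', smul_inv', smul_inv_smul] at h3
        exact h3
      have hW₀b : W₀ ≠ ⊥ := by
        intro h
        have h1 : (n₀ : G) ∈ W₀ := by
          refine ⟨n₀.2, fun p hp => ?_⟩
          have h2 := hn₀fix ⟨q' p, hp⟩
          have h3 : ψ p n₀ = n₀ := h2
          have h4 := congrArg Subtype.val h3
          rw [hψa] at h4
          exact h4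
        rw [h, mem_bot] at h1
        exact hn₀ne (Subtype.ext h1)
      have hNW := hmin W₀ hW₀b hW₀n hW₀i (fun a ha => ha.1)
      rw [eq_bot_iff]
      intro w hw
      obtain ⟨g, rfl⟩ := QuotientGroup.mk_surjective w
      have hg : g ∈ Pt := hw
      rw [mem_bot]
      apply (QuotientGroup.eq_one_iff g).2
      rw [MonoidHom.mem_ker]
      ext n
      show ((ψ g n : ↥N) : G) = n
      rw [hψa]
      exact (hNW n.2).2 g hg
    have hQK : Group.IsNilpotent (G ⧸ ψ.ker) :=
      nilp_of_action (fun x => Subtype.ext (by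
        show ((x : G)) ^ t = 1
        exact hNt _ x.2)) hPQ
        (Nat.Coprime.coprime_dvd_left (Subgroup.card_quotient_dvd_card _) hc)
        (by
          intro w hw
          obtain ⟨g, rfl⟩ := QuotientGroup.mk_surjective w
          have h1 : ∀ α : A₀, g⁻¹ * (α • g) ∈ ψ.ker := by
            intro α
            have h2 : ((g : G) : G ⧸ ψ.ker) = ((α • g : G) : G ⧸ ψ.ker) := (hw α).symm
            exact QuotientGroup.eq.1 h2
          have h2 := coset_fixed hPQ hc hfix ψ.ker hCinv g h1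
          exact (QuotientGroup.eq_one_iff g).2 h2)
        θ (QuotientGroup.kerLift_injective ψ) σ'
        (by
          intro α w
          obtain ⟨g, rfl⟩ := QuotientGroup.mk_surjective w
          exact hcomp₀ α g)
        hsum htp htq hO
    -- conclusion
    let φ₁ : G →* (G ⧸ N) ⧸ Fb := (QuotientGroup.mk' Fb).comp (QuotientGroup.mk' N)
    let φ₂ : G →* G ⧸ ψ.ker := QuotientGroup.mk' ψ.ker
    let Φ : G →* ((G ⧸ N) ⧸ Fb) × (G ⧸ ψ.ker) := φ₁.prod φ₂
    have hΦm : ∀ g, g ∈ Φ.ker ↔ ((g : G) : G ⧸ N) ∈ Fb ∧ g ∈ ψ.ker := by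
      intro g
      rw [MonoidHom.mem_ker]
      have h1 : Φ g = (φ₁ g, φ₂ g) := rfl
      rw [h1, Prod.mk_eq_one]
      constructor
      · rintro ⟨h2, h3⟩
        exact ⟨(QuotientGroup.eq_one_iff _).1 h2, (QuotientGroup.eq_one_iff _).1 h3⟩
      · rintro ⟨h2, h3⟩
        exact ⟨(QuotientGroup.eq_one_iff _).2 h2, (QuotientGroup.eq_one_iff _).2 h3⟩
    refine ⟨Φ.ker, Φ.normal_ker, ?_, ?_⟩
    · let f₀ : ↥Φ.ker →* G ⧸ N := (QuotientGroup.mk' N).comp Φ.ker.subtype
      have hf₀ : ∀ g : ↥Φ.ker, f₀ g ∈ Fb := fun g => ((hΦm _).1 g.2).1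
      let f : ↥Φ.ker →* ↥Fb := f₀.codRestrict _ hf₀
      refine Subgroup.isNilpotent_of_ker_le_center f ?_
      intro g hg
      have h1 : ((f g : ↥Fb) : G ⧸ N) = 1 := congrArg Subtype.val (MonoidHom.mem_ker.1 hg)
      have h2 : (g : G) ∈ N := (QuotientGroup.eq_one_iff _).1 h1
      rw [mem_center_iff]
      intro h
      apply Subtype.ext
      have h3 : ψ (h : G) = 1 := MonoidHom.mem_ker.1 ((hΦm _).1 h.2).2
      have h4 : ψ (h : G) ⟨g, h2⟩ = ⟨g, h2⟩ := by rw [h3]; rfl
      have h5 := congrArg Subtype.val h4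
      rw [hψa] at h5
      show (h : G) * g = g * h
      calc (h : G) * g = (h : G) * g * (h : G)⁻¹ * h := by group
        _ = g * h := by rw [show (h : G) * g * (h : G)⁻¹ = g from h5]
    · refine Subgroup.isNilpotent_of_ker_le_center (QuotientGroup.kerLift Φ) ?_
      rw [(MonoidHom.ker_eq_bot_iff _).2 (QuotientGroup.kerLift_injective Φ)]
      exact bot_le

end main

end Cfsg.Agent.Lib.Struct.PQFix
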