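import Mathlib

/-! # The principal ideal theorem

Derivations of a group `G` into a module over the group ring of `Q = G / G'` are killed by the norm element. -/

set_option autoImplicit false

namespace Cfsg.Agent.Lib.Struct.Pit

open Subgroup

open scoped commutatorElement

section linalg

variable {R 𝓜 J : Type*} [CommRing R] [AddCommGroup 𝓜] [Module R 𝓜] [Fintype J] [DecidableEq J]

theorem det_smul_eq_zero (B : Matrix J J R) (d : J → 𝓜) (h : ∀ j, ∑ k, B j k • d k = 0) (k : J) :
    B.det • d k = 0 := by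
  have h1 : (B.adjugate * B) = B.det • (1 : Matrix J J R) := Matrix.adjugate_mul B
  have h2 : ∑ j, (B.adjugate * B) k j • d j = B.det • d k := by
    rw [h1]
    simp only [Matrix.smul_apply, Matrix.one_apply, smul_eq_mul, mul_ite, mul_one, mul_zero, ite_smul, zero_smul]
    simp
  rw [← h2]
  simp only [Matrix.mul_apply, Finset.sum_smul, mul_smul]
  rw [Finset.sum_comm]
  refine Finset.sum_eq_zero fun i _ => ?_
  rw [← Finset.smul_sum, h i, smul_zero]

end linalg

section der

variable {G Q : Type*} [Group G] [CommGroup Q]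

local notation "R" => MonoidAlgebra ℤ Q

local notation "ι" => MonoidAlgebra.of ℤ Q

variable (π : G →* Q) {𝓜 : Type*} [AddCommGroup 𝓜] [Module (MonoidAlgebra ℤ Q) 𝓜]

/-- A derivation of `G` into a module over the group ring of `Q`. -/
def IsDer (δ : G → 𝓜) : Prop := ∀ g h, δ (g * h) = δ g + (ι (π g)) • δ h

variable {π} {δ : G → 𝓜}

lemma IsDer.map_one (hδ : IsDer π δ) : δ 1 = 0 := by
  have h := hδ 1 1
  rw [mul_one, _root_.map_one, _root_.map_one, one_smul] at h
  exact left_eq_add.mp h

lemma IsDer.map_inv (hδ : IsDer π δ) (g : G) : δ g⁻¹ = - (ι (π g⁻¹)) • δ g := by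
  have h := hδ g⁻¹ g
  rw [inv_mul_cancel, hδ.map_one] at h
  rw [neg_smul]
  exact eq_neg_of_add_eq_zero_left h.symm

lemma IsDer.map_pow (hδ : IsDer π δ) (g : G) (e : ℕ) :
    δ (g ^ e) = (∑ l ∈ Finset.range e, ι (π g ^ l)) • δ g := by
  induction e with
  | zero => simp [hδ.map_one]
  | succ e ih =>
    rw [pow_succ, hδ, ih, Finset.sum_range_succ, add_smul, _root_.map_pow π]

lemma IsDer.map_comm (hδ : IsDer π δ) (g h : G) :
    δ ⁅g, h⁆ = (1 - ι (π h)) • δ g + (ι (π g) - 1) • δ h := by
  rw [commutatorElement_def, hδ, hδ, hδ, hδ.map_inv, hδ.map_inv]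
  have e1 : π (g * h) = π g * π h := _root_.map_mul π g h
  have e2 : π (g * h * g⁻¹) = π h := by
    rw [_root_.map_mul, _root_.map_mul, _root_.map_inv, mul_comm (π g), mul_inv_cancel_right]
  rw [e1, e2]
  simp only [smul_add, smul_neg, ← mul_smul, ← _root_.map_mul, sub_smul, one_smul, _root_.map_inv, neg_smul]
  have e3 : π g * π h * (π g)⁻¹ = π h := by rw [mul_comm (π g), mul_inv_cancel_right]
  rw [e1, e3, mul_inv_cancel]
  simp only [_root_.map_one, one_smul]
  abel

/-- Expressing derivation values through generators. -/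
lemma IsDer.exists_coeff {J : Type*} [Fintype J] (hδ : IsDer π δ) (x : J → G)
    (hgen : closure (Set.range x) = ⊤) (g : G) :
    ∃ c : J → MonoidAlgebra ℤ Q, δ g = ∑ k, c k • δ (x k) := by
  classical
  have hg : g ∈ closure (Set.range x) := by rw [hgen]; exact Subgroup.mem_top g
  induction hg using Subgroup.closure_induction with
  | mem y hy =>
    obtain ⟨j, rfl⟩ := hy
    refine ⟨fun k => if k = j then 1 else 0, ?_⟩
    simp
  | one =>
    refine ⟨0, ?_⟩
    simp [hδ.map_one]
  | mul y z _ _ hy hz =>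
    obtain ⟨c, hc⟩ := hy
    obtain ⟨d, hd⟩ := hz
    refine ⟨fun k => c k + ι (π y) * d k, ?_⟩
    rw [hδ, hc, hd, Finset.smul_sum, ← Finset.sum_add_distrib]
    refine Finset.sum_congr rfl fun k _ => ?_
    rw [add_smul, mul_smul]
  | inv y _ hy =>
    obtain ⟨c, hc⟩ := hy
    refine ⟨fun k => - (ι (π y⁻¹) * c k), ?_⟩
    rw [hδ.map_inv, hc, neg_smul, Finset.smul_sum, ← Finset.sum_neg_distrib]
    refine Finset.sum_congr rfl fun k _ => ?_
    rw [neg_smul, mul_smul]

/-- The augmentation. -/
noncomputable def aug (Q : Type*) [CommGroup Q] : MonoidAlgebra ℤ Q →ₐ[ℤ] ℤ :=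
  MonoidAlgebra.lift ℤ ℤ Q 1

@[simp] lemma aug_of (q : Q) : aug Q (ι q) = 1 := by
  simp [aug]

lemma aug_single (q : Q) : aug Q (MonoidAlgebra.single q (1 : ℤ)) = 1 := aug_of q

/-- Coefficients with zero augmentation on the commutator subgroup. -/
lemma IsDer.exists_coeff_commutator {J : Type*} [Fintype J] (hδ : IsDer π δ) (x : J → G)
    (hgen : closure (Set.range x) = ⊤) (y : G) (hy : y ∈ commutator G) :
    ∃ c : J → MonoidAlgebra ℤ Q, (∀ k, aug Q (c k) = 0) ∧ δ y = ∑ k, c k • δ (x k) := by
  classical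
  have hker : commutator G ≤ π.ker := by
    rw [commutator_def, Subgroup.commutator_le]
    intro a _ b _
    rw [MonoidHom.mem_ker, map_commutatorElement, commutatorElement_eq_one_iff_mul_comm]
    exact mul_comm _ _
  rw [commutator_eq_closure] at hy
  induction hy using Subgroup.closure_induction with
  | mem z hz =>
    obtain ⟨g, h, rfl⟩ := hz
    obtain ⟨c, hc⟩ := hδ.exists_coeff x hgen g
    obtain ⟨d, hd⟩ := hδ.exists_coeff x hgen h
    refine ⟨fun k => (1 - ι (π h)) * c k + (ι (π g) - 1) * d k, ?_, ?_⟩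
    · intro k
      rw [_root_.map_add, _root_.map_mul, _root_.map_mul, _root_.map_sub, _root_.map_sub, aug_of, aug_of, _root_.map_one]
      ring
    · rw [hδ.map_comm, hc, hd, Finset.smul_sum, Finset.smul_sum, ← Finset.sum_add_distrib]
      refine Finset.sum_congr rfl fun k _ => ?_
      rw [add_smul, mul_smul, mul_smul]
  | one =>
    refine ⟨0, by simp, ?_⟩
    simp [hδ.map_one]
  | mul a b ha hb hy hz =>
    obtain ⟨c, hc0, hc⟩ := hy
    obtain ⟨d, hd0, hd⟩ := hz
    have hb1 : π a = 1 := hker (by rw [commutator_eq_closure]; exact ha)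
    refine ⟨fun k => c k + d k, fun k => by simp [hc0, hd0], ?_⟩
    rw [hδ, hc, hd, hb1, _root_.map_one, one_smul, ← Finset.sum_add_distrib]
    refine Finset.sum_congr rfl fun k _ => ?_
    rw [add_smul]
  | inv a ha hy =>
    obtain ⟨c, hc0, hc⟩ := hy
    have hb1 : π a⁻¹ = 1 := hker (by rw [commutator_eq_closure]; exact Subgroup.inv_mem _ ha)
    refine ⟨fun k => - c k, fun k => by simp [hc0], ?_⟩
    rw [hδ.map_inv, hb1, _root_.map_one, neg_smul, one_smul, hc, ← Finset.sum_neg_distrib]
    refine Finset.sum_congr rfl fun k _ => ?_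
    rw [neg_smul]

/-- The norm element kills all derivations. -/
theorem norm_smul_eq_zero [Finite Q] [Fintype Q] {J : Type*} [Fintype J] [DecidableEq J] (hπ : Function.Surjective π)
    (hker : π.ker = commutator G) (hδ : IsDer π δ) (x : J → G) (e : J → ℕ)
    (hgen : closure (Set.range x) = ⊤) (he : ∀ j, π (x j) ^ e j = 1) (hprod : ∏ j, e j = Fintype.card Q) (g : G) :
    (∑ q : Q, ι q) • δ g = 0 := by
  classical
  -- the pair of derivations
  let Δ : G → 𝓜 × MonoidAlgebra ℤ Q := fun g => (δ g, ι (π g) - 1)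
  have hΔ : IsDer π Δ := by
    intro g h
    apply Prod.ext
    · exact hδ g h
    · show ι (π (g * h)) - 1 = (ι (π g) - 1) + ι (π g) • (ι (π h) - 1)
      rw [_root_.map_mul, _root_.map_mul, smul_eq_mul, mul_sub, mul_one]
      ring
  -- the matrix
  let N : J → MonoidAlgebra ℤ Q := fun j => ∑ l ∈ Finset.range (e j), ι (π (x j) ^ l)
  have hN : ∀ j, Δ (x j ^ e j) = N j • Δ (x j) := fun j => hΔ.map_pow _ _
  have hmem : ∀ j, x j ^ e j ∈ commutator G := by
    intro j
    rw [← hker, MonoidHom.mem_ker, _root_.map_pow, he]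
  choose b hb0 hb using fun j => hΔ.exists_coeff_commutator x hgen _ (hmem j)
  let B : Matrix J J (MonoidAlgebra ℤ Q) := Matrix.diagonal N - Matrix.of b
  have hB : ∀ j, ∑ k, B j k • Δ (x k) = 0 := by
    intro j
    have h1 : ∑ k, B j k • Δ (x k) = N j • Δ (x j) - ∑ k, b j k • Δ (x k) := by
      simp only [B, Matrix.sub_apply, Matrix.diagonal_apply, Matrix.of_apply, sub_smul, Finset.sum_sub_distrib]
      simp
    rw [h1, ← hN, ← hb, sub_self]
  have hdet : ∀ k, B.det • Δ (x k) = 0 := det_smul_eq_zero B _ hB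
  have hall : ∀ g, B.det • Δ g = 0 := by
    intro g
    obtain ⟨c, hc⟩ := hΔ.exists_coeff x hgen g
    rw [hc, Finset.smul_sum]
    refine Finset.sum_eq_zero fun k _ => ?_
    rw [smul_comm, hdet, smul_zero]
  -- the determinant is invariant
  have hinv : ∀ q : Q, B.det * ι q = B.det := by
    intro q
    obtain ⟨g, rfl⟩ := hπ q
    have h1 := congrArg Prod.snd (hall g)
    have h2 : B.det * (ι (π g) - 1) = 0 := h1
    rw [mul_sub, mul_one, sub_eq_zero] at h2
    exact h2
  set r := B.det with hr
  have hconst : ∀ a : Q, r.coeff a = r.coeff 1 := by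
    intro a
    have h1 : (r * MonoidAlgebra.single a (1 : ℤ)).coeff a = r.coeff (a * a⁻¹) * 1 :=
      MonoidAlgebra.coeff_mul_single_eq_coeff_mul _ (fun m' _ => by
        rw [mul_inv_cancel, mul_eq_right])
    have h2 : r * MonoidAlgebra.single a (1 : ℤ) = r := hinv a
    rw [h2, mul_inv_cancel, mul_one] at h1
    exact h1
  have hNN : ∀ a : Q, (∑ q : Q, ι q).coeff a = 1 := by
    intro a
    rw [MonoidAlgebra.coeff_sum, Finsupp.finset_sum_apply]
    have : ∀ q : Q, (ι q).coeff a = if q = a then 1 else 0 := by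
      intro q
      show (MonoidAlgebra.single q (1 : ℤ)).coeff a = _
      rw [MonoidAlgebra.coeff_single, Finsupp.single_apply]
    simp only [this]
    simp
  have hreq : r = r.coeff 1 • ∑ q : Q, ι q := by
    ext a
    rw [MonoidAlgebra.coeff_smul_apply, hNN, hconst a]
    simp
  have haugr : aug Q r = ∏ j, (e j : ℤ) := by
    have h1 : aug Q r = ((aug Q : MonoidAlgebra ℤ Q →+* ℤ).mapMatrix B).det := RingHom.map_det _ _
    have h2 : ((aug Q : MonoidAlgebra ℤ Q →+* ℤ).mapMatrix B) = Matrix.diagonal (fun j => (e j : ℤ)) := by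
      ext j k
      simp only [RingHom.mapMatrix_apply, Matrix.map_apply, B, Matrix.sub_apply, Matrix.diagonal_apply, Matrix.of_apply]
      by_cases hjk : j = k
      · subst hjk
        simp only [if_true, map_sub, AlgHom.coe_toRingHom, RingHom.coe_coe]
        rw [hb0, sub_zero]
        simp only [N, map_sum]
        simp [aug_single]
      · simp only [hjk, if_false]
        simp [hb0]
    rw [h1, h2, Matrix.det_diagonal]
  have haugN : aug Q (∑ q : Q, ι q) = Fintype.card Q := by
    rw [map_sum]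
    simp only [aug_of]
    simp
  have hr1 : r.coeff 1 = 1 := by
    have h1 := congrArg (aug Q) hreq
    rw [map_zsmul, haugN, haugr] at h1
    have h2 : (∏ j, (e j : ℤ)) = (Fintype.card Q : ℤ) := by
      rw [← hprod]
      push_cast
      rfl
    rw [h2] at h1
    have h3 : (Fintype.card Q : ℤ) ≠ 0 := by
      have : 0 < Fintype.card Q := Fintype.card_pos
      exact_mod_cast this.ne'
    have h4 : (r.coeff 1) * (Fintype.card Q : ℤ) = 1 * (Fintype.card Q : ℤ) := by
      rw [one_mul]
      simpa using h1.symm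
    exact mul_right_cancel₀ h3 h4
  have hfinal : (∑ q : Q, ι q) • Δ g = 0 := by
    have h1 := hall g
    rw [hreq, hr1, one_smul] at h1
    exact h1
  exact congrArg Prod.fst hfinal

end der

end Cfsg.Agent.Lib.Struct.Pit
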