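import Mathlib
import Cfsg.Agent.Lib.Struct.Pit

/-! # The principal ideal theorem: the transfer to `G'/G''` is trivial. -/

set_option autoImplicit false

namespace Cfsg.Agent.Lib.Struct.Pit

open Subgroup

universe u

section gens

variable {G : Type u} [Group G] [Finite G]

/-- A generating family of the right shape. -/
theorem exists_family : ∃ (J : Type u) (_ : Fintype J) (x : J → G) (e : J → ℕ),
    closure (Set.range x) = ⊤ ∧ (∀ j, Abelianization.of (x j) ^ e j = 1) ∧
      ∏ j, e j = Nat.card (Abelianization G) := by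
  classical
  obtain ⟨ι, _, n, hn, ⟨E⟩⟩ := CommGroup.equiv_prod_multiplicative_zmod_of_finite (Abelianization G)
  have hsurj : Function.Surjective (Abelianization.of : G →* Abelianization G) := QuotientGroup.mk'_surjective _
  haveI : Fintype (commutator G) := Fintype.ofFinite _
  let gen : ι → Abelianization G := fun i => E.symm (Pi.mulSingle i (Multiplicative.ofAdd 1))
  choose lift hlift using fun i => hsurj (gen i)
  have hker : (Abelianization.of : G →* Abelianization G).ker = commutator G := Abelianization.ker_of G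
  refine ⟨ι ⊕ commutator G, inferInstance, Sum.elim lift (fun y => (y : G)), Sum.elim n (fun _ => 1), ?_, ?_, ?_⟩
  · rw [eq_top_iff]
    set X : Subgroup G := closure (Set.range (Sum.elim lift (fun y : commutator G => (y : G)))) with hX
    have hXc : commutator G ≤ X := fun y hy =>
      Subgroup.subset_closure ⟨Sum.inr ⟨y, hy⟩, rfl⟩
    have hXl : ∀ i, lift i ∈ X := fun i => Subgroup.subset_closure ⟨Sum.inl i, rfl⟩
    have hS : X.map Abelianization.of = ⊤ := by
      rw [eq_top_iff]
      intro w _
      have h1 : w = E.symm (E w) := (E.symm_apply_apply w).symm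
      rw [h1]
      have h2 : E w = ∏ i, Pi.mulSingle i ((E w) i) := (Finset.univ_prod_mulSingle _).symm
      rw [h2, map_prod]
      refine Subgroup.prod_mem _ fun i _ => ?_
      haveI : NeZero (n i) := ⟨by have := hn i; omega⟩
      obtain ⟨k, hk⟩ : ∃ k : ℕ, (E w) i = (Multiplicative.ofAdd (1 : ZMod (n i))) ^ k := by
        refine ⟨(Multiplicative.toAdd ((E w) i)).val, ?_⟩
        rw [← ofAdd_nsmul, nsmul_one, ZMod.natCast_zmod_val]
        rfl
      rw [hk, Pi.mulSingle_pow, map_pow]
      refine Subgroup.pow_mem _ ?_ k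
      exact ⟨lift i, hXl i, hlift i⟩
    intro g _
    obtain ⟨w, hw, hwg⟩ : Abelianization.of g ∈ X.map Abelianization.of := by
      rw [hS]; exact Subgroup.mem_top _
    have h3 : w⁻¹ * g ∈ commutator G := by
      rw [← hker, MonoidHom.mem_ker, map_mul, map_inv, hwg, inv_mul_cancel]
    have h4 : g = w * (w⁻¹ * g) := by group
    rw [h4]
    exact X.mul_mem hw (hXc h3)
  · rintro (i | y)
    · show Abelianization.of (lift i) ^ n i = 1
      rw [hlift, ← map_pow, ← Pi.mulSingle_pow, ← ofAdd_nsmul]
      have h5 : n i • (1 : ZMod (n i)) = 0 := by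
        rw [nsmul_one]
        exact ZMod.natCast_self _
      rw [h5, ofAdd_zero, Pi.mulSingle_one, map_one]
    · show Abelianization.of (y : G) ^ 1 = 1
      rw [pow_one]
      have : (y : G) ∈ (Abelianization.of : G →* Abelianization G).ker := by rw [hker]; exact y.2
      exact this
  · rw [Fintype.prod_sum_type]
    simp only [Sum.elim_inl, Sum.elim_inr, Finset.prod_const_one, mul_one]
    rw [Nat.card_congr E.toEquiv, Nat.card_pi]
    refine Finset.prod_congr rfl fun i _ => ?_
    rw [Nat.card_congr (Multiplicative.toAdd (α := ZMod (n i))), Nat.card_zmod]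

end gens

section funm

variable (Q A : Type*) [CommGroup Q] [AddCommGroup A]

/-- Functions on `Q`, with `Q` acting by translations. -/
abbrev FunM := Q → A

variable {Q A}

/-- The translation representation. -/
noncomputable def rhoM : Q →* Module.End ℤ (FunM Q A) where
  toFun r :=
    { toFun := fun f q => f (r⁻¹ * q)
      map_add' := fun _ _ => rfl
      map_smul' := fun _ _ => rfl }
  map_one' := by
    refine LinearMap.ext fun f => funext fun q => ?_
    show f (1⁻¹ * q) = f q
    simp
  map_mul' a b := by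
    refine LinearMap.ext fun f => funext fun q => ?_
    show f ((a * b)⁻¹ * q) = f (b⁻¹ * (a⁻¹ * q))
    congr 1
    rw [mul_inv_rev, mul_assoc]

noncomputable instance : Module (MonoidAlgebra ℤ Q) (FunM Q A) :=
  Module.compHom (FunM Q A) (MonoidAlgebra.lift ℤ (Module.End ℤ (FunM Q A)) Q rhoM).toRingHom

lemma of_smul_apply (r : Q) (f : FunM Q A) (q : Q) :
    ((MonoidAlgebra.of ℤ Q r) • f) q = f (r⁻¹ * q) := by
  show (MonoidAlgebra.lift ℤ (Module.End ℤ (FunM Q A)) Q rhoM (MonoidAlgebra.of ℤ Q r)) f q = _
  rw [MonoidAlgebra.lift_of]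
  rfl

lemma sum_smul_apply [Fintype Q] (f : FunM Q A) (q : Q) :
    ((∑ r : Q, MonoidAlgebra.of ℤ Q r) • f) q = ∑ s : Q, f s := by
  have h1 : ∀ (t : Finset Q), ((∑ r ∈ t, MonoidAlgebra.of ℤ Q r) • f) q = ∑ r ∈ t, f (r⁻¹ * q) := by
    intro t
    classical
    induction t using Finset.induction_on with
    | empty => simp
    | insert a t ha ih =>
      rw [Finset.sum_insert ha, add_smul, Finset.sum_insert ha, ← ih, Pi.add_apply, of_smul_apply]
  rw [h1]
  exact Fintype.sum_equiv ((Equiv.inv Q).trans (Equiv.mulRight q)) _ _ fun _ => rfl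

end funm

section main

variable {G : Type u} [Group G] [Finite G]

/-- The principal ideal theorem. -/
theorem transfer_eq_one :
    MonoidHom.transfer (Abelianization.of : ↥(commutator G) →* Abelianization ↥(commutator G)) =
      (1 : G →* Abelianization ↥(commutator G)) := by
  classical
  obtain ⟨J, _, x, e, hgen, he, hprod⟩ := exists_family (G := G)
  let H : Subgroup G := commutator G
  let ϕ : H →* Abelianization H := Abelianization.of
  let T : H.LeftTransversal := default
  let α := T.2.leftQuotientEquiv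
  letI fQ : Fintype (G ⧸ H) := H.fintypeQuotientOfFiniteIndex
  letI fQ' : Fintype (Abelianization G) := fQ
  have hα : ∀ q : G ⧸ H, ((α q : G) : G ⧸ H) = q := T.2.quotientGroupMk_leftQuotientEquiv
  have hmem : ∀ (g : G) (q : G ⧸ H), ((α q : G))⁻¹ * (g * (α (g⁻¹ • q) : G)) ∈ H := by
    intro g q
    rw [← QuotientGroup.eq, hα]
    have h1 : ((g * (α (g⁻¹ • q) : G) : G) : G ⧸ H) = g • (((α (g⁻¹ • q) : G)) : G ⧸ H) := rfl
    rw [h1, hα, smul_inv_smul]
  let δ : G → FunM (Abelianization G) (Additive (Abelianization H)) := fun g q =>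
    Additive.ofMul (ϕ ⟨_, hmem g q⟩)
  have hact : ∀ (g : G) (q : G ⧸ H),
      (Abelianization.of g)⁻¹ * (show Abelianization G from q) = (show Abelianization G from g⁻¹ • q) := by
    intro g q
    induction q using QuotientGroup.induction_on with
    | H z => rfl
  have hδ : IsDer (Abelianization.of : G →* Abelianization G) δ := by
    intro g h
    funext q'
    let q : G ⧸ H := q'
    have h1 := of_smul_apply (A := Additive (Abelianization H)) (Abelianization.of g) (δ h) q'
    refine Eq.trans ?_ (congrArg (δ g q' + ·) h1).symm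
    have h2 : (Abelianization.of g)⁻¹ * q' = (show Abelianization G from g⁻¹ • q) := hact g q
    rw [h2]
    show Additive.ofMul (ϕ ⟨_, hmem (g * h) q⟩) = Additive.ofMul (ϕ ⟨_, hmem g q⟩) + Additive.ofMul (ϕ ⟨_, hmem h (g⁻¹ • q)⟩)
    rw [← ofMul_mul, ← map_mul]
    congr 2
    apply Subtype.ext
    show (α q : G)⁻¹ * (g * h * (α ((g * h)⁻¹ • q) : G)) =
      ((α q : G))⁻¹ * (g * (α (g⁻¹ • q) : G)) * (((α (g⁻¹ • q) : G))⁻¹ * (h * (α (h⁻¹ • g⁻¹ • q) : G)))
    rw [mul_inv_rev, mul_smul]
    group
  ext g
  have hT : MonoidHom.transfer ϕ g = ∏ q : G ⧸ H, ϕ ⟨_, hmem g q⟩ := by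
    rw [MonoidHom.transfer_def ϕ T g]
    show (∏ q : G ⧸ H, ϕ ⟨_, _⟩) = _
    refine Finset.prod_congr rfl fun q _ => ?_
    congr 1
    apply Subtype.ext
    show ((α q : G))⁻¹ * ((g • T).2.leftQuotientEquiv q : G) = _
    rw [Subgroup.smul_apply_eq_smul_apply_inv_smul]
    rfl
  have h0 := norm_smul_eq_zero (Q := Abelianization G) (π := (Abelianization.of : G →* Abelianization G))
    (QuotientGroup.mk'_surjective _) (Abelianization.ker_of G) hδ x e hgen he (by rw [hprod, Nat.card_eq_fintype_card]) g
  have h1 := congrFun h0 1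
  rw [sum_smul_apply] at h1
  show MonoidHom.transfer ϕ g = 1
  rw [hT]
  have h2 : Additive.ofMul (∏ q : G ⧸ H, ϕ ⟨_, hmem g q⟩) = ∑ s : Abelianization G, δ g s := by
    rw [ofMul_prod]
    rfl
  rw [h1] at h2
  exact h2

end main

end Cfsg.Agent.Lib.Struct.Pit
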