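import Mathlib
import Cfsg.Agent.S0035
import Cfsg.Agent.Lib.Basic.Frobenius2
import Cfsg.Agent.Lib.OddLocal.FrobComp

/-! # Frobenius kernels with a quaternion subgroup in the complement have square order -/

set_option autoImplicit false

namespace Cfsg.Agent.Lib.Struct.QuatKernel

open Subgroup Cfsg

universe u

section add

/-- The counting lemma on modules for the quaternion group. -/
theorem isSquare_card_add : ∀ (n : ℕ) (V : Type u) [AddCommGroup V] [Finite V] (i j : V →+ V),
    Nat.card V = n → Odd n → (∀ v, i (i v) = -v) → (∀ v, j (j v) = -v) → (∀ v, i (j v) = - j (i v)) →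
    IsSquare n := by
  intro n
  induction n using Nat.strong_induction_on with
  | _ n ih =>
    intro V _ _ i j hn hodd hi hj hij
    by_cases hn1 : n = 1
    · rw [hn1]; exact ⟨1, rfl⟩
    obtain ⟨r, hr, hrn⟩ := Nat.exists_prime_and_dvd hn1
    haveI hrf : Fact r.Prime := ⟨hr⟩
    have hrodd : Odd r := Odd.of_dvd_nat hodd hrn
    -- the torsion subgroup
    let W : AddSubgroup V := (nsmulAddMonoidHom (α := V) r).ker
    have hW : ∀ v, v ∈ W ↔ r • v = 0 := fun v => Iff.rfl
    have hWi : ∀ v ∈ W, i v ∈ W := fun v hv => by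
      rw [hW] at hv ⊢
      rw [← map_nsmul, hv, map_zero]
    have hWj : ∀ v ∈ W, j v ∈ W := fun v hv => by
      rw [hW] at hv ⊢
      rw [← map_nsmul, hv, map_zero]
    obtain ⟨a, b, hab⟩ := ZMod.sq_add_sq r (-1)
    obtain ⟨a', rfl⟩ := ZMod.natCast_zmod_surjective (n := r) a
    obtain ⟨b', rfl⟩ := ZMod.natCast_zmod_surjective (n := r) b
    have hab2 : r ∣ a' ^ 2 + b' ^ 2 + 1 := by
      rw [← ZMod.natCast_eq_zero_iff]
      push_cast
      rw [hab]
      ring
    obtain ⟨c, hc⟩ := hab2
    -- the involution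
    let σ : V →+ V := a' • i + b' • j
    have hσ : ∀ v, σ v = a' • i v + b' • j v := fun v => rfl
    have hji : ∀ v, j (i v) = - i (j v) := fun v => by rw [hij, neg_neg]
    have hjij : ∀ v, j (i (j v)) = i v := fun v => by rw [hji, hj, map_neg, neg_neg]
    have hiji : ∀ v, i (j (i v)) = j v := fun v => by rw [hji, map_neg, hi, neg_neg]
    have hkk : ∀ v, i (j (i (j v))) = -v := fun v => by rw [hjij, hi]
    have hσσ : ∀ v ∈ W, σ (σ v) = v := by
      intro v hv
      have h2 : (a' * a' + b' * b' + 1) • v = 0 := by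
        have : a' * a' + b' * b' + 1 = c * r := by rw [mul_comm c r, ← hc]; ring
        rw [this, mul_smul, (hW v).mp hv, smul_zero]
      rw [add_smul, add_smul, one_smul] at h2
      have h1 : σ (σ v) = - ((a' * a') • v + (b' * b') • v + v) + v := by
        simp only [hσ, map_add, map_nsmul, smul_add, mul_smul, hi, hj, hji, smul_neg]
        rw [smul_comm b' a' (i (j v))]
        abel
      rw [h1, h2, neg_zero, zero_add]
    have hσk : ∀ v, σ (i (j v)) = - i (j (σ v)) := by
      intro v
      simp only [hσ, map_add, map_nsmul, hi, hj, hjij, hiji, smul_neg, map_neg]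
      abel
    -- the element inverse of two on `W`
    obtain ⟨s, hs⟩ := hrodd
    have htwo : ∀ v ∈ W, (s + 1) • (v + v) = v := by
      intro v hv
      have h1 : (s + 1) • (v + v) = r • v + v := by
        rw [← two_smul ℕ v, ← mul_smul, hs]
        rw [show (s + 1) * 2 = 2 * s + 1 + 1 by ring, add_smul, one_smul]
      rw [h1, (hW v).mp hv, zero_add]
    -- the eigenspaces
    let ψ : W →+ V := (AddMonoidHom.id V - σ).comp W.subtype
    have hψ : ∀ v : W, ψ v = (v : V) - σ v := fun v => rfl
    have hσW : ∀ v ∈ W, σ v ∈ W := fun v hv => by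
      rw [hσ]
      exact W.add_mem (W.nsmul_mem (hWi v hv) _) (W.nsmul_mem (hWj v hv) _)
    have hkW : ∀ v ∈ W, i (j v) ∈ W := fun v hv => hWi _ (hWj v hv)
    have hcardW : Nat.card W = Nat.card ψ.ker * Nat.card ψ.range := by
      have h1 := AddSubgroup.card_mul_index ψ.ker
      rw [AddSubgroup.index_ker] at h1
      exact h1.symm
    have hrange : ∀ u : V, u ∈ ψ.range ↔ u ∈ W ∧ σ u = -u := by
      intro u
      constructor
      · rintro ⟨v, rfl⟩
        refine ⟨W.sub_mem v.2 (hσW _ v.2), ?_⟩
        rw [hψ, map_sub, hσσ _ v.2, neg_sub]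
      · rintro ⟨h1, h2⟩
        refine ⟨⟨(s + 1) • u, W.nsmul_mem h1 _⟩, ?_⟩
        rw [hψ]
        show (s + 1) • u - σ ((s + 1) • u) = u
        rw [map_nsmul, h2, smul_neg, sub_neg_eq_add, ← smul_add]
        exact htwo u h1
    have hker : ∀ v : W, v ∈ ψ.ker ↔ σ v = v := by
      intro v
      rw [AddMonoidHom.mem_ker, hψ, sub_eq_zero]
      exact eq_comm
    have hEq : Nat.card ψ.ker = Nat.card ψ.range := by
      refine Nat.card_congr
        { toFun := fun v => ⟨i (j ((v : W) : V)), (hrange _).mpr ⟨hkW _ (v : W).2, by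
            rw [hσk, (hker _).mp v.2]⟩⟩
          invFun := fun u => ⟨⟨- i (j (u : V)), W.neg_mem (hkW _ ((hrange _).mp u.2).1)⟩, (hker _).mpr (by
            show σ (- i (j (u : V))) = - i (j (u : V))
            rw [map_neg, hσk, ((hrange _).mp u.2).2, neg_neg, map_neg, map_neg])⟩
          left_inv := fun v => by
            apply Subtype.ext
            apply Subtype.ext
            show - i (j (i (j ((v : W) : V)))) = _
            rw [hkk, neg_neg]
          right_inv := fun u => by
            apply Subtype.ext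
            show i (j (- i (j (u : V)))) = _
            rw [map_neg, map_neg, hkk, neg_neg] }
    have hWsq : IsSquare (Nat.card W) := by
      rw [hcardW, hEq]
      exact ⟨_, rfl⟩
    -- the quotient
    let i' : V ⧸ W →+ V ⧸ W := QuotientAddGroup.map W W i hWi
    let j' : V ⧸ W →+ V ⧸ W := QuotientAddGroup.map W W j hWj
    have hcardV : Nat.card V = Nat.card (V ⧸ W) * Nat.card W :=
      AddSubgroup.card_eq_card_quotient_mul_card_addSubgroup W
    have hWnt : 1 < Nat.card W := by
      obtain ⟨x, hx⟩ := exists_prime_addOrderOf_dvd_card' (G := V) r (hn ▸ hrn)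
      have hxW : x ∈ W := by
        rw [hW, ← hx]
        exact addOrderOf_nsmul_eq_zero x
      have hx0 : x ≠ 0 := by
        rintro rfl
        rw [addOrderOf_zero] at hx
        exact hr.one_lt.ne hx
      rw [Finite.one_lt_card_iff_nontrivial]
      exact ⟨⟨⟨x, hxW⟩, 0, fun h => hx0 (congrArg Subtype.val h)⟩⟩
    have hQpos : 0 < Nat.card (V ⧸ W) := Nat.card_pos
    have hlt : Nat.card (V ⧸ W) < n := by
      rw [← hn, hcardV]
      nlinarith
    have hQsq : IsSquare (Nat.card (V ⧸ W)) := by
      refine ih _ hlt (V ⧸ W) i' j' rfl ?_ ?_ ?_ ?_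
      · refine Odd.of_dvd_nat hodd ?_
        rw [← hn, hcardV]
        exact dvd_mul_right _ _
      · intro v
        induction v using QuotientAddGroup.induction_on with
        | H z =>
          show ((i (i z) : V) : V ⧸ W) = _
          rw [hi]
          rfl
      · intro v
        induction v using QuotientAddGroup.induction_on with
        | H z =>
          show ((j (j z) : V) : V ⧸ W) = _
          rw [hj]
          rfl
      · intro v
        induction v using QuotientAddGroup.induction_on with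
        | H z =>
          show ((i (j z) : V) : V ⧸ W) = _
          rw [hij]
          rfl
    rw [← hn, hcardV]
    exact hQsq.mul hWsq

/-- The multiplicative form. -/
theorem isSquare_card_mul {V : Type u} [CommGroup V] [Finite V] (i j : V →* V) (hodd : Odd (Nat.card V))
    (hi : ∀ v, i (i v) = v⁻¹) (hj : ∀ v, j (j v) = v⁻¹) (hij : ∀ v, i (j v) = (j (i v))⁻¹) :
    IsSquare (Nat.card V) :=
  isSquare_card_add (Nat.card V) (Additive V) i.toAdditive j.toAdditive rfl hodd hi hj hij

end add

section kernel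

open Cfsg.Agent.Lib.Basic

variable {L : Type*} [Group L] [Finite L]

lemma kernel_fpf (H : Subgroup L) (hF : IsFrobeniusComplement H) {N : Subgroup L} [hNn : N.Normal]
    (hc : N.IsComplement' H) : N ≠ ⊥ ∧ ∀ h ∈ H, h ≠ 1 → N ⊓ centralizer {h} = ⊥ := by
  have hNne : N ≠ ⊥ := by
    intro hbot
    apply hF.2.1
    have h1 := hc.index_eq_card
    rw [hbot, Subgroup.card_bot] at h1
    exact Subgroup.index_eq_one.mp h1
  exact ⟨hNne, (isFrobeniusComplement_iff_fpf hc hNne hF.1).mp hF⟩

/-- A quaternion subgroup in a Frobenius complement forces the kernel to have odd square order. -/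
theorem kernel_square (H : Subgroup L) (hF : IsFrobeniusComplement H) (i j z : L) (hiH : i ∈ H)
    (hii : i * i = z) (hjj : j * j = z) (hjH : j ∈ H) (hzz : z * z = 1) (hz : z ≠ 1)
    (hij : i * j = j * i * z) :
    Odd (Nat.card (frobeniusKernel H)) ∧ IsSquare (Nat.card (frobeniusKernel H)) ∧
      1 < Nat.card (frobeniusKernel H) := by
  classical
  obtain ⟨N, hN, hNn, hc⟩ := Cfsg.Agent.S0035.result H hF
  have hcard : Nat.card (frobeniusKernel H) = Nat.card N := by rw [← hN]; rfl
  rw [hcard]
  obtain ⟨hNne, hfpf⟩ := kernel_fpf H hF hc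
  have hzH : z ∈ H := hii ▸ H.mul_mem hiH hiH
  have hzc := hfpf z hzH hz
  have hzinv : ∀ k ∈ N, z * k * z⁻¹ = k⁻¹ := fun k hk => inverts_of_fpf_involution hzz hzc hk
  have hcomm : ∀ x y : N, x * y = y * x := by
    intro x y
    apply Subtype.ext
    have h1 := hzinv _ (N.mul_mem x.2 y.2)
    have h2 : z * ((x : L) * y) * z⁻¹ = (z * x * z⁻¹) * (z * y * z⁻¹) := by group
    rw [h2, hzinv _ x.2, hzinv _ y.2] at h1
    have h3 : ((x : L) * y)⁻¹ = (y : L)⁻¹ * (x : L)⁻¹ := mul_inv_rev _ _
    rw [h3] at h1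
    have h4 := congrArg (·⁻¹) h1
    have h5 : (y : L) * x = (x : L) * y := by simpa using h4
    exact h5.symm
  letI cg : CommGroup N := { (inferInstance : Group N) with mul_comm := hcomm }
  have hodd : Odd (Nat.card N) := by
    rw [← Nat.not_even_iff_odd, even_iff_two_dvd]
    intro h2
    haveI : Fact (Nat.Prime 2) := ⟨Nat.prime_two⟩
    obtain ⟨t, ht⟩ := exists_prime_orderOf_dvd_card' (G := N) 2 h2
    have ht1 : t ≠ 1 := by
      rintro rfl
      rw [orderOf_one] at ht
      omega
    have ht2 : (t : L) * t = 1 := by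
      have := pow_orderOf_eq_one t
      rw [ht, pow_two] at this
      exact congrArg Subtype.val this
    have htinv : (t : L)⁻¹ = t := inv_eq_of_mul_eq_one_left ht2
    have h3 := hzinv _ t.2
    rw [htinv] at h3
    have h4 : (t : L) ∈ N ⊓ centralizer {z} := by
      refine ⟨t.2, Subgroup.mem_centralizer_iff.mpr ?_⟩
      intro w hw
      rw [Set.mem_singleton_iff] at hw
      rw [hw]
      rw [mul_inv_eq_iff_eq_mul] at h3
      exact h3
    rw [hzc, Subgroup.mem_bot] at h4
    exact ht1 (Subtype.ext h4)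
  have h1lt : 1 < Nat.card N := by
    rw [Finite.one_lt_card_iff_nontrivial]
    exact (Subgroup.nontrivial_iff_ne_bot N).mpr hNne
  refine ⟨hodd, ?_, h1lt⟩
  let fi : N →* N := (MulAut.conjNormal i : MulAut N).toMonoidHom
  let fj : N →* N := (MulAut.conjNormal j : MulAut N).toMonoidHom
  have hfi : ∀ v : N, ((fi v : N) : L) = i * v * i⁻¹ := fun v => by
    show ((MulAut.conjNormal i v : N) : L) = _
    rw [MulAut.conjNormal_apply]
  have hfj : ∀ v : N, ((fj v : N) : L) = j * v * j⁻¹ := fun v => by
    show ((MulAut.conjNormal j v : N) : L) = _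
    rw [MulAut.conjNormal_apply]
  refine isSquare_card_mul (V := N) fi fj hodd ?_ ?_ ?_
  · intro v
    apply Subtype.ext
    rw [hfi, hfi]
    have h1 : i * (i * (v : L) * i⁻¹) * i⁻¹ = (i * i) * v * (i * i)⁻¹ := by group
    rw [h1, hii, hzinv _ v.2]
    rfl
  · intro v
    apply Subtype.ext
    rw [hfj, hfj]
    have h1 : j * (j * (v : L) * j⁻¹) * j⁻¹ = (j * j) * v * (j * j)⁻¹ := by group
    rw [h1, hjj, hzinv _ v.2]
    rfl
  · intro v
    apply Subtype.ext
    rw [hfi, hfj]
    show i * (((fj v : N) : L)) * i⁻¹ = (((fj (fi v) : N) : L))⁻¹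
    rw [hfj, hfj, hfi]
    have h1 : i * (j * (v : L) * j⁻¹) * i⁻¹ = (i * j) * v * (i * j)⁻¹ := by group
    rw [h1, hij]
    have h2 : j * i * z * (v : L) * (j * i * z)⁻¹ = (j * i) * (z * v * z⁻¹) * (j * i)⁻¹ := by group
    rw [h2, hzinv _ v.2]
    group

end kernel

section quat

open QuaternionGroup

/-- The quaternion subgroup of a generalized quaternion group. -/
lemma quat_elements (N m : ℕ) (hN : N = 2 * m) (hm : 0 < m) :
    ∃ i j z : QuaternionGroup N, i * i = z ∧ j * j = z ∧ z * z = 1 ∧ z ≠ 1 ∧ i * j = j * i * z := by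
  subst hN
  haveI : NeZero (2 * m) := ⟨by omega⟩
  have h0 : (((2 * (2 * m) : ℕ)) : ZMod (2 * (2 * m))) = 0 := ZMod.natCast_self _
  refine ⟨a (m : ZMod (2 * (2 * m))), xa 0, a (((2 * m : ℕ)) : ZMod (2 * (2 * m))), ?_, ?_, ?_, ?_, ?_⟩
  · rw [a_mul_a]
    congr 1
    push_cast
    ring
  · rw [xa_mul_xa]
    congr 1
    ring
  · rw [a_mul_a, one_def]
    congr 1
    rw [← h0]
    push_cast
    ring
  · rw [one_def]
    intro h
    have h1 := a.inj h
    rw [ZMod.natCast_eq_zero_iff] at h1
    have := Nat.le_of_dvd (by omega) h1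
    omega
  · rw [a_mul_xa, xa_mul_a, xa_mul_a]
    congr 1
    have h1 : (((2 * (2 * m) : ℕ)) : ZMod (2 * (2 * m))) = 4 * (m : ZMod (2 * (2 * m))) := by
      push_cast
      ring
    rw [h1] at h0
    push_cast
    linear_combination -h0

end quat

/-- The statement S4296. -/
theorem kernel_of_noncyclic {L : Type*} [Group L] [Finite L] (H : Subgroup L) (hF : Cfsg.IsFrobeniusComplement H)
    (hZ : ∃ (p : ℕ) (_ : Fact p.Prime) (P : Sylow p H), ¬ IsCyclic P) :
    Odd (Nat.card (Cfsg.frobeniusKernel H)) ∧ IsSquare (Nat.card (Cfsg.frobeniusKernel H)) := by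
  classical
  obtain ⟨p, hpf, P, hP⟩ := hZ
  obtain ⟨N, hN, hNn, hc⟩ := Cfsg.Agent.S0035.result H hF
  obtain ⟨hNne, hfpf⟩ := kernel_fpf H hF hc
  set T : Subgroup L := (P : Subgroup H).map H.subtype with hT
  have hTH : T ≤ H := Subgroup.map_subtype_le _
  have hTp : IsPGroup p T := P.isPGroup'.map H.subtype
  have hcyc : ¬ IsCyclic T := by
    intro hcy
    apply hP
    exact isCyclic_of_injective (Subgroup.equivMapOfInjective (P : Subgroup H) H.subtype H.subtype_injective).toMonoidHom
      (Subgroup.equivMapOfInjective (P : Subgroup H) H.subtype H.subtype_injective).injective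
  rcases Cfsg.Agent.Lib.OddLocal.cyclic_or_quaternion_of_fpf hNne hTp (fun h hh h1 => hfpf h (hTH hh) h1) with h | ⟨n, ⟨e⟩⟩
  · exact absurd h hcyc
  · rcases Nat.eq_zero_or_pos n with rfl | hn
    · exfalso
      apply hcyc
      haveI : IsCyclic (QuaternionGroup (2 ^ 0)) := QuaternionGroup.quaternionGroup_one_isCyclic
      exact isCyclic_of_injective e.toMonoidHom e.injective
    · obtain ⟨i, j, z, h1, h2, h3, h4, h5⟩ := quat_elements (2 ^ n) (2 ^ (n - 1))
        (by rw [← pow_succ']; congr 1; omega) (by positivity)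
      have hz1 : ((e.symm z : T) : L) ≠ 1 := by
        intro h
        apply h4
        have : e.symm z = 1 := Subtype.ext h
        simpa using this
      have := kernel_square H hF (e.symm i : T) (e.symm j : T) (e.symm z : T) (hTH (e.symm i).2)
        (by rw [← Subgroup.coe_mul, ← map_mul, h1]) (by rw [← Subgroup.coe_mul, ← map_mul, h2]) (hTH (e.symm j).2)
        (by rw [← Subgroup.coe_mul, ← map_mul, h3, map_one]; rfl) hz1
        (by simp only [← Subgroup.coe_mul, ← map_mul, h5])
      exact ⟨this.1, this.2.1⟩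

end Cfsg.Agent.Lib.Struct.QuatKernel
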