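import Mathlib
import Cfsg.Agent.Lib.Struct.QuatKernel
import Cfsg.Agent.Lib.Struct.FrobeniusConstruct

/-! # Frobenius groups with complement `Q₈` and kernel of any odd square order -/

set_option autoImplicit false

namespace Cfsg.Agent.Lib.Struct.QuatKernel

open Subgroup Cfsg QuaternionGroup

section lift

variable {X : Type*} [Monoid X]

/-- The map from the quaternion group of order eight given by a presentation. -/
def quatF (i j : X) : QuaternionGroup 2 → X
  | a k => i ^ k.val
  | xa k => j * i ^ k.val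

lemma pow_comm_aux (i j : X) (h3 : i * j = j * i ^ 3) (m : ℕ) : i ^ m * j = j * i ^ (3 * m) := by
  induction m with
  | zero => simp
  | succ m ih =>
    rw [pow_succ, mul_assoc, h3, ← mul_assoc, ih, mul_assoc, ← pow_add]
    congr 2

lemma pow_congr_aux (i : X) (h4 : i ^ 4 = 1) {x y : ℕ} (h : x % 4 = y % 4) : i ^ x = i ^ y := by
  rw [pow_eq_pow_mod x h4, pow_eq_pow_mod y h4, h]

lemma quatF_mul (i j : X) (h4 : i ^ 4 = 1) (h2 : j * j = i ^ 2) (h3 : i * j = j * i ^ 3)
    (x y : QuaternionGroup 2) : quatF i j (x * y) = quatF i j x * quatF i j y := by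
  have key1 : ∀ k l : ZMod (2 * 2), (k.val + l.val) % 4 = (k + l).val % 4 := by decide
  have key2 : ∀ k l : ZMod (2 * 2), (3 * k.val + l.val) % 4 = (l - k).val % 4 := by decide
  have key3 : ∀ k l : ZMod (2 * 2), (2 + (3 * k.val + l.val)) % 4 = (((2 : ℕ) : ZMod (2 * 2)) + l - k).val % 4 := by decide
  rcases x with k | k <;> rcases y with l | l
  · show i ^ (k + l).val = i ^ k.val * i ^ l.val
    rw [← pow_add]
    exact pow_congr_aux i h4 (key1 k l).symm
  · show j * i ^ (l - k).val = i ^ k.val * (j * i ^ l.val)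
    rw [← mul_assoc, pow_comm_aux i j h3, mul_assoc, ← pow_add]
    congr 1
    exact pow_congr_aux i h4 (key2 k l).symm
  · show j * i ^ (k + l).val = j * i ^ k.val * i ^ l.val
    rw [mul_assoc, ← pow_add]
    congr 1
    exact pow_congr_aux i h4 (key1 k l).symm
  · show i ^ (((2 : ℕ) : ZMod (2 * 2)) + l - k).val = j * i ^ k.val * (j * i ^ l.val)
    have e : j * i ^ k.val * (j * i ^ l.val) = j * (i ^ k.val * j) * i ^ l.val := by
      simp only [mul_assoc]
    rw [e, pow_comm_aux i j h3, ← mul_assoc, h2, mul_assoc, ← pow_add, ← pow_add]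
    exact pow_congr_aux i h4 (key3 k l).symm

lemma quatF_one (i j : X) : quatF i j 1 = 1 := by
  show i ^ (0 : ZMod (2 * 2)).val = 1
  have : (0 : ZMod (2 * 2)).val = 0 := rfl
  rw [this, pow_zero]

end lift

/-- A representation of `Q₈` in which the central involution acts as `-1`. -/
def QRep (A : Type) [AddCommGroup A] (F : QuaternionGroup 2 → (A →+ A)) : Prop :=
  (∀ v, F 1 v = v) ∧ (∀ x y v, F (x * y) v = F x (F y v)) ∧ ∀ v, F (a 2) v = -v

theorem exists_rep_prime (r : ℕ) (hr : r.Prime) (hodd : Odd r) :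
    haveI : Fact r.Prime := ⟨hr⟩
    ∃ F : QuaternionGroup 2 → ((ZMod r × ZMod r) →+ (ZMod r × ZMod r)), QRep (ZMod r × ZMod r) F := by
  haveI : Fact r.Prime := ⟨hr⟩
  obtain ⟨α, β, hab⟩ := ZMod.sq_add_sq r (-1)
  let i : AddMonoid.End (ZMod r × ZMod r) :=
    AddMonoidHom.mk' (fun v => (-v.2, v.1)) (fun u v => by
      ext
      · simp; ring
      · simp)
  let j : AddMonoid.End (ZMod r × ZMod r) :=
    AddMonoidHom.mk' (fun v => (α * v.1 + β * v.2, β * v.1 - α * v.2)) (fun u v => by
      ext
      · simp; ring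
      · simp; ring)
  have hi : ∀ v, i v = (-v.2, v.1) := fun _ => rfl
  have hj : ∀ v, j v = (α * v.1 + β * v.2, β * v.1 - α * v.2) := fun _ => rfl
  have hmul : ∀ (f g : AddMonoid.End (ZMod r × ZMod r)) v, (f * g) v = f (g v) := fun _ _ _ => rfl
  have hii : ∀ v, (i ^ 2) v = -v := by
    intro v
    rw [pow_two, hmul, hi, hi]
    ext
    · simp
    · simp
  have h4 : i ^ 4 = 1 := by
    ext v
    · have : (i ^ 4) v = v := by
        rw [show (4 : ℕ) = 2 + 2 from rfl, pow_add, hmul, hii, hii, neg_neg]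
      exact congrArg Prod.fst this
    · have : (i ^ 4) v = v := by
        rw [show (4 : ℕ) = 2 + 2 from rfl, pow_add, hmul, hii, hii, neg_neg]
      exact congrArg Prod.snd this
  have h2 : j * j = i ^ 2 := by
    ext v
    · have : (j * j) v = (i ^ 2) v := by
        rw [hii, hmul, hj, hj]
        ext
        · simp only [Prod.fst_neg]
          linear_combination v.1 * hab
        · simp only [Prod.snd_neg]
          linear_combination v.2 * hab
      exact congrArg Prod.fst this
    · have : (j * j) v = (i ^ 2) v := by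
        rw [hii, hmul, hj, hj]
        ext
        · simp only [Prod.fst_neg]
          linear_combination v.1 * hab
        · simp only [Prod.snd_neg]
          linear_combination v.2 * hab
      exact congrArg Prod.snd this
  have h3 : i * j = j * i ^ 3 := by
    have key : ∀ v, (i * j) v = (j * i ^ 3) v := by
      intro v
      rw [show (3 : ℕ) = 2 + 1 from rfl, pow_add, pow_one, hmul, hmul, hmul, hii, hi, hj, hi, hj]
      ext
      · simp
        ring
      · simp
        ring
    ext v
    · exact congrArg Prod.fst (key v)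
    · exact congrArg Prod.snd (key v)
  refine ⟨fun q => quatF (X := AddMonoid.End (ZMod r × ZMod r)) i j q, ?_, ?_, ?_⟩
  · intro v
    show quatF (X := AddMonoid.End (ZMod r × ZMod r)) i j 1 v = v
    rw [quatF_one]
    rfl
  · intro x y v
    show quatF (X := AddMonoid.End (ZMod r × ZMod r)) i j (x * y) v = _
    rw [quatF_mul i j h4 h2 h3]
    rfl
  · intro v
    have : quatF (X := AddMonoid.End (ZMod r × ZMod r)) i j (a 2) = i ^ 2 := rfl
    show quatF (X := AddMonoid.End (ZMod r × ZMod r)) i j (a 2) v = _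
    rw [this, hii]

/-- Existence of representations of the right dimension. -/
theorem exists_rep (n : ℕ) : Odd n → ∃ (A : Type) (_ : AddCommGroup A) (_ : Finite A) (F : QuaternionGroup 2 → (A →+ A)),
    Nat.card A = n ^ 2 ∧ QRep A F := by
  induction n using Nat.recOnMul with
  | zero => intro h; simp at h
  | one =>
    intro _
    refine ⟨PUnit, inferInstance, inferInstance, fun _ => 0, by simp, ?_, ?_, ?_⟩
    · intro v; exact Subsingleton.elim _ _
    · intro x y v; exact Subsingleton.elim _ _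
    · intro v; exact Subsingleton.elim _ _
  | prime r hr =>
    intro hodd
    have hr' : r.Prime := hr
    haveI : Fact r.Prime := ⟨hr'⟩
    obtain ⟨F, hF⟩ := exists_rep_prime r hr' hodd
    refine ⟨ZMod r × ZMod r, inferInstance, inferInstance, F, ?_, hF⟩
    rw [Nat.card_prod, Nat.card_zmod, pow_two]
  | mul x y ihx ihy =>
    intro hodd
    obtain ⟨hx, hy⟩ := Nat.odd_mul.mp hodd
    obtain ⟨A, _, _, F, hA, hF1, hF2, hF3⟩ := ihx hx
    obtain ⟨B, _, _, G, hB, hG1, hG2, hG3⟩ := ihy hy
    refine ⟨A × B, inferInstance, inferInstance, fun q => (F q).prodMap (G q), ?_, ?_, ?_, ?_⟩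
    · rw [Nat.card_prod, hA, hB, mul_pow]
    · rintro ⟨u, v⟩
      exact Prod.ext (hF1 u) (hG1 v)
    · rintro p q ⟨u, v⟩
      exact Prod.ext (hF2 p q u) (hG2 p q v)
    · rintro ⟨u, v⟩
      exact Prod.ext (hF3 u) (hG3 v)

/-- The construction. -/
theorem exists_frobenius_square (m : ℕ) (hodd : Odd m) (hs : IsSquare m) (h1 : 1 < m) :
    ∃ (L : Type) (_ : Group L) (_ : Finite L) (H : Subgroup L), IsFrobeniusComplement H ∧
      Nonempty (H ≃* QuaternionGroup 2) ∧ Nat.card (frobeniusKernel H) = m := by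
  classical
  obtain ⟨n, rfl⟩ := hs
  have hn : Odd n := (Nat.odd_mul.mp hodd).1
  obtain ⟨A, _, _, F, hA, hF1, hF2, hF3⟩ := exists_rep n hn
  rw [pow_two] at hA
  haveI : Nontrivial A := by
    rw [← Finite.one_lt_card_iff_nontrivial, hA]
    exact h1
  haveI : Nontrivial (Multiplicative A) := inferInstanceAs (Nontrivial A)
  haveI : Nontrivial (QuaternionGroup 2) := ⟨⟨a 0, a 1, by decide⟩⟩
  let φ : QuaternionGroup 2 →* MulAut (Multiplicative A) :=
    Cfsg.Agent.Lib.Struct.mulAutOfEnd (fun q => AddMonoidHom.toMultiplicative (F q)) (fun v => hF1 v.toAdd)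
      (fun x y v => hF2 x y v.toAdd)
  have hcases : ∀ q : QuaternionGroup 2, q ≠ 1 → q = a 2 ∨ q * q = a 2 := by decide
  have hzero : ∀ v : A, -v = v → v = 0 := by
    intro v hv
    have h2 : 2 • v = 0 := by
      rw [two_smul]
      nth_rewrite 1 [← hv]
      exact neg_add_cancel v
    have h3 : addOrderOf v ∣ 2 := addOrderOf_dvd_of_nsmul_eq_zero h2
    have h4 : addOrderOf v ∣ n * n := hA ▸ addOrderOf_dvd_natCard v
    have h5 : Nat.Coprime 2 (n * n) := (Nat.coprime_two_left).mpr hodd
    have h6 : addOrderOf v = 1 := Nat.Coprime.eq_one_of_dvd (Nat.Coprime.coprime_dvd_left h3 (Nat.Coprime.coprime_dvd_right h4 h5)) dvd_rfl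
    exact AddMonoid.addOrderOf_eq_one_iff.mp h6
  have hfix : ∀ q : QuaternionGroup 2, q ≠ 1 → ∀ v : Multiplicative A, φ q v = v → v = 1 := by
    intro q hq v hv
    have hv' : F q v.toAdd = v.toAdd := hv
    have hz : F (a 2) v.toAdd = v.toAdd := by
      rcases hcases q hq with h | h
      · rw [← h]; exact hv'
      · rw [← h, hF2, hv', hv']
    rw [hF3] at hz
    exact hzero _ hz
  haveI hfin : Finite (Multiplicative A ⋊[φ] QuaternionGroup 2) :=
    Finite.of_equiv _ (SemidirectProduct.equivProd (φ := φ)).symm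
  refine ⟨Multiplicative A ⋊[φ] QuaternionGroup 2, inferInstance, hfin,
    (SemidirectProduct.inr : QuaternionGroup 2 →* Multiplicative A ⋊[φ] QuaternionGroup 2).range,
    Cfsg.Agent.Lib.Struct.semidirect_isFrobeniusComplement φ hfix,
    ⟨(MonoidHom.ofInjective SemidirectProduct.inr_injective).symm⟩, ?_⟩
  have hF := Cfsg.Agent.Lib.Struct.semidirect_isFrobeniusComplement φ hfix
  rw [Nat.card_coe_set_eq, Cfsg.Agent.Lib.Basic.IsConjDisjoint.ncard_frobeniusKernel hF.2.2,
    (Cfsg.Agent.Lib.Struct.semidirect_isComplement' φ).index_eq_card,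
    Nat.card_congr (MonoidHom.ofInjective (SemidirectProduct.inl_injective (φ := φ))).symm.toEquiv]
  exact hA

end Cfsg.Agent.Lib.Struct.QuatKernel
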