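import Mathlib

/-!
# Doubly transitive groups and twisted incidence matrices

Let `G` act doubly transitively on a finite set `Ω` and let `α` be an automorphism of `G` of odd
order.  A `0/1` matrix `A` on `Ω` with constant column sums `k` such that
`A (α g • x) (g • y) = A x y` has `k = 1` or `k = n - 1` as soon as `k` is prime to `n = |Ω|`.
-/

set_option autoImplicit false

namespace Cfsg.Agent.Lib.Struct.SymDesign

open Finset Matrix

variable {G Ω : Type*} [Group G] [MulAction G Ω] [Fintype Ω] [DecidableEq Ω]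

/-- `A` is `β`-invariant. -/
def Inv (A : Matrix Ω Ω ℤ) (β : MulAut G) : Prop :=
  ∀ (g : G) (x y : Ω), A (β g • x) (g • y) = A x y

theorem inv_one : Inv (1 : Matrix Ω Ω ℤ) (1 : MulAut G) := by
  intro g x y
  simp only [MulAut.one_apply, Matrix.one_apply, smul_left_cancel_iff]

theorem inv_mul {A B : Matrix Ω Ω ℤ} {α β : MulAut G} (hA : Inv A α) (hB : Inv B β) :
    Inv (A * B) (α * β) := by
  intro g x y
  rw [Matrix.mul_apply, Matrix.mul_apply]
  rw [← Equiv.sum_comp (MulAction.toPerm (β g))]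
  refine Finset.sum_congr rfl fun z _ => ?_
  have h1 := hA (β g) x z
  have h2 := hB g z y
  simp only [MulAction.toPerm_apply, MulAut.mul_apply]
  rw [h1, h2]

theorem inv_pow {A : Matrix Ω Ω ℤ} {α : MulAut G} (hA : Inv A α) (m : ℕ) :
    Inv (A ^ m) (α ^ m) := by
  induction m with
  | zero => simpa using inv_one
  | succ m ih =>
    rw [pow_succ, pow_succ]
    exact inv_mul ih hA

theorem inv_transpose {A : Matrix Ω Ω ℤ} {α : MulAut G} (hA : Inv A α) :
    Inv Aᵀ (α⁻¹) := by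
  intro g x y
  simp only [Matrix.transpose_apply]
  have h1 := hA (α⁻¹ g) y x
  have h2 : α (α⁻¹ g) = g := by
    rw [MulAut.inv_def, MulEquiv.apply_symm_apply]
  rw [h2] at h1
  exact h1

/-- Invariant matrices of a doubly transitive group. -/
theorem form_of_inv_one (h2 : ∀ {a b c d : Ω}, a ≠ b → c ≠ d → ∃ g : G, g • a = c ∧ g • b = d)
    {x₀ y₀ : Ω} (hxy : x₀ ≠ y₀) {M : Matrix Ω Ω ℤ} (hM : Inv M (1 : MulAut G)) :
    ∃ c b : ℤ, ∀ x y, M x y = (if x = y then c else 0) + b := by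
  have hM' : ∀ (g : G) (x y : Ω), M (g • x) (g • y) = M x y := fun g x y => by
    simpa using hM g x y
  refine ⟨M x₀ x₀ - M x₀ y₀, M x₀ y₀, fun x y => ?_⟩
  by_cases hn : x = y
  · subst hn
    simp only [if_true]
    -- transitivity on points
    by_cases hx : x = x₀
    · subst hx
      ring
    · obtain ⟨g, hg, -⟩ := h2 (a := x₀) (b := y₀) (c := x) (d := x₀) hxy hx
      rw [← hg, hM' g]
      ring
  · obtain ⟨g, hg1, hg2⟩ := h2 hxy hn
    simp only [hn, if_false, zero_add]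
    rw [← hg1, ← hg2, hM' g]

/-- Row sums of a product of matrices. -/
theorem sum_mul_row (A B : Matrix Ω Ω ℤ) (x : Ω) :
    ∑ y, (A * B) x y = ∑ z, A x z * ∑ y, B z y := by
  simp only [Matrix.mul_apply, Finset.mul_sum]
  exact Finset.sum_comm

/-- Perfect squares from odd powers. -/
theorem exists_sq_of_odd_pow (c₁ c : ℤ) (t : ℕ) (h : c ^ 2 = c₁ ^ (2 * t + 1)) (h0 : c₁ ≠ 0) :
    ∃ s : ℕ, c₁ = (s : ℤ) ^ 2 := by
  have hpos : 0 ≤ c₁ := by
    have h1 : 0 ≤ c₁ ^ (2 * t + 1) := by rw [← h]; positivity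
    exact (Odd.pow_nonneg_iff ⟨t, rfl⟩).mp h1
  have hdvd : (c₁ ^ t) ^ 2 ∣ c ^ 2 := by
    rw [h]
    exact ⟨c₁, by ring⟩
  have hdvd2 : c₁ ^ t ∣ c := (Int.pow_dvd_pow_iff (by norm_num)).mp hdvd
  obtain ⟨w, rfl⟩ := hdvd2
  have hne : c₁ ^ (2 * t) ≠ 0 := pow_ne_zero _ h0
  have h3 : w ^ 2 = c₁ := by
    have h4 : c₁ ^ (2 * t) * w ^ 2 = c₁ ^ (2 * t) * c₁ := by
      calc c₁ ^ (2 * t) * w ^ 2 = (c₁ ^ t * w) ^ 2 := by ring
        _ = c₁ ^ (2 * t + 1) := h
        _ = c₁ ^ (2 * t) * c₁ := by ring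
    exact mul_left_cancel₀ hne h4
  refine ⟨w.natAbs, ?_⟩
  rw [← h3]
  simp

/-- The numeric core. -/
theorem numeric_core (n k c₁ lam c b s : ℤ) (t : ℕ) (hn : 2 ≤ n) (hk1 : 1 ≤ k) (hkn : k < n)
    (hcop : IsCoprime k n) (hs : c₁ = s ^ 2) (hs0 : 0 ≤ s)
    (h1 : c₁ + lam = k) (h2 : c₁ + n * lam = k ^ 2) (hlam : 0 ≤ lam) (hlam2 : 0 ≤ n - 2 * k + lam)
    (h3 : c ^ 2 = c₁ ^ (2 * t + 1)) (h4 : c + n * b = k ^ (2 * t + 1)) :
    k = 1 ∨ k = n - 1 := by
  have hks : s ^ 2 ≤ k := by nlinarith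
  have hks2 : s ^ 2 ≤ n - k := by nlinarith
  -- congruences
  have hcopk : IsCoprime (k ^ 2) n := hcop.pow_left
  have hdiv1 : n ∣ k ^ 2 - s ^ 2 := ⟨lam, by rw [← h2, hs]; ring⟩
  have hcop_s : IsCoprime (s ^ 2) n := by
    have : s ^ 2 = k ^ 2 + n * (- lam) := by rw [← h2, hs]; ring
    rw [this]
    exact (IsCoprime.add_mul_left_left_iff).mpr hcopk
  have hcop_s' : IsCoprime n (s ^ (2 * t)) := by
    have : s ^ (2 * t) = (s ^ 2) ^ t := by ring
    rw [this]
    exact (hcop_s.pow_left).symm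
  have hdiv2 : n ∣ (k ^ 2) ^ t - (s ^ 2) ^ t := hdiv1.trans (sub_dvd_pow_sub_pow _ _ t)
  have hpow : k ^ (2 * t + 1) = k * (k ^ 2) ^ t := by ring
  have hcase : c = s ^ (2 * t + 1) ∨ c = - s ^ (2 * t + 1) := by
    have : c ^ 2 = (s ^ (2 * t + 1)) ^ 2 := by
      rw [h3, hs]
      ring
    exact sq_eq_sq_iff_eq_or_eq_neg.mp this
  have hdiv3 : n ∣ k * (s ^ 2) ^ t - c := by
    have h5 : k * (s ^ 2) ^ t - c = n * b - k * ((k ^ 2) ^ t - (s ^ 2) ^ t) := by
      have : k * (k ^ 2) ^ t = c + n * b := by rw [← hpow, h4]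
      linear_combination this
    rw [h5]
    exact dvd_sub (dvd_mul_right _ _) (dvd_mul_of_dvd_right hdiv2 _)
  rcases hcase with hc | hc
  · -- `n ∣ k - s`
    have h6 : n ∣ (k - s) * s ^ (2 * t) := by
      have : (k - s) * s ^ (2 * t) = k * (s ^ 2) ^ t - c := by
        rw [hc]
        ring
      rw [this]
      exact hdiv3
    have h7 : n ∣ k - s := hcop_s'.dvd_of_dvd_mul_right h6
    have hsk : s ≤ k := by nlinarith
    have h8 : k - s = 0 := by
      apply Int.eq_zero_of_dvd_of_nonneg_of_lt (by linarith) (by linarith) h7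
    have h9 : k = s := by linarith
    left
    nlinarith
  · have h6 : n ∣ (k + s) * s ^ (2 * t) := by
      have : (k + s) * s ^ (2 * t) = k * (s ^ 2) ^ t - c := by
        rw [hc]
        ring
      rw [this]
      exact hdiv3
    have h7 : n ∣ k + s := hcop_s'.dvd_of_dvd_mul_right h6
    have hsle : s ≤ n - k := by nlinarith
    have h8 : k + s = n := by
      obtain ⟨w, hw⟩ := h7
      have hw1 : 0 < n := by linarith
      have hw2 : 0 < n * w := by linarith
      have hw3 : 0 < w := (mul_pos_iff_of_pos_left hw1).mp hw2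
      have hw4 : n * w ≤ n := by linarith
      have hw5 : w ≤ 1 := by nlinarith
      have hw6 : w = 1 := by omega
      rw [hw, hw6, mul_one]
    right
    have hs1 : s = n - k := by linarith
    have hs2 : s ^ 2 ≤ s := by rw [hs1]; rw [← hs1] at hks2 ⊢; exact hks2
    have hs3 : s ≤ 1 := by nlinarith
    have hs4 : 1 ≤ s := by linarith
    linarith


/-- A scalar-plus-constant matrix acts by the scalar on vectors of sum zero. -/
theorem mulVec_of_form {N : Matrix Ω Ω ℤ} {u w : ℤ}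
    (hN : ∀ x y, N x y = (if x = y then u else 0) + w) {v : Ω → ℤ} (hv : ∑ y, v y = 0) :
    N.mulVec v = u • v := by
  ext x
  simp only [Matrix.mulVec, dotProduct, hN, add_mul, Finset.sum_add_distrib, ← Finset.mul_sum, hv,
    mul_zero, add_zero, ite_mul, zero_mul, Finset.sum_ite_eq, Finset.mem_univ, if_true,
    Pi.smul_apply, smul_eq_mul]

/-- The main theorem on matrices. -/
theorem main_matrix (h2 : ∀ {a b c d : Ω}, a ≠ b → c ≠ d → ∃ g : G, g • a = c ∧ g • b = d)
    {x₀ y₀ : Ω} (hxy : x₀ ≠ y₀) (A : Matrix Ω Ω ℤ) (α : MulAut G) (m : ℕ) (hm : Odd m)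
    (hαm : α ^ m = 1) (h01 : ∀ x y, A x y = 0 ∨ A x y = 1) (hinv : Inv A α) (k : ℕ)
    (hcol : ∀ y, ∑ x, A x y = k) (hk1 : 1 ≤ k) (hkn : k < Fintype.card Ω)
    (hcop : Nat.Coprime k (Fintype.card Ω)) : k = 1 ∨ k = Fintype.card Ω - 1 := by
  set n : ℤ := (Fintype.card Ω : ℤ) with hn
  have hn2 : 2 ≤ n := by
    have : 2 ≤ Fintype.card Ω := by omega
    rw [hn]
    exact_mod_cast this
  have hother : ∀ a : Ω, ∃ a', a ≠ a' := by
    intro a
    by_cases h : a = x₀
    · exact ⟨y₀, by rw [h]; exact hxy⟩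
    · exact ⟨x₀, h⟩
  have htr : ∀ a b : Ω, ∃ g : G, g • a = b := by
    intro a b
    obtain ⟨a', ha'⟩ := hother a
    obtain ⟨b', hb'⟩ := hother b
    obtain ⟨g, hg, -⟩ := h2 ha' hb'
    exact ⟨g, hg⟩
  -- row sums
  have hrow_inv : ∀ (g : G) (x : Ω), ∑ y, A (α g • x) y = ∑ y, A x y := by
    intro g x
    rw [← Equiv.sum_comp (MulAction.toPerm g)]
    exact Finset.sum_congr rfl fun y _ => hinv g x y
  have hrow_eq : ∀ x x' : Ω, ∑ y, A x y = ∑ y, A x' y := by
    intro x x'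
    obtain ⟨g, hg⟩ := htr x x'
    have h3 := hrow_inv (α⁻¹ g) x
    have h4 : α (α⁻¹ g) = g := by
      rw [MulAut.inv_def, MulEquiv.apply_symm_apply]
    rw [h4, hg] at h3
    exact h3.symm
  have hnne : n ≠ 0 := by linarith
  have hrow : ∀ x, ∑ y, A x y = k := by
    intro x
    have h3 : ∑ x', ∑ y, A x' y = n * ∑ y, A x y := by
      rw [Finset.sum_congr rfl fun x' _ => hrow_eq x' x]
      simp [hn]
    have h4 : ∑ x', ∑ y, A x' y = n * k := by
      have h5 : ∑ x', ∑ y, A x' y = ∑ y, ∑ x', A x' y := Finset.sum_comm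
      rw [h5, Finset.sum_congr rfl fun y _ => hcol y]
      simp [hn]
    exact mul_left_cancel₀ hnne (h3.symm.trans h4)
  have hsq : ∀ x y, A x y * A x y = A x y := by
    intro x y
    rcases h01 x y with h | h <;> simp [h]
  have hnonneg : ∀ x y, 0 ≤ A x y := by
    intro x y
    rcases h01 x y with h | h <;> simp [h]
  have hle1 : ∀ x y, A x y ≤ 1 := by
    intro x y
    rcases h01 x y with h | h <;> simp [h]
  -- the products
  have hPinv : Inv (A * Aᵀ) (1 : MulAut G) := by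
    have := inv_mul hinv (inv_transpose hinv)
    rwa [mul_inv_cancel] at this
  have hQinv : Inv (Aᵀ * A) (1 : MulAut G) := by
    have := inv_mul (inv_transpose hinv) hinv
    rwa [inv_mul_cancel] at this
  obtain ⟨c₁, lam, hP⟩ := form_of_inv_one h2 hxy hPinv
  obtain ⟨c₂, lam₂, hQ⟩ := form_of_inv_one h2 hxy hQinv
  have hsumform : ∀ (u w : ℤ) (x : Ω), ∑ y : Ω, ((if x = y then u else 0) + w) = u + n * w := by
    intro u w x
    rw [Finset.sum_add_distrib]
    simp [hn]
  -- diagonal entries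
  have hPd : c₁ + lam = k := by
    have h3 := hP x₀ x₀
    simp only [if_true] at h3
    rw [← h3, Matrix.mul_apply]
    simp only [Matrix.transpose_apply, hsq]
    exact hrow x₀
  have hQd : c₂ + lam₂ = k := by
    have h3 := hQ x₀ x₀
    simp only [if_true] at h3
    rw [← h3, Matrix.mul_apply]
    simp only [Matrix.transpose_apply, hsq]
    exact hcol x₀
  have hPr : c₁ + n * lam = (k : ℤ) ^ 2 := by
    rw [← hsumform c₁ lam x₀, ← Finset.sum_congr rfl fun y _ => hP x₀ y, sum_mul_row]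
    simp only [Matrix.transpose_apply]
    simp only [hcol]
    rw [← Finset.sum_mul, hrow x₀]
    ring
  have hQr : c₂ + n * lam₂ = (k : ℤ) ^ 2 := by
    rw [← hsumform c₂ lam₂ x₀, ← Finset.sum_congr rfl fun y _ => hQ x₀ y, sum_mul_row]
    simp only [Matrix.transpose_apply]
    simp only [hrow]
    rw [← Finset.sum_mul, hcol x₀]
    ring
  have hlam_eq : lam = lam₂ := by
    have h3 : (n - 1) * lam = (n - 1) * lam₂ := by linarith
    exact mul_left_cancel₀ (by linarith) h3
  have hc_eq : c₁ = c₂ := by linarith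
  have hPQ : A * Aᵀ = Aᵀ * A := by
    ext x y
    rw [hP, hQ, hlam_eq, hc_eq]
  have hlam : 0 ≤ lam := by
    have h3 := hP x₀ y₀
    simp only [hxy, if_false, zero_add] at h3
    rw [← h3, Matrix.mul_apply]
    exact Finset.sum_nonneg fun z _ => mul_nonneg (hnonneg _ _) (hnonneg _ _)
  have hlam2 : 0 ≤ n - 2 * k + lam := by
    have h3 := hP x₀ y₀
    simp only [hxy, if_false, zero_add, Matrix.mul_apply, Matrix.transpose_apply] at h3
    have h4 : 0 ≤ ∑ z, (1 - A x₀ z) * (1 - A y₀ z) :=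
      Finset.sum_nonneg fun z _ =>
        mul_nonneg (by linarith [hle1 x₀ z]) (by linarith [hle1 y₀ z])
    have h5 : ∑ z, (1 - A x₀ z) * (1 - A y₀ z) =
        n - ∑ z, A x₀ z - ∑ z, A y₀ z + ∑ z, A x₀ z * A y₀ z := by
      have : ∀ z, (1 - A x₀ z) * (1 - A y₀ z) = 1 - A x₀ z - A y₀ z + A x₀ z * A y₀ z :=
        fun z => by ring
      simp only [this, Finset.sum_add_distrib, Finset.sum_sub_distrib]
      simp [hn]
    rw [h5, hrow, hrow, h3] at h4
    linarith
  -- powers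
  have hMinv : Inv (A ^ m) (1 : MulAut G) := by
    have := inv_pow hinv m
    rwa [hαm] at this
  obtain ⟨c, b, hM⟩ := form_of_inv_one h2 hxy hMinv
  have hMrow : ∀ (e : ℕ) (x : Ω), ∑ y, (A ^ e) x y = (k : ℤ) ^ e := by
    intro e
    induction e with
    | zero =>
      intro x
      simp [Matrix.one_apply]
    | succ e ih =>
      intro x
      rw [pow_succ, sum_mul_row]
      simp only [hrow]
      rw [← Finset.sum_mul, ih x, pow_succ]
  have hcb : c + n * b = (k : ℤ) ^ m := by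
    rw [← hsumform c b x₀, ← Finset.sum_congr rfl fun y _ => hM x₀ y, hMrow]
  -- the vector
  let v : Ω → ℤ := fun x => (if x = x₀ then 1 else 0) - (if x = y₀ then 1 else 0)
  have hv : ∑ y, v y = 0 := by
    simp [v, Finset.sum_sub_distrib]
  have hvx : v x₀ = 1 := by
    simp [v, hxy]
  have hPv : (A * Aᵀ).mulVec v = c₁ • v := mulVec_of_form hP hv
  have hPpow : ∀ e : ℕ, ((A * Aᵀ) ^ e).mulVec v = c₁ ^ e • v := by
    intro e
    induction e with
    | zero => simp
    | succ e ih =>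
      rw [pow_succ, ← Matrix.mulVec_mulVec, hPv, Matrix.mulVec_smul, ih, smul_smul, pow_succ]
      ring_nf
  have hMv : (A ^ m).mulVec v = c • v := mulVec_of_form hM hv
  have hMT : ((A ^ m)ᵀ).mulVec v = c • v := by
    refine mulVec_of_form (u := c) (w := b) ?_ hv
    intro x y
    rw [Matrix.transpose_apply, hM]
    by_cases hh : x = y
    · simp [hh]
    · simp [hh, Ne.symm hh]
  have hprod : (A * Aᵀ) ^ m = A ^ m * (A ^ m)ᵀ := by
    have hcomm : Commute A Aᵀ := hPQ
    rw [hcomm.mul_pow, Matrix.transpose_pow]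
  have hc2 : c ^ 2 = c₁ ^ m := by
    have h3 := hPpow m
    rw [hprod, ← Matrix.mulVec_mulVec, hMT, Matrix.mulVec_smul, hMv] at h3
    have h4 := congrFun h3 x₀
    simp only [Pi.smul_apply, smul_eq_mul, hvx, mul_one] at h4
    rw [← h4]
    ring
  obtain ⟨t, rfl⟩ := hm
  have hc₁ne : c₁ ≠ 0 := by
    intro h0
    have h3 : (lam : ℤ) = k := by linarith
    have h4 : n * k = (k : ℤ) * k := by
      rw [h0, h3] at hPr
      linarith
    have hk0 : (k : ℤ) ≠ 0 := by
      have : (1 : ℤ) ≤ k := by exact_mod_cast hk1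
      linarith
    have h5 : n = k := by
      exact mul_right_cancel₀ hk0 h4
    have h6 : (k : ℤ) < n := by
      rw [hn]
      exact_mod_cast hkn
    linarith
  obtain ⟨s, hs⟩ := exists_sq_of_odd_pow c₁ c t hc2 hc₁ne
  have hmain := numeric_core n k c₁ lam c b s t hn2 (by exact_mod_cast hk1)
    (by rw [hn]; exact_mod_cast hkn) (by
      rw [hn]
      exact Nat.isCoprime_iff_coprime.mpr hcop) hs (by positivity) hPd hPr hlam hlam2 hc2 hcb
  rcases hmain with h | h
  · left
    exact_mod_cast h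
  · right
    have h3 : (k : ℤ) + 1 = Fintype.card Ω := by
      rw [h, hn]
      ring
    have h4 : k + 1 = Fintype.card Ω := by exact_mod_cast h3
    omega

end Cfsg.Agent.Lib.Struct.SymDesign
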