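import Mathlib

/-!
Primitive parts of `q ^ e - 1` through the value of the cyclotomic polynomial.
-/

set_option autoImplicit false

namespace Cfsg.Agent.Lib.Struct.Zsig

open Polynomial Finset

/-- The value of the `e`-th cyclotomic polynomial at `q`. -/
noncomputable def Phi (e q : ℕ) : ℕ := ((cyclotomic e ℤ).eval (q : ℤ)).natAbs

theorem Phi_cast (e : ℕ) {q : ℕ} (hq : 2 ≤ q) : (Phi e q : ℤ) = (cyclotomic e ℤ).eval (q : ℤ) := by
  unfold Phi
  rw [Int.natAbs_of_nonneg]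
  have h1 : (1 : ℤ) < q := by exact_mod_cast hq
  exact (cyclotomic_pos' e h1).le

theorem Phi_real (e : ℕ) {q : ℕ} (hq : 2 ≤ q) : (Phi e q : ℝ) = (cyclotomic e ℝ).eval (q : ℝ) := by
  have h1 := Phi_cast e hq
  have h2 : (cyclotomic e ℝ).eval ((q : ℤ) : ℝ) = ((cyclotomic e ℤ).eval (q : ℤ) : ℤ) := by
    rw [← map_cyclotomic_int e ℝ, eval_intCast_map]
    rfl
  rw [← h1] at h2
  push_cast at h2
  exact h2.symm

theorem Phi_pos (e : ℕ) {q : ℕ} (hq : 2 ≤ q) : 0 < Phi e q := by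
  have h1 : (1 : ℤ) < q := by exact_mod_cast hq
  have := cyclotomic_pos' e h1
  rw [← Phi_cast e hq] at this
  exact_mod_cast this

theorem Phi_dvd (e : ℕ) {q : ℕ} (hq : 2 ≤ q) : Phi e q ∣ q ^ e - 1 := by
  have h1 : (cyclotomic e ℤ).eval (q : ℤ) ∣ (X ^ e - 1 : ℤ[X]).eval (q : ℤ) :=
    eval_dvd (cyclotomic.dvd_X_pow_sub_one e ℤ)
  rw [← Phi_cast e hq] at h1
  have h2 : (X ^ e - 1 : ℤ[X]).eval (q : ℤ) = ((q ^ e - 1 : ℕ) : ℤ) := by
    have : 1 ≤ q ^ e := Nat.one_le_pow _ _ (by omega)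
    simp [Nat.cast_sub this]
  rw [h2] at h1
  exact_mod_cast h1

/-- Modulo a prime divisor of the value not dividing `e`, `q` is a primitive root. -/
theorem prim_root {e q t : ℕ} (hq : 2 ≤ q) (ht : t.Prime) (h1 : t ∣ Phi e q) (h2 : ¬ t ∣ e) :
    IsPrimitiveRoot (q : ZMod t) e := by
  haveI : Fact t.Prime := ⟨ht⟩
  haveI : NeZero ((e : ℕ) : ZMod t) := ⟨by
    intro h
    exact h2 ((ZMod.natCast_eq_zero_iff e t).1 h)⟩
  rw [← isRoot_cyclotomic_iff]
  have h3 : (cyclotomic e (ZMod t)).eval ((q : ℤ) : ZMod t) =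
      ((cyclotomic e ℤ).eval (q : ℤ) : ℤ) := by
    rw [← map_cyclotomic_int e (ZMod t), eval_intCast_map]
    rfl
  rw [← Phi_cast e hq] at h3
  have h4 : ((Phi e q : ℕ) : ZMod t) = 0 := (ZMod.natCast_eq_zero_iff _ _).2 h1
  rw [IsRoot.def]
  have h5 : ((q : ℤ) : ZMod t) = (q : ZMod t) := by simp
  rw [h5] at h3
  rw [h3]
  simpa using h4

/-- The value divides the geometric sum in `q ^ d`. -/
theorem Phi_dvd_geom {e q r d : ℕ} (hq : 2 ≤ q) (he : e = r * d) (hr : 1 < r) (hd : 0 < d) :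
    Phi e q ∣ ∑ j ∈ range r, (q ^ d) ^ j := by
  have hprop : d ∈ e.properDivisors := by
    rw [Nat.mem_properDivisors]
    refine ⟨⟨r, by rw [he, mul_comm]⟩, ?_⟩
    rw [he]
    nlinarith
  have h1 := X_pow_sub_one_mul_cyclotomic_dvd_X_pow_sub_one_of_dvd ℤ hprop
  have h2 : (X ^ e - 1 : ℤ[X]) = (X ^ d - 1) * ∑ j ∈ range r, (X ^ d) ^ j := by
    rw [he, mul_comm, mul_geom_sum, ← pow_mul, mul_comm d r]
  rw [h2] at h1
  have hne : (X ^ d - 1 : ℤ[X]) ≠ 0 := by
    intro h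
    have := congrArg (eval 2) h
    simp at this
    have h3 : (1 : ℤ) < 2 ^ d := one_lt_pow₀ (by norm_num) hd.ne'
    omega
  have h3 := (mul_dvd_mul_iff_left hne).1 h1
  have h4 := eval_dvd (x := (q : ℤ)) h3
  rw [← Phi_cast e hq] at h4
  have h5 : (∑ j ∈ range r, (X ^ d) ^ j : ℤ[X]).eval (q : ℤ) =
      ((∑ j ∈ range r, (q ^ d) ^ j : ℕ) : ℤ) := by
    simp [eval_finset_sum]
  rw [h5] at h4
  exact_mod_cast h4

theorem zmod2_aux : ∀ z : ZMod 2, z ≠ 0 → z = 1 := by decide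

/-- A prime dividing both `e` and the value divides the value exactly once. -/
theorem sq_not_dvd {e q r : ℕ} (hq : 2 ≤ q) (he : 3 ≤ e) (hr : r.Prime) (h1 : r ∣ e)
    (h2 : r ∣ Phi e q) : ¬ r ^ 2 ∣ Phi e q := by
  obtain ⟨d, hd⟩ := h1
  have hd0 : 0 < d := by
    rcases Nat.eq_zero_or_pos d with rfl | h
    · simp at hd; omega
    · exact h
  have hS := Phi_dvd_geom hq hd hr.one_lt hd0
  rcases hr.eq_two_or_odd' with rfl | hodd
  · -- the prime two
    intro h4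
    have h4' : 4 ∣ Phi e q := by simpa using h4
    haveI : Fact (Nat.Prime 2) := ⟨Nat.prime_two⟩
    obtain ⟨a, f, hf, hef⟩ := Nat.exists_eq_two_pow_mul_odd (n := e) (by omega)
    have hpow : Odd f := hf
    haveI : NeZero ((f : ℕ) : ZMod 2) := ⟨by
      intro h
      have := (ZMod.natCast_eq_zero_iff f 2).1 h
      exact (Nat.not_even_iff_odd.2 hf) (even_iff_two_dvd.2 this)⟩
    have hroot : (cyclotomic (2 ^ a * f) (ZMod 2)).IsRoot (q : ZMod 2) := by
      have h3 : (cyclotomic e (ZMod 2)).eval ((q : ℤ) : ZMod 2) =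
          ((cyclotomic e ℤ).eval (q : ℤ) : ℤ) := by
        rw [← map_cyclotomic_int e (ZMod 2), eval_intCast_map]
        rfl
      rw [← Phi_cast e hq] at h3
      have h5 : ((Phi e q : ℕ) : ZMod 2) = 0 := (ZMod.natCast_eq_zero_iff _ _).2 h2
      rw [IsRoot.def, ← hef]
      have h6 : ((q : ℤ) : ZMod 2) = (q : ZMod 2) := by simp
      rw [h6] at h3
      rw [h3]
      simpa using h5
    have hprim := (isRoot_cyclotomic_prime_pow_mul_iff_of_charP).1 hroot
    -- the element is `1` in `ZMod 2`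
    have hq1 : (q : ZMod 2) = 1 := by
      have h7 := hprim.pow_eq_one
      have h8 : (q : ZMod 2) ≠ 0 := by
        intro h9
        rw [h9, zero_pow hf.pos.ne'] at h7
        exact zero_ne_one h7
      exact zmod2_aux _ h8
    have hf1 : f = 1 := by
      rw [hq1] at hprim
      exact hprim.unique IsPrimitiveRoot.one
    have hq_odd : Odd q := by
      rcases Nat.even_or_odd q with h | h
      · exfalso
        have : (q : ZMod 2) = 0 := (ZMod.natCast_eq_zero_iff q 2).2 (even_iff_two_dvd.1 h)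
        rw [this] at hq1
        exact zero_ne_one hq1
      · exact h
    -- `d` is even
    subst hf1
    have ha : 2 ≤ a := by
      by_contra hcon
      have : a = 0 ∨ a = 1 := by omega
      rcases this with rfl | rfl <;> simp at hef <;> omega
    obtain ⟨b, rfl⟩ : ∃ b, a = b + 2 := ⟨a - 2, by omega⟩
    have hd2 : d = 2 * 2 ^ b := by
      have : 2 * d = 2 * (2 * 2 ^ b) := by
        rw [← hd, hef]; ring
      omega
    have hy : q ^ d % 4 = 1 := by
      rw [hd2, pow_mul]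
      have hodd2 : Odd (q ^ 2) := hq_odd.pow
      have h10 : q ^ 2 % 4 = 1 := by
        obtain ⟨k, hk⟩ := hq_odd
        subst hk
        ring_nf
        omega
      rw [Nat.pow_mod, h10]
      simp
    have hS' : Phi e q ∣ 1 + q ^ d := by
      simpa [Finset.sum_range_succ] using hS
    have h11 := dvd_trans h4' hS'
    omega
  · -- odd primes
    intro h4
    have hp2 : r ∣ ∑ j ∈ range r, (q ^ d) ^ j := dvd_trans h2 hS
    have hy : (q ^ d : ℕ) % r = 1 % r := by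
      have h5 : ((q ^ d : ℕ) : ZMod r) = 1 := by
        haveI : Fact r.Prime := ⟨hr⟩
        have h6 : (∑ j ∈ range r, (((q ^ d : ℕ) : ZMod r)) ^ j) = 0 := by
          have := (ZMod.natCast_eq_zero_iff _ r).2 hp2
          simpa using this
        have h7 : (((q ^ d : ℕ) : ZMod r)) ^ r - 1 = 0 := by
          rw [← geom_sum_mul, h6, zero_mul]
        rw [ZMod.pow_card] at h7
        exact sub_eq_zero.1 h7
      have h5' : ((q ^ d : ℕ) : ZMod r) = ((1 : ℕ) : ZMod r) := by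
        rw [h5]; simp
      exact (ZMod.natCast_eq_natCast_iff' _ 1 r).1 h5'
    have hpos : 1 ≤ q ^ d := Nat.one_le_pow _ _ (by omega)
    obtain ⟨u, hu⟩ : r ∣ q ^ d - 1 := (Nat.modEq_iff_dvd' hpos).1 hy.symm
    have hyu : q ^ d = 1 + r * u := by omega
    have h5 := odd_sq_dvd_geom_sum₂_sub (R := ℤ) (a := 1) (b := (u : ℤ)) hodd
    simp only [one_pow, mul_one] at h5
    have h6 : ((r : ℤ)) ^ 2 ∣ ((∑ j ∈ range r, (q ^ d) ^ j : ℕ) : ℤ) := by
      exact_mod_cast dvd_trans h4 hS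
    have h7 : ((∑ j ∈ range r, (q ^ d) ^ j : ℕ) : ℤ) = ∑ i ∈ range r, (1 + (r : ℤ) * u) ^ i := by
      rw [hyu]; push_cast; rfl
    rw [h7] at h6
    have h8 : (r : ℤ) ^ 2 ∣ r := by
      have := dvd_sub h6 h5
      simpa using this
    have h9 : r ^ 2 ∣ r := by exact_mod_cast h8
    have h10 := Nat.le_of_dvd hr.pos h9
    have := hr.two_le
    nlinarith

/-- The quotient by the gcd with `e` is a primitive divisor. -/
theorem main_of_large {q e : ℕ} (hq : 2 ≤ q) (he : 3 ≤ e) (hn : e * (3 * e + 1) ≤ Phi e q) :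
    ∃ m : ℕ, m ∣ q ^ e - 1 ∧ (∀ i : ℕ, 1 ≤ i → i < e → Nat.Coprime m (q ^ i - 1)) ∧
      3 * e + 1 ≤ m := by
  obtain ⟨n, hndef⟩ : ∃ n, n = Phi e q := ⟨_, rfl⟩
  rw [← hndef] at hn
  have hnpos : 0 < n := by rw [hndef]; exact Phi_pos e hq
  obtain ⟨g, hg⟩ : ∃ g, g = Nat.gcd n e := ⟨_, rfl⟩
  have hgn : g ∣ n := hg ▸ Nat.gcd_dvd_left n e
  have hge : g ∣ e := hg ▸ Nat.gcd_dvd_right n e
  obtain ⟨m, hm⟩ := hgn
  have hgpos : 0 < g := Nat.pos_of_dvd_of_pos hge (by omega)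
  have hgle : g ≤ e := Nat.le_of_dvd (by omega) hge
  have hme : ∀ t : ℕ, t.Prime → t ∣ m → ¬ t ∣ e := by
    intro t ht htm hte
    have h1 : t ∣ n := by rw [hm]; exact Dvd.dvd.mul_left htm g
    have h2 : t ∣ g := by rw [hg]; exact Nat.dvd_gcd h1 hte
    have h3 : t ^ 2 ∣ n := by
      rw [hm, pow_two]
      exact mul_dvd_mul h2 htm
    rw [hndef] at h1 h3
    exact sq_not_dvd hq he ht hte h1 h3
  refine ⟨m, ?_, ?_, ?_⟩
  · refine dvd_trans ?_ (Phi_dvd e hq)
    rw [← hndef, hm]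
    exact Dvd.intro_left g rfl
  · intro i hi1 hi2
    by_contra hcon
    obtain ⟨t, ht, htm, hti⟩ := Nat.Prime.not_coprime_iff_dvd.1 hcon
    have h1 : t ∣ Phi e q := by
      rw [← hndef, hm]; exact Dvd.dvd.mul_left htm g
    have h2 := prim_root hq ht h1 (hme t ht htm)
    have h3 : (q : ZMod t) ^ i = 1 := by
      haveI : Fact t.Prime := ⟨ht⟩
      have h4 := (ZMod.natCast_eq_zero_iff _ t).2 hti
      have h5 : 1 ≤ q ^ i := Nat.one_le_pow _ _ (by omega)
      rw [Nat.cast_sub h5] at h4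
      have h6 := sub_eq_zero.1 h4
      simpa using h6
    have h4 := h2.dvd_of_pow_eq_one i h3
    have := Nat.le_of_dvd (by omega) h4
    omega
  · have h1 : e * (3 * e + 1) ≤ e * m := by
      calc e * (3 * e + 1) ≤ n := hn
        _ = g * m := hm
        _ ≤ e * m := Nat.mul_le_mul_right _ hgle
    exact Nat.le_of_mul_le_mul_left h1 (by omega)

/-! Lower bounds at `q ≥ 3`. -/

theorem Phi_gt {q e : ℕ} (hq : q ≠ 1) (he : 2 ≤ e) : (q - 1) ^ Nat.totient e < Phi e q :=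
  sub_one_pow_totient_lt_natAbs_cyclotomic_eval (by omega) hq

/-! Lower bounds at `q = 2`. -/

theorem aux_pow_two (r : ℕ) (hr : 2 ≤ r) : (3 : ℝ) ^ r ≤ ((2 : ℝ) ^ r - 1) ^ 2 := by
  induction r, hr using Nat.le_induction with
  | base => norm_num
  | succ r hr ih =>
    have h1 : (1 : ℝ) ≤ 2 ^ r := one_le_pow₀ (by norm_num)
    rw [pow_succ (3 : ℝ) r, pow_succ (2 : ℝ) r]
    nlinarith [mul_nonneg (sub_nonneg.2 h1) (sub_nonneg.2 h1)]

theorem aux_pow_five (r : ℕ) (hr : 5 ≤ r) : (3 : ℝ) ^ (r + 1) ≤ ((2 : ℝ) ^ r - 1) ^ 2 := by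
  induction r, hr using Nat.le_induction with
  | base => norm_num
  | succ r hr ih =>
    have h1 : (1 : ℝ) ≤ 2 ^ r := one_le_pow₀ (by norm_num)
    rw [pow_succ (3 : ℝ) (r + 1), pow_succ (2 : ℝ) r]
    nlinarith [mul_nonneg (sub_nonneg.2 h1) (sub_nonneg.2 h1)]

theorem eval_two_case_sq {e' r : ℕ} (hr : r.Prime) (hd : r ∣ e') (he' : 0 < e') :
    (3 : ℝ) ^ Nat.totient (e' * r) ≤ ((Phi (e' * r) 2 : ℝ)) ^ 2 := by
  have h1 : (Phi (e' * r) 2 : ℝ) = (cyclotomic e' ℝ).eval ((2 : ℝ) ^ r) := by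
    rw [Phi_real _ (le_refl 2), ← cyclotomic_expand_eq_cyclotomic hr hd ℝ, expand_eval]
    norm_num
  have h2 : (1 : ℝ) < 2 ^ r := one_lt_pow₀ (by norm_num) hr.ne_zero
  have h3 := sub_one_pow_totient_le_cyclotomic_eval h2 e'
  rw [h1]
  have h4 : Nat.totient (e' * r) = r * Nat.totient e' := by
    rw [mul_comm]; exact Nat.totient_mul_of_prime_of_dvd hr hd
  rw [h4, pow_mul]
  have h5 : (0 : ℝ) ≤ ((2 : ℝ) ^ r - 1) ^ Nat.totient e' :=
    pow_nonneg (by linarith) _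
  calc ((3 : ℝ) ^ r) ^ Nat.totient e'
      ≤ (((2 : ℝ) ^ r - 1) ^ 2) ^ Nat.totient e' :=
        pow_le_pow_left₀ (by positivity) (aux_pow_two r hr.two_le) _
    _ = (((2 : ℝ) ^ r - 1) ^ Nat.totient e') ^ 2 := by
        rw [← pow_mul, ← pow_mul, mul_comm]
    _ ≤ _ := pow_le_pow_left₀ h5 h3 2

theorem eval_two_case_five {e' r : ℕ} (hr : r.Prime) (hr5 : 5 ≤ r) (hd : ¬ r ∣ e') :
    (3 : ℝ) ^ Nat.totient (e' * r) ≤ ((Phi (e' * r) 2 : ℝ)) ^ 2 := by
  have hP := Phi_pos (e' * r) (le_refl 2)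
  have hP' : (0 : ℝ) < Phi (e' * r) 2 := by exact_mod_cast hP
  have h1 : (cyclotomic e' ℝ).eval ((2 : ℝ) ^ r) =
      (Phi (e' * r) 2 : ℝ) * (cyclotomic e' ℝ).eval 2 := by
    have h0 := congrArg (eval (2 : ℝ)) (cyclotomic_expand_eq_cyclotomic_mul hr hd ℝ)
    rw [expand_eval, eval_mul] at h0
    rw [h0, Phi_real _ (le_refl 2)]
    norm_num
  have h2 : (1 : ℝ) < 2 ^ r := one_lt_pow₀ (by norm_num) hr.ne_zero
  have h3 := sub_one_pow_totient_le_cyclotomic_eval h2 e'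
  have h4 := cyclotomic_eval_le_add_one_pow_totient (q := (2 : ℝ)) (by norm_num) e'
  norm_num at h4
  have h5 : Nat.totient (e' * r) = Nat.totient e' * (r - 1) := by
    rw [Nat.totient_mul ((Nat.Prime.coprime_iff_not_dvd hr).2 hd).symm, Nat.totient_prime hr]
  obtain ⟨x, hx⟩ : ∃ x, x = Nat.totient e' := ⟨_, rfl⟩
  rw [← hx] at h3 h4 h5
  rw [h5]
  have h6 : ((2 : ℝ) ^ r - 1) ^ x ≤ (Phi (e' * r) 2 : ℝ) * 3 ^ x := by
    rw [h1] at h3
    calc ((2 : ℝ) ^ r - 1) ^ x ≤ _ := h3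
      _ ≤ _ := mul_le_mul_of_nonneg_left h4 hP'.le
  have h7 : (0 : ℝ) ≤ ((2 : ℝ) ^ r - 1) ^ x := pow_nonneg (by linarith) _
  have h8 : ((3 : ℝ) ^ (r + 1)) ^ x ≤ (((2 : ℝ) ^ r - 1) ^ 2) ^ x :=
    pow_le_pow_left₀ (by positivity) (aux_pow_five r hr5) _
  have h9 : (((2 : ℝ) ^ r - 1) ^ 2) ^ x = (((2 : ℝ) ^ r - 1) ^ x) ^ 2 := by
    rw [← pow_mul, ← pow_mul, mul_comm]
  have h10 : (((2 : ℝ) ^ r - 1) ^ x) ^ 2 ≤ ((Phi (e' * r) 2 : ℝ) * 3 ^ x) ^ 2 :=
    pow_le_pow_left₀ h7 h6 2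
  have h11 : ((3 : ℝ) ^ (r + 1)) ^ x = ((3 : ℝ) ^ (x * (r - 1))) * ((3 : ℝ) ^ x) ^ 2 := by
    rw [← pow_mul, ← pow_mul, ← pow_add]
    congr 1
    obtain ⟨s, rfl⟩ : ∃ s, r = s + 1 := ⟨r - 1, by omega⟩
    simp only [Nat.add_sub_cancel]
    ring
  have h12 : (0 : ℝ) < ((3 : ℝ) ^ x) ^ 2 := by positivity
  have h13 : ((3 : ℝ) ^ (x * (r - 1))) * ((3 : ℝ) ^ x) ^ 2 ≤
      ((Phi (e' * r) 2 : ℝ)) ^ 2 * ((3 : ℝ) ^ x) ^ 2 := by
    rw [← h11]
    calc _ ≤ _ := h8
      _ = _ := h9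
      _ ≤ _ := h10
      _ = _ := by ring
  exact le_of_mul_le_mul_right h13 h12

/-- For `e` different from `3` and `6` the value at `2` has a large square. -/
theorem eval_two {e : ℕ} (he : 3 ≤ e) (h3 : e ≠ 3) (h6 : e ≠ 6) :
    (3 : ℝ) ^ Nat.totient e ≤ ((Phi e 2 : ℝ)) ^ 2 := by
  by_cases hsq : Squarefree e
  · by_cases h5 : ∃ r : ℕ, r.Prime ∧ 5 ≤ r ∧ r ∣ e
    · obtain ⟨r, hr, hr5, s, hs⟩ := h5
      have hd : ¬ r ∣ s := by
        intro hh
        have : r * r ∣ e := by rw [hs]; exact mul_dvd_mul_left r hh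
        have := hsq r this
        exact hr.not_isUnit this
      have := eval_two_case_five hr hr5 hd
      rwa [mul_comm s r, ← hs] at this
    · exfalso
      have h7 : e.primeFactors ⊆ ({2, 3} : Finset ℕ) := by
        intro p hp
        have hpp := Nat.prime_of_mem_primeFactors hp
        have hpe := Nat.dvd_of_mem_primeFactors hp
        have hp5 : p < 5 := by
          by_contra hcon
          exact h5 ⟨p, hpp, by omega, hpe⟩
        interval_cases p
        · exact absurd hpp (by norm_num)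
        · exact absurd hpp (by norm_num)
        · simp
        · simp
        · exact absurd hpp (by norm_num)
      have h8 : e ∣ 6 := by
        rw [← Nat.prod_primeFactors_of_squarefree hsq]
        have := Finset.prod_dvd_prod_of_subset _ _ (fun p => p) h7
        simpa using this
      have h9 := Nat.le_of_dvd (by norm_num) h8
      interval_cases e <;> simp_all (config := { decide := true })
  · rw [Nat.squarefree_iff_prime_squarefree] at hsq
    push_neg at hsq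
    obtain ⟨r, hr, hrr⟩ := hsq
    obtain ⟨s, hs⟩ := hrr
    have hd : r ∣ r * s := Dvd.intro _ rfl
    have := eval_two_case_sq hr hd (Nat.mul_pos hr.pos (by
      rcases Nat.eq_zero_or_pos s with rfl | h
      · simp at hs; omega
      · exact h))
    have h10 : r * s * r = e := by rw [hs]; ring
    rwa [h10] at this

/-! The size of `e` in terms of its totient. -/

theorem totient_sq (e : ℕ) (he : e ≠ 0) :
    (e % 4 ≠ 2 → e ≤ Nat.totient e ^ 2) ∧ e ≤ 2 * Nat.totient e ^ 2 := by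
  induction e using Nat.recOnPosPrimePosCoprime with
  | prime_pow p n hp hn =>
    obtain ⟨k, rfl⟩ : ∃ k, n = k + 1 := ⟨n - 1, by omega⟩
    rw [Nat.totient_prime_pow_succ hp]
    have hp2 := hp.two_le
    have h1 : p ^ (k + 1) = p ^ k * p := pow_succ _ _
    have hk : 1 ≤ p ^ k := Nat.one_le_pow _ _ hp.pos
    obtain ⟨s, rfl⟩ : ∃ s, p = s + 2 := ⟨p - 2, by omega⟩
    simp only [Nat.add_sub_cancel, show s + 2 - 1 = s + 1 by omega]
    have h2 : (s + 2) ^ k * (s + 2) ≤ 2 * ((s + 2) ^ k * (s + 1)) ^ 2 := by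
      have : (s + 2) ≤ 2 * ((s + 2) ^ k * (s + 1) ^ 2) := by
        have h3 : 1 * (s + 1) ^ 2 ≤ (s + 2) ^ k * (s + 1) ^ 2 := Nat.mul_le_mul_right _ hk
        nlinarith
      calc (s + 2) ^ k * (s + 2) ≤ (s + 2) ^ k * (2 * ((s + 2) ^ k * (s + 1) ^ 2)) :=
            Nat.mul_le_mul_left _ this
        _ = _ := by ring
    refine ⟨fun h3 => ?_, by rwa [h1]⟩
    rw [h1]
    have h4 : 1 ≤ s ∨ (s = 0 ∧ 1 ≤ k) := by
      rcases Nat.eq_zero_or_pos s with rfl | h
      · rcases Nat.eq_zero_or_pos k with rfl | h'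
        · simp at h3
        · exact Or.inr ⟨rfl, h'⟩
      · exact Or.inl h
    rcases h4 with h4 | ⟨rfl, h4⟩
    · have : (s + 2) ≤ (s + 2) ^ k * (s + 1) ^ 2 := by
        have h5 : 1 * (s + 1) ^ 2 ≤ (s + 2) ^ k * (s + 1) ^ 2 := Nat.mul_le_mul_right _ hk
        nlinarith
      calc (s + 2) ^ k * (s + 2) ≤ (s + 2) ^ k * ((s + 2) ^ k * (s + 1) ^ 2) :=
            Nat.mul_le_mul_left _ this
        _ = _ := by ring
    · simp only [zero_add, one_pow, mul_one]
      obtain ⟨t, rfl⟩ : ∃ t, k = t + 1 := ⟨k - 1, by omega⟩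
      have h5 : 1 ≤ 2 ^ t := Nat.one_le_pow _ _ (by norm_num)
      have h6 : (2 : ℕ) ^ (t + 1) * 2 = 2 ^ t * 4 := by ring
      have h7 : ((2 : ℕ) ^ (t + 1)) ^ 2 = 2 ^ t * (2 ^ t * 4) := by ring
      rw [h6, h7]
      nlinarith
  | zero => exact absurd rfl he
  | one => simp
  | coprime a b ha hb hab iha ihb =>
    have h1 := iha (by omega)
    have h2 := ihb (by omega)
    rw [Nat.totient_mul hab, mul_pow]
    have hodd : a % 4 = 2 → b % 2 = 1 := by
      intro h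
      rcases Nat.even_or_odd b with hb' | hb'
      · exfalso
        have h3 : 2 ∣ a := by omega
        have h4 := Nat.dvd_gcd h3 (even_iff_two_dvd.1 hb')
        rw [hab] at h4
        omega
      · exact Nat.odd_iff.1 hb'
    have hodd' : b % 4 = 2 → a % 2 = 1 := by
      intro h
      rcases Nat.even_or_odd a with hb' | hb'
      · exfalso
        have h3 : 2 ∣ b := by omega
        have h4 := Nat.dvd_gcd (even_iff_two_dvd.1 hb') h3
        rw [hab] at h4
        omega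
      · exact Nat.odd_iff.1 hb'
    constructor
    · intro h
      by_cases ha2 : a % 4 = 2
      · exfalso
        have hb1 := hodd ha2
        have : a * b % 4 = 2 := by
          rw [Nat.mul_mod, ha2]
          have : b % 4 = 1 ∨ b % 4 = 3 := by omega
          rcases this with h5 | h5 <;> rw [h5]
        exact h this
      · by_cases hb2 : b % 4 = 2
        · exfalso
          have ha1 := hodd' hb2
          have : a * b % 4 = 2 := by
            rw [Nat.mul_mod, hb2]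
            have : a % 4 = 1 ∨ a % 4 = 3 := by omega
            rcases this with h5 | h5 <;> rw [h5]
          exact h this
        · exact Nat.mul_le_mul (h1.1 ha2) (h2.1 hb2)
    · by_cases ha2 : a % 4 = 2
      · have hb1 := hodd ha2
        have hb2 : b % 4 ≠ 2 := by omega
        calc a * b ≤ (2 * Nat.totient a ^ 2) * Nat.totient b ^ 2 :=
              Nat.mul_le_mul h1.2 (h2.1 hb2)
          _ = _ := by ring
      · calc a * b ≤ Nat.totient a ^ 2 * (2 * Nat.totient b ^ 2) :=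
              Nat.mul_le_mul (h1.1 ha2) h2.2
          _ = _ := by ring

theorem le_two_totient_sq {e : ℕ} (he : e ≠ 0) : e ≤ 2 * Nat.totient e ^ 2 :=
  (totient_sq e he).2

theorem poly4 (y : ℕ) : (y + 22 + 1) ^ 4 ≤ 2 * (y + 22) ^ 4 := by
  zify
  rw [← sub_nonneg]
  ring_nf
  positivity

theorem poly8 (y : ℕ) : (y + 30 + 1) ^ 8 ≤ 3 * (y + 30) ^ 8 := by
  zify
  rw [← sub_nonneg]
  ring_nf
  positivity

theorem pow2_bound (x : ℕ) (hx : 22 ≤ x) : 16 * x ^ 4 ≤ 2 ^ x := by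
  induction x, hx using Nat.le_induction with
  | base => norm_num
  | succ x hx ih =>
    rw [pow_succ 2 x]
    have : (x + 1) ^ 4 ≤ 2 * x ^ 4 := by
      obtain ⟨y, rfl⟩ : ∃ y, x = y + 22 := ⟨x - 22, by omega⟩
      exact poly4 y
    omega

theorem pow3_bound (x : ℕ) (hx : 30 ≤ x) : 256 * x ^ 8 ≤ 3 ^ x := by
  induction x, hx using Nat.le_induction with
  | base => norm_num
  | succ x hx ih =>
    rw [pow_succ 3 x]
    have : (x + 1) ^ 8 ≤ 3 * x ^ 8 := by
      obtain ⟨y, rfl⟩ : ∃ y, x = y + 30 := ⟨x - 30, by omega⟩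
      exact poly8 y
    omega

end Cfsg.Agent.Lib.Struct.Zsig
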